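import Mathlib
import Cfsg.Prelude.Def_Classical
import Cfsg.Agent.Lib.Classical.PermModel
import Cfsg.Agent.Lib.Classical.IsoTransfer
import Cfsg.Agent.Lib.Classical.OrthMinus
import Cfsg.Agent.Lib.Classical.OrthOrder

/-! `O⁺₆(2) ≅ S₈` and `O⁻₄(2) ≅ S₅`. -/

set_option autoImplicit false
set_option linter.unusedSimpArgs false
set_option linter.unusedVariables false
set_option linter.unusedSectionVars false

namespace Cfsg.Agent.Lib.Classical

open Matrix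

section Gen

variable {Ω ι : Type} [Fintype Ω] [DecidableEq Ω] [Fintype ι] [DecidableEq ι] {F : Type*} [Field F]

/-- The linear map with prescribed images of the coordinate vectors. -/
def gψ (b : ι → Ω → F) : (ι → F) →ₗ[F] (Ω → F) where
  toFun v := fun t => ∑ j, v j * b j t
  map_add' u v := by
    funext t
    simp [add_mul, Finset.sum_add_distrib]
  map_smul' c v := by
    funext t
    simp [Finset.mul_sum, mul_assoc]

/-- The linear map given by dot products. -/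
def gπ (d : ι → Ω → F) : (Ω → F) →ₗ[F] (ι → F) where
  toFun x := fun j => ∑ t, x t * d j t
  map_add' u v := by
    funext t
    simp [add_mul, Finset.sum_add_distrib]
  map_smul' c v := by
    funext t
    simp [Finset.mul_sum, mul_assoc]

end Gen

/-- Half the weight modulo two. -/
def halfWt {Ω : Type} [Fintype Ω] (x : Ω → ZMod 2) : ZMod 2 :=
  (((Finset.univ.filter (fun i => x i ≠ 0)).card / 2 : ℕ) : ZMod 2)

theorem halfWt_perm {Ω : Type} [Fintype Ω] [DecidableEq Ω] (σ : Equiv.Perm Ω) (x : Ω → ZMod 2) :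
    halfWt (permL σ x) = halfWt x := by
  unfold halfWt
  congr 2
  apply Finset.card_bij (fun i _ => σ⁻¹ i)
  · intro i hi
    exact Finset.mem_filter.2 ⟨Finset.mem_univ _, (Finset.mem_filter.1 hi).2⟩
  · intro i _ j _ h
    exact σ⁻¹.injective h
  · intro j hj
    refine ⟨σ j, Finset.mem_filter.2 ⟨Finset.mem_univ _, ?_⟩, by simp⟩
    have := (Finset.mem_filter.1 hj).2
    simpa using this

/-- The hyperbolic basis on `E₈/⟨1⟩`. -/
def b8 : Fin 3 ⊕ Fin 3 → Fin 8 → ZMod 2 :=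
  Sum.elim ![![1, 0, 0, 0, 0, 1, 1, 1], ![1, 0, 0, 1, 1, 1, 0, 0], ![1, 0, 1, 1, 0, 0, 0, 1]]
    ![![1, 0, 0, 0, 1, 0, 1, 1], ![1, 0, 1, 0, 1, 1, 0, 0], ![1, 0, 1, 1, 0, 0, 1, 0]]

/-- The dual basis. -/
def d8 : Fin 3 ⊕ Fin 3 → Fin 8 → ZMod 2 :=
  Sum.elim ![![1, 0, 0, 0, 1, 0, 1, 1], ![1, 0, 1, 0, 1, 1, 0, 0], ![1, 0, 1, 1, 0, 0, 1, 0]]
    ![![1, 0, 0, 0, 0, 1, 1, 1], ![1, 0, 0, 1, 1, 1, 0, 0], ![1, 0, 1, 1, 0, 0, 0, 1]]

set_option maxRecDepth 100000 in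
theorem c8_left : ∀ v : Fin 3 ⊕ Fin 3 → ZMod 2, gπ d8 (gψ b8 v) = v := by
  decide +kernel

set_option maxRecDepth 100000 in
theorem c8_mem : ∀ v : Fin 3 ⊕ Fin 3 → ZMod 2, ∑ i, gψ b8 v i = 0 := by
  decide +kernel

set_option maxRecDepth 100000 in
theorem c8_adj : ∀ x : Fin 8 → ZMod 2, ∑ i, x i = 0 → gψ b8 (gπ d8 x) = x ∨ gψ b8 (gπ d8 x) = x + fun _ => 1 := by
  decide +kernel

set_option maxRecDepth 100000 in
theorem c8_one : gπ d8 (fun _ => 1) = 0 := by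
  decide +kernel

set_option maxRecDepth 100000 in
theorem c8_q1 : ∀ v : Fin 3 ⊕ Fin 3 → ZMod 2, halfWt (gψ b8 v) = Cfsg.quadFormPlus 3 (ZMod 2) v := by
  decide +kernel

set_option maxRecDepth 100000 in
theorem c8_q2 : ∀ x : Fin 8 → ZMod 2, ∑ i, x i = 0 → Cfsg.quadFormPlus 3 (ZMod 2) (gπ d8 x) = halfWt x := by
  decide +kernel

theorem pm8 : PM (gψ b8) (gπ d8) where
  left := c8_left
  mem := c8_mem
  adj x hx := by
    rcases c8_adj x hx with h | h
    · exact ⟨0, by rw [h]; simp, by simp⟩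
    · exact ⟨1, by rw [h]; simp, by rw [one_smul]; exact c8_one⟩

theorem isometry_plus_six_zmod : Nonempty (Cfsg.isometryGroup (ZMod 2) (Cfsg.quadFormPlus 3 (ZMod 2)) ≃* Equiv.Perm (Fin 8)) := by
  let φ : Equiv.Perm (Fin 8) →* Cfsg.isometryGroup (ZMod 2) (Cfsg.quadFormPlus 3 (ZMod 2)) :=
    pm8.hom.codRestrict _ (pm8.hom_mem_isometry _ halfWt halfWt_perm c8_q1 c8_q2)
  have hφ : Function.Injective φ := by
    intro σ τ h
    exact pm8.hom_injective (by simp) (congrArg Subtype.val h)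
  refine nonempty_mulEquiv_of_injective_perm 8 φ hφ ?_
  rw [card_isometry_plus (q := 2) (by simp) 3 (by norm_num)]
  decide

theorem isometry_plus_six {F : Type*} [Field F] [Fintype F] (hF : Fintype.card F = 2) :
    Nonempty (Cfsg.isometryGroup F (Cfsg.quadFormPlus 3 F) ≃* Equiv.Perm (Fin 8)) := by
  obtain ⟨e⟩ := isometry_plus_six_zmod
  refine ⟨(isometryTransfer (ringEquivZMod2 hF) _ _ ?_).trans e⟩
  intro v
  simp [Cfsg.quadFormPlus, map_sum, map_mul]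

/-- The basis on `E₅`. -/
def b5 : (Fin 1 ⊕ Fin 1) ⊕ Fin 2 → Fin 5 → ZMod 2 :=
  Sum.elim (Sum.elim ![![1, 1, 1, 1, 0]] ![![1, 1, 1, 0, 1]]) ![![1, 1, 0, 0, 0], ![0, 1, 1, 0, 0]]

/-- The dual basis. -/
def d5 : (Fin 1 ⊕ Fin 1) ⊕ Fin 2 → Fin 5 → ZMod 2 :=
  Sum.elim (Sum.elim ![![1, 1, 1, 0, 1]] ![![1, 1, 1, 1, 0]]) ![![0, 1, 1, 0, 0], ![1, 1, 0, 0, 0]]

set_option maxRecDepth 100000 in
theorem c5_left : ∀ v : (Fin 1 ⊕ Fin 1) ⊕ Fin 2 → ZMod 2, gπ d5 (gψ b5 v) = v := by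
  decide +kernel

set_option maxRecDepth 100000 in
theorem c5_mem : ∀ v : (Fin 1 ⊕ Fin 1) ⊕ Fin 2 → ZMod 2, ∑ i, gψ b5 v i = 0 := by
  decide +kernel

set_option maxRecDepth 100000 in
theorem c5_adj : ∀ x : Fin 5 → ZMod 2, ∑ i, x i = 0 → gψ b5 (gπ d5 x) = x := by
  decide +kernel

set_option maxRecDepth 100000 in
theorem c5_q1 : ∀ v : (Fin 1 ⊕ Fin 1) ⊕ Fin 2 → ZMod 2, halfWt (gψ b5 v) = Cfsg.quadFormMinus 1 (ZMod 2) 1 1 v := by
  decide +kernel

set_option maxRecDepth 100000 in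
theorem c5_q2 : ∀ x : Fin 5 → ZMod 2, ∑ i, x i = 0 → Cfsg.quadFormMinus 1 (ZMod 2) 1 1 (gπ d5 x) = halfWt x := by
  decide +kernel

theorem pm5 : PM (gψ b5) (gπ d5) where
  left := c5_left
  mem := c5_mem
  adj x hx := ⟨0, by rw [c5_adj x hx]; simp, by simp⟩

theorem isometry_minus_four_zmod : Nonempty (Cfsg.isometryGroup (ZMod 2) (Cfsg.quadFormMinus 1 (ZMod 2) 1 1) ≃* Equiv.Perm (Fin 5)) := by
  let φ : Equiv.Perm (Fin 5) →* Cfsg.isometryGroup (ZMod 2) (Cfsg.quadFormMinus 1 (ZMod 2) 1 1) :=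
    pm5.hom.codRestrict _ (pm5.hom_mem_isometry _ halfWt halfWt_perm c5_q1 c5_q2)
  have hφ : Function.Injective φ := by
    intro σ τ h
    exact pm5.hom_injective (by simp) (congrArg Subtype.val h)
  refine nonempty_mulEquiv_of_injective_perm 5 φ hφ ?_
  have := card_isometry_minus (F := ZMod 2) (q := 2) (by simp) 2 (by norm_num) 1 1 (by decide)
  rw [this]
  decide

theorem isometry_minus_four {F : Type*} [Field F] [Fintype F] (hF : Fintype.card F = 2) :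
    Nonempty (Cfsg.isometryGroup F (Cfsg.quadFormMinus 1 F 1 1) ≃* Equiv.Perm (Fin 5)) := by
  obtain ⟨e⟩ := isometry_minus_four_zmod
  refine ⟨(isometryTransfer (ringEquivZMod2 hF) _ _ ?_).trans e⟩
  intro v
  simp [Cfsg.quadFormMinus, map_sum, map_mul, map_add, map_pow]

end Cfsg.Agent.Lib.Classical
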