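import Mathlib
import Cfsg.Agent.Lib.Classical.UnitTr
import Cfsg.Agent.S0754

/-! The action of `SU_n(q)` on the isotropic points. -/

set_option autoImplicit false
set_option linter.unusedSimpArgs false
set_option linter.unusedVariables false
set_option linter.unusedSectionVars false
set_option linter.style.haveILetI false

namespace Cfsg.Agent.Lib.Classical

open Matrix Module MulAction
open scoped LinearAlgebra.Projectivization Pointwise

variable {F : Type*} [Field F] [Fintype F] {q n : ℕ}

local notation "hh" => Cfsg.hermForm n F q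

/-- `SU` as a subgroup of `GL`. -/
def suToGL (n : ℕ) (F : Type*) [Field F] (q : ℕ) : Cfsg.SU n F q →* Matrix.GeneralLinearGroup (Fin n) F :=
  Matrix.SpecialLinearGroup.toGL.comp (Cfsg.SU n F q).subtype

theorem suToGL_coe (g : Cfsg.SU n F q) :
    ((suToGL n F q g : Matrix.GeneralLinearGroup (Fin n) F) : Matrix (Fin n) (Fin n) F) = suM g := rfl

theorem su_mulVec_ne_zero (g : Cfsg.SU n F q) {v : Fin n → F} (hv : v ≠ 0) : suM g *ᵥ v ≠ 0 := by
  intro h
  apply hv
  have := su_inv_mulVec' g v
  change suM g⁻¹ *ᵥ (suM g *ᵥ v) = v at this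
  rw [h, mulVec_zero] at this
  exact this.symm

theorem suToGL_smul_mk (g : Cfsg.SU n F q) {v : Fin n → F} (hv : v ≠ 0) :
    (suToGL n F q g) • (Projectivization.mk F v hv) = Projectivization.mk F (suM g *ᵥ v) (su_mulVec_ne_zero g hv) := by
  rw [Projectivization.smul_mk]
  rfl

/-- The isotropic points. -/
def IsoP (q : ℕ) (p : ℙ F (Fin n → F)) : Prop := Cfsg.hermForm n F q p.rep p.rep = 0

theorem isoP_mk {v : Fin n → F} (hv : v ≠ 0) : IsoP q (Projectivization.mk F v hv) ↔ hh v v = 0 := by
  obtain ⟨a, ha⟩ := Projectivization.exists_smul_eq_mk_rep F v hv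
  rw [IsoP, ← ha]
  have e : ∀ x : Fin n → F, a • x = (a : F) • x := fun x => rfl
  rw [e, herm_smul_left, herm_smul_right]
  have h0 : (a : F) ≠ 0 := a.ne_zero
  constructor
  · intro h
    have := (mul_eq_zero.1 h).resolve_left h0
    exact (mul_eq_zero.1 this).resolve_left (pow_ne_zero _ h0)
  · intro h
    rw [h]
    ring

/-- The set of isotropic points. -/
abbrev IsoPt (n : ℕ) (F : Type*) [Field F] [Fintype F] (q : ℕ) := {p : ℙ F (Fin n → F) // IsoP q p}

/-- The point of an isotropic vector. -/
def isoMk {v : Fin n → F} (hv : v ≠ 0) (hvv : hh v v = 0) : IsoPt n F q :=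
  ⟨Projectivization.mk F v hv, (isoP_mk hv).2 hvv⟩

/-- Elements of `IsoPt` are points of vectors. -/
theorem isoPt_ind (p : IsoPt n F q) : ∃ (v : Fin n → F) (hv : v ≠ 0) (hvv : hh v v = 0), p = isoMk hv hvv := by
  obtain ⟨p, hp⟩ := p
  induction p using Projectivization.ind with
  | _ v hv => exact ⟨v, hv, (isoP_mk hv).1 hp, rfl⟩

theorem isoMk_eq_iff {v w : Fin n → F} (hv : v ≠ 0) (hw : w ≠ 0) (hvv : hh v v = 0) (hww : hh w w = 0) :
    isoMk hv hvv = isoMk hw hww ↔ ∃ c : F, c ≠ 0 ∧ c • w = v := by
  simp only [isoMk, Subtype.mk.injEq]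
  rw [Projectivization.mk_eq_mk_iff]
  constructor
  · rintro ⟨a, ha⟩
    exact ⟨a, a.ne_zero, ha⟩
  · rintro ⟨c, hc, h⟩
    exact ⟨Units.mk0 c hc, h⟩

/-- The action of `SU`. -/
instance suAction : MulAction (Cfsg.SU n F q) (IsoPt n F q) where
  smul g p := ⟨suToGL n F q g • p.1, by
    obtain ⟨p, hp⟩ := p
    induction p using Projectivization.ind with
    | _ v hv =>
      change IsoP q (suToGL n F q g • Projectivization.mk F v hv)
      rw [suToGL_smul_mk, isoP_mk]
      have hvv := (isoP_mk hv).1 hp
      rw [← hvv]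
      exact su_form g v v⟩
  one_smul p := by
    apply Subtype.ext
    change suToGL n F q 1 • p.1 = p.1
    rw [map_one, one_smul]
  mul_smul a b p := by
    apply Subtype.ext
    change suToGL n F q (a * b) • p.1 = suToGL n F q a • suToGL n F q b • p.1
    rw [map_mul, mul_smul]

theorem su_smul_isoMk (g : Cfsg.SU n F q) {v : Fin n → F} (hv : v ≠ 0) (hvv : hh v v = 0) :
    g • (isoMk hv hvv : IsoPt n F q) = isoMk (su_mulVec_ne_zero g hv) ((su_form g v v).trans hvv) := by
  apply Subtype.ext
  exact suToGL_smul_mk g hv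

/-- The permutation action of `SU`. -/
def suPerm (n : ℕ) (F : Type*) [Field F] [Fintype F] (q : ℕ) : Cfsg.SU n F q →* Equiv.Perm (IsoPt n F q) :=
  MulAction.toPermHom _ _

section

variable (hF : Fintype.card F = q ^ 2)
include hF

theorem center_le_ker_suPerm (hn : 3 ≤ n) : Subgroup.center (Cfsg.SU n F q) ≤ (suPerm n F q).ker := by
  intro z hz
  rw [MonoidHom.mem_ker]
  ext1 p
  obtain ⟨a, ha⟩ := su_center_scalar hF hn ⟨z, hz⟩
  obtain ⟨v, hv, hvv, rfl⟩ := isoPt_ind p
  change z • (isoMk hv hvv : IsoPt n F q) = isoMk hv hvv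
  rw [su_smul_isoMk, isoMk_eq_iff]
  have ha' : suM z = Matrix.diagonal (fun _ => a) := ha
  have hzv : suM z *ᵥ v = a • v := by
    rw [ha']
    funext i
    simp [Matrix.mulVec_diagonal]
  have ha0 : a ≠ 0 := by
    rintro rfl
    apply su_mulVec_ne_zero z hv
    rw [hzv, zero_smul]
  exact ⟨a, ha0, hzv.symm⟩

/-- Elements acting trivially are central. -/
theorem mem_center_of_suPerm_eq_one (hn : 3 ≤ n) {g : Cfsg.SU n F q} (hg : suPerm n F q g = 1) :
    g ∈ Subgroup.center (Cfsg.SU n F q) := by
  classical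
  have hq := two_le_q hF
  -- two elements of norm `-1`
  have hcard := Cfsg.Agent.S0754.result hF (-1 : F) (by simp) (by rw [neg_pow_q hF, one_pow])
  have hnt : Nontrivial {x : F // x ^ (q + 1) = -1} := by
    rw [← Finite.one_lt_card_iff_nontrivial, hcard]
    omega
  obtain ⟨⟨t, ht⟩, ⟨t', ht'⟩, hne⟩ := exists_pair_ne {x : F // x ^ (q + 1) = -1}
  have htt' : t ≠ t' := fun h => hne (Subtype.ext h)
  have ht0 : t ≠ 0 := by
    rintro rfl
    rw [zero_pow (by omega)] at ht
    have := neg_eq_zero.1 ht.symm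
    exact one_ne_zero this
  have hnorm : ∀ {s : F}, s ^ (q + 1) = -1 → s * s ^ q = -1 := by
    intro s hs
    rw [← hs, pow_succ']
  -- the isotropic vector `e_i + s e_j`
  have hvec : ∀ (i j : Fin n), i ≠ j → ∀ s : F, s ^ (q + 1) = -1 →
      ∃ c : F, suM g *ᵥ (Pi.single i 1 + s • Pi.single j 1) = c • (Pi.single i 1 + s • Pi.single j 1) := by
    intro i j hij s hs
    let x : Fin n → F := Pi.single i 1 + s • Pi.single j 1
    have hx0 : x ≠ 0 := by
      intro h
      have := congrFun h i
      simp [x, Pi.single_apply, hij] at this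
    have hxx : hh x x = 0 := by
      simp only [x, herm_add_left, herm_add_right hF, herm_smul_left, herm_smul_right]
      have e1 : ∀ a b : Fin n, hh (Pi.single a 1) (Pi.single b 1) = if a = b then 1 else 0 := by
        intro a b
        rw [herm_apply, Finset.sum_eq_single a]
        · by_cases h : a = b
          · subst h
            simp [zero_pow (show q ≠ 0 by omega)]
          · simp [h, Ne.symm h, zero_pow (show q ≠ 0 by omega), Pi.single_apply]
        · intro b' _ hb'
          simp [hb']
        · simp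
      rw [e1, e1, e1, e1]
      simp only [if_true, hij, Ne.symm hij, if_false]
      linear_combination hnorm hs
    have h1 := congrArg (fun σ : Equiv.Perm (IsoPt n F q) => σ (isoMk hx0 hxx)) hg
    simp only [Equiv.Perm.one_apply] at h1
    change g • (isoMk hx0 hxx : IsoPt n F q) = isoMk hx0 hxx at h1
    rw [su_smul_isoMk, isoMk_eq_iff] at h1
    obtain ⟨c, -, hc⟩ := h1
    exact ⟨c, hc.symm⟩
  -- entries
  have hentry : ∀ (i j : Fin n), i ≠ j → suM g i j = 0 := by
    intro k j hkj
    obtain ⟨i, hik, hij⟩ : ∃ i : Fin n, i ≠ k ∧ i ≠ j := by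
      by_contra hcon
      push Not at hcon
      have hsub : (Finset.univ : Finset (Fin n)) ⊆ {k, j} := by
        intro i _
        by_cases hi : i = k
        · simp [hi]
        · simp [hcon i hi]
      have h1 := Finset.card_le_card hsub
      have h2 : ({k, j} : Finset (Fin n)).card ≤ 2 := Finset.card_le_two
      simp only [Finset.card_univ, Fintype.card_fin] at h1
      omega
    obtain ⟨c, hc⟩ := hvec i j hij t ht
    obtain ⟨c', hc'⟩ := hvec i j hij t' ht'
    have h1 := congrFun hc k
    have h2 := congrFun hc' k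
    simp only [mulVec_add, mulVec_smul, Pi.add_apply, Pi.smul_apply, smul_eq_mul, Pi.single_apply, if_neg (Ne.symm hik), if_neg hkj, mul_zero, add_zero, mulVec_single_one, Matrix.col_apply] at h1 h2
    have h3 : (t - t') * suM g k j = 0 := by
      linear_combination h1 - h2
    exact (mul_eq_zero.1 h3).resolve_left (sub_ne_zero.2 htt')
  have hdiag : ∀ (i j : Fin n), i ≠ j → suM g i i = suM g j j := by
    intro i j hij
    obtain ⟨c, hc⟩ := hvec i j hij t ht
    have h1 := congrFun hc i
    have h2 := congrFun hc j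
    simp only [mulVec_add, mulVec_smul, Pi.add_apply, Pi.smul_apply, smul_eq_mul, Pi.single_apply, if_neg hij, if_neg (Ne.symm hij), if_true, mul_zero, add_zero, zero_add, mul_one, mulVec_single_one, Matrix.col_apply, hentry i j hij, hentry j i (Ne.symm hij)] at h1 h2
    rw [h1]
    apply mul_left_cancel₀ ht0
    rw [h2]
    ring
  have hscal : ∀ i0 : Fin n, suM g = (suM g i0 i0) • (1 : Matrix (Fin n) (Fin n) F) := by
    intro i0
    ext i j
    by_cases hij : i = j
    · subst hij
      by_cases hi : i = i0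
      · subst hi
        simp
      · simp [hdiag i i0 hi]
    · simp [hentry i j hij, Matrix.one_apply, hij]
  let i0 : Fin n := ⟨0, by omega⟩
  rw [Subgroup.mem_center_iff]
  intro b
  apply su_ext
  intro x
  change (suM b * suM g) *ᵥ x = (suM g * suM b) *ᵥ x
  rw [hscal i0]
  simp

end

end Cfsg.Agent.Lib.Classical
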