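import Mathlib
import Cfsg.Agent.Lib.Classical.PSUAction

/-! `SU_n(q)` acts primitively on the isotropic points. -/

set_option autoImplicit false
set_option linter.unusedSimpArgs false
set_option linter.unusedVariables false
set_option linter.unusedSectionVars false
set_option linter.style.haveILetI false

namespace Cfsg.Agent.Lib.Classical

open Matrix Module MulAction
open scoped LinearAlgebra.Projectivization Pointwise

variable {F : Type*} [Field F] [Fintype F] {q n : ℕ}

local notation "hh" => Cfsg.hermForm n F q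

section

variable (hF : Fintype.card F = q ^ 2)
include hF

/-- Transitivity. -/
theorem su_transitive (hn : 3 ≤ n) : IsPretransitive (Cfsg.SU n F q) (IsoPt n F q) := by
  constructor
  intro p p'
  obtain ⟨u, hu, huu, rfl⟩ := isoPt_ind p
  obtain ⟨w, hw, hww, rfl⟩ := isoPt_ind p'
  obtain ⟨f, -, hff, huf⟩ := exists_partner_in hF (nds_top hF) (Submodule.mem_top (x := u)) hu huu
  obtain ⟨f', -, hff', hwf'⟩ := exists_partner_in hF (nds_top hF) (Submodule.mem_top (x := w)) hw hww
  obtain ⟨t, -, ht, -⟩ := hp_trans hF (nds_top hF) (by rw [finrank_top_fin hF]; omega) (Submodule.mem_top (x := u))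
    (Submodule.mem_top (x := f)) (Submodule.mem_top (x := w)) (Submodule.mem_top (x := f')) huu hff hww hff' huf hwf'
  refine ⟨t, ?_⟩
  rw [su_smul_isoMk, isoMk_eq_iff]
  exact ⟨1, one_ne_zero, by rw [one_smul, ht]⟩

theorem isoMk_smul {w : Fin n → F} (hw : w ≠ 0) (hww : hh w w = 0) {a : F} (ha : a ≠ 0) (h0 : a • w ≠ 0)
    (h1 : hh (a • w) (a • w) = 0) : (isoMk h0 h1 : IsoPt n F q) = isoMk hw hww := by
  rw [isoMk_eq_iff]
  exact ⟨a, ha, rfl⟩

/-- The basic step for blocks. -/
theorem block_step' {B : Set (IsoPt n F q)} (hB : IsBlock (Cfsg.SU n F q) B) (t : Cfsg.SU n F q)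
    {u w z : Fin n → F} (hu : u ≠ 0) (hw : w ≠ 0) (hz : z ≠ 0) (huu : hh u u = 0) (hww : hh w w = 0) (hzz : hh z z = 0)
    (hmu : isoMk hu huu ∈ B) (hmw : isoMk hw hww ∈ B) (a : F) (ha : a ≠ 0) (htu : suM t *ᵥ u = a • u) (b : F) (hb : b ≠ 0)
    (htw : suM t *ᵥ w = b • z) :
    isoMk hz hzz ∈ B := by
  have h1 : t • (isoMk hu huu : IsoPt n F q) = isoMk hu huu := by
    rw [su_smul_isoMk, isoMk_eq_iff]
    exact ⟨a, ha, htu.symm⟩
  have h2 := hB.smul_eq_of_mem hmu (by rw [h1]; exact hmu)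
  have h3 : t • (isoMk hw hww : IsoPt n F q) ∈ B := by
    rw [← h2]
    exact Set.smul_mem_smul_set hmw
  have h4 : t • (isoMk hw hww : IsoPt n F q) = isoMk hz hzz := by
    rw [su_smul_isoMk, isoMk_eq_iff]
    exact ⟨b, hb, htw.symm⟩
  rwa [h4] at h3

/-- `L1`. -/
theorem block_L1' {B : Set (IsoPt n F q)} (hB : IsBlock (Cfsg.SU n F q) B)
    {u w z : Fin n → F} (hu : u ≠ 0) (hw : w ≠ 0) (hz : z ≠ 0) (huu : hh u u = 0) (hww : hh w w = 0) (hzz : hh z z = 0)
    (hmu : isoMk hu huu ∈ B) (hmw : isoMk hw hww ∈ B) (huw : hh w u ≠ 0) (huz : hh z u ≠ 0) :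
    isoMk hz hzz ∈ B := by
  have ha := inv_ne_zero huw
  have hc := inv_ne_zero huz
  have hw'w' : hh ((hh w u)⁻¹ • w) ((hh w u)⁻¹ • w) = 0 := by
    simp only [herm_smul_left, herm_smul_right, hww]
    ring
  have hz'z' : hh ((hh z u)⁻¹ • z) ((hh z u)⁻¹ • z) = 0 := by
    simp only [herm_smul_left, herm_smul_right, hzz]
    ring
  obtain ⟨t, -, ht1, ht2⟩ := move_partner hF (W := ⊤) (v := u) (a := (hh w u)⁻¹ • w) (a' := (hh z u)⁻¹ • z)
    Submodule.mem_top Submodule.mem_top Submodule.mem_top huu (by rw [hw'w', hz'z'])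
    (by rw [herm_smul_left, inv_mul_cancel₀ huw]) (by rw [herm_smul_left, inv_mul_cancel₀ huz])
  -- `t` maps `w` to a multiple of `z`
  refine block_step' hF hB t hu hw hz huu hww hzz hmu hmw 1 one_ne_zero (by rw [one_smul, ht1]) (hh w u * (hh z u)⁻¹)
    (mul_ne_zero huw hc) ?_
  have h1 : suM t *ᵥ w = hh w u • (suM t *ᵥ ((hh w u)⁻¹ • w)) := by
    rw [mulVec_smul, smul_smul, mul_inv_cancel₀ huw, one_smul]
  rw [h1, ht2, smul_smul]

/-- A partner orthogonal to a given vector. -/
theorem exists_partner_orth {u z : Fin n → F} (hu : u ≠ 0) (huu : hh u u = 0) (hz : z ≠ 0) (hzu : hh z u = 0)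
    (hind : ∀ c : F, c • z ≠ u) : ∃ f, hh f f = 0 ∧ hh u f = 1 ∧ hh z f = 0 := by
  obtain ⟨a, -, h1, h2⟩ := exists_sep hF (nds_top hF) (Submodule.mem_top (x := z)) (Submodule.mem_top (x := u)) hz hind
  have h2' : hh a u = 1 := herm_fe hF h2
  obtain ⟨κ, hκ⟩ := exists_trace_eq' hF (- hh a a) (by rw [neg_pow_q hF, herm_self_conj hF])
  refine ⟨a + κ • u, ?_, ?_, ?_⟩
  · simp only [herm_add_left, herm_add_right hF, herm_smul_left, herm_smul_right, huu, h2, h2']
    linear_combination hκ
  · simp only [herm_add_right hF, herm_smul_right, huu, h2]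
    ring
  · simp only [herm_add_right hF, herm_smul_right, hzu, h1]
    ring

/-- An element of `SU` mapping one orthogonal point to another, fixing a third. -/
theorem exists_su_orth (hn : 1 ≤ n) {u w z : Fin n → F} (hu : u ≠ 0) (huu : hh u u = 0) (hww : hh w w = 0) (hzz : hh z z = 0)
    (huw : hh u w = 0) (huz : hh u z = 0) (hw : ∀ c : F, c • u ≠ w) (hz : ∀ c : F, c • u ≠ z) :
    ∃ t : Cfsg.SU n F q, (∃ a : F, a ≠ 0 ∧ suM t *ᵥ u = a • u) ∧ suM t *ᵥ w = z := by
  classical
  have hq := two_le_q hF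
  have hwu : hh w u = 0 := by
    rw [herm_conj hF u w, huw]
    exact zero_pow (by omega)
  have hzu : hh z u = 0 := by
    rw [herm_conj hF u z, huz]
    exact zero_pow (by omega)
  -- frames
  have hli : ∀ x : Fin n → F, (∀ c : F, c • u ≠ x) → LinearIndependent F ![u, x] := by
    intro x hx
    rw [LinearIndependent.pair_iff]
    intro a b hab
    by_cases hb : b = 0
    · subst hb
      rw [zero_smul, add_zero] at hab
      exact ⟨(smul_eq_zero.1 hab).resolve_right hu, rfl⟩
    · exfalso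
      apply hx (-(b⁻¹ * a))
      have h1 : b • x = -(a • u) := eq_neg_of_add_eq_zero_right hab
      have h2 : x = b⁻¹ • (b • x) := by rw [smul_smul, inv_mul_cancel₀ hb, one_smul]
      rw [neg_smul, ← smul_smul, ← smul_neg, ← h1, ← h2]
  have hfr : ∀ x : Fin n → F, (∀ c : F, c • u ≠ x) → hh u x = 0 → hh x x = 0 → ∀ i j, hermB hF n (![u, x] i) (![u, x] j) = 0 := by
    intro x hx h1 h2 i j
    have h3 : hh x u = 0 := by
      rw [herm_conj hF u x, h1]
      exact zero_pow (by omega)
    rw [hermB_apply]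
    fin_cases i <;> fin_cases j <;> simp [huu, h1, h2, h3]
  obtain ⟨g, hg⟩ := gu_frame_exists hF (n := n) (k := 2) ⟨![u, w], hli w hw, hfr w hw huw hww⟩ ⟨![u, z], hli z hz, hfr z hz huz hzz⟩
  have hgu : (g.1 : Matrix (Fin n) (Fin n) F) *ᵥ u = u := hg 0
  have hgw : (g.1 : Matrix (Fin n) (Fin n) F) *ᵥ w = z := hg 1
  -- the correction
  have hdet : ((g.1 : Matrix (Fin n) (Fin n) F)).det ^ (q + 1) = 1 := by
    have := guDet_val g
    have h2 := gu_det_norm hF (g.1 : Matrix (Fin n) (Fin n) F) g.2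
    exact h2
  have hdetne : ((g.1 : Matrix (Fin n) (Fin n) F)).det ≠ 0 := by
    intro h
    rw [h, zero_pow (by omega)] at hdet
    exact zero_ne_one hdet
  let c : Fˣ := Units.mk0 _ hdetne
  have hc1 : (c : F) ^ (q + 1) = 1 := hdet
  obtain ⟨l, hl⟩ := exists_hilbert90 hF c hc1
  have hl0 : (l : F) ≠ 0 := l.ne_zero
  have hind' : ∀ d : F, d • z ≠ u := by
    intro d hd
    have hd0 : d ≠ 0 := by
      rintro rfl
      exact hu (by rw [← hd, zero_smul])
    apply hz d⁻¹
    rw [← hd, smul_smul, inv_mul_cancel₀ hd0, one_smul]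
  have hz0 : z ≠ 0 := by
    intro h
    exact hz 0 (by rw [h, zero_smul])
  obtain ⟨f, hff, huf, hzf⟩ := exists_partner_orth hF hu huu hz0 hzu hind'
  set mu : F := ((l : F) ^ q)⁻¹ with hmu
  have hlq : (l : F) ^ q = l * (c : F) := by
    have h1 : (l : F) ^ (q - 1) = (c : F) := by
      have := congrArg Units.val hl
      simpa using this
    rw [← h1, ← pow_succ']
    congr 1
    omega
  have hlqq : ((l : F) ^ q) ^ q = l := pow_q_pow_q hF _
  have hmu0 : mu ≠ 0 := inv_ne_zero (pow_ne_zero _ hl0)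
  have h1 : (l : F) * mu ^ q = 1 := by
    rw [hmu, inv_pow, hlqq, mul_inv_cancel₀ hl0]
  have h2 : mu * (l : F) ^ q = 1 := by
    rw [hmu, inv_mul_cancel₀ (pow_ne_zero _ hl0)]
  obtain ⟨s, hsd, hsx⟩ := exists_hyp_element hF huu hff huf hl0 hmu0 h1 h2
  -- `s * g` lies in `SU`
  have hdet1 : (((s * g).1 : Matrix.GeneralLinearGroup (Fin n) F) : Matrix (Fin n) (Fin n) F).det = 1 := by
    change ((s.1 : Matrix (Fin n) (Fin n) F) * (g.1 : Matrix (Fin n) (Fin n) F)).det = 1
    rw [det_mul, hsd, hmu, hlq]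
    have hc0 : (c : F) ≠ 0 := c.ne_zero
    have e : ((g.1 : Matrix (Fin n) (Fin n) F)).det = c := rfl
    rw [e]
    field_simp
  let t : Cfsg.SU n F q := ⟨⟨((s * g).1 : Matrix.GeneralLinearGroup (Fin n) F), hdet1⟩, (s * g).2⟩
  have ht : ∀ x, suM t *ᵥ x = (s.1 : Matrix (Fin n) (Fin n) F) *ᵥ ((g.1 : Matrix (Fin n) (Fin n) F) *ᵥ x) := by
    intro x
    rw [mulVec_mulVec]
    rfl
  refine ⟨t, ⟨l, hl0, ?_⟩, ?_⟩
  · rw [ht, hgu, hsx, huu, huf]
    module
  · rw [ht, hgw, hsx, hzu, hzf]
    simp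

/-- `L2`. -/
theorem block_L2' (hn : 1 ≤ n) {B : Set (IsoPt n F q)} (hB : IsBlock (Cfsg.SU n F q) B)
    {u w z : Fin n → F} (hu : u ≠ 0) (hw : w ≠ 0) (hz : z ≠ 0) (huu : hh u u = 0) (hww : hh w w = 0) (hzz : hh z z = 0)
    (hmu : isoMk hu huu ∈ B) (hmw : isoMk hw hww ∈ B) (huw : hh u w = 0) (huz : hh u z = 0) (hw' : ∀ c : F, c • u ≠ w)
    (hz' : ∀ c : F, c • u ≠ z) :
    isoMk hz hzz ∈ B := by
  obtain ⟨t, ⟨a, ha, h1⟩, h2⟩ := exists_su_orth hF hn hu huu hww hzz huw huz hw' hz'
  exact block_step' hF hB t hu hw hz huu hww hzz hmu hmw a ha h1 1 one_ne_zero (by rw [one_smul, h2])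

/-- Primitivity. -/
theorem su_preprimitive (hn : 3 ≤ n) : IsPreprimitive (Cfsg.SU n F q) (IsoPt n F q) := by
  classical
  have hq := two_le_q hF
  haveI := su_transitive hF hn
  refine ⟨?_⟩
  intro B hB
  by_cases hs : B.Subsingleton
  · exact Or.inl hs
  right
  rw [Set.not_subsingleton_iff] at hs
  obtain ⟨p, hp, p', hp', hne⟩ := hs
  obtain ⟨u, hu, huu, rfl⟩ := isoPt_ind p
  obtain ⟨w, hw, hww, rfl⟩ := isoPt_ind p'
  have hwind : ∀ c : F, c • u ≠ w := by
    intro c hc
    have hc0 : c ≠ 0 := by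
      rintro rfl
      exact hw (by rw [← hc, zero_smul])
    apply hne
    rw [eq_comm, isoMk_eq_iff]
    exact ⟨c, hc0, hc⟩
  rw [Set.eq_univ_iff_forall]
  intro p''
  obtain ⟨z, hz, hzz, rfl⟩ := isoPt_ind p''
  by_cases hzu : ∃ c : F, c • u = z
  · obtain ⟨c, hc⟩ := hzu
    have hc0 : c ≠ 0 := by
      rintro rfl
      exact hz (by rw [← hc, zero_smul])
    have : (isoMk hz hzz : IsoPt n F q) = isoMk hu huu := by
      rw [isoMk_eq_iff]
      exact ⟨c, hc0, hc⟩
    rw [this]
    exact hp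
  push Not at hzu
  have h3 : 3 ≤ finrank F (⊤ : Submodule F (Fin n → F)) := by rw [finrank_top_fin hF]; omega
  by_cases huw0 : hh w u = 0
  · -- the orthogonal case
    have huw : hh u w = 0 := by
      rw [herm_conj hF w u, huw0]
      exact zero_pow (by omega)
    by_cases huz : hh u z = 0
    · exact block_L2' hF (by omega) hB hu hw hz huu hww hzz hp hp' huw huz hwind hzu
    · -- a vector orthogonal to both
      obtain ⟨f₁, -, hf₁f₁, huf₁⟩ := exists_partner_in hF (nds_top hF) (Submodule.mem_top (x := u)) hu huu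
      have hP₁ := hyp_nds hF huu hf₁f₁ huf₁
      have hfr₁ := nds_finrank hF (W := ⊤) hP₁ le_top
      rw [hyp_finrank hF huu hf₁f₁ huf₁, finrank_top_fin hF] at hfr₁
      -- dimension at least two
      have hdim : 2 ≤ finrank F ((⊤ : Submodule F (Fin n → F)) ⊓ hermPerp hF (hypPlane u f₁) : Submodule F (Fin n → F)) := by
        by_contra hcon
        have hn2 : finrank F ((⊤ : Submodule F (Fin n → F)) ⊓ hermPerp hF (hypPlane u f₁) : Submodule F (Fin n → F)) = 1 := by omega
        obtain ⟨b, hb⟩ := exists_onb_sub hF _ (nds_inf_perp hF (nds_top hF) hP₁ le_top) 1 hn2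
        let w1 := w - hh w f₁ • u
        have hw1 : w1 ∈ (⊤ : Submodule F (Fin n → F)) ⊓ hermPerp hF (hypPlane u f₁) := by
          refine ⟨Submodule.mem_top, ?_⟩
          intro y hy
          obtain ⟨a, b', rfl⟩ := mem_hypPlane.1 hy
          simp only [w1, herm_sub_left, herm_add_right hF, herm_smul_left, herm_smul_right, huu, huf₁, huw0]
          ring
        have hw10 : w1 ≠ 0 := by
          intro h
          exact hwind (hh w f₁) (sub_eq_zero.1 h).symm
        have hw1w1 : hh w1 w1 = 0 := by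
          simp only [w1, herm_sub_left, herm_sub_right hF, herm_smul_left, herm_smul_right, huu, huw, huw0, hww]
          ring
        have hco : w1 = b.equivFun ⟨w1, hw1⟩ 0 • (b 0 : Fin n → F) := by
          simpa using coe_sum_basis b ⟨w1, hw1⟩
        rw [hco] at hw1w1 hw10
        rw [herm_smul_left, herm_smul_right, hb] at hw1w1
        simp only [if_true, mul_one] at hw1w1
        have hc0 : b.equivFun ⟨w1, hw1⟩ 0 = 0 := by
          rcases mul_eq_zero.1 hw1w1 with h | h
          · exact h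
          · exact pow_eq_zero_iff (by omega) |>.1 h
        rw [hc0, zero_smul] at hw10
        exact hw10 rfl
      -- normalise `z`
      let z' := ((hh u z)⁻¹) ^ q • z
      have huz' : hh u z' = 1 := by
        simp only [z', herm_smul_right, pow_q_pow_q hF]
        exact inv_mul_cancel₀ huz
      have hz'z' : hh z' z' = 0 := by
        simp only [z', herm_smul_left, herm_smul_right, hzz]
        ring
      have hP₂ := hyp_nds hF huu hz'z' huz'
      have hfr₂ := nds_finrank hF (W := ⊤) hP₂ le_top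
      rw [hyp_finrank hF huu hz'z' huz', finrank_top_fin hF] at hfr₂
      obtain ⟨y, hy, hy0, hyy⟩ := exists_isotropic_in hF (nds_inf_perp hF (nds_top hF) hP₂ le_top) (by omega)
      have hyu : hh y u = 0 := hy.2 u (Submodule.subset_span (by simp))
      have hyz' : hh y z' = 0 := hy.2 z' (Submodule.subset_span (by simp))
      have hinvq : ((hh u z)⁻¹) ^ q ≠ 0 := pow_ne_zero _ (inv_ne_zero huz)
      have hyz : hh y z = 0 := by
        simp only [z', herm_smul_right, pow_q_pow_q hF] at hyz'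
        exact (mul_eq_zero.1 hyz').resolve_left (inv_ne_zero huz)
      have huy : hh u y = 0 := by
        rw [herm_conj hF y u, hyu]
        exact zero_pow (by omega)
      have hyind : ∀ c : F, c • u ≠ y := by
        intro c hc
        rw [← hc, herm_smul_left, huz', mul_one] at hyz'
        rw [hyz', zero_smul] at hc
        exact hy0 hc.symm
      have hmy := block_L2' hF (by omega) hB hu hw hy0 huu hww hyy hp hp' huw huy hwind hyind
      have hyind2 : ∀ c : F, c • y ≠ u := by
        intro c hc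
        rw [← hc, herm_smul_left, hyz', mul_zero] at huz'
        exact zero_ne_one huz'
      have hyind3 : ∀ c : F, c • y ≠ z := by
        intro c hc
        apply huz
        rw [← hc, herm_smul_right, huy, mul_zero]
      exact block_L2' hF (by omega) hB hy0 hu hz hyy huu hzz hmy hp hyu hyz hyind2 hyind3
  · -- the non-orthogonal case
    by_cases hzu0 : hh z u = 0
    · have hind : ∀ c : F, c • u ≠ z := hzu
      have hu0 := hu
      obtain ⟨y, -, hyy, huy, hzy⟩ := exists_common_partner hF (nds_top hF) h3 (Submodule.mem_top (x := u))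
        (Submodule.mem_top (x := z)) hu huu hzz hind
      have hy0 : y ≠ 0 := by
        rintro rfl
        rw [herm_zero_right hF] at huy
        exact zero_ne_one huy
      have hyu : hh y u = 1 := herm_fe hF huy
      have hmy := block_L1' hF hB hu hw hy0 huu hww hyy hp hp' huw0 (by rw [hyu]; exact one_ne_zero)
      exact block_L1' hF hB hy0 hu hz hyy huu hzz hmy hp (by rw [huy]; exact one_ne_zero) (by rw [hzy]; exact one_ne_zero)
    · exact block_L1' hF hB hu hw hz huu hww hzz hp hp' huw0 hzu0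

end

end Cfsg.Agent.Lib.Classical
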