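import Mathlib
import Cfsg.Agent.Lib.Classical.PSUPrim
import Cfsg.Agent.Lib.Classical.PSpSimple

/-! `PSU_n(q)` is simple for `n ≥ 3`, `(n, q) ≠ (3, 2)`. -/

set_option autoImplicit false
set_option linter.unusedSimpArgs false
set_option linter.unusedVariables false
set_option linter.unusedSectionVars false
set_option linter.style.haveILetI false

namespace Cfsg.Agent.Lib.Classical

open Matrix Module MulAction
open scoped LinearAlgebra.Projectivization Pointwise

variable {F : Type*} [Field F] [Fintype F] {q n : ℕ}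

local notation "hh" => Cfsg.hermForm n F q

section

variable (hF : Fintype.card F = q ^ 2)

/-- The action of `PSU` on isotropic points, as permutations. -/
def psuPerm (hn : 3 ≤ n) : Cfsg.PSU n F q →* Equiv.Perm (IsoPt n F q) :=
  QuotientGroup.lift _ (suPerm n F q) (center_le_ker_suPerm hF hn)

/-- The action of `PSU` on isotropic points. -/
@[reducible] def psuAction (hn : 3 ≤ n) : MulAction (Cfsg.PSU n F q) (IsoPt n F q) :=
  MulAction.compHom _ (psuPerm hF hn)

include hF

theorem psuPerm_injective (hn : 3 ≤ n) : Function.Injective (psuPerm (F := F) (q := q) (n := n) hF hn) := by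
  rw [injective_iff_map_eq_one]
  intro g hg
  obtain ⟨A, rfl⟩ := QuotientGroup.mk_surjective g
  rw [QuotientGroup.eq_one_iff]
  exact mem_center_of_suPerm_eq_one hF hn hg

theorem psu_faithful (hn : 3 ≤ n) :
    letI := psuAction (F := F) (q := q) (n := n) hF hn
    FaithfulSMul (Cfsg.PSU n F q) (IsoPt n F q) := by
  letI := psuAction (F := F) (q := q) (n := n) hF hn
  constructor
  intro a b h
  apply psuPerm_injective hF hn
  ext1 p
  exact h p

theorem psu_preprimitive (hn : 3 ≤ n) :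
    letI := psuAction (F := F) (q := q) (n := n) hF hn
    IsPreprimitive (Cfsg.PSU n F q) (IsoPt n F q) := by
  letI := psuAction (F := F) (q := q) (n := n) hF hn
  haveI := su_preprimitive hF hn
  let φ : Cfsg.SU n F q → Cfsg.PSU n F q := fun g => QuotientGroup.mk g
  let f : IsoPt n F q →ₑ[φ] IsoPt n F q :=
    { toFun := id
      map_smul' := by
        intro g p
        rfl }
  exact IsPreprimitive.of_surjective (f := f) Function.surjective_id

/-- Two isotropic points. -/
theorem two_isoPts (hn : 3 ≤ n) : ∃ p p' : IsoPt n F q, p ≠ p' := by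
  have hfr : 2 ≤ finrank F (⊤ : Submodule F (Fin n → F)) := by
    rw [finrank_top_fin hF]
    omega
  obtain ⟨u, -, hu, huu⟩ := exists_isotropic_in hF (nds_top hF) hfr
  obtain ⟨f, -, hff, huf⟩ := exists_partner_in hF (nds_top hF) (Submodule.mem_top (x := u)) hu huu
  have hf : f ≠ 0 := by
    rintro rfl
    rw [herm_zero_right hF] at huf
    exact zero_ne_one huf
  refine ⟨isoMk hu huu, isoMk hf hff, ?_⟩
  intro h
  rw [isoMk_eq_iff] at h
  obtain ⟨c, -, hc⟩ := h
  rw [← hc, herm_smul_left, hff, mul_zero] at huf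
  exact zero_ne_one huf

theorem psu_nontrivial (hn : 3 ≤ n) : Nontrivial (Cfsg.PSU n F q) := by
  classical
  by_contra hcon
  rw [not_nontrivial_iff_subsingleton] at hcon
  letI := psuAction (F := F) (q := q) (n := n) hF hn
  have hp := psu_preprimitive (F := F) (q := q) (n := n) hF hn
  obtain ⟨p, p', hne⟩ := two_isoPts (F := F) (q := q) (n := n) hF hn
  obtain ⟨g, hg⟩ := hp.toIsPretransitive.exists_smul_eq p p'
  rw [Subsingleton.elim g 1, one_smul] at hg
  exact hne hg

theorem root_mul_eq {v : Fin n → F} {s₁ s₂ : F} (H₁ : UV q v (0 : Fin n → F) s₁) (H₂ : UV q v (0 : Fin n → F) s₂)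
    (H : UV q v (0 : Fin n → F) (s₁ + s₂)) : ue hF H₁ * ue hF H₂ = ue hF H := by
  rw [ue_mul]
  apply su_ext
  intro x
  rw [ue_mulVec, ue_mulVec]
  simp only [herm_zero_right hF, add_zero, zero_smul, sub_zero, sub_self]

omit hF in
theorem uv_zero_add {v : Fin n → F} {s₁ s₂ : F} (H₁ : UV q v (0 : Fin n → F) s₁) (H₂ : UV q v (0 : Fin n → F) s₂)
    (hF : Fintype.card F = q ^ 2) : UV q v (0 : Fin n → F) (s₁ + s₂) := by
  refine ⟨H₁.vv, H₁.vw, ?_⟩
  have h1 := H₁.sw
  have h2 := H₂.sw
  rw [herm_zero_right hF] at h1 h2 ⊢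
  have : (s₁ + s₂) ^ q = s₁ ^ q + s₂ ^ q := by
    rw [← frobQ_apply hF, map_add, frobQ_apply, frobQ_apply]
  rw [this]
  linear_combination h1 + h2

/-- The root subgroup at an isotropic vector. -/
def rootSub {v : Fin n → F} (hvv : hh v v = 0) : Subgroup (Cfsg.SU n F q) where
  carrier := {g | ∃ (s : F) (H : UV q v (0 : Fin n → F) s), g = ue hF H}
  mul_mem' := by
    rintro _ _ ⟨s₁, H₁, rfl⟩ ⟨s₂, H₂, rfl⟩
    exact ⟨s₁ + s₂, uv_zero_add H₁ H₂ hF, root_mul_eq hF H₁ H₂ _⟩
  one_mem' := by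
    have H : UV q v (0 : Fin n → F) 0 := by
      refine ⟨hvv, herm_zero_right hF v, ?_⟩
      have hq := two_le_q hF
      rw [herm_zero_right hF, zero_pow (by omega)]
      ring
    exact ⟨0, H, (ue_zero hF hvv H).symm⟩
  inv_mem' := by
    rintro _ ⟨s, H, rfl⟩
    rw [ue_inv]
    have hq := two_le_q hF
    have H' : UV q v (0 : Fin n → F) (s ^ q) := by
      refine ⟨H.vv, H.vw, ?_⟩
      have h1 := H.sw
      rw [herm_zero_right hF] at h1 ⊢
      rw [pow_q_pow_q hF]
      linear_combination h1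
    refine ⟨s ^ q, H', ?_⟩
    apply su_ext
    intro x
    rw [ue_mulVec, ue_mulVec]
    simp only [herm_zero_right hF, neg_zero, sub_self, zero_smul, sub_zero]

theorem rootSub_comm {v : Fin n → F} (hvv : hh v v = 0) : IsMulCommutative (rootSub hF hvv) := by
  constructor
  constructor
  rintro ⟨_, s₁, H₁, rfl⟩ ⟨_, s₂, H₂, rfl⟩
  apply Subtype.ext
  change ue hF H₁ * ue hF H₂ = ue hF H₂ * ue hF H₁
  have H := uv_zero_add H₁ H₂ hF
  have H' := uv_zero_add H₂ H₁ hF
  rw [root_mul_eq hF H₁ H₂ H, root_mul_eq hF H₂ H₁ H']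
  apply su_ext
  intro x
  rw [ue_mulVec, ue_mulVec, add_comm s₁ s₂]

theorem rootSub_smul_le {v : Fin n → F} (hvv : hh v v = 0) (a : F) (hav : hh (a • v) (a • v) = 0) :
    rootSub hF hav ≤ rootSub hF hvv := by
  rintro _ ⟨s, H, rfl⟩
  have hq := two_le_q hF
  have hfix : (a ^ (q + 1)) ^ q = a ^ (q + 1) := by
    rw [pow_succ, mul_pow, pow_q_pow_q hF]
    ring
  have H' : UV q v (0 : Fin n → F) (s * a ^ (q + 1)) := by
    refine ⟨hvv, herm_zero_right hF v, ?_⟩
    have h1 := H.sw
    rw [herm_zero_right hF] at h1 ⊢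
    rw [mul_pow, hfix]
    linear_combination a ^ (q + 1) * h1
  refine ⟨s * a ^ (q + 1), H', ?_⟩
  apply su_ext
  intro x
  rw [ue_mulVec, ue_mulVec]
  simp only [herm_zero_right hF, herm_smul_right]
  rw [pow_succ]
  module

theorem rootSub_smul {v : Fin n → F} (hvv : hh v v = 0) {a : F} (ha : a ≠ 0) (hav : hh (a • v) (a • v) = 0) :
    rootSub hF hav = rootSub hF hvv := by
  apply le_antisymm (rootSub_smul_le hF hvv a hav)
  have hh2 : hh (a⁻¹ • (a • v)) (a⁻¹ • (a • v)) = 0 := by
    rw [smul_smul, inv_mul_cancel₀ ha, one_smul]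
    exact hvv
  have := rootSub_smul_le hF hav a⁻¹ hh2
  have e : rootSub hF hh2 = rootSub hF hvv := by
    have : a⁻¹ • (a • v) = v := by rw [smul_smul, inv_mul_cancel₀ ha, one_smul]
    ext g
    constructor
    · rintro ⟨s, H, rfl⟩
      have H2 : UV q v (0 : Fin n → F) s := this ▸ H
      refine ⟨s, H2, ?_⟩
      apply su_ext
      intro x
      rw [ue_mulVec, ue_mulVec, this]
    · rintro ⟨s, H, rfl⟩
      have H2 : UV q (a⁻¹ • (a • v)) (0 : Fin n → F) s := this.symm ▸ H
      refine ⟨s, H2, ?_⟩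
      apply su_ext
      intro x
      rw [ue_mulVec, ue_mulVec, this]
  rwa [e] at this

theorem rootSub_rep {v : Fin n → F} (hv : v ≠ 0) (hvv : hh v v = 0) :
    rootSub hF (isoMk hv hvv : IsoPt n F q).2 = rootSub hF hvv := by
  obtain ⟨a, ha⟩ := Projectivization.exists_smul_eq_mk_rep F v hv
  have e : (isoMk hv hvv : IsoPt n F q).1.rep = (a : F) • v := ha.symm
  have key : ∀ (w : Fin n → F) (hw : hh w w = 0) (hw' : hh ((a : F) • v) ((a : F) • v) = 0), w = (a : F) • v → rootSub hF hw = rootSub hF hw' := by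
    intro w hw hw' h
    subst h
    rfl
  have hav : hh ((a : F) • v) ((a : F) • v) = 0 := by
    rw [herm_smul_left, herm_smul_right, hvv, mul_zero, mul_zero]
  rw [key _ (isoMk hv hvv : IsoPt n F q).2 hav e]
  exact rootSub_smul hF hvv a.ne_zero hav

theorem rootSub_conj (g : Cfsg.SU n F q) {v : Fin n → F} (hvv : hh v v = 0) :
    MulAut.conj g • rootSub hF hvv = rootSub hF ((su_form g v v).trans hvv) := by
  ext X
  rw [Subgroup.mem_pointwise_smul_iff_inv_smul_mem]
  constructor
  · rintro ⟨s, H, hX⟩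
    have e : X = g * ue hF H * g⁻¹ := by
      rw [← hX]
      simp only [MulAut.smul_def, MulAut.inv_apply, MulAut.conj_symm_apply]
      group
    rw [e, ue_conj]
    refine ⟨s, ?_, ?_⟩
    · exact (mulVec_zero (suM g)) ▸ H.conj hF g
    · apply su_ext
      intro x
      rw [ue_mulVec, ue_mulVec, mulVec_zero]
  · rintro ⟨s, H, rfl⟩
    have H' : UV q v (0 : Fin n → F) s := by
      refine ⟨hvv, herm_zero_right hF v, ?_⟩
      have h1 := H.sw
      rw [herm_zero_right hF] at h1 ⊢
      exact h1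
    refine ⟨s, H', ?_⟩
    have e : ue hF H = g * ue hF H' * g⁻¹ := by
      rw [ue_conj]
      apply su_ext
      intro x
      rw [ue_mulVec, ue_mulVec, mulVec_zero]
    rw [e]
    simp [MulAut.smul_def, mul_assoc]

/-- The Iwasawa subgroups. -/
noncomputable def psuT (p : IsoPt n F q) : Subgroup (Cfsg.PSU n F q) :=
  Subgroup.map (QuotientGroup.mk' _) (rootSub hF p.2)

theorem psuT_mk {v : Fin n → F} (hv : v ≠ 0) (hvv : hh v v = 0) :
    psuT hF (isoMk hv hvv) = Subgroup.map (QuotientGroup.mk' _) (rootSub hF hvv) := by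
  rw [psuT, rootSub_rep]

theorem iSup_rootSub (hn : 3 ≤ n) (h32 : ¬ (n = 3 ∧ q = 2)) :
    (⨆ p : IsoPt n F q, rootSub hF p.2) = ⊤ := by
  rw [eq_top_iff, ← rootT_eq_top hF hn h32, rootT, Subgroup.closure_le]
  rintro g ⟨v, w, s, H, rfl, rfl⟩
  by_cases hv : v = 0
  · subst hv
    have : ue hF H = 1 := ue_of_v_zero hF H
    rw [this]
    exact one_mem _
  · have : ue hF H ∈ rootSub hF (isoMk hv H.vv : IsoPt n F q).2 := by
      rw [rootSub_rep]
      exact ⟨s, H, rfl⟩
    exact Subgroup.mem_iSup_of_mem _ this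

/-- The Iwasawa structure. -/
noncomputable def psuIwasawa (hn : 3 ≤ n) (h32 : ¬ (n = 3 ∧ q = 2)) :
    letI := psuAction (F := F) (q := q) (n := n) hF hn
    IwasawaStructure (Cfsg.PSU n F q) (IsoPt n F q) :=
  letI := psuAction (F := F) (q := q) (n := n) hF hn
  { T := psuT hF
    is_comm := fun p => by
      have := rootSub_comm hF p.2
      exact Subgroup.map_isMulCommutative _ _
    is_conj := fun g p => by
      obtain ⟨A, rfl⟩ := QuotientGroup.mk_surjective g
      obtain ⟨v, hv, hvv, rfl⟩ := isoPt_ind p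
      have e : (QuotientGroup.mk A : Cfsg.PSU n F q) • (isoMk hv hvv : IsoPt n F q) =
          isoMk (su_mulVec_ne_zero A hv) ((su_form A v v).trans hvv) := su_smul_isoMk A hv hvv
      rw [e, psuT_mk, psuT_mk, ← quot_map_conj, rootSub_conj]
    is_generator := by
      change (⨆ p, Subgroup.map _ _) = ⊤
      rw [← Subgroup.map_iSup, iSup_rootSub hF hn h32]
      exact Subgroup.map_top_of_surjective _ (QuotientGroup.mk'_surjective _) }

theorem su_perfect (hn : 3 ≤ n) (h32 : ¬ (n = 3 ∧ q = 2)) : commutator (Cfsg.SU n F q) = ⊤ := by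
  rw [eq_top_iff, ← rootT_eq_top hF hn h32, rootT, Subgroup.closure_le, commutator_eq_closure]
  rintro g ⟨v, w, s, H, rfl, rfl⟩
  apply Subgroup.subset_closure
  exact ue_comm_transvection hF hn _ H.vv (ueM_zero hF H.vv)

/-- `PSU_n(q)` is simple. -/
theorem psu_simple (hn : 3 ≤ n) (h32 : ¬ (n = 3 ∧ q = 2)) : IsSimpleGroup (Cfsg.PSU n F q) := by
  have hperf1 : Group.IsPerfect (Cfsg.SU n F q) := ⟨su_perfect hF hn h32⟩
  have hperf2 : Group.IsPerfect (Cfsg.PSU n F q) := inferInstance
  letI := psuAction (F := F) (q := q) (n := n) hF hn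
  haveI := psu_preprimitive (F := F) (q := q) (n := n) hF hn
  haveI := psu_nontrivial (F := F) (q := q) (n := n) hF hn
  exact MulAction.IwasawaStructure.isSimpleGroup (α := IsoPt n F q) hperf2.commutator_eq_top
    (psuIwasawa hF hn h32) (psu_faithful hF hn)

end

end Cfsg.Agent.Lib.Classical
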