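import Mathlib
import Cfsg.Agent.Lib.Classical.OrthCenter
import Cfsg.Agent.Lib.Spinor.Trans

/-! Involutions of `Ω` in odd dimension: products of an even number of orthogonal reflections. -/

set_option autoImplicit false
set_option linter.unusedSimpArgs false
set_option linter.unusedVariables false
set_option linter.unusedSectionVars false
set_option linter.style.haveILetI false

namespace Cfsg.Agent.Lib.Classical

open Matrix Module

variable {F : Type*} [Field F] {ι : Type} [Fintype ι] [DecidableEq ι] {Q : QuadraticForm F (ι → F)}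

local notation "bb" => QuadraticMap.polar (DFunLike.coe Q)

/-- The fixed space of an isometry. -/
noncomputable def fixS (g : OG Q) : Submodule F (ι → F) := LinearMap.ker (wU g)

theorem mem_fixS {g : OG Q} {x : ι → F} : x ∈ fixS g ↔ oM g *ᵥ x = x := by
  rw [fixS, LinearMap.mem_ker, wU_apply, sub_eq_zero, eq_comm]

theorem finrank_fixS_conj (g h : OG Q) : finrank F (fixS (h * g * h⁻¹)) = finrank F (fixS g) := by
  have hinj : Function.Injective (oM h).mulVecLin := by
    intro x y hxy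
    exact oM_injective h hxy
  have h1 : fixS (h * g * h⁻¹) = (fixS g).map (oM h).mulVecLin := by
    ext x
    rw [mem_fixS, Submodule.mem_map]
    constructor
    · intro hx
      refine ⟨oM h⁻¹ *ᵥ x, ?_, oM_self_inv h x⟩
      rw [mem_fixS]
      rw [oM_mul, oM_mul] at hx
      conv_rhs => rw [← hx]
      rw [oM_inv_self]
    · rintro ⟨y, hy, rfl⟩
      rw [mem_fixS] at hy
      rw [oM_mul, oM_mul, Matrix.mulVecLin_apply, oM_inv_self, hy]
  rw [h1]
  exact (LinearEquiv.finrank_eq (Submodule.equivMapOfInjective _ hinj (fixS g))).symm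

/-- Adding a non-singular vector to a non-degenerate subspace. -/
theorem qnd_sup_span {U : Submodule F (ι → F)} (hU : QND Q U) {v : ι → F} (hv : v ∈ qPerp Q U) (h2v : bb v v ≠ 0) :
    QND Q (U ⊔ Submodule.span F {v}) := by
  intro x hx hxo
  obtain ⟨u, hu, y, hy, rfl⟩ := Submodule.mem_sup.1 hx
  obtain ⟨c, rfl⟩ := Submodule.mem_span_singleton.1 hy
  have h1 := hxo v (Submodule.mem_sup_right (Submodule.mem_span_singleton_self v))
  rw [polar_add_l, polar_smul_l, perp_symm hv hu, zero_add] at h1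
  have hc : c = 0 := (mul_eq_zero.1 h1).resolve_right h2v
  subst hc
  rw [zero_smul, add_zero]
  apply hU u hu
  intro w hw
  have h3 := hxo w (Submodule.mem_sup_left hw)
  rwa [zero_smul, add_zero] at h3

theorem finrank_sup_span {U : Submodule F (ι → F)} (hU : QND Q U) {v : ι → F} (hv : v ∈ qPerp Q U) (hv0 : v ≠ 0) :
    finrank F (U ⊔ Submodule.span F {v} : Submodule F (ι → F)) = finrank F U + 1 := by
  have h1 := Submodule.finrank_sup_add_finrank_inf_eq U (Submodule.span F {v})
  have h3 : U ⊓ Submodule.span F {v} = ⊥ := by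
    rw [Submodule.eq_bot_iff]
    rintro x ⟨hx, hy⟩
    obtain ⟨c, rfl⟩ := Submodule.mem_span_singleton.1 hy
    apply hU _ hx
    intro w hw
    rw [polar_smul_l, hv w hw, mul_zero]
  rw [h3, finrank_bot, add_zero, finrank_span_singleton hv0] at h1
  exact h1

/-- Products of orthogonal reflections in vectors of value one. -/
theorem exists_ref_product [Fintype F] (h2 : (2 : F) ≠ 0) (hQ : (QuadraticMap.polarBilin Q).Nondegenerate)
    {φ θ : OG Q →* ℤˣ} (hφ : ∀ (w : ι → F) (hw : Q w ≠ 0), φ (rf w hw) = -1)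
    (hθ : ∀ (w : ι → F) (hw : Q w ≠ 0), (IsSquare (Q w) → θ (rf w hw) = 1) ∧ (¬ IsSquare (Q w) → θ (rf w hw) = -1))
    (j : ℕ) (hj : j + 1 ≤ Fintype.card ι) :
    ∃ (U : Submodule F (ι → F)) (g : OG Q), QND Q U ∧ finrank F U = j ∧ (∀ u ∈ U, oM g *ᵥ u = -u) ∧
      (∀ w ∈ qPerp Q U, oM g *ᵥ w = w) ∧ φ g = (-1) ^ j ∧ θ g = 1 := by
  induction j with
  | zero =>
    refine ⟨⊥, 1, ?_, finrank_bot _ _, ?_, ?_, ?_, ?_⟩
    · intro u hu _
      exact (Submodule.mem_bot F).1 hu
    · intro u hu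
      rw [(Submodule.mem_bot F).1 hu, mulVec_zero, neg_zero]
    · intro w _
      exact oM_one w
    · simp
    · simp
  | succ j ih =>
    obtain ⟨U, g, hU, hUr, hg1, hg2, hgφ, hgθ⟩ := ih (by omega)
    have hperp : QND Q (qPerp Q U) := by
      have := qnd_inf_perp (qnd_top hQ) hU le_top
      rwa [top_inf_eq] at this
    have hd : 2 ≤ finrank F (qPerp Q U) := by
      have := qnd_finrank (W := ⊤) hU le_top
      rw [top_inf_eq, finrank_top, hUr, Module.finrank_fintype_fun_eq_card] at this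
      omega
    have hperp' : ∀ y ∈ qPerp Q U, (∀ z ∈ qPerp Q U, bb z y = 0) → y = 0 := by
      intro y hy h
      apply hperp y hy
      intro z hz
      rw [polar_symm]
      exact h z hz
    obtain ⟨v, hv, hQv⟩ := Cfsg.Agent.Lib.Spinor.exists_val_sub (Q := Q) hperp' hd (one_ne_zero (α := F))
    have hv1 : Q v ≠ 0 := by
      rw [hQv]
      exact one_ne_zero
    have hv0 : v ≠ 0 := by
      rintro rfl
      exact hv1 q_zero
    have h2v : bb v v ≠ 0 := by
      rw [polar_self2, hQv, mul_one]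
      exact h2
    refine ⟨U ⊔ Submodule.span F {v}, rf v hv1 * g, qnd_sup_span hU hv h2v, ?_, ?_, ?_, ?_, ?_⟩
    · rw [finrank_sup_span hU hv hv0, hUr]
    · intro x hx
      obtain ⟨u, hu, y, hy, rfl⟩ := Submodule.mem_sup.1 hx
      obtain ⟨c, rfl⟩ := Submodule.mem_span_singleton.1 hy
      rw [oM_mul, mulVec_add, mulVec_smul, hg1 u hu, hg2 v hv, mulVec_add, mulVec_smul, mulVec_neg, rf_self,
        rf_fix v hv1 (hv u hu)]
      module
    · intro w hw
      have hw1 : w ∈ qPerp Q U := fun y hy => hw y (Submodule.mem_sup_left hy)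
      have hw2 : bb v w = 0 := by
        rw [polar_symm]
        exact hw v (Submodule.mem_sup_right (Submodule.mem_span_singleton_self v))
      rw [oM_mul, hg2 w hw1, rf_fix v hv1 hw2]
    · rw [map_mul, hφ, hgφ, pow_succ]
      exact mul_comm _ _
    · rw [map_mul, hgθ, mul_one]
      apply (hθ v hv1).1
      rw [hQv]
      exact IsSquare.one

theorem fixS_eq (h2 : (2 : F) ≠ 0) {U : Submodule F (ι → F)} (hU : QND Q U) {g : OG Q}
    (hg1 : ∀ u ∈ U, oM g *ᵥ u = -u) (hg2 : ∀ w ∈ qPerp Q U, oM g *ᵥ w = w) : fixS g = qPerp Q U := by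
  ext x
  rw [mem_fixS]
  constructor
  · intro hx
    obtain ⟨u, hu, w, hw, rfl⟩ := qnd_decomp hU x
    rw [mulVec_add, hg1 u hu, hg2 w hw] at hx
    have h3 : (2 : F) • u = 0 := by
      rw [two_smul]
      have := add_right_cancel hx
      nth_rewrite 2 [← this]
      simp
    rw [(smul_eq_zero.1 h3).resolve_left h2, zero_add]
    exact hw
  · exact hg2 x

theorem sq_eq_one_of_decomp {U : Submodule F (ι → F)} (hU : QND Q U) {g : OG Q}
    (hg1 : ∀ u ∈ U, oM g *ᵥ u = -u) (hg2 : ∀ w ∈ qPerp Q U, oM g *ᵥ w = w) : g * g = 1 := by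
  apply og_ext
  intro x
  obtain ⟨u, hu, w, hw, rfl⟩ := qnd_decomp hU x
  rw [oM_mul, oM_one, mulVec_add, hg1 u hu, hg2 w hw, mulVec_add, mulVec_neg, hg1 u hu, hg2 w hw, neg_neg]

/-- A family of pairwise non-conjugate involutions of `PΩ`, odd dimension. -/
theorem omega_invol_family [Fintype F] (h2 : (2 : F) ≠ 0) (hQ : (QuadraticMap.polarBilin Q).Nondegenerate)
    {m : ℕ} (hm : 3 ≤ m) (hcard : Fintype.card ι = 2 * m + 1) :
    ∃ z : Fin m → OmG Q ⧸ Subgroup.center (OmG Q), (∀ k, z k * z k = 1 ∧ z k ≠ 1) ∧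
      ∀ k l, IsConj (z k) (z l) → k = l := by
  have hgen := rGen_top_odd h2 hQ
  obtain ⟨φ, hφ⟩ := exists_dickson hQ hgen
  obtain ⟨θ, hθ⟩ := exists_theta' hQ hgen
  have hcen : ∀ a : OmG Q, a ∈ Subgroup.center (OmG Q) → a = 1 := by
    intro a ha
    rcases center_eq_pm hQ (by omega) ha with h | h
    · apply Subtype.ext
      apply og_ext
      intro x
      rw [h, one_mulVec]
      exact (oM_one x).symm
    · exact absurd ⟨a.1, a.2, h⟩ (neg_one_not_mem_of_odd h2 (by rw [hcard]; exact ⟨m, rfl⟩))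
  have hex : ∀ k : Fin m, ∃ (U : Submodule F (ι → F)) (g : OG Q), QND Q U ∧ finrank F U = 2 * (k.1 + 1) ∧
      (∀ u ∈ U, oM g *ᵥ u = -u) ∧ (∀ w ∈ qPerp Q U, oM g *ᵥ w = w) ∧ φ g = (-1) ^ (2 * (k.1 + 1)) ∧ θ g = 1 :=
    fun k => exists_ref_product h2 hQ hφ hθ _ (by have := k.2; omega)
  choose U g hU hUr hg1 hg2 hgφ hgθ using hex
  have hmem : ∀ k, g k ∈ OmG Q := by
    intro k
    refine (mem_commutator_odd h2 hQ (by omega) hφ hθ (g k)).2 ⟨?_, hgθ k⟩
    rw [hgφ, pow_mul]
    simp
  have hfr : ∀ k, finrank F (fixS (g k)) + 2 * (k.1 + 1) = 2 * m + 1 := by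
    intro k
    rw [fixS_eq h2 (hU k) (hg1 k) (hg2 k), ← hUr k]
    have := qnd_finrank (W := ⊤) (hU k) le_top
    rw [top_inf_eq, finrank_top, Module.finrank_fintype_fun_eq_card, hcard] at this
    exact this
  refine ⟨fun k => QuotientGroup.mk ⟨g k, hmem k⟩, ?_, ?_⟩
  · intro k
    constructor
    · rw [← QuotientGroup.mk_mul]
      apply (QuotientGroup.eq_one_iff _).2
      have : (⟨g k, hmem k⟩ * ⟨g k, hmem k⟩ : OmG Q) = 1 := Subtype.ext (sq_eq_one_of_decomp (hU k) (hg1 k) (hg2 k))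
      rw [this]
      exact one_mem _
    · intro h
      have h3 := hcen _ ((QuotientGroup.eq_one_iff _).1 h)
      have h4 : g k = 1 := congrArg Subtype.val h3
      have h5 := hfr k
      rw [h4] at h5
      have h6 : fixS (1 : OG Q) = ⊤ := by
        rw [eq_top_iff]
        intro x _
        rw [mem_fixS]
        exact oM_one x
      rw [h6, finrank_top, Module.finrank_fintype_fun_eq_card, hcard] at h5
      omega
  · intro k l hkl
    rw [isConj_iff] at hkl
    obtain ⟨c, hc⟩ := hkl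
    obtain ⟨c', rfl⟩ := QuotientGroup.mk_surjective c
    rw [← QuotientGroup.mk_inv, ← QuotientGroup.mk_mul, ← QuotientGroup.mk_mul, QuotientGroup.eq] at hc
    have h3 := hcen _ hc
    have h4 : (c' * ⟨g k, hmem k⟩ * c'⁻¹ : OmG Q) = ⟨g l, hmem l⟩ := by
      rw [inv_mul_eq_one] at h3
      exact h3
    have h5 : c'.1 * g k * c'.1⁻¹ = g l := congrArg Subtype.val h4
    have h6 := finrank_fixS_conj (g k) c'.1
    rw [h5] at h6
    have h7 := hfr k
    have h8 := hfr l
    apply Fin.ext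
    omega

end Cfsg.Agent.Lib.Classical
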