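import Mathlib
import Cfsg.Agent.Lib.Classical.OrthInvol
import Cfsg.Agent.Lib.Classical.OrthIdx2

/-! The subgroup generated by reflections with values in a given square class. -/

set_option autoImplicit false
set_option linter.unusedSimpArgs false
set_option linter.unusedVariables false
set_option linter.unusedSectionVars false
set_option linter.style.haveILetI false

namespace Cfsg.Agent.Lib.Classical

open Matrix Module

variable {F : Type*} [Field F] {ι : Type} [Fintype ι] [DecidableEq ι] {Q : QuadraticForm F (ι → F)}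

local notation "bb" => QuadraticMap.polar (DFunLike.coe Q)

/-- The two reflection identity in a plane. -/
theorem rf_mul_rf_plane {w w' a b : ι → F} {d e α β D : F} (hw : Q w = d) (hw' : Q w' = d) (hd : d ≠ 0)
    (he : bb w w' = e) (ha : a = α • w + β • w') (hb : b = (-β) • w + (α + β * e / d) • w')
    (hQa : Q a = D) (hD : D ≠ 0) (hw0 : Q w ≠ 0) (hw0' : Q w' ≠ 0) (hQa' : Q a ≠ 0) (hQb' : Q b ≠ 0) :
    rf a hQa' * rf b hQb' = rf w hw0 * rf w' hw0' := by
  have hDe : D = α ^ 2 * d + β ^ 2 * d + α * β * e := by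
    rw [← hQa, ha, q_add, q_smul, q_smul, polar_smul_l, polar_smul_r, he, hw, hw']
    ring
  have hQb : Q b = D := by
    rw [hb, q_add, q_smul, q_smul, polar_smul_l, polar_smul_r, he, hw, hw', hDe]
    field_simp
    ring
  have hab : bb a b = e * D / d := by
    have h11 : bb w w = 2 * d := by rw [polar_self2, hw]
    have h22 : bb w' w' = 2 * d := by rw [polar_self2, hw']
    have h21 : bb w' w = e := by rw [polar_symm, he]
    rw [ha, hb]
    simp only [polar_add_l, polar_add_r, polar_smul_l, polar_smul_r, h11, h22, h21, he]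
    rw [hDe]
    field_simp
    ring
  apply og_ext
  intro x
  rw [oM_mul, oM_mul, rf_apply, rf_apply, rf_apply, rf_apply]
  set X := bb w x with hX
  set Y := bb w' x with hY
  have h1 : bb a x = α * X + β * Y := by
    rw [ha, polar_add_l, polar_smul_l, polar_smul_l]
  have h3 : bb b x = (-β) * X + (α + β * e / d) * Y := by
    rw [hb, polar_add_l, polar_smul_l, polar_smul_l]
  have h4 : bb a (x - ((Q b)⁻¹ * bb b x) • b) = bb a x - ((Q b)⁻¹ * bb b x) * bb a b := by
    rw [polar_sub_r, polar_smul_r]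
  have h5 : bb w (x - ((Q w')⁻¹ * bb w' x) • w') = bb w x - ((Q w')⁻¹ * bb w' x) * bb w w' := by
    rw [polar_sub_r, polar_smul_r]
  rw [h4, h5, hQa, hQb, h1, h3, hab, hw, hw', he, ← hX, ← hY]
  have key1 : (D⁻¹ * ((-β) * X + (α + β * e / d) * Y)) * (-β) +
      (D⁻¹ * (α * X + β * Y - D⁻¹ * ((-β) * X + (α + β * e / d) * Y) * (e * D / d))) * α =
      d⁻¹ * (X - d⁻¹ * Y * e) := by
    field_simp
    rw [hDe]
    ring
  have key2 : (D⁻¹ * ((-β) * X + (α + β * e / d) * Y)) * (α + β * e / d) +
      (D⁻¹ * (α * X + β * Y - D⁻¹ * ((-β) * X + (α + β * e / d) * Y) * (e * D / d))) * β =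
      d⁻¹ * Y := by
    field_simp
    rw [hDe]
    ring
  have e1 : x - (D⁻¹ * ((-β) * X + (α + β * e / d) * Y)) • b -
      (D⁻¹ * (α * X + β * Y - D⁻¹ * ((-β) * X + (α + β * e / d) * Y) * (e * D / d))) • a =
      x - ((D⁻¹ * ((-β) * X + (α + β * e / d) * Y)) * (-β) +
      (D⁻¹ * (α * X + β * Y - D⁻¹ * ((-β) * X + (α + β * e / d) * Y) * (e * D / d))) * α) • w -
      ((D⁻¹ * ((-β) * X + (α + β * e / d) * Y)) * (α + β * e / d) +
      (D⁻¹ * (α * X + β * Y - D⁻¹ * ((-β) * X + (α + β * e / d) * Y) * (e * D / d))) * β) • w' := by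
    rw [ha, hb]
    module
  rw [e1, key1, key2]
  module

/-- The subgroup of a square class. -/
def rcGen (Q : QuadraticForm F (ι → F)) (c : F) : Subgroup (OG Q) :=
  Subgroup.closure {g | ∃ (v : ι → F) (t : F), t ≠ 0 ∧ Q v = c * t ^ 2 ∧ oM g = Cfsg.reflectionMatrix (⇑Q) v}

theorem rf_mem_rcGen {c t : F} {v : ι → F} (hv : Q v ≠ 0) (ht : t ≠ 0) (h : Q v = c * t ^ 2) : rf v hv ∈ rcGen Q c :=
  Subgroup.subset_closure ⟨v, t, ht, h, rfl⟩

theorem rcGen_normal (Q : QuadraticForm F (ι → F)) (c : F) (hc : c ≠ 0) : (rcGen Q c).Normal := by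
  apply closure_normal_of_conj
  rintro g ⟨v, t, ht, hv, hg⟩ x
  have hv0 : Q v ≠ 0 := by
    rw [hv]
    exact mul_ne_zero hc (pow_ne_zero _ ht)
  have hg' : g = rf v hv0 := by
    apply Subtype.ext
    apply Units.ext
    exact hg
  rw [hg', rf_conj]
  exact ⟨_, t, ht, by rw [oM_Q, hv], rfl⟩

variable [Fintype F]

/-- Two reflections of equal value in a non-degenerate plane. -/
theorem plane_mem_rcGen (h2 : (2 : F) ≠ 0) {w w' : ι → F} {d : F} (hw : Q w = d) (hw' : Q w' = d) (hd : d ≠ 0)
    (hne : (bb w w') ^ 2 ≠ 4 * d ^ 2) {c : F} (hc : c ≠ 0) (hw0 : Q w ≠ 0) (hw0' : Q w' ≠ 0) :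
    rf w hw0 * rf w' hw0' ∈ rcGen Q c := by
  set e := bb w w' with he
  let Y : Submodule F (ι → F) := Submodule.span F {w, w'}
  have hYnd : ∀ y ∈ Y, (∀ z ∈ Y, bb z y = 0) → y = 0 := by
    intro y hy h
    obtain ⟨α, β, rfl⟩ := Submodule.mem_span_pair.1 hy
    have h1 := h w (Submodule.subset_span (by simp))
    have h3 := h w' (Submodule.subset_span (by simp))
    rw [polar_add_r, polar_smul_r, polar_smul_r, polar_self2, hw, ← he] at h1
    rw [polar_add_r, polar_smul_r, polar_smul_r, polar_self2, hw', polar_symm w' w, ← he] at h3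
    have hdet : (e ^ 2 - 4 * d ^ 2) ≠ 0 := sub_ne_zero.2 hne
    have hα : α = 0 := by
      have : (e ^ 2 - 4 * d ^ 2) * α = 0 := by linear_combination (-2 * d) * h1 + e * h3
      exact (mul_eq_zero.1 this).resolve_left hdet
    have hβ : β = 0 := by
      have : (e ^ 2 - 4 * d ^ 2) * β = 0 := by linear_combination e * h1 + (-2 * d) * h3
      exact (mul_eq_zero.1 this).resolve_left hdet
    rw [hα, hβ]
    simp
  have hw00 : w ≠ 0 := by
    rintro rfl
    exact hw0 q_zero
  have hYr : 2 ≤ finrank F Y := by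
    have hli : LinearIndependent F ![w, w'] := by
      rw [LinearIndependent.pair_iff]
      intro α β hαβ
      have h1 : ∀ z ∈ Y, bb z (α • w + β • w') = 0 := by
        intro z _
        rw [hαβ, polar_zero_r]
      have h3 := h1 w (Submodule.subset_span (by simp))
      have h4 := h1 w' (Submodule.subset_span (by simp))
      rw [polar_add_r, polar_smul_r, polar_smul_r, polar_self2, hw, ← he] at h3
      rw [polar_add_r, polar_smul_r, polar_smul_r, polar_self2, hw', polar_symm w' w, ← he] at h4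
      have hdet : (e ^ 2 - 4 * d ^ 2) ≠ 0 := sub_ne_zero.2 hne
      constructor
      · have : (e ^ 2 - 4 * d ^ 2) * α = 0 := by linear_combination (-2 * d) * h3 + e * h4
        exact (mul_eq_zero.1 this).resolve_left hdet
      · have : (e ^ 2 - 4 * d ^ 2) * β = 0 := by linear_combination e * h3 + (-2 * d) * h4
        exact (mul_eq_zero.1 this).resolve_left hdet
    have := finrank_span_eq_card hli
    rw [show Set.range ![w, w'] = {w, w'} from by
      ext x
      simp [Fin.exists_fin_two, eq_comm]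
      tauto, Fintype.card_fin] at this
    exact this.ge
  obtain ⟨a, haY, hQa⟩ := Cfsg.Agent.Lib.Spinor.exists_val_sub (Q := Q) hYnd hYr hc
  obtain ⟨α, β, rfl⟩ := Submodule.mem_span_pair.1 haY
  set b : ι → F := (-β) • w + (α + β * e / d) • w' with hb
  have hQa' : Q (α • w + β • w') ≠ 0 := by
    rw [hQa]
    exact hc
  have hDe : c = α ^ 2 * d + β ^ 2 * d + α * β * e := by
    rw [← hQa, q_add, q_smul, q_smul, polar_smul_l, polar_smul_r, ← he, hw, hw']
    ring
  have hQb : Q b = c := by
    rw [hb, q_add, q_smul, q_smul, polar_smul_l, polar_smul_r, ← he, hw, hw', hDe]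
    field_simp
    ring
  have hQb' : Q b ≠ 0 := by
    rw [hQb]
    exact hc
  rw [← rf_mul_rf_plane hw hw' hd he.symm rfl hb hQa hc hw0 hw0' hQa' hQb']
  exact mul_mem (rf_mem_rcGen hQa' one_ne_zero (by rw [hQa]; ring))
    (rf_mem_rcGen hQb' one_ne_zero (by rw [hQb]; ring))

/-- A partner in a non-degenerate subspace. -/
theorem exists_partner_in_qnd {C : Submodule F (ι → F)} (hC : QND Q C) {s : ι → F} (hs : s ∈ C) (hs0 : s ≠ 0)
    (hss : Q s = 0) : ∃ t ∈ C, Q t = 0 ∧ bb s t = 1 := by
  have hne : ∃ z ∈ C, bb s z ≠ 0 := by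
    by_contra hcon
    push Not at hcon
    exact hs0 (hC s hs hcon)
  obtain ⟨z, hz, hsz⟩ := hne
  have huu := polar_self_of_singular hss
  obtain ⟨z', hz', h1⟩ : ∃ z' ∈ C, bb s z' = 1 := by
    refine ⟨(bb s z)⁻¹ • z, C.smul_mem _ hz, ?_⟩
    rw [polar_smul_r]
    exact inv_mul_cancel₀ hsz
  refine ⟨z' - Q z' • s, C.sub_mem hz' (C.smul_mem _ hs), ?_, ?_⟩
  · rw [q_sub, q_smul, hss, polar_smul_r, polar_symm z', h1]
    ring
  · rw [polar_sub_r, polar_smul_r, h1, huu]
    ring

/-- The key statement: products of two reflections with equal values. -/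
theorem mul_mem_rcGen (h2 : (2 : F) ≠ 0) (hQ : (QuadraticMap.polarBilin Q).Nondegenerate)
    (heven : Even (Fintype.card ι)) (h43 : ¬ (Fintype.card ι = 4 ∧ Fintype.card F = 3))
    {w w' : ι → F} {d : F} (hw : Q w = d) (hw' : Q w' = d) (hd : d ≠ 0) {c : F} (hc : c ≠ 0)
    (hw0 : Q w ≠ 0) (hw0' : Q w' ≠ 0) : rf w hw0 * rf w' hw0' ∈ rcGen Q c := by
  by_cases hne : (bb w w') ^ 2 = 4 * d ^ 2
  swap
  · exact plane_mem_rcGen h2 hw hw' hd hne hc hw0 hw0'
  -- reduce to the case `e = 2 d`
  wlog he : bb w w' = 2 * d generalizing w'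
  · have he' : bb w w' = -(2 * d) := by
      have : (bb w w' - 2 * d) * (bb w w' + 2 * d) = 0 := by linear_combination hne
      rcases mul_eq_zero.1 this with h | h
      · exact absurd (sub_eq_zero.1 h) he
      · exact eq_neg_of_add_eq_zero_left h
    have hq : Q (-w') = d := by rw [q_neg, hw']
    have hq0 : Q (-w') ≠ 0 := by rwa [hq]
    have := this hq hq0 (by rw [polar_neg_r, neg_sq, hne]) (by rw [polar_neg_r, he', neg_neg])
    rwa [rf_neg hw0' hq0] at this
  set s : ι → F := w - w' with hs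
  by_cases hs0 : s = 0
  · have hww : w' = w := (sub_eq_zero.1 hs0).symm
    subst hww
    rw [rf_sq]
    exact one_mem _
  have hQs : Q s = 0 := by
    rw [hs, q_sub, hw, hw', he]
    ring
  have hws : bb w s = 0 := by
    rw [hs, polar_sub_r, he, polar_self2, hw]
    ring
  have hw's : bb w' s = 0 := by
    rw [hs, polar_sub_r, polar_self2, hw', polar_symm, he]
    ring
  have h2d : bb w w ≠ 0 := by
    rw [polar_self2, hw]
    exact mul_ne_zero h2 hd
  let P : Submodule F (ι → F) := Submodule.span F {w}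
  have hw00 : w ≠ 0 := by
    rintro rfl
    exact hw0 q_zero
  have hPnd : QND Q P := by
    intro u hu h
    obtain ⟨α, rfl⟩ := Submodule.mem_span_singleton.1 hu
    have h1 := h w (Submodule.mem_span_singleton_self w)
    rw [polar_smul_l] at h1
    rw [(mul_eq_zero.1 h1).resolve_right h2d, zero_smul]
  have hC : QND Q (qPerp Q P) := by
    have := qnd_inf_perp (qnd_top hQ) hPnd le_top
    rwa [top_inf_eq] at this
  have hsC : s ∈ qPerp Q P := by
    rw [mem_perp_span, polar_symm]
    exact hws
  obtain ⟨t, htC, hQt, hst⟩ := exists_partner_in_qnd hC hsC hs0 hQs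
  have hwt : bb w t = 0 := by
    rw [polar_symm]
    exact mem_perp_span.1 htC
  have hts : bb t s = 1 := by
    rw [polar_symm, hst]
  have hss : bb s s = 0 := polar_self_of_singular hQs
  have htt : bb t t = 0 := polar_self_of_singular hQt
  by_cases hq : Fintype.card F ≤ 3
  · -- the field with three elements, dimension at least six
    have hcardF : Fintype.card F = 3 := by
      have h3 := odd_card_of_two_ne_zero h2
      have h4 := Fintype.one_lt_card (α := F)
      omega
    let H : Submodule F (ι → F) := Submodule.span F {s} ⊔ Submodule.span F {t}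
    have hHnd : QND Q H := by
      intro u hu h
      obtain ⟨u₁, hu₁, u₂, hu₂, rfl⟩ := Submodule.mem_sup.1 hu
      obtain ⟨α, rfl⟩ := Submodule.mem_span_singleton.1 hu₁
      obtain ⟨β, rfl⟩ := Submodule.mem_span_singleton.1 hu₂
      have h1 := h s (Submodule.mem_sup_left (Submodule.mem_span_singleton_self s))
      have h3 := h t (Submodule.mem_sup_right (Submodule.mem_span_singleton_self t))
      rw [polar_add_l, polar_smul_l, polar_smul_l, hss, hts] at h1
      rw [polar_add_l, polar_smul_l, polar_smul_l, hst, htt] at h3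
      have hα : α = 0 := by linear_combination h3
      have hβ : β = 0 := by linear_combination h1
      rw [hα, hβ]
      simp
    have hHr : finrank F H = 2 := by
      have h1 := Submodule.finrank_sup_add_finrank_inf_eq (Submodule.span F {s}) (Submodule.span F {t})
      have ht0 : t ≠ 0 := by
        rintro rfl
        rw [polar_zero_r] at hst
        exact zero_ne_one hst
      have h3 : Submodule.span F {s} ⊓ Submodule.span F {t} = ⊥ := by
        rw [Submodule.eq_bot_iff]
        rintro x ⟨hx, hy⟩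
        obtain ⟨α, rfl⟩ := Submodule.mem_span_singleton.1 hx
        obtain ⟨β, hβ⟩ := Submodule.mem_span_singleton.1 hy
        have h4 : bb (α • s) s = bb (β • t) s := by rw [hβ]
        rw [polar_smul_l, polar_smul_l, hss, hts] at h4
        have hβ0 : β = 0 := by linear_combination -h4
        rw [← hβ, hβ0, zero_smul]
      rw [h3, finrank_bot, add_zero, finrank_span_singleton hs0, finrank_span_singleton ht0] at h1
      exact h1
    have hwH : w ∈ qPerp Q H := by
      intro y hy
      obtain ⟨u₁, hu₁, u₂, hu₂, rfl⟩ := Submodule.mem_sup.1 hy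
      obtain ⟨α, rfl⟩ := Submodule.mem_span_singleton.1 hu₁
      obtain ⟨β, rfl⟩ := Submodule.mem_span_singleton.1 hu₂
      rw [polar_add_r, polar_smul_r, polar_smul_r, hws, hwt]
      ring
    have hUnd := qnd_sup_span hHnd hwH h2d
    have hUr := finrank_sup_span hHnd hwH hw00
    set U := H ⊔ Submodule.span F {w} with hU
    have hperp : QND Q (qPerp Q U) := by
      have := qnd_inf_perp (qnd_top hQ) hUnd le_top
      rwa [top_inf_eq] at this
    have hfr := qnd_finrank (W := ⊤) hUnd le_top
    rw [top_inf_eq, finrank_top, hUr, hHr, Module.finrank_fintype_fun_eq_card] at hfr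
    have hn : 2 ≤ finrank F (qPerp Q U) := by
      obtain ⟨r, hr⟩ := heven
      have h4 : Fintype.card ι ≠ 4 := fun h => h43 ⟨h, hcardF⟩
      omega
    have hperp' : ∀ y ∈ qPerp Q U, (∀ z ∈ qPerp Q U, bb z y = 0) → y = 0 := by
      intro y hy h
      apply hperp y hy
      intro z hz
      rw [polar_symm]
      exact h z hz
    obtain ⟨p, hpU, hQp⟩ := Cfsg.Agent.Lib.Spinor.exists_val_sub (Q := Q) hperp' hn hd
    have hQp0 : Q p ≠ 0 := by rwa [hQp]
    have hwp : bb w p = 0 := by
      rw [polar_symm]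
      exact hpU w (Submodule.mem_sup_right (Submodule.mem_span_singleton_self w))
    have hsp : bb s p = 0 := by
      rw [polar_symm]
      exact hpU s (Submodule.mem_sup_left (Submodule.mem_sup_left (Submodule.mem_span_singleton_self s)))
    have hpw' : bb p w' = 0 := by
      have : w' = w - s := by rw [hs]; abel
      rw [this, polar_sub_r, polar_symm, hwp, polar_symm p s, hsp, sub_zero]
    have h4d : (0 : F) ^ 2 ≠ 4 * d ^ 2 := by
      intro h
      have h5 : (2 * d) * (2 * d) = 0 := by linear_combination -h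
      rcases mul_eq_zero.1 h5 with h6 | h6 <;> exact (mul_ne_zero h2 hd) h6
    have e1 : rf w hw0 * rf w' hw0' = (rf w hw0 * rf p hQp0) * (rf p hQp0 * rf w' hw0') := by
      rw [mul_assoc, ← mul_assoc (rf p hQp0), rf_sq, one_mul]
    rw [e1]
    exact mul_mem (plane_mem_rcGen h2 hw hQp hd (by rw [hwp]; exact h4d) hc hw0 hQp0)
      (plane_mem_rcGen h2 hQp hw' hd (by rw [hpw']; exact h4d) hc hQp0 hw0')
  · -- at least five elements
    classical
    obtain ⟨u, -, hu⟩ : ∃ u ∈ (Finset.univ : Finset F), u ∉ ({0, 2 * d, -(2 * d)} : Finset F) := by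
      apply Finset.exists_mem_notMem_of_card_lt_card
      refine lt_of_le_of_lt (Finset.card_le_three) ?_
      rw [Finset.card_univ]
      omega
    simp only [Finset.mem_insert, Finset.mem_singleton, not_or] at hu
    obtain ⟨hu0, hu1, hu2⟩ := hu
    set z : ι → F := (d / u) • s + u • t with hz
    have hQz : Q z = d := by
      rw [hz, q_add, q_smul, q_smul, hQs, hQt, polar_smul_l, polar_smul_r, hst]
      field_simp
      ring
    have hQz0 : Q z ≠ 0 := by rwa [hQz]
    have hwz : bb w z = 0 := by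
      rw [hz, polar_add_r, polar_smul_r, polar_smul_r, hws, hwt]
      ring
    have hzw' : bb z w' = -u := by
      have : w' = w - s := by rw [hs]; abel
      rw [this, polar_sub_r, polar_symm, hwz, hz, polar_add_l, polar_smul_l, polar_smul_l, hss, hts]
      ring
    have h4d : (0 : F) ^ 2 ≠ 4 * d ^ 2 := by
      intro h
      have h5 : (2 * d) * (2 * d) = 0 := by linear_combination -h
      rcases mul_eq_zero.1 h5 with h6 | h6 <;> exact (mul_ne_zero h2 hd) h6
    have hu4 : (bb z w') ^ 2 ≠ 4 * d ^ 2 := by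
      rw [hzw', neg_sq]
      intro h
      have : (u - 2 * d) * (u + 2 * d) = 0 := by linear_combination h
      rcases mul_eq_zero.1 this with h | h
      · exact hu1 (sub_eq_zero.1 h)
      · exact hu2 (eq_neg_of_add_eq_zero_left h)
    have e1 : rf w hw0 * rf w' hw0' = (rf w hw0 * rf z hQz0) * (rf z hQz0 * rf w' hw0') := by
      rw [mul_assoc, ← mul_assoc (rf z hQz0), rf_sq, one_mul]
    rw [e1]
    exact mul_mem (plane_mem_rcGen h2 hw hQz hd (by rw [hwz]; exact h4d) hc hw0 hQz0)
      (plane_mem_rcGen h2 hQz hw' hd hu4 hc hQz0 hw0')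

/-- The character attached to a square class. -/
theorem exists_class_char (h2 : (2 : F) ≠ 0) (hQ : (QuadraticMap.polarBilin Q).Nondegenerate) {c : F} (hc : c ≠ 0) :
    ∃ χ : OG Q →* ℤˣ, ∀ (w : ι → F) (hw : Q w ≠ 0),
      (IsSquare (Q w / c) → χ (rf w hw) = 1) ∧ (¬ IsSquare (Q w / c) → χ (rf w hw) = -1) := by
  classical
  have hgen := rGen_top_odd h2 hQ
  obtain ⟨φ, hφ⟩ := exists_dickson hQ hgen
  obtain ⟨θ, hθ⟩ := exists_theta hQ hgen
  have hchar : ringChar F ≠ 2 := by
    intro h
    apply h2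
    have : CharP F 2 := by rw [← h]; exact ringChar.charP F
    exact CharTwo.two_eq_zero
  have hqc : ∀ w : ι → F, Q w ≠ 0 → (quadraticChar F (Q w) : ℤ) = quadraticChar F (Q w / c) * quadraticChar F c := by
    intro w hw
    rw [← map_mul, div_mul_cancel₀ _ hc]
  have hval : ∀ x : F, x ≠ 0 → (IsSquare x → quadraticChar F x = 1) ∧ (¬ IsSquare x → quadraticChar F x = -1) := by
    intro x hx
    exact ⟨fun h => (quadraticChar_one_iff_isSquare hx).2 h, fun h => (quadraticChar_neg_one_iff_not_isSquare).2 h⟩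
  by_cases hcs : IsSquare c
  · refine ⟨θ, fun w hw => ?_⟩
    have hne : Q w / c ≠ 0 := div_ne_zero hw hc
    have hc1 := (hval c hc).1 hcs
    constructor
    · intro h
      apply Units.ext
      rw [hθ w hw, hqc w hw, (hval _ hne).1 h, hc1]
      rfl
    · intro h
      apply Units.ext
      rw [hθ w hw, hqc w hw, (hval _ hne).2 h, hc1]
      rfl
  · refine ⟨φ * θ, fun w hw => ?_⟩
    have hne : Q w / c ≠ 0 := div_ne_zero hw hc
    have hc1 := (hval c hc).2 hcs
    constructor
    · intro h
      apply Units.ext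
      rw [MonoidHom.mul_apply, hφ, Units.val_mul, hθ w hw, hqc w hw, (hval _ hne).1 h, hc1]
      rfl
    · intro h
      apply Units.ext
      rw [MonoidHom.mul_apply, hφ, Units.val_mul, hθ w hw, hqc w hw, (hval _ hne).2 h, hc1]
      rfl

/-- The index of the subgroup of a square class. -/
theorem rcGen_index (h2 : (2 : F) ≠ 0) (hQ : (QuadraticMap.polarBilin Q).Nondegenerate)
    (hcard : 2 ≤ Fintype.card ι) (heven : Even (Fintype.card ι)) (h43 : ¬ (Fintype.card ι = 4 ∧ Fintype.card F = 3))
    {c : F} (hc : c ≠ 0) : (rcGen Q c).index = 2 := by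
  classical
  have hchar : ringChar F ≠ 2 := by
    intro h
    apply h2
    have : CharP F 2 := by rw [← h]; exact ringChar.charP F
    exact CharTwo.two_eq_zero
  haveI hN := rcGen_normal Q c hc
  obtain ⟨χ, hχ⟩ := exists_class_char h2 hQ hc
  -- a non-square
  obtain ⟨ε, hε⟩ := FiniteField.exists_nonsquare hchar
  have hε0 : ε ≠ 0 := by
    rintro rfl
    exact hε IsSquare.zero
  obtain ⟨w₁, hw₁⟩ := exists_value h2 hQ hcard (c * ε)
  have hw₁0 : Q w₁ ≠ 0 := by
    rw [hw₁]
    exact mul_ne_zero hc hε0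
  have hnon : ¬ IsSquare (Q w₁ / c) := by
    rw [hw₁, mul_div_cancel_left₀ _ hc]
    exact hε
  set r₁ := rf w₁ hw₁0 with hr₁
  have hχ₁ : χ r₁ = -1 := (hχ w₁ hw₁0).2 hnon
  have hR : ∀ g ∈ rcGen Q c, χ g = 1 := by
    have : rcGen Q c ≤ χ.ker := by
      rw [rcGen, Subgroup.closure_le]
      rintro g ⟨v, t, ht, hv, hg⟩
      have hv0 : Q v ≠ 0 := by
        rw [hv]
        exact mul_ne_zero hc (pow_ne_zero _ ht)
      have hg' : g = rf v hv0 := by
        apply Subtype.ext
        apply Units.ext
        exact hg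
      rw [SetLike.mem_coe, MonoidHom.mem_ker, hg']
      apply (hχ v hv0).1
      rw [hv, mul_div_cancel_left₀ _ hc]
      exact ⟨t, by ring⟩
    exact fun g hg => this hg
  -- a reflection outside the class differs from `r₁` by an element of the subgroup
  have hstep : ∀ (v : ι → F) (hv : Q v ≠ 0), rf v hv ∈ rcGen Q c ∨ rf v hv * r₁ ∈ rcGen Q c := by
    intro v hv
    by_cases hs : IsSquare (Q v / c)
    · left
      obtain ⟨t, ht⟩ := hs
      have ht0 : t ≠ 0 := by
        rintro rfl
        rw [mul_zero] at ht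
        exact (div_ne_zero hv hc) ht
      exact rf_mem_rcGen hv ht0 (by
        rw [pow_two, ← ht]
        field_simp)
    · right
      -- the quotient of the two values is a square
      have hqs : IsSquare (Q v / Q w₁) := by
        have h1 : quadraticChar F (Q v / Q w₁) = 1 := by
          have e1 : Q v / Q w₁ * (Q w₁ / c) = Q v / c := by
            field_simp
          have h3 := congrArg (quadraticChar F) e1
          rw [map_mul, (quadraticChar_neg_one_iff_not_isSquare).2 hnon, (quadraticChar_neg_one_iff_not_isSquare).2 hs] at h3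
          linarith
        exact (quadraticChar_one_iff_isSquare (div_ne_zero hv hw₁0)).1 h1
      obtain ⟨σ, hσ⟩ := hqs
      have hσ0 : σ ≠ 0 := by
        rintro rfl
        rw [mul_zero] at hσ
        exact (div_ne_zero hv hw₁0) hσ
      have hQ' : Q (σ⁻¹ • v) = Q w₁ := by
        rw [q_smul]
        have : Q v = σ * σ * Q w₁ := by
          rw [← hσ]
          field_simp
        rw [this]
        field_simp
      have hQ'0 : Q (σ⁻¹ • v) ≠ 0 := by rwa [hQ']
      rw [← rf_smul hv (inv_ne_zero hσ0) hQ'0]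
      exact mul_mem_rcGen h2 hQ heven h43 hQ' rfl hw₁0 hc hQ'0 hw₁0
  have hr₁r₁ : r₁ * r₁ = 1 := rf_sq _ _
  have hall : ∀ g : OG Q, g ∈ rcGen Q c ∨ g * r₁ ∈ rcGen Q c := by
    intro g
    have hg : g ∈ rGen Q ⊤ := by
      rw [rGen_top_odd h2 hQ]
      exact Subgroup.mem_top g
    induction hg using Subgroup.closure_induction with
    | mem x hx =>
      obtain ⟨v, hv, -, rfl⟩ := hx
      exact hstep v hv
    | one => exact Or.inl (one_mem _)
    | mul a b _ _ ha hb =>
      rcases ha with ha | ha <;> rcases hb with hb | hb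
      · exact Or.inl (mul_mem ha hb)
      · right
        rw [mul_assoc]
        exact mul_mem ha hb
      · right
        have : a * b * r₁ = (a * r₁) * (r₁⁻¹ * b * r₁) := by group
        rw [this]
        have h3 : r₁⁻¹ * b * r₁ ∈ rcGen Q c := by
          have := hN.conj_mem b hb r₁⁻¹
          rwa [inv_inv] at this
        exact mul_mem ha h3
      · left
        have : a * b = (a * r₁) * (r₁⁻¹ * (b * r₁) * r₁) * r₁⁻¹ * r₁⁻¹ := by
          rw [show r₁⁻¹ = r₁ from inv_eq_of_mul_eq_one_left hr₁r₁]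
          simp only [mul_assoc, hr₁r₁, mul_one]
          rw [← mul_assoc r₁ r₁, hr₁r₁, one_mul]
        rw [this]
        have h3 : r₁⁻¹ * (b * r₁) * r₁ ∈ rcGen Q c := by
          have := hN.conj_mem (b * r₁) hb r₁⁻¹
          rwa [inv_inv] at this
        have h4 : r₁⁻¹ * r₁⁻¹ = 1 := by
          rw [show r₁⁻¹ = r₁ from inv_eq_of_mul_eq_one_left hr₁r₁, hr₁r₁]
        rw [mul_assoc _ r₁⁻¹ r₁⁻¹, h4, mul_one]
        exact mul_mem ha h3
    | inv a _ ha =>
      rcases ha with ha | ha
      · exact Or.inl (inv_mem ha)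
      · right
        have : a⁻¹ * r₁ = r₁⁻¹ * (a * r₁)⁻¹ * r₁ := by
          rw [show r₁⁻¹ = r₁ from inv_eq_of_mul_eq_one_left hr₁r₁]
          rw [_root_.mul_inv_rev, show r₁⁻¹ = r₁ from inv_eq_of_mul_eq_one_left hr₁r₁]
          simp only [mul_assoc, hr₁r₁, mul_one]
          rw [← mul_assoc r₁ r₁, hr₁r₁, one_mul]
        rw [this]
        have := hN.conj_mem _ (inv_mem ha) r₁⁻¹
        rwa [inv_inv] at this
  rw [Subgroup.index_eq_two_iff]
  refine ⟨r₁, fun g => ?_⟩
  by_cases hg : g ∈ rcGen Q c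
  · refine Or.inr ⟨hg, ?_⟩
    intro h
    have h3 := hR _ h
    rw [map_mul, hR g hg, hχ₁] at h3
    simp at h3
  · refine Or.inl ⟨(hall g).resolve_left hg, hg⟩

end Cfsg.Agent.Lib.Classical
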