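import Mathlib
import Cfsg.Agent.Lib.Classical.OrthRc
import Cfsg.Agent.Lib.Classical.PSL2Simple
import Cfsg.Agent.Lib.Classical.SL2Local
import Cfsg.Agent.Lib.Classical.OrthOrder
import Cfsg.Agent.Lib.Classical.OrthMinus

/-! Framework for the isomorphisms between low dimensional orthogonal groups and linear groups. -/

set_option autoImplicit false
set_option linter.unusedSimpArgs false
set_option linter.unusedVariables false
set_option linter.unusedSectionVars false
set_option linter.style.haveILetI false

namespace Cfsg.Agent.Lib.Classical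

open Matrix Module

/-- A surjection with central kernel onto a subgroup induces an isomorphism of central quotients, when
the central quotient of the source has trivial centre. -/
theorem quotient_center_equiv {G H : Type*} [Group G] [Group H] (φ : G →* H) (K : Subgroup H) (hrange : φ.range = K)
    (hker : φ.ker ≤ Subgroup.center G)
    (hcent : ∀ x : G, (∀ g : G, x * g * x⁻¹ * g⁻¹ ∈ Subgroup.center G) → x ∈ Subgroup.center G) :
    Nonempty (K ⧸ Subgroup.center K ≃* G ⧸ Subgroup.center G) := by
  subst hrange
  let π : G →* φ.range ⧸ Subgroup.center φ.range := (QuotientGroup.mk' _).comp φ.rangeRestrict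
  have hsurj : Function.Surjective π := (QuotientGroup.mk'_surjective _).comp φ.rangeRestrict_surjective
  have hk : π.ker = Subgroup.center G := by
    ext x
    rw [MonoidHom.mem_ker]
    constructor
    · intro hx
      have hxc : φ.rangeRestrict x ∈ Subgroup.center φ.range := (QuotientGroup.eq_one_iff _).1 hx
      apply hcent
      intro g
      apply hker
      have h1 := (Subgroup.mem_center_iff.1 hxc) (φ.rangeRestrict g)
      have h2 : φ g * φ x = φ x * φ g := congrArg Subtype.val h1
      rw [MonoidHom.mem_ker, map_mul, map_mul, map_mul, map_inv, map_inv, ← h2]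
      group
    · intro hx
      apply (QuotientGroup.eq_one_iff _).2
      rw [Subgroup.mem_center_iff]
      rintro ⟨_, g, rfl⟩
      apply Subtype.ext
      change φ g * φ x = φ x * φ g
      rw [← map_mul, ← map_mul, (Subgroup.mem_center_iff.1 hx) g]
  exact ⟨((QuotientGroup.quotientMulEquivOfEq hk.symm).trans (QuotientGroup.quotientKerEquivOfSurjective π hsurj)).symm⟩

variable {F : Type*} [Field F] {ι : Type} [Fintype ι] [DecidableEq ι] {Q : QuadraticForm F (ι → F)}

local notation "bb" => QuadraticMap.polar (DFunLike.coe Q)

/-- A representation preserving a quadratic form gives a homomorphism to the isometry group. -/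
noncomputable def ogRep {G : Type*} [Group G] (f : G →* ((ι → F) →ₗ[F] (ι → F))) (hf : ∀ g v, Q (f g v) = Q v) :
    G →* OG Q :=
  MonoidHom.codRestrict
    (((LinearMap.toMatrixAlgEquiv' (R := F) (n := ι)).toMulEquiv.toMonoidHom.comp f).toHomUnits)
    (Cfsg.isometryGroup F (⇑Q)) (by
      intro g u _
      change Q ((LinearMap.toMatrix' (f g)) *ᵥ u) = Q u
      rw [LinearMap.toMatrix'_mulVec, hf])

theorem oM_ogRep {G : Type*} [Group G] (f : G →* ((ι → F) →ₗ[F] (ι → F))) (hf : ∀ g v, Q (f g v) = Q v) (g : G)
    (v : ι → F) : oM (ogRep f hf g) *ᵥ v = f g v := by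
  change (LinearMap.toMatrix' (f g)) *ᵥ v = f g v
  rw [LinearMap.toMatrix'_mulVec]

theorem ogRep_eq_one {G : Type*} [Group G] {f : G →* ((ι → F) →ₗ[F] (ι → F))} {hf : ∀ g v, Q (f g v) = Q v} {g : G}
    (h : ogRep f hf g = 1) (v : ι → F) : f g v = v := by
  rw [← oM_ogRep f hf, h, oM_one]

/-- Squares lie in the commutator subgroup (odd characteristic). -/
theorem sq_mem_commutator [Fintype F] (h2 : (2 : F) ≠ 0) (hQ : (QuadraticMap.polarBilin Q).Nondegenerate)
    (hcard : 2 ≤ Fintype.card ι) (g : OG Q) : g * g ∈ commutator (OG Q) := by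
  have hgen := rGen_top_odd h2 hQ
  obtain ⟨φ, hφ⟩ := exists_dickson hQ hgen
  obtain ⟨θ, hθ⟩ := exists_theta' hQ hgen
  rw [mem_commutator_odd h2 hQ hcard hφ hθ, map_mul, map_mul]
  exact ⟨Int.units_mul_self _, Int.units_mul_self _⟩

/-- A homomorphism from `SL_n` has image in the commutator subgroup (odd characteristic). -/
theorem sl_map_mem_commutator_odd [Fintype F] (h2 : (2 : F) ≠ 0) (hQ : (QuadraticMap.polarBilin Q).Nondegenerate)
    (hcard : 2 ≤ Fintype.card ι) {κ : Type*} [Fintype κ] [DecidableEq κ]
    (ρ : Matrix.SpecialLinearGroup κ F →* OG Q) (M : Matrix.SpecialLinearGroup κ F) : ρ M ∈ commutator (OG Q) := by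
  refine sl_transvection_induction (fun M => ρ M ∈ commutator (OG Q)) ?_ (by simp) ?_ M
  · intro i j hij a
    have h : Matrix.SpecialLinearGroup.transvection hij a =
        Matrix.SpecialLinearGroup.transvection hij (a / 2) * Matrix.SpecialLinearGroup.transvection hij (a / 2) := by
      apply Subtype.ext
      simp only [Matrix.SpecialLinearGroup.coe_mul, Matrix.SpecialLinearGroup.transvection_coe]
      have e1 : (Matrix.single i j (a / 2) : Matrix κ κ F) * Matrix.single i j (a / 2) = 0 :=
        single_mul_single_of_ne _ _ _ _ hij.symm _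
      rw [add_mul, one_mul, mul_add, mul_one, e1, add_zero, add_assoc, ← Matrix.single_add]
      congr 2
      field_simp
      ring
    rw [h, map_mul]
    exact sq_mem_commutator h2 hQ hcard _
  · intro A B hA hB
    rw [map_mul]
    exact mul_mem hA hB

theorem range_le_commutator_of_perfect {G : Type*} [Group G] (h : commutator G = ⊤) (ρ : G →* OG Q) :
    ρ.range ≤ commutator (OG Q) := by
  rw [MonoidHom.range_eq_map, ← h, commutator_def, commutator_def, Subgroup.map_commutator]
  apply Subgroup.commutator_mono le_top le_top

/-- The main recognition theorem. -/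
theorem pomega_equiv_of_rep [Fintype F] {G : Type*} [Group G] [Finite G] (ρ : G →* OG Q)
    (hQ : (QuadraticMap.polarBilin Q).Nondegenerate) (hcard : 2 ≤ Fintype.card ι)
    (hO : Nat.card (OG Q) = 2 * Nat.card G) (hle : ρ.range ≤ commutator (OG Q)) {z₀ : G}
    (hz : ∀ g, ρ g = 1 → g = 1 ∨ g = z₀) (hz0 : z₀ ∈ Subgroup.center G) (hzeven : (2 : F) = 0 → z₀ = 1)
    (hcent : ∀ x : G, (∀ g : G, x * g * x⁻¹ * g⁻¹ ∈ Subgroup.center G) → x ∈ Subgroup.center G) :
    Nonempty (↥(commutator (OG Q)) ⧸ Subgroup.center ↥(commutator (OG Q)) ≃* G ⧸ Subgroup.center G) := by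
  classical
  have hker : ρ.ker ≤ Subgroup.center G := by
    intro g hg
    rcases hz g hg with h | h
    · rw [h]
      exact one_mem _
    · rw [h]
      exact hz0
  apply quotient_center_equiv ρ _ _ hker hcent
  have hr := Subgroup.card_mul_index ρ.ker
  rw [Subgroup.index_ker] at hr
  have hGpos : 0 < Nat.card G := Nat.card_pos
  by_cases h2 : (2 : F) = 0
  · -- characteristic two: the kernel is trivial, the image has index two
    have hk1 : Nat.card ρ.ker = 1 := by
      have : ρ.ker = ⊥ := by
        rw [eq_bot_iff]
        intro g hg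
        rcases hz g hg with h | h
        · exact h
        · rw [h, hzeven h2]
          exact one_mem _
      rw [this]
      simp
    rw [hk1, one_mul] at hr
    have hidx : ρ.range.index = 2 := by
      have := Subgroup.card_mul_index ρ.range
      rw [hO, ← hr] at this
      have hpos : 0 < Nat.card ρ.range := Nat.card_pos
      have h3 : Nat.card ρ.range * ρ.range.index = Nat.card ρ.range * 2 := by
        rw [this]
        ring
      exact Nat.eq_of_mul_eq_mul_left hpos h3
    exact le_antisymm hle (commutator_le_of_index_two hidx)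
  · -- odd characteristic
    have hfin : Finite (OG Q) := by
      apply Nat.finite_of_card_ne_zero
      rw [hO]
      omega
    have hidx := index_commutator_odd h2 hQ hcard
    have hc := Subgroup.card_mul_index (commutator (OG Q))
    rw [hidx, hO] at hc
    have hk2 : Nat.card ρ.ker ≤ 2 := by
      have : (ρ.ker : Set G) ⊆ {1, z₀} := by
        intro g hg
        rcases hz g hg with h | h
        · simp [h]
        · simp [h]
      have h3 := Set.ncard_le_ncard this (Set.toFinite _)
      have h4 := Set.ncard_insert_le (1 : G) {z₀}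
      rw [Set.ncard_singleton] at h4
      rw [← Nat.card_coe_set_eq] at h3
      exact h3.trans h4
    apply Subgroup.eq_of_le_of_card_ge hle
    have hkpos : 0 < Nat.card ρ.ker := Nat.card_pos
    nlinarith
  
end Cfsg.Agent.Lib.Classical
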