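import Mathlib
import Cfsg.Agent.Lib.AutPOm.Inst
import Cfsg.Agent.Lib.Quad.Similar

/-! Counting the semilinear automorphisms of `PΩ`. -/

set_option autoImplicit false
set_option linter.unusedSimpArgs false
set_option linter.unusedVariables false
set_option linter.unusedSectionVars false

namespace Cfsg.Agent.Lib.APOCount

open Matrix Module MulAction Cfsg.Agent.Lib.Classical Cfsg.Agent.Lib.AutPOm
open Cfsg.Agent.Lib.AutPSL (sm sm_add sm_smul sm_symm_sm sm_sm_symm glMap glMap_coe)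
open scoped LinearAlgebra.Projectivization MatrixGroups

variable {F : Type*} [Field F] {ι : Type} [Fintype ι] [DecidableEq ι] {Q : QuadraticForm F (ι → F)}

local notation "bb" => QuadraticMap.polar (DFunLike.coe Q)
local notation "VV" => (ι → F)
local notation "MM" => Matrix ι ι F

section good

variable [Fintype F] [h : Good Q]

/-- A linear map fixing all singular points is a scalar. -/
theorem lin_scalar_of_fix (K : MM)
    (hg : ∀ u : VV, u ≠ 0 → Q u = 0 → ∃ c : F, K *ᵥ u = c • u) : ∃ l : F, ∀ x : VV, K *ᵥ x = l • x := by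
  have hQ := h.nd
  have hn := h.big
  have hind : ∀ {u v : VV} {c d : F}, u ≠ 0 → Q u = 0 → Q v = 0 → bb u v = 0 → K *ᵥ u = c • u → K *ᵥ v = d • v → v ≠ 0 →
      c = d := by
    intro u v c d hu huu hvv huv h1 h2 hv0
    by_cases hdep : ∃ t : F, v = t • u
    · obtain ⟨t, rfl⟩ := hdep
      have ht : t ≠ 0 := by
        rintro rfl
        exact hv0 (zero_smul _ _)
      rw [mulVec_smul, h1, smul_smul, smul_smul] at h2
      have h3 : (t * c - d * t) • u = 0 := by
        rw [sub_smul, h2, sub_self]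
      have h4 := (smul_eq_zero.1 h3).resolve_right hu
      apply mul_left_cancel₀ ht
      linear_combination h4
    · push Not at hdep
      have hs : u + v ≠ 0 := by
        intro h0
        apply hdep (-1)
        rw [neg_one_smul]
        exact (eq_neg_of_add_eq_zero_right h0)
      have hQs : Q (u + v) = 0 := by rw [q_add, huu, hvv, huv]; ring
      obtain ⟨e, he⟩ := hg _ hs hQs
      rw [mulVec_add, h1, h2, smul_add] at he
      have h5 : (c - e) • u = (e - d) • v := by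
        rw [sub_smul, sub_smul]
        have : c • u - e • u = e • v - d • v := by
          rw [sub_eq_sub_iff_add_eq_add, he]
          abel
        exact this
      by_cases hed : e = d
      · subst hed
        rw [sub_self, zero_smul] at h5
        have h6 := (smul_eq_zero.1 h5).resolve_right hu
        exact sub_eq_zero.1 h6
      · exfalso
        apply hdep ((e - d)⁻¹ * (c - e))
        rw [← smul_smul, h5, smul_smul, inv_mul_cancel₀ (sub_ne_zero.2 hed), one_smul]
  obtain ⟨y₀, z₀, hy₀, hz₀, h0, -, -, -, -⟩ := exists_hyp_perp2 hQ hn (0 : ι → F) 0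
  have hy₀0 : y₀ ≠ 0 := by
    rintro rfl
    rw [polar_zero_l] at h0
    exact zero_ne_one h0
  obtain ⟨l, hl⟩ := hg y₀ hy₀0 hy₀
  have hsing : ∀ s, Q s = 0 → K *ᵥ s = l • s := by
    intro s hs
    by_cases hs0 : s = 0
    · rw [hs0, mulVec_zero, smul_zero]
    obtain ⟨d, hd⟩ := hg s hs0 hs
    obtain ⟨y, z, hy, hz, hyz, h1, h2, -, -⟩ := exists_hyp_perp2 hQ hn y₀ s
    have hy0 : y ≠ 0 := by
      rintro rfl
      rw [polar_zero_l] at hyz
      exact zero_ne_one hyz
    obtain ⟨e, he⟩ := hg y hy0 hy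
    have h3 := hind hy₀0 hy₀ hy h1 hl he hy0
    have h4 := hind hs0 hs hy h2 hd he hy0
    rw [hd, h4, h3]
  refine ⟨l, fun x => ?_⟩
  obtain ⟨s₁, s₂, s₃, h₁, h₂, h₃, hw, -, -, -⟩ := exists_three_singular hQ hn x x
  rw [hw, mulVec_add, mulVec_add, hsing _ h₁, hsing _ h₂, hsing _ h₃, smul_add, smul_add]

/-- A semilinear similarity acting trivially on `PΩ` fixes the singular points. -/
theorem eig_of_eq_one {K : GL ι F} {ρ : F ≃+* F} (hs : Cfsg.IsSemisimilarityPair (⇑Q) K ρ) (h1 : psemiO K ρ hs = 1)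
    (v : VV) (hv : v ≠ 0) (hvv : Q v = 0) : ∃ c : F, c ≠ 0 ∧ (K : MM) *ᵥ sm ρ v = c • v := by
  obtain ⟨c₀, hc₀⟩ := semi_Q hs
  have hg0 : (K : MM) *ᵥ sm ρ v ≠ 0 := by
    intro h0
    have h2 := congrArg (fun w => ((K⁻¹ : GL ι F) : MM) *ᵥ w) h0
    simp only [gl_inv_mul, Matrix.mulVec_zero] at h2
    apply hv
    funext i
    have := congrFun h2 i
    exact (map_eq_zero_iff ρ ρ.injective).1 this
  have hgQ : Q ((K : MM) *ᵥ sm ρ v) = 0 := by
    rw [hc₀, hvv, map_zero, mul_zero]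
  have hle : P (spMk hv hvv : SPt Q) ≤ P (spMk hg0 hgQ : SPt Q) := by
    intro r hr
    obtain ⟨A, rfl⟩ := pr_surj r
    obtain ⟨a, ha⟩ := (mem_P_iff hv hvv).1 hr
    have h2 : psemiO K ρ hs (pr A) = pr A := by
      rw [h1]
      rfl
    rw [← h2, psemiO_pr, mem_P_iff]
    refine ⟨ρ a, ?_⟩
    rw [mt_omSemi, ha, sm_smul, Matrix.mulVec_smul]
  have heq : P (spMk hv hvv : SPt Q) = P (spMk hg0 hgQ : SPt Q) := by
    by_contra hne
    exact (isCoatom_P (spMk hg0 hgQ : SPt Q)).1 ((isCoatom_P (spMk hv hvv : SPt Q)).2 _ (lt_of_le_of_ne hle hne))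
  have h3 := P_inj heq
  rw [spMk_eq_iff] at h3
  obtain ⟨c, hc, hc2⟩ := h3
  refine ⟨c⁻¹, inv_ne_zero hc, ?_⟩
  have h4 : (K : MM) *ᵥ sm ρ v = c⁻¹ • (c • (K : MM) *ᵥ sm ρ v) := by
    rw [smul_smul, inv_mul_cancel₀ hc, one_smul]
  rw [hc2] at h4
  exact h4

/-- Two orthogonal independent singular vectors which are eigenvectors of a semilinear map have the same eigenvalue. -/
theorem eig_eq_of_orth {K : GL ι F} {ρ : F ≃+* F} (hs : Cfsg.IsSemisimilarityPair (⇑Q) K ρ) (h1 : psemiO K ρ hs = 1)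
    {u v : VV} {c d : F} (hu : u ≠ 0) (huu : Q u = 0) (hvv : Q v = 0) (huv : bb u v = 0) (hdep : ∀ t : F, v ≠ t • u)
    (h2 : (K : MM) *ᵥ sm ρ u = c • u) (h3 : (K : MM) *ᵥ sm ρ v = d • v) : c = d := by
  have hs0 : u + v ≠ 0 := by
    intro h0
    apply hdep (-1)
    rw [neg_one_smul]
    exact (eq_neg_of_add_eq_zero_right h0)
  have hQs : Q (u + v) = 0 := by rw [q_add, huu, hvv, huv]; ring
  obtain ⟨e, -, he⟩ := eig_of_eq_one hs h1 _ hs0 hQs
  rw [sm_add, mulVec_add, h2, h3, smul_add] at he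
  have h5 : (c - e) • u = (e - d) • v := by
    rw [sub_smul, sub_smul]
    have : c • u - e • u = e • v - d • v := by
      rw [sub_eq_sub_iff_add_eq_add, he]
      abel
    exact this
  by_cases hed : e = d
  · subst hed
    rw [sub_self, zero_smul] at h5
    have h6 := (smul_eq_zero.1 h5).resolve_right hu
    exact sub_eq_zero.1 h6
  · exfalso
    apply hdep ((e - d)⁻¹ * (c - e))
    rw [← smul_smul, h5, smul_smul, inv_mul_cancel₀ (sub_ne_zero.2 hed), one_smul]

/-- The kernel of the map to the automorphisms. -/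
theorem eq_one_imp {K : GL ι F} {ρ : F ≃+* F} (hs : Cfsg.IsSemisimilarityPair (⇑Q) K ρ) (h1 : psemiO K ρ hs = 1) :
    ρ = RingEquiv.refl F ∧ ∃ c : F, c ≠ 0 ∧ (K : MM) = c • (1 : MM) := by
  obtain ⟨y, z, hy, hz, hyz, -, -, -, -⟩ := exists_hyp_perp2 h.nd h.big (0 : VV) 0
  have hy0 : y ≠ 0 := by
    rintro rfl
    rw [polar_zero_l] at hyz
    exact zero_ne_one hyz
  obtain ⟨y', z', hy', hz', hyz', h4, -, h6, -⟩ := exists_hyp_perp2 h.nd h.big y z
  have hy'0 : y' ≠ 0 := by
    rintro rfl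
    rw [polar_zero_l] at hyz'
    exact zero_ne_one hyz'
  obtain ⟨c, hc0, hc⟩ := eig_of_eq_one hs h1 y hy0 hy
  obtain ⟨d, -, hd⟩ := eig_of_eq_one hs h1 y' hy'0 hy'
  have hdep : ∀ t : F, y' ≠ t • y := by
    rintro t rfl
    rw [polar_smul_l, h6, mul_zero] at hyz'
    exact zero_ne_one hyz'
  have hcd : c = d := eig_eq_of_orth hs h1 hy0 hy hy' h4 hdep hc hd
  have hρ : ρ = RingEquiv.refl F := by
    ext a
    show ρ a = a
    by_cases ha : a = 0
    · rw [ha, map_zero]
    have hay0 : a • y ≠ 0 := smul_ne_zero ha hy0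
    have hayQ : Q (a • y) = 0 := by rw [q_smul, hy, mul_zero]
    obtain ⟨e, -, he⟩ := eig_of_eq_one hs h1 (a • y) hay0 hayQ
    have hde : ∀ t : F, y' ≠ t • (a • y) := by
      intro t
      rw [smul_smul]
      exact hdep _
    have hpol : bb (a • y) y' = 0 := by rw [polar_smul_l, h4, mul_zero]
    have hed : e = d := eig_eq_of_orth hs h1 hay0 hayQ hy' hpol hde he hd
    rw [sm_smul, Matrix.mulVec_smul, hc, hed, ← hcd, smul_smul, smul_smul] at he
    have h7 : (ρ a * c - c * a) • y = 0 := by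
      rw [sub_smul, he, sub_self]
    have h8 := (smul_eq_zero.1 h7).resolve_right hy0
    apply mul_right_cancel₀ hc0
    linear_combination h8
  subst hρ
  refine ⟨rfl, ?_⟩
  have hfix : ∀ u : VV, u ≠ 0 → Q u = 0 → ∃ c : F, (K : MM) *ᵥ u = c • u := by
    intro u hu huu
    obtain ⟨c, -, hc⟩ := eig_of_eq_one hs h1 u hu huu
    exact ⟨c, hc⟩
  obtain ⟨l, hl⟩ := lin_scalar_of_fix (K : MM) hfix
  refine ⟨l, ?_, ?_⟩
  · rintro rfl
    apply hy0
    have h2 := hl y
    rw [zero_smul] at h2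
    have h3 := gl_inv_mul K y
    rw [h2, Matrix.mulVec_zero] at h3
    exact h3.symm
  · apply mat_ext_mulVec'
    intro x
    rw [hl, Matrix.smul_mulVec, one_mulVec]

/-- Injectivity up to scalars. -/
theorem psemiO_inj' {M N : GL ι F} {σ τ : F ≃+* F} (hM : Cfsg.IsSemisimilarityPair (⇑Q) M σ)
    (hN : Cfsg.IsSemisimilarityPair (⇑Q) N τ) (e : psemiO M σ hM = psemiO N τ hN) :
    τ = σ ∧ ∃ c : F, c ≠ 0 ∧ (N : MM) = c • (M : MM) := by
  have h1 : (psemiO M σ hM)⁻¹ * psemiO N τ hN = 1 := by rw [e, inv_mul_cancel]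
  rw [psemiO_inv, psemiO_mul] at h1
  obtain ⟨h2, c, hc, h3⟩ := eq_one_imp _ h1
  have hτ : τ = σ := by
    ext a
    have h4 := congrArg (fun r : F ≃+* F => r (σ.symm.symm a)) h2
    have h5 : σ.symm (τ a) = a := by
      have := RingEquiv.congr_fun h2 a
      exact this
    rw [← h5, RingEquiv.apply_symm_apply, h5]
  subst hτ
  refine ⟨rfl, τ c, (map_ne_zero τ).2 hc, ?_⟩
  have h5 : ((M⁻¹ * N : GL ι F) : MM) = τ c • (1 : MM) := by
    have h6 : glMap τ (glMap τ.symm M⁻¹ * glMap τ.symm N) = (M⁻¹ * N : GL ι F) := by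
      rw [map_mul, glMap_glMap_symm, glMap_glMap_symm]
    rw [← h6, glMap_coe, h3]
    ext i j
    by_cases hij : i = j <;> simp [hij, Matrix.one_apply]
  have h7 : (N : MM) = (M : MM) * ((M⁻¹ * N : GL ι F) : MM) := by
    rw [← Units.val_mul, mul_inv_cancel_left]
  rw [h7, h5, Matrix.mul_smul, mul_one]

/-- Scalars act trivially. -/
theorem psemiO_smul_eq' {M N : GL ι F} {σ : F ≃+* F} (hM : Cfsg.IsSemisimilarityPair (⇑Q) M σ)
    (hN : Cfsg.IsSemisimilarityPair (⇑Q) N σ) {c : F} (hc : c ≠ 0) (e : (N : MM) = c • (M : MM)) :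
    psemiO N σ hN = psemiO M σ hM := by
  ext x
  obtain ⟨A, rfl⟩ := pr_surj x
  rw [psemiO_pr, psemiO_pr]
  congr 1
  apply mt_ext
  intro w
  have hw : w = (M : MM) *ᵥ sm σ (sm σ.symm (((M⁻¹ : GL ι F) : MM) *ᵥ w)) := by
    rw [sm_sm_symm, gl_mul_inv]
  set x := sm σ.symm (((M⁻¹ : GL ι F) : MM) *ᵥ w) with hx
  have h1 := mt_omSemi M σ hM A x
  have h2 := mt_omSemi N σ hN A x
  rw [e, Matrix.smul_mulVec, Matrix.smul_mulVec, Matrix.mulVec_smul, ← hw] at h2
  rw [← hw] at h1
  rw [h1]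
  have h3 : c • (mt (omSemi N σ hN A) *ᵥ w) = c • ((M : MM) *ᵥ sm σ (mt A *ᵥ x)) := h2
  exact smul_right_injective _ hc h3

end good

/-! ### The similarity group -/

/-- The similarity group. -/
def goSub (Q : QuadraticForm F (ι → F)) : Subgroup (GL ι F) where
  carrier := {M | ∃ c : Fˣ, ∀ v : ι → F, Q ((M : Matrix ι ι F) *ᵥ v) = (c : F) * Q v}
  mul_mem' := by
    rintro M N ⟨c, hc⟩ ⟨d, hd⟩
    refine ⟨c * d, fun v => ?_⟩
    rw [Units.val_mul, ← Matrix.mulVec_mulVec, hc, hd, Units.val_mul]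
    ring
  one_mem' := ⟨1, fun v => by simp⟩
  inv_mem' := by
    rintro M ⟨c, hc⟩
    refine ⟨c⁻¹, fun v => ?_⟩
    have h1 := hc (((M⁻¹ : GL ι F) : MM) *ᵥ v)
    rw [gl_mul_inv] at h1
    rw [h1, ← mul_assoc]
    simp

theorem mem_goSub {M : GL ι F} : M ∈ goSub Q ↔ ∃ c : Fˣ, ∀ v : VV, Q ((M : MM) *ᵥ v) = (c : F) * Q v := Iff.rfl

/-- The set of semisimilarity pairs. -/
def semiO (Q : QuadraticForm F (ι → F)) : Type _ :=
  {x : GL ι F × (F ≃+* F) // Cfsg.IsSemisimilarityPair (⇑Q) x.1 x.2}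

/-- The count of pairs in terms of the similarity group. -/
theorem card_semiO_eq (hex : ∀ σ : F ≃+* F, ∃ M : GL ι F, Cfsg.IsSemisimilarityPair (⇑Q) M σ) :
    Nat.card (semiO Q) = Nat.card (F ≃+* F) * Nat.card (goSub Q) := by
  classical
  choose M₀ hM₀ using hex
  let Ψ : (F ≃+* F) × goSub Q → semiO Q := fun x => ⟨(x.2.1 * M₀ x.1, x.1), by
    obtain ⟨c, hc⟩ := x.2.2
    obtain ⟨d, hd⟩ := semi_Q (hM₀ x.1)
    refine mk_semi (c := c * d) (fun v => ?_)
    show Q (((x.2.1 * M₀ x.1 : GL ι F) : MM) *ᵥ _) = _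
    rw [Units.val_mul, ← Matrix.mulVec_mulVec, hc, hd, Units.val_mul]
    ring⟩
  have hΨ : Function.Bijective Ψ := by
    constructor
    · rintro ⟨σ, N⟩ ⟨τ, N'⟩ h
      have h1 := congrArg Subtype.val h
      simp only [Ψ, Prod.mk.injEq] at h1
      obtain ⟨h2, rfl⟩ := h1
      have h3 := mul_right_cancel h2
      exact Prod.ext rfl (Subtype.ext h3)
    · rintro ⟨⟨M, σ⟩, hs⟩
      have hs' : Cfsg.IsSemisimilarityPair (⇑Q) M σ := hs
      obtain ⟨c, hc⟩ := semi_Q hs'
      obtain ⟨d, hd⟩ := semi_Q (hM₀ σ)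
      have hmem : M * (M₀ σ)⁻¹ ∈ goSub Q := by
        refine ⟨c * d⁻¹, fun v => ?_⟩
        have e : v = ((M₀ σ : GL ι F) : MM) *ᵥ sm σ (sm σ.symm ((((M₀ σ)⁻¹ : GL ι F) : MM) *ᵥ v)) := by
          rw [sm_sm_symm, gl_mul_inv]
        set x := sm σ.symm ((((M₀ σ)⁻¹ : GL ι F) : MM) *ᵥ v) with hx
        rw [e, Units.val_mul, ← Matrix.mulVec_mulVec, gl_inv_mul, hc, hd, Units.val_mul]
        simp only [Units.val_inv_eq_inv_val]
        have := d.ne_zero
        field_simp
      refine ⟨(σ, ⟨M * (M₀ σ)⁻¹, hmem⟩), ?_⟩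
      apply Subtype.ext
      simp [Ψ]
  rw [Nat.card_congr (Equiv.ofBijective Ψ hΨ).symm, Nat.card_prod]

section good

variable [Fintype F] [h : Good Q]

/-- Scalars as elements of the general linear group. -/
noncomputable def scG (c : Fˣ) : GL ι F := Units.map (Matrix.scalar ι : F →+* MM).toMonoidHom c

theorem scG_coe (c : Fˣ) : ((scG c : GL ι F) : MM) = (c : F) • (1 : MM) := by
  ext i j
  simp [scG, Matrix.scalar_apply, Matrix.diagonal_apply, Matrix.one_apply]

theorem semi_scG {M : GL ι F} {σ : F ≃+* F} (c : Fˣ) (hs : Cfsg.IsSemisimilarityPair (⇑Q) M σ) :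
    Cfsg.IsSemisimilarityPair (⇑Q) (scG c * M) σ := by
  obtain ⟨d, hd⟩ := semi_Q hs
  refine mk_semi (c := c * c * d) (fun v => ?_)
  rw [Units.val_mul, scG_coe, Matrix.smul_mul, one_mul, Matrix.smul_mulVec, q_smul, hd]
  simp only [Units.val_mul]
  ring

/-- The number of pairs in terms of the automorphisms. -/
theorem card_semiO_aut (hall : ∀ α : MulAut (Cfsg.Agent.Lib.AutPOm.PO Q), ∃ (M : GL ι F) (σ : F ≃+* F) (hs : Cfsg.IsSemisimilarityPair (⇑Q) M σ),
      α = psemiO M σ hs) :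
    Nat.card (semiO Q) = Nat.card (MulAut (Cfsg.Agent.Lib.AutPOm.PO Q)) * (Fintype.card F - 1) := by
  classical
  choose r rσ rs hr using hall
  let Φ : MulAut (Cfsg.Agent.Lib.AutPOm.PO Q) × Fˣ → semiO Q := fun x => ⟨(scG x.2 * r x.1, rσ x.1), semi_scG x.2 (rs x.1)⟩
  have hne : (Nonempty ι) := by
    by_contra hne
    rw [not_nonempty_iff] at hne
    have := h.big
    simp at this
  obtain ⟨i₀⟩ := hne
  have hΦ : Function.Bijective Φ := by
    constructor
    · rintro ⟨s, c⟩ ⟨s', c'⟩ h1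
      have h2 := congrArg Subtype.val h1
      simp only [Φ, Prod.mk.injEq] at h2
      obtain ⟨h3, h4⟩ := h2
      have hs : s = s' := by
        rw [hr s, hr s']
        have e1 := psemiO_smul_eq' (rs s) (semi_scG c (rs s)) c.ne_zero
          (by rw [Units.val_mul, scG_coe, Matrix.smul_mul, one_mul])
        have e2 := psemiO_smul_eq' (rs s') (semi_scG c' (rs s')) c'.ne_zero
          (by rw [Units.val_mul, scG_coe, Matrix.smul_mul, one_mul])
        rw [← e1, ← e2]
        have e3 : ∀ {A B : GL ι F} {σ τ : F ≃+* F} (h₁ : Cfsg.IsSemisimilarityPair (⇑Q) A σ) (h₂ : Cfsg.IsSemisimilarityPair (⇑Q) B τ),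
            A = B → σ = τ → psemiO A σ h₁ = psemiO B τ h₂ := by
          rintro A B σ τ h₁ h₂ rfl rfl
          rfl
        exact e3 _ _ h3 h4
      subst hs
      refine Prod.ext rfl ?_
      have h5 := mul_right_cancel h3
      apply Units.ext
      have h6 := congrArg (fun g : GL ι F => (g : MM) i₀ i₀) h5
      simpa [scG_coe] using h6
    · rintro ⟨⟨M, σ⟩, hs⟩
      have hs' : Cfsg.IsSemisimilarityPair (⇑Q) M σ := hs
      have h2 := hr (psemiO M σ hs')
      obtain ⟨h3, c, hc0, hc⟩ := psemiO_inj' hs' (rs _) h2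
      refine ⟨(psemiO M σ hs', (Units.mk0 c hc0)⁻¹), Subtype.ext (Prod.ext (Units.ext ?_) h3)⟩
      show ((scG (Units.mk0 c hc0)⁻¹ * r (psemiO M σ hs') : GL ι F) : MM) = (M : MM)
      rw [Units.val_mul, scG_coe, hc, Matrix.smul_mul, one_mul, smul_smul]
      simp [hc0]
  have hcard := Nat.card_congr (Equiv.ofBijective Φ hΦ)
  rw [Nat.card_prod, Nat.card_eq_fintype_card (α := Fˣ), Fintype.card_units] at hcard
  exact hcard.symm

theorem exists_q_ne : ∃ v : VV, Q v = 1 := by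
  obtain ⟨y, z, hy, hz, hyz, -, -, -, -⟩ := exists_hyp_perp2 h.nd h.big (0 : VV) 0
  exact ⟨y + z, by rw [q_add, hy, hz, hyz]; ring⟩

/-- The multiplier of a similarity. -/
noncomputable def muC (M : goSub Q) : Fˣ := Classical.choose M.2

theorem muC_spec (M : goSub Q) (v : VV) : Q ((M.1 : MM) *ᵥ v) = (muC M : F) * Q v :=
  Classical.choose_spec M.2 v

theorem muC_eq {M : goSub Q} {c : Fˣ} (hc : ∀ v : VV, Q ((M.1 : MM) *ᵥ v) = (c : F) * Q v) : muC M = c := by
  obtain ⟨v, hv⟩ := exists_q_ne (Q := Q)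
  apply Units.ext
  have h1 := muC_spec M v
  rw [hc, hv, mul_one, mul_one] at h1
  exact h1.symm

/-- The multiplier homomorphism. -/
noncomputable def muO : goSub Q →* Fˣ where
  toFun := muC
  map_one' := by
    apply muC_eq
    intro v
    simp
  map_mul' M N := by
    apply muC_eq
    intro v
    show Q (((M.1 * N.1 : GL ι F) : MM) *ᵥ v) = _
    rw [Units.val_mul, ← Matrix.mulVec_mulVec, muC_spec M, muC_spec N, Units.val_mul]
    ring

theorem card_goSub : Nat.card (goSub Q) = Nat.card (Cfsg.isometryGroup F (⇑Q)) * Nat.card (muO (Q := Q)).range := by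
  classical
  have hc := Subgroup.card_mul_index (muO (Q := Q)).ker
  rw [Subgroup.index_ker] at hc
  have hk : Nat.card (muO (Q := Q)).ker = Nat.card (Cfsg.isometryGroup F (⇑Q)) := by
    apply Nat.card_congr
    refine ⟨fun s => ⟨s.1.1, ?_⟩, fun A => ⟨⟨A.1, 1, ?_⟩, ?_⟩, ?_, ?_⟩
    · obtain ⟨s, hs⟩ := s
      rw [MonoidHom.mem_ker] at hs
      intro v w
      have h1 := muC_spec s v
      have h2 : muC s = 1 := hs
      rw [h2, Units.val_one, one_mul] at h1
      exact h1
    · intro v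
      show Q ((A.1 : MM) *ᵥ v) = ((1 : Fˣ) : F) * Q v
      rw [Units.val_one, one_mul]
      exact oM_Q A v
    · rw [MonoidHom.mem_ker]
      apply muC_eq
      intro v
      show Q ((A.1 : MM) *ᵥ v) = ((1 : Fˣ) : F) * Q v
      rw [Units.val_one, one_mul]
      exact oM_Q A v
    · intro s
      rfl
    · intro A
      rfl
  rw [hk] at hc
  exact hc.symm

/-- The general count. -/
theorem card_aut_mul (hall : ∀ α : MulAut (Cfsg.Agent.Lib.AutPOm.PO Q), ∃ (M : GL ι F) (σ : F ≃+* F) (hs : Cfsg.IsSemisimilarityPair (⇑Q) M σ),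
      α = psemiO M σ hs) (hex : ∀ σ : F ≃+* F, ∃ M : GL ι F, Cfsg.IsSemisimilarityPair (⇑Q) M σ) :
    Nat.card (MulAut (Cfsg.Agent.Lib.AutPOm.PO Q)) * (Fintype.card F - 1) =
      Nat.card (F ≃+* F) * (Nat.card (Cfsg.isometryGroup F (⇑Q)) * Nat.card (muO (Q := Q)).range) := by
  rw [← card_semiO_aut hall, card_semiO_eq hex, card_goSub]

/-- Even dimension: all multipliers occur. -/
theorem muO_range_even {m : ℕ} (hm : 1 ≤ m) (hι : Fintype.card ι = 2 * m) : (muO (Q := Q)).range = ⊤ := by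
  rw [eq_top_iff]
  intro c _
  obtain ⟨g, hg⟩ := Cfsg.Agent.Lib.Quad.exists_similarity hm (by rw [Module.finrank_fintype_fun_eq_card, hι]) Q
    (Cfsg.Agent.Lib.Quad.NondegQ.of_polarBilin h.nd) c.ne_zero
  let G : GL ι F := ⟨LinearMap.toMatrix' (g : VV →ₗ[F] VV), LinearMap.toMatrix' (g.symm : VV →ₗ[F] VV), by
      rw [← LinearMap.toMatrix'_comp]
      simp, by
      rw [← LinearMap.toMatrix'_comp]
      simp⟩
  have hG : ∀ v : VV, (G : MM) *ᵥ v = g v := by
    intro v
    show LinearMap.toMatrix' (g : VV →ₗ[F] VV) *ᵥ v = g v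
    rw [LinearMap.toMatrix'_mulVec]
    rfl
  have hmem : G ∈ goSub Q := ⟨c, fun v => by rw [hG, hg]⟩
  refine ⟨⟨G, hmem⟩, ?_⟩
  apply muC_eq
  intro v
  rw [show ((⟨G, hmem⟩ : goSub Q).1 : MM) = (G : MM) from rfl, hG, hg]

/-- Odd dimension: multipliers are squares. -/
theorem mult_isSquare (hodd : Odd (Fintype.card ι)) (M : goSub Q) : ∃ d : Fˣ, muC M = d ^ 2 := by
  classical
  set c := muC M with hc
  obtain ⟨k, hk⟩ := hodd
  let G : MM := LinearMap.BilinForm.toMatrix' (QuadraticMap.polarBilin Q)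
  have hG : G.det ≠ 0 := by
    have h1 : (Matrix.toBilin' G).Nondegenerate := by
      simp only [G, Matrix.toBilin'_toMatrix']
      exact h.nd
    exact (LinearMap.BilinForm.nondegenerate_toBilin'_iff_det_ne_zero).1 h1
  have hpol : ∀ u v : VV, bb ((M.1 : MM) *ᵥ u) ((M.1 : MM) *ᵥ v) = (c : F) * bb u v := by
    intro u v
    rw [QuadraticMap.polar, QuadraticMap.polar, ← Matrix.mulVec_add, muC_spec, muC_spec, muC_spec]
    ring
  have hmat : (M.1 : MM)ᵀ * G * (M.1 : MM) = (c : F) • G := by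
    have e1 : (LinearMap.BilinForm.comp (QuadraticMap.polarBilin Q) (Matrix.mulVecLin (M.1 : MM)) (Matrix.mulVecLin (M.1 : MM))) = (c : F) • QuadraticMap.polarBilin Q := by
      refine LinearMap.ext fun u => LinearMap.ext fun v => ?_
      exact hpol u v
    have e2 := congrArg LinearMap.BilinForm.toMatrix' e1
    have e3 : LinearMap.toMatrix' (Matrix.mulVecLin (M.1 : MM)) = (M.1 : MM) := by
      rw [← Matrix.toLin'_apply', LinearMap.toMatrix'_toLin']
    rw [LinearMap.BilinForm.toMatrix'_comp, e3] at e2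
    simpa [G] using e2
  have hdet := congrArg Matrix.det hmat
  rw [Matrix.det_mul, Matrix.det_mul, Matrix.det_transpose, Matrix.det_smul, hk] at hdet
  have h2 : ((M.1 : MM).det) ^ 2 = (c : F) ^ (2 * k + 1) := by
    apply mul_right_cancel₀ hG
    linear_combination hdet
  have hdetne : (M.1 : MM).det ≠ 0 := by
    intro h0
    rw [h0] at h2
    exact pow_ne_zero _ c.ne_zero (by rw [← h2]; ring)
  refine ⟨Units.mk0 ((M.1 : MM).det / (c : F) ^ k) (div_ne_zero hdetne (pow_ne_zero _ c.ne_zero)), ?_⟩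
  apply Units.ext
  rw [Units.val_pow_eq_pow_val, Units.val_mk0, div_pow, h2]
  have := c.ne_zero
  field_simp
  ring

theorem card_range_pow2 (h2 : (2 : F) ≠ 0) : Nat.card (powMonoidHom 2 : Fˣ →* Fˣ).range * 2 = Fintype.card F - 1 := by
  classical
  have hc := Subgroup.card_mul_index (powMonoidHom 2 : Fˣ →* Fˣ).ker
  rw [Subgroup.index_ker, Nat.card_eq_fintype_card (α := Fˣ), Fintype.card_units] at hc
  have hk : Nat.card (powMonoidHom 2 : Fˣ →* Fˣ).ker = 2 := by
    rw [Nat.card_eq_two_iff]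
    have hne : (-1 : Fˣ) ≠ 1 := by
      intro h3
      have h4 := congrArg Units.val h3
      simp only [Units.val_neg, Units.val_one] at h4
      apply h2
      linear_combination -h4
    refine ⟨⟨1, by simp⟩, ⟨-1, by simp [MonoidHom.mem_ker]⟩, ?_, ?_⟩
    · intro h3
      exact hne (congrArg Subtype.val h3).symm
    · ext ⟨x, hx⟩
      simp only [Set.mem_insert_iff, Set.mem_singleton_iff, Set.mem_univ, iff_true, Subtype.mk.injEq]
      rw [MonoidHom.mem_ker, powMonoidHom_apply] at hx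
      have h5 : ((x : F) - 1) * ((x : F) + 1) = 0 := by
        have := congrArg Units.val hx
        simp only [Units.val_pow_eq_pow_val, Units.val_one] at this
        linear_combination this
      rcases mul_eq_zero.1 h5 with h6 | h6
      · left
        apply Units.ext
        simpa using sub_eq_zero.1 h6
      · right
        apply Units.ext
        simpa using eq_neg_of_add_eq_zero_left h6
  rw [hk] at hc
  rw [← hc, mul_comm]

/-- Odd dimension: the multipliers are the squares. -/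
theorem muO_range_odd (hodd : Odd (Fintype.card ι)) (h2 : (2 : F) ≠ 0) :
    Nat.card (muO (Q := Q)).range * 2 = Fintype.card F - 1 := by
  have e : (muO (Q := Q)).range = (powMonoidHom 2 : Fˣ →* Fˣ).range := by
    ext c
    constructor
    · rintro ⟨M, rfl⟩
      obtain ⟨d, hd⟩ := mult_isSquare hodd M
      exact ⟨d, hd.symm⟩
    · rintro ⟨d, rfl⟩
      have hmem : (scG d : GL ι F) ∈ goSub Q := ⟨d ^ 2, fun v => by
        rw [scG_coe, Matrix.smul_mulVec, one_mulVec, q_smul, Units.val_pow_eq_pow_val]⟩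
      refine ⟨⟨scG d, hmem⟩, ?_⟩
      apply muC_eq
      intro v
      rw [show (((⟨scG d, hmem⟩ : goSub Q).1 : GL ι F) : MM) = ((scG d : GL ι F) : MM) from rfl]
      rw [scG_coe, Matrix.smul_mulVec, one_mulVec, q_smul, powMonoidHom_apply, Units.val_pow_eq_pow_val]
  rw [e]
  exact card_range_pow2 h2

end good

/-- The count for the standard forms in even dimension. -/
theorem aut_count_even [Fintype F] {f : (ι → F) → F} (hf : NDQ f) (hbig : 7 ≤ Fintype.card ι)
    (hmax : ∀ (Q : QuadraticForm F (ι → F)) (hQ : ⇑Q = f) (hnd : (QuadraticMap.polarBilin Q).Nondegenerate) (W : Submodule F (ι → F)),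
      TS (Q := Q) W → 2 * Module.finrank F W = Fintype.card ι → 5 ≤ Module.finrank F W)
    (hex : ∀ σ : F ≃+* F, ∃ M : GL ι F, Cfsg.IsSemisimilarityPair f M σ) {m : ℕ} (hm : 1 ≤ m) (hι : Fintype.card ι = 2 * m) :
    Nat.card (MulAut (Cfsg.POmega F f)) = Nat.card (F ≃+* F) * Nat.card (Cfsg.isometryGroup F f) := by
  classical
  obtain ⟨Q', rfl, hnd⟩ := hf
  haveI : Good Q' := ⟨hnd, hbig⟩
  obtain ⟨p, hp⟩ := CharP.exists F
  have : Fact p.Prime := ⟨CharP.char_is_prime F p⟩
  have hM : HMax Q' := fun W hW hle => hmax Q' rfl hnd W hW (two_finrank_of_max hW hle)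
  have h1 := card_aut_mul (Q := Q') (aut_semilinear_O (p := p) hM) hex
  rw [muO_range_even hm hι, Subgroup.card_top, Nat.card_eq_fintype_card (α := Fˣ), Fintype.card_units] at h1
  have hq : 0 < Fintype.card F - 1 := by
    have := Fintype.one_lt_card (α := F)
    omega
  apply Nat.eq_of_mul_eq_mul_right hq
  rw [h1]
  ring

/-- The count for the standard forms in odd dimension. -/
theorem aut_count_odd [Fintype F] {f : (ι → F) → F} (hf : NDQ f) (hbig : 7 ≤ Fintype.card ι)
    (hmax : ∀ (Q : QuadraticForm F (ι → F)) (hQ : ⇑Q = f) (hnd : (QuadraticMap.polarBilin Q).Nondegenerate) (W : Submodule F (ι → F)),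
      TS (Q := Q) W → 2 * Module.finrank F W = Fintype.card ι → 5 ≤ Module.finrank F W)
    (hex : ∀ σ : F ≃+* F, ∃ M : GL ι F, Cfsg.IsSemisimilarityPair f M σ) (hodd : Odd (Fintype.card ι)) (h2 : (2 : F) ≠ 0) :
    2 * Nat.card (MulAut (Cfsg.POmega F f)) = Nat.card (F ≃+* F) * Nat.card (Cfsg.isometryGroup F f) := by
  obtain ⟨Q', rfl, hnd⟩ := hf
  haveI : Good Q' := ⟨hnd, hbig⟩
  obtain ⟨p, hp⟩ := CharP.exists F
  have : Fact p.Prime := ⟨CharP.char_is_prime F p⟩
  have hM : HMax Q' := fun W hW hle => hmax Q' rfl hnd W hW (two_finrank_of_max hW hle)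
  have h1 := card_aut_mul (Q := Q') (aut_semilinear_O (p := p) hM) hex
  have h3 := muO_range_odd (Q := Q') hodd h2
  have hq : 0 < Fintype.card F - 1 := by
    have := Fintype.one_lt_card (α := F)
    omega
  have hr : 0 < Nat.card (muO (Q := Q')).range := Nat.card_pos
  rw [← h3] at h1 hq
  have h4 : Nat.card (MulAut (Cfsg.POmega F ⇑Q')) * 2 * Nat.card (muO (Q := Q')).range =
      Nat.card (F ≃+* F) * Nat.card (Cfsg.isometryGroup F ⇑Q') * Nat.card (muO (Q := Q')).range := by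
    calc _ = Nat.card (MulAut (Cfsg.POmega F ⇑Q')) * (Nat.card (muO (Q := Q')).range * 2) := by ring
      _ = _ := h1
      _ = _ := by ring
  have h5 := Nat.eq_of_mul_eq_mul_right hr h4
  rw [← h5]
  ring

end Cfsg.Agent.Lib.APOCount
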