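import Mathlib

/-! A quadratic extension of a finite field with explicit coordinates, attached to an anisotropic binary
form `z₁² + a z₁ z₂ + b z₂²`. -/

set_option autoImplicit false
set_option linter.unusedSimpArgs false
set_option linter.unusedVariables false
set_option linter.unusedSectionVars false
set_option linter.style.haveILetI false

namespace Cfsg.Agent.Lib.Classical

open Polynomial

/-- Coordinates in a quadratic extension. -/
structure QExt (F K : Type*) [Field F] [Field K] [Algebra F K] (a b : F) where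
  ω : K
  σ : K →ₐ[F] K
  re : K →ₗ[F] F
  im : K →ₗ[F] F
  hω : ω * ω = algebraMap F K a * ω - algebraMap F K b
  hσ : σ ω = algebraMap F K a - ω
  hdec : ∀ x, x = algebraMap F K (re x) + algebraMap F K (im x) * ω
  hre : ∀ z₁ z₂, re (algebraMap F K z₁ + algebraMap F K z₂ * ω) = z₁
  him : ∀ z₁ z₂, im (algebraMap F K z₁ + algebraMap F K z₂ * ω) = z₂
  hfix : ∀ x, σ x = x → im x = 0

namespace QExt

variable {F K : Type*} [Field F] [Field K] [Algebra F K] {a b : F} (D : QExt F K a b)

/-- The vector with coordinates `z₁, z₂`. -/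
def vec (z₁ z₂ : F) : K := algebraMap F K z₁ + algebraMap F K z₂ * D.ω

theorem σ_vec (z₁ z₂ : F) : D.σ (D.vec z₁ z₂) = algebraMap F K (z₁ + a * z₂) - algebraMap F K z₂ * D.ω := by
  simp only [vec, map_add, map_mul, AlgHom.commutes, D.hσ, mul_sub]
  ring

theorem norm_vec (z₁ z₂ : F) : D.vec z₁ z₂ * D.σ (D.vec z₁ z₂) = algebraMap F K (z₁ ^ 2 + a * z₁ * z₂ + b * z₂ ^ 2) := by
  rw [σ_vec]
  simp only [vec, map_add, map_mul, map_pow]
  have h := D.hω
  linear_combination (-(algebraMap F K z₂) ^ 2) * h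

theorem σ_σ (x : K) : D.σ (D.σ x) = x := by
  rw [D.hdec x]
  simp only [map_add, map_mul, AlgHom.commutes, D.hσ, map_sub]
  ring

theorem vec_re_im (x : K) : D.vec (D.re x) (D.im x) = x := (D.hdec x).symm

theorem σ_re_im (x : K) : x * D.σ x = algebraMap F K ((D.re x) ^ 2 + a * D.re x * D.im x + b * (D.im x) ^ 2) := by
  conv_lhs => rw [← D.vec_re_im x]
  exact D.norm_vec _ _

theorem of_fixed {x : K} (h : D.σ x = x) : algebraMap F K (D.re x) = x := by
  conv_rhs => rw [D.hdec x, D.hfix x h]
  simp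

end QExt

variable {F : Type*} [Field F]

section build

variable {K : Type*} [Field K] [Algebra F K] [Fintype F] [Fintype K]

/-- Build the coordinates. -/
theorem QExt.nonempty_of_root {a b : F} (hab : ∀ z₁ z₂ : F, z₁ ^ 2 + a * z₁ * z₂ + b * z₂ ^ 2 = 0 → z₁ = 0 ∧ z₂ = 0)
    (hK : Fintype.card K = Fintype.card F ^ 2) (ω : K) (hω : ω * ω = algebraMap F K a * ω - algebraMap F K b) :
    Nonempty (QExt F K a b) := by
  classical
  let Φ : (F × F) →ₗ[F] K :=
    { toFun := fun z => algebraMap F K z.1 + algebraMap F K z.2 * ω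
      map_add' := by
        intro x y
        simp only [Prod.fst_add, Prod.snd_add, map_add]
        ring
      map_smul' := by
        intro c x
        change algebraMap F K (c * x.1) + algebraMap F K (c * x.2) * ω = c • (algebraMap F K x.1 + algebraMap F K x.2 * ω)
        rw [Algebra.smul_def]
        simp only [map_mul]
        ring }
  have hΦ : ∀ z, Φ z = algebraMap F K z.1 + algebraMap F K z.2 * ω := fun z => rfl
  have hnorm : ∀ z₁ z₂ : F, (algebraMap F K z₁ + algebraMap F K z₂ * ω) * (algebraMap F K (z₁ + a * z₂) - algebraMap F K z₂ * ω) =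
      algebraMap F K (z₁ ^ 2 + a * z₁ * z₂ + b * z₂ ^ 2) := by
    intro z₁ z₂
    simp only [map_add, map_mul, map_pow]
    linear_combination (-(algebraMap F K z₂) ^ 2) * hω
  have hinj : Function.Injective Φ := by
    rw [injective_iff_map_eq_zero]
    rintro ⟨z₁, z₂⟩ hz
    rw [hΦ] at hz
    simp only at hz
    have h1 := hnorm z₁ z₂
    rw [hz, zero_mul] at h1
    have h2 := hab z₁ z₂ ((map_eq_zero _).1 h1.symm)
    exact Prod.ext h2.1 h2.2
  have hbij : Function.Bijective Φ := by
    rw [Fintype.bijective_iff_injective_and_card]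
    refine ⟨hinj, ?_⟩
    rw [Fintype.card_prod, hK]
    ring
  let e : (F × F) ≃ₗ[F] K := LinearEquiv.ofBijective Φ hbij
  have he : ∀ z, e z = Φ z := fun z => rfl
  let τ : (F × F) →ₗ[F] (F × F) :=
    { toFun := fun z => (z.1 + a * z.2, - z.2)
      map_add' := by
        intro x y
        ext <;> simp <;> ring
      map_smul' := by
        intro c x
        ext <;> simp <;> ring }
  have hτ : ∀ z, τ z = (z.1 + a * z.2, - z.2) := fun z => rfl
  let L : K →ₗ[F] K := (e : (F × F) →ₗ[F] K) ∘ₗ τ ∘ₗ (e.symm : K →ₗ[F] (F × F))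
  have hL : ∀ z, L (Φ z) = Φ (τ z) := by
    intro z
    change e (τ (e.symm (e z))) = _
    rw [e.symm_apply_apply, he]
  have hsurj : ∀ x : K, ∃ z, x = Φ z := fun x => ⟨e.symm x, (e.apply_symm_apply x).symm⟩
  have hmulΦ : ∀ z w, Φ z * Φ w = Φ (z.1 * w.1 - b * z.2 * w.2, z.1 * w.2 + z.2 * w.1 + a * z.2 * w.2) := by
    intro z w
    simp only [hΦ, map_add, map_sub, map_mul]
    linear_combination (algebraMap F K z.2 * algebraMap F K w.2) * hω
  have hone : Φ (1, 0) = 1 := by
    rw [hΦ]
    simp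
  let σ : K →ₐ[F] K := AlgHom.ofLinearMap L (by
    rw [← hone, hL, hτ]
    simp [hΦ]) (by
    intro x y
    obtain ⟨z, rfl⟩ := hsurj x
    obtain ⟨w, rfl⟩ := hsurj y
    rw [hmulΦ, hL, hL, hL, hτ, hτ, hτ, hmulΦ]
    congr 1
    ext <;> simp <;> ring)
  have hσ : ∀ z, σ (Φ z) = Φ (τ z) := hL
  have hreΦ : ∀ z, (LinearMap.fst F F F ∘ₗ (e.symm : K →ₗ[F] (F × F))) (Φ z) = z.1 := by
    intro z
    change (e.symm (e z)).1 = z.1
    rw [e.symm_apply_apply]
  have himΦ : ∀ z, (LinearMap.snd F F F ∘ₗ (e.symm : K →ₗ[F] (F × F))) (Φ z) = z.2 := by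
    intro z
    change (e.symm (e z)).2 = z.2
    rw [e.symm_apply_apply]
  refine ⟨⟨ω, σ, LinearMap.fst F F F ∘ₗ (e.symm : K →ₗ[F] (F × F)), LinearMap.snd F F F ∘ₗ (e.symm : K →ₗ[F] (F × F)), hω, ?_, ?_, ?_, ?_, ?_⟩⟩
  · have : ω = Φ (0, 1) := by
      rw [hΦ]
      simp
    rw [this, hσ, hτ]
    simp [hΦ]
    ring
  · intro x
    obtain ⟨z, rfl⟩ := hsurj x
    rw [hreΦ, himΦ, hΦ]
  · intro z₁ z₂
    exact hreΦ (z₁, z₂)
  · intro z₁ z₂
    exact himΦ (z₁, z₂)
  · intro x hx
    obtain ⟨z, rfl⟩ := hsurj x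
    rw [himΦ]
    rw [hσ] at hx
    have h1 := hinj hx
    rw [hτ] at h1
    have h3 := congrArg Prod.fst h1
    have h4 := congrArg Prod.snd h1
    simp only at h3 h4
    by_contra hz
    have ha : a = 0 := by
      have : a * z.2 = 0 := by linear_combination h3
      exact (mul_eq_zero.1 this).resolve_right hz
    have h2 : (2 : F) = 0 := by
      have : 2 * z.2 = 0 := by linear_combination -h4
      exact (mul_eq_zero.1 this).resolve_right hz
    have hch : ringChar F = 2 := by
      have : CharP F 2 := CharTwo.of_one_ne_zero_of_two_eq_zero one_ne_zero h2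
      exact ringChar.eq F 2
    obtain ⟨c, hc⟩ := FiniteField.isSquare_of_char_two hch b
    have := hab c 1 (by
      rw [ha, hc]
      ring_nf
      linear_combination c ^ 2 * h2)
    exact one_ne_zero this.2

end build

/-- An algebra structure on a field of order `q²` over the field of order `q`, with coordinates. -/
theorem exists_algebra_qext {K : Type*} [Field K] [Fintype F] [Fintype K] {a b : F}
    (hab : ∀ z₁ z₂ : F, z₁ ^ 2 + a * z₁ * z₂ + b * z₂ ^ 2 = 0 → z₁ = 0 ∧ z₂ = 0)
    (hK : Fintype.card K = Fintype.card F ^ 2) :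
    ∃ _ : Algebra F K, Nonempty (QExt F K a b) := by
  classical
  let P : F[X] := X ^ 2 - C a * X + C b
  have hmon : P.Monic := by
    simp only [P]
    monicity!
  have hdeg : P.natDegree = 2 := by
    simp only [P]
    compute_degree!
  have hirr : Irreducible P := by
    rw [hmon.irreducible_iff_roots_eq_zero_of_degree_le_three (by omega) (by omega)]
    rw [Multiset.eq_zero_iff_forall_notMem]
    intro r hr
    have h1 : P.eval r = 0 := (Polynomial.mem_roots'.1 hr).2
    simp only [P, eval_add, eval_sub, eval_mul, eval_pow, eval_X, eval_C] at h1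
    have h2 := hab r (-1) (by linear_combination h1)
    have h3 := h2.2
    exact one_ne_zero (neg_eq_zero.1 h3)
  haveI : Fact (Irreducible P) := ⟨hirr⟩
  let L := AdjoinRoot P
  have hne : P ≠ 0 := hmon.ne_zero
  let pb := AdjoinRoot.powerBasis hne
  haveI : Module.Finite F L := pb.finite
  haveI : Finite L := Module.finite_of_finite F
  letI : Fintype L := Fintype.ofFinite L
  have hcardL : Fintype.card L = Fintype.card K := by
    rw [hK, Module.card_eq_pow_finrank (K := F) (V := L), pb.finrank, AdjoinRoot.powerBasis_dim, hdeg]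
  let e : L ≃+* K := FiniteField.ringEquivOfCardEq hcardL
  letI inst : Algebra F K := (e.toRingHom.comp (algebraMap F L)).toAlgebra
  have hmap : ∀ x : F, algebraMap F K x = e (algebraMap F L x) := fun x => rfl
  refine ⟨inst, QExt.nonempty_of_root hab hK (e (AdjoinRoot.root P)) ?_⟩
  have h1 : (AdjoinRoot.root P) ^ 2 - algebraMap F L a * (AdjoinRoot.root P) + algebraMap F L b = 0 := by
    have := AdjoinRoot.eval₂_root P
    change (AdjoinRoot.root P) ^ 2 - AdjoinRoot.of P a * (AdjoinRoot.root P) + AdjoinRoot.of P b = 0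
    simpa [P, eval₂_add, eval₂_sub, eval₂_mul, eval₂_pow] using this
  rw [hmap, hmap, ← map_mul, ← map_mul, ← map_sub]
  congr 1
  linear_combination h1

end Cfsg.Agent.Lib.Classical
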