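import Mathlib
import Cfsg.Agent.Lib.Classical.APOCount
import Cfsg.Agent.Lib.ElemOrders.Basic
import Cfsg.Agent.Lib.Classical.QuadExt

/-! Field twists of the anisotropic binary forms; parity arithmetic. -/

set_option autoImplicit false
set_option linter.unusedSimpArgs false
set_option linter.unusedVariables false
set_option linter.unusedSectionVars false

namespace Cfsg.Agent.Lib.APOCount

open Matrix Polynomial
open scoped MatrixGroups

variable {F : Type*} [Field F]

/-- Two anisotropic binary forms are isometric. -/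
theorem exists_binary_iso [Fintype F] {a b a' b' : F}
    (hab : ∀ z₁ z₂ : F, z₁ ^ 2 + a * z₁ * z₂ + b * z₂ ^ 2 = 0 → z₁ = 0 ∧ z₂ = 0)
    (hab' : ∀ z₁ z₂ : F, z₁ ^ 2 + a' * z₁ * z₂ + b' * z₂ ^ 2 = 0 → z₁ = 0 ∧ z₂ = 0) :
    ∃ s t : F, t ≠ 0 ∧ 2 * s + a * t = a' ∧ s ^ 2 + a * s * t + b * t ^ 2 = b' := by
  classical
  obtain ⟨p, hp⟩ := CharP.exists F
  haveI : Fact p.Prime := ⟨CharP.char_is_prime F p⟩
  obtain ⟨K, _, _, _, -, hK⟩ := Cfsg.Agent.Lib.ElemOrders.exists_field_ext (F := F) p 2 (by norm_num)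
  obtain ⟨alg, ⟨D⟩⟩ := Cfsg.Agent.Lib.Classical.exists_algebra_qext (K := K) hab hK
  letI := alg
  let P : F[X] := X ^ 2 - C a' * X + C b'
  have hmon : P.Monic := by
    simp only [P]
    monicity!
  have hdeg : P.natDegree = 2 := by
    simp only [P]
    compute_degree!
  have hirr : Irreducible P := by
    rw [hmon.irreducible_iff_roots_eq_zero_of_degree_le_three (by omega) (by omega)]
    rw [Multiset.eq_zero_iff_forall_notMem]
    intro r hr
    have h1 : P.eval r = 0 := (Polynomial.mem_roots'.1 hr).2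
    simp only [P, eval_add, eval_sub, eval_mul, eval_pow, eval_X, eval_C] at h1
    have h2 := hab' r (-1) (by linear_combination h1)
    exact one_ne_zero (neg_eq_zero.1 h2.2)
  have hdvd : P ∣ X ^ (Nat.card F) ^ 2 - X := by
    rw [← hirr.natDegree_dvd_iff_dvd_X_pow_card_pow_sub_X, hdeg]
  have hcardK : (Nat.card F) ^ 2 = Fintype.card K := by
    rw [hK, Nat.card_eq_fintype_card]
  rw [hcardK] at hdvd
  have hsp : (P.map (algebraMap F K)).Splits := by
    refine Splits.of_dvd ?_ ?_ (map_dvd (algebraMap F K) hdvd)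
    · apply IsSplittingField.splits
    · exact map_ne_zero (FiniteField.X_pow_card_sub_X_ne_zero _ Fintype.one_lt_card)
  have hdeg2 : (P.map (algebraMap F K)).degree ≠ 0 := by
    rw [degree_map, degree_eq_natDegree hirr.ne_zero, hdeg]
    norm_num
  obtain ⟨r, hr⟩ := hsp.exists_eval_eq_zero hdeg2
  have hr2 : r * r - algebraMap F K a' * r + algebraMap F K b' = 0 := by
    simp only [P, Polynomial.map_add, Polynomial.map_sub, Polynomial.map_mul, Polynomial.map_pow, map_X, map_C, eval_add, eval_sub,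
      eval_mul, eval_pow, eval_X, eval_C] at hr
    linear_combination hr
  set s := D.re r with hs
  set t := D.im r with ht
  have hdec : r = algebraMap F K s + algebraMap F K t * D.ω := D.hdec r
  have hzero : algebraMap F K (s ^ 2 - b * t ^ 2 - a' * s + b') + algebraMap F K (2 * s * t + a * t ^ 2 - a' * t) * D.ω = 0 := by
    simp only [map_add, map_sub, map_mul, map_pow]
    have h1 := D.hω
    rw [hdec] at hr2
    simp only [map_ofNat]
    linear_combination hr2 - (algebraMap F K t) ^ 2 * h1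
  have hz1 : s ^ 2 - b * t ^ 2 - a' * s + b' = 0 := by
    have := D.hre (s ^ 2 - b * t ^ 2 - a' * s + b') (2 * s * t + a * t ^ 2 - a' * t)
    rw [hzero, map_zero] at this
    exact this.symm
  have hz2 : 2 * s * t + a * t ^ 2 - a' * t = 0 := by
    have := D.him (s ^ 2 - b * t ^ 2 - a' * s + b') (2 * s * t + a * t ^ 2 - a' * t)
    rw [hzero, map_zero] at this
    exact this.symm
  have ht0 : t ≠ 0 := by
    intro h0
    rw [h0] at hz1
    have h2 := hab' s (-1) (by linear_combination hz1)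
    exact one_ne_zero (neg_eq_zero.1 h2.2)
  have h3 : 2 * s + a * t = a' := by
    apply mul_right_cancel₀ ht0
    linear_combination hz2
  refine ⟨s, t, ht0, h3, ?_⟩
  rw [← h3] at hz1
  linear_combination -hz1

/-- Each field automorphism occurs in a semisimilarity of the minus-type form. -/
theorem hex_minus [Fintype F] {k : ℕ} (a b : F) (hab : ∀ z₁ z₂ : F, z₁ ^ 2 + a * z₁ * z₂ + b * z₂ ^ 2 = 0 → z₁ = 0 ∧ z₂ = 0)
    (σ : F ≃+* F) : ∃ M : GL ((Fin k ⊕ Fin k) ⊕ Fin 2) F, Cfsg.IsSemisimilarityPair (Cfsg.quadFormMinus k F a b) M σ := by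
  classical
  have hab' : ∀ z₁ z₂ : F, z₁ ^ 2 + σ a * z₁ * z₂ + σ b * z₂ ^ 2 = 0 → z₁ = 0 ∧ z₂ = 0 := by
    intro z₁ z₂ h
    have h1 := hab (σ.symm z₁) (σ.symm z₂) (by
      apply σ.injective
      simp only [map_add, map_mul, map_pow, RingEquiv.apply_symm_apply, map_zero]
      exact h)
    constructor
    · simpa using h1.1
    · simpa using h1.2
  obtain ⟨s, t, ht, h1, h2⟩ := exists_binary_iso hab hab'
  let T : Matrix (Fin 2) (Fin 2) F := !![1, s; 0, t]
  let MM : Matrix ((Fin k ⊕ Fin k) ⊕ Fin 2) ((Fin k ⊕ Fin k) ⊕ Fin 2) F := Matrix.fromBlocks 1 0 0 T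
  have hdet : MM.det ≠ 0 := by
    simp only [MM, Matrix.det_fromBlocks_zero₁₂, Matrix.det_one, one_mul, T, Matrix.det_fin_two_of]
    simpa using ht
  refine ⟨Matrix.GeneralLinearGroup.mkOfDetNeZero MM hdet, 1, fun v => ?_⟩
  show Cfsg.quadFormMinus k F a b (MM *ᵥ fun i => σ (v i)) = _
  simp only [Cfsg.quadFormMinus, MM, Matrix.fromBlocks_mulVec, T, Units.val_one, one_mul, map_add, map_mul, map_pow, map_sum]
  simp only [Sum.elim_inl, Sum.elim_inr, Matrix.mulVec, dotProduct, Matrix.one_apply, Matrix.zero_apply, Fin.sum_univ_two,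
    Fintype.sum_sum_type, Function.comp]
  simp [Matrix.one_apply, Fin.sum_univ_two]
  simp only [Matrix.vecHead, Matrix.vecTail, Function.comp, Fin.succ_zero_eq_one]
  linear_combination (σ (v (Sum.inr 1)) ^ 2) * h2 + σ (v (Sum.inr 0)) * σ (v (Sum.inr 1)) * h1

theorem even_iff_mod4 (q m : ℕ) (hq : Odd q) : Even (m * (q - 1) / 2) ↔ q ^ m % 4 = 1 := by
  obtain ⟨k, rfl⟩ := hq
  have e : (2 * k + 1) - 1 = 2 * k := by omega
  rw [e]
  have e2 : m * (2 * k) / 2 = m * k := by
    rw [show m * (2 * k) = 2 * (m * k) by ring]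
    exact Nat.mul_div_cancel_left _ (by norm_num)
  rw [e2, Nat.pow_mod]
  rcases Nat.even_or_odd k with hk | hk
  · have h1 : (2 * k + 1) % 4 = 1 := by
      obtain ⟨j, rfl⟩ := hk
      omega
    rw [h1, one_pow]
    simp [hk.mul_left]
  · have h1 : (2 * k + 1) % 4 = 3 := by
      obtain ⟨j, rfl⟩ := hk
      omega
    rw [h1]
    rcases Nat.even_or_odd m with hm | hm
    · obtain ⟨j, rfl⟩ := hm
      have : 3 ^ (j + j) % 4 = 1 := by
        rw [← two_mul, pow_mul, Nat.pow_mod]
        norm_num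
      rw [this]
      simp [Nat.even_add, parity_simps]
    · have h2 : 3 ^ m % 4 = 3 := by
        obtain ⟨j, rfl⟩ := hm
        rw [pow_succ, pow_mul, Nat.mul_mod, Nat.pow_mod]
        norm_num
      rw [h2]
      have h3 : ¬ Even (m * k) := by
        rw [Nat.not_even_iff_odd]
        exact hm.mul hk
      simp [h3]

end Cfsg.Agent.Lib.APOCount
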