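import Mathlib
import Cfsg.Agent.Lib.Classical.DConj
import Cfsg.Agent.Lib.Classical.DApps
import Cfsg.Agent.Lib.Classical.DDih
import Cfsg.Agent.Lib.Classical.PslSub

/-! The subgroup `A₅` generated by two transvections in `PSL₂(9)`. -/

set_option autoImplicit false
set_option linter.unusedSimpArgs false
set_option linter.unusedVariables false
set_option linter.unusedSectionVars false
set_option linter.style.haveILetI false

namespace Cfsg.Agent.Lib.Classical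

open Matrix MulAction Projectivization
open scoped MatrixGroups LinearAlgebra.Projectivization

variable {F : Type*} [Field F]

theorem mkP_eq_of_sign (A B : SL(2, F)) (s : F) (hs : s = 1 ∨ s = -1) (h00 : A.1 0 0 = s * B.1 0 0)
    (h01 : A.1 0 1 = s * B.1 0 1) (h10 : A.1 1 0 = s * B.1 1 0) (h11 : A.1 1 1 = s * B.1 1 1) : mkP A = mkP B := by
  rw [mkP_eq_iff]
  rcases hs with rfl | rfl
  · left
    apply sl_ext <;> simp_all
  · right
    ext i j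
    fin_cases i <;> fin_cases j <;> simp_all

theorem mkP_ne_of_entry (A B : SL(2, F)) (i j : Fin 2) (h1 : A.1 i j ≠ B.1 i j) (h2 : B.1 i j ≠ - A.1 i j) :
    mkP A ≠ mkP B := by
  rw [Ne, mkP_eq_iff]
  rintro (h | h)
  · exact h1 (by rw [h])
  · exact h2 (by rw [h]; rfl)

section F9

variable (lam : F) (h3 : (3 : F) = 0) (hl : lam ^ 2 = -1)

include h3 hl

theorem f9_two : (2 : F) ≠ 0 := by
  intro h
  have : (1 : F) = 0 := by linear_combination h3 - h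
  exact one_ne_zero this

theorem f9_lam : lam ≠ 0 := by
  rintro rfl
  have : (1 : F) = 0 := by linear_combination hl
  exact one_ne_zero this

/-- Matrix. -/
def a9 : SL(2, F) := ⟨!![0, 1 + lam; 1 - lam, 0], by have := h3; have := hl; simp [Matrix.det_fin_two] <;> grind⟩
theorem a9_00 : (a9 lam h3 hl).1 0 0 = 0 := rfl
theorem a9_01 : (a9 lam h3 hl).1 0 1 = 1 + lam := rfl
theorem a9_10 : (a9 lam h3 hl).1 1 0 = 1 - lam := rfl
theorem a9_11 : (a9 lam h3 hl).1 1 1 = 0 := rfl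
/-- Matrix. -/
def b9 : SL(2, F) := ⟨!![0, 1 - lam; 1 + lam, 0], by have := h3; have := hl; simp [Matrix.det_fin_two] <;> grind⟩
theorem b9_00 : (b9 lam h3 hl).1 0 0 = 0 := rfl
theorem b9_01 : (b9 lam h3 hl).1 0 1 = 1 - lam := rfl
theorem b9_10 : (b9 lam h3 hl).1 1 0 = 1 + lam := rfl
theorem b9_11 : (b9 lam h3 hl).1 1 1 = 0 := rfl
/-- Matrix. -/
def ab9 : SL(2, F) := ⟨!![-lam, 0; 0, lam], by have := h3; have := hl; simp [Matrix.det_fin_two] <;> grind⟩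
theorem ab9_00 : (ab9 lam h3 hl).1 0 0 = -lam := rfl
theorem ab9_01 : (ab9 lam h3 hl).1 0 1 = 0 := rfl
theorem ab9_10 : (ab9 lam h3 hl).1 1 0 = 0 := rfl
theorem ab9_11 : (ab9 lam h3 hl).1 1 1 = lam := rfl
/-- Matrix. -/
def w9 : SL(2, F) := ⟨!![1 + lam, 1; 1, 1 - lam], by have := h3; have := hl; simp [Matrix.det_fin_two] <;> grind⟩
theorem w9_00 : (w9 lam h3 hl).1 0 0 = 1 + lam := rfl
theorem w9_01 : (w9 lam h3 hl).1 0 1 = 1 := rfl
theorem w9_10 : (w9 lam h3 hl).1 1 0 = 1 := rfl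
theorem w9_11 : (w9 lam h3 hl).1 1 1 = 1 - lam := rfl
/-- Matrix. -/
def w29 : SL(2, F) := ⟨!![1 - lam, -1; -1, 1 + lam], by have := h3; have := hl; simp [Matrix.det_fin_two] <;> grind⟩
theorem w29_00 : (w29 lam h3 hl).1 0 0 = 1 - lam := rfl
theorem w29_01 : (w29 lam h3 hl).1 0 1 = -1 := rfl
theorem w29_10 : (w29 lam h3 hl).1 1 0 = -1 := rfl
theorem w29_11 : (w29 lam h3 hl).1 1 1 = 1 + lam := rfl
/-- Matrix. -/
def t9 : SL(2, F) := ⟨!![0, 1 + lam; 1 - lam, 1 + lam], by have := h3; have := hl; simp [Matrix.det_fin_two] <;> grind⟩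
theorem t9_00 : (t9 lam h3 hl).1 0 0 = 0 := rfl
theorem t9_01 : (t9 lam h3 hl).1 0 1 = 1 + lam := rfl
theorem t9_10 : (t9 lam h3 hl).1 1 0 = 1 - lam := rfl
theorem t9_11 : (t9 lam h3 hl).1 1 1 = 1 + lam := rfl
/-- Matrix. -/
def t29 : SL(2, F) := ⟨!![-1, -lam; -1, -1 - lam], by have := h3; have := hl; simp [Matrix.det_fin_two] <;> grind⟩
theorem t29_00 : (t29 lam h3 hl).1 0 0 = -1 := rfl
theorem t29_01 : (t29 lam h3 hl).1 0 1 = -lam := rfl
theorem t29_10 : (t29 lam h3 hl).1 1 0 = -1 := rfl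
theorem t29_11 : (t29 lam h3 hl).1 1 1 = -1 - lam := rfl
/-- Matrix. -/
def t39 : SL(2, F) := ⟨!![-1 - lam, lam; 1, -1], by have := h3; have := hl; simp [Matrix.det_fin_two] <;> grind⟩
theorem t39_00 : (t39 lam h3 hl).1 0 0 = -1 - lam := rfl
theorem t39_01 : (t39 lam h3 hl).1 0 1 = lam := rfl
theorem t39_10 : (t39 lam h3 hl).1 1 0 = 1 := rfl
theorem t39_11 : (t39 lam h3 hl).1 1 1 = -1 := rfl
/-- Matrix. -/
def t49 : SL(2, F) := ⟨!![1 + lam, -1 - lam; -1 + lam, 0], by have := h3; have := hl; simp [Matrix.det_fin_two] <;> grind⟩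
theorem t49_00 : (t49 lam h3 hl).1 0 0 = 1 + lam := rfl
theorem t49_01 : (t49 lam h3 hl).1 0 1 = -1 - lam := rfl
theorem t49_10 : (t49 lam h3 hl).1 1 0 = -1 + lam := rfl
theorem t49_11 : (t49 lam h3 hl).1 1 1 = 0 := rfl

theorem t9_p2 : mkP (t9 lam h3 hl) ^ 2 = mkP (t29 lam h3 hl) := by
  rw [pow_two, ← mkP_mul]
  refine mkP_eq_of_sign _ _ (1) (by norm_num) ?_ ?_ ?_ ?_ <;> simp [uu_00, uu_01, uu_10, uu_11, ll_00, ll_01, ll_10, ll_11, a9_00, a9_01, a9_10, a9_11, b9_00, b9_01, b9_10, b9_11, w9_00, w9_01, w9_10, w9_11, w29_00, w29_01, w29_10, w29_11, t9_00, t9_01, t9_10, t9_11, t29_00, t29_01, t29_10, t29_11, t39_00, t39_01, t39_10, t39_11, t49_00, t49_01, t49_10, t49_11, ab9_00, ab9_01, ab9_10, ab9_11, sl_mul_apply, sl_inv_00, sl_inv_01, sl_inv_10, sl_inv_11] <;> grind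
theorem t9_p3 : mkP (t9 lam h3 hl) ^ 3 = mkP (t39 lam h3 hl) := by
  rw [pow_succ, t9_p2, ← mkP_mul]
  refine mkP_eq_of_sign _ _ (1) (by norm_num) ?_ ?_ ?_ ?_ <;> simp [uu_00, uu_01, uu_10, uu_11, ll_00, ll_01, ll_10, ll_11, a9_00, a9_01, a9_10, a9_11, b9_00, b9_01, b9_10, b9_11, w9_00, w9_01, w9_10, w9_11, w29_00, w29_01, w29_10, w29_11, t9_00, t9_01, t9_10, t9_11, t29_00, t29_01, t29_10, t29_11, t39_00, t39_01, t39_10, t39_11, t49_00, t49_01, t49_10, t49_11, ab9_00, ab9_01, ab9_10, ab9_11, sl_mul_apply, sl_inv_00, sl_inv_01, sl_inv_10, sl_inv_11] <;> grind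
theorem t9_p4 : mkP (t9 lam h3 hl) ^ 4 = mkP (t49 lam h3 hl) := by
  rw [pow_succ, t9_p3, ← mkP_mul]
  refine mkP_eq_of_sign _ _ (1) (by norm_num) ?_ ?_ ?_ ?_ <;> simp [uu_00, uu_01, uu_10, uu_11, ll_00, ll_01, ll_10, ll_11, a9_00, a9_01, a9_10, a9_11, b9_00, b9_01, b9_10, b9_11, w9_00, w9_01, w9_10, w9_11, w29_00, w29_01, w29_10, w29_11, t9_00, t9_01, t9_10, t9_11, t29_00, t29_01, t29_10, t29_11, t39_00, t39_01, t39_10, t39_11, t49_00, t49_01, t49_10, t49_11, ab9_00, ab9_01, ab9_10, ab9_11, sl_mul_apply, sl_inv_00, sl_inv_01, sl_inv_10, sl_inv_11] <;> grind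
theorem t9_p5 : mkP (t9 lam h3 hl) ^ 5 = 1 := by
  rw [pow_succ, t9_p4, ← mkP_mul]
  show _ = mkP 1
  refine mkP_eq_of_sign _ _ (1) (by norm_num) ?_ ?_ ?_ ?_ <;> simp [uu_00, uu_01, uu_10, uu_11, ll_00, ll_01, ll_10, ll_11, a9_00, a9_01, a9_10, a9_11, b9_00, b9_01, b9_10, b9_11, w9_00, w9_01, w9_10, w9_11, w29_00, w29_01, w29_10, w29_11, t9_00, t9_01, t9_10, t9_11, t29_00, t29_01, t29_10, t29_11, t39_00, t39_01, t39_10, t39_11, t49_00, t49_01, t49_10, t49_11, ab9_00, ab9_01, ab9_10, ab9_11, sl_mul_apply, sl_inv_00, sl_inv_01, sl_inv_10, sl_inv_11] <;> grind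
theorem w9_p2 : mkP (w9 lam h3 hl) ^ 2 = mkP (w29 lam h3 hl) := by
  rw [pow_two, ← mkP_mul]
  refine mkP_eq_of_sign _ _ (1) (by norm_num) ?_ ?_ ?_ ?_ <;> simp [uu_00, uu_01, uu_10, uu_11, ll_00, ll_01, ll_10, ll_11, a9_00, a9_01, a9_10, a9_11, b9_00, b9_01, b9_10, b9_11, w9_00, w9_01, w9_10, w9_11, w29_00, w29_01, w29_10, w29_11, t9_00, t9_01, t9_10, t9_11, t29_00, t29_01, t29_10, t29_11, t39_00, t39_01, t39_10, t39_11, t49_00, t49_01, t49_10, t49_11, ab9_00, ab9_01, ab9_10, ab9_11, sl_mul_apply, sl_inv_00, sl_inv_01, sl_inv_10, sl_inv_11] <;> grind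
theorem w9_p3 : mkP (w9 lam h3 hl) ^ 3 = 1 := by
  rw [pow_succ, w9_p2, ← mkP_mul]
  show _ = mkP 1
  refine mkP_eq_of_sign _ _ (1) (by norm_num) ?_ ?_ ?_ ?_ <;> simp [uu_00, uu_01, uu_10, uu_11, ll_00, ll_01, ll_10, ll_11, a9_00, a9_01, a9_10, a9_11, b9_00, b9_01, b9_10, b9_11, w9_00, w9_01, w9_10, w9_11, w29_00, w29_01, w29_10, w29_11, t9_00, t9_01, t9_10, t9_11, t29_00, t29_01, t29_10, t29_11, t39_00, t39_01, t39_10, t39_11, t49_00, t49_01, t49_10, t49_11, ab9_00, ab9_01, ab9_10, ab9_11, sl_mul_apply, sl_inv_00, sl_inv_01, sl_inv_10, sl_inv_11] <;> grind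

theorem a9_sq : mkP (a9 lam h3 hl) ^ 2 = 1 := by
  rw [pow_two, ← mkP_mul]
  show _ = mkP 1
  refine mkP_eq_of_sign _ _ (-1) (by norm_num) ?_ ?_ ?_ ?_ <;> simp [uu_00, uu_01, uu_10, uu_11, ll_00, ll_01, ll_10, ll_11, a9_00, a9_01, a9_10, a9_11, b9_00, b9_01, b9_10, b9_11, w9_00, w9_01, w9_10, w9_11, w29_00, w29_01, w29_10, w29_11, t9_00, t9_01, t9_10, t9_11, t29_00, t29_01, t29_10, t29_11, t39_00, t39_01, t39_10, t39_11, t49_00, t49_01, t49_10, t49_11, ab9_00, ab9_01, ab9_10, ab9_11, sl_mul_apply, sl_inv_00, sl_inv_01, sl_inv_10, sl_inv_11] <;> grind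
theorem b9_sq : mkP (b9 lam h3 hl) ^ 2 = 1 := by
  rw [pow_two, ← mkP_mul]
  show _ = mkP 1
  refine mkP_eq_of_sign _ _ (-1) (by norm_num) ?_ ?_ ?_ ?_ <;> simp [uu_00, uu_01, uu_10, uu_11, ll_00, ll_01, ll_10, ll_11, a9_00, a9_01, a9_10, a9_11, b9_00, b9_01, b9_10, b9_11, w9_00, w9_01, w9_10, w9_11, w29_00, w29_01, w29_10, w29_11, t9_00, t9_01, t9_10, t9_11, t29_00, t29_01, t29_10, t29_11, t39_00, t39_01, t39_10, t39_11, t49_00, t49_01, t49_10, t49_11, ab9_00, ab9_01, ab9_10, ab9_11, sl_mul_apply, sl_inv_00, sl_inv_01, sl_inv_10, sl_inv_11] <;> grind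
theorem ab9_comm : mkP (a9 lam h3 hl) * mkP (b9 lam h3 hl) = mkP (b9 lam h3 hl) * mkP (a9 lam h3 hl) := by
  rw [← mkP_mul, ← mkP_mul]
  refine mkP_eq_of_sign _ _ (-1) (by norm_num) ?_ ?_ ?_ ?_ <;> simp [uu_00, uu_01, uu_10, uu_11, ll_00, ll_01, ll_10, ll_11, a9_00, a9_01, a9_10, a9_11, b9_00, b9_01, b9_10, b9_11, w9_00, w9_01, w9_10, w9_11, w29_00, w29_01, w29_10, w29_11, t9_00, t9_01, t9_10, t9_11, t29_00, t29_01, t29_10, t29_11, t39_00, t39_01, t39_10, t39_11, t49_00, t49_01, t49_10, t49_11, ab9_00, ab9_01, ab9_10, ab9_11, sl_mul_apply, sl_inv_00, sl_inv_01, sl_inv_10, sl_inv_11] <;> grind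
theorem ab9_eq : mkP (a9 lam h3 hl) * mkP (b9 lam h3 hl) = mkP (ab9 lam h3 hl) := by
  rw [← mkP_mul]
  refine mkP_eq_of_sign _ _ (1) (by norm_num) ?_ ?_ ?_ ?_ <;> simp [uu_00, uu_01, uu_10, uu_11, ll_00, ll_01, ll_10, ll_11, a9_00, a9_01, a9_10, a9_11, b9_00, b9_01, b9_10, b9_11, w9_00, w9_01, w9_10, w9_11, w29_00, w29_01, w29_10, w29_11, t9_00, t9_01, t9_10, t9_11, t29_00, t29_01, t29_10, t29_11, t39_00, t39_01, t39_10, t39_11, t49_00, t49_01, t49_10, t49_11, ab9_00, ab9_01, ab9_10, ab9_11, sl_mul_apply, sl_inv_00, sl_inv_01, sl_inv_10, sl_inv_11] <;> grind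
theorem w9_a : mkP (w9 lam h3 hl) * mkP (a9 lam h3 hl) * (mkP (w9 lam h3 hl))⁻¹ = mkP (a9 lam h3 hl) * mkP (b9 lam h3 hl) := by
  rw [ab9_eq, ← mkP_mul, ← mkP_inv, ← mkP_mul]
  refine mkP_eq_of_sign _ _ (1) (by norm_num) ?_ ?_ ?_ ?_ <;> simp [uu_00, uu_01, uu_10, uu_11, ll_00, ll_01, ll_10, ll_11, a9_00, a9_01, a9_10, a9_11, b9_00, b9_01, b9_10, b9_11, w9_00, w9_01, w9_10, w9_11, w29_00, w29_01, w29_10, w29_11, t9_00, t9_01, t9_10, t9_11, t29_00, t29_01, t29_10, t29_11, t39_00, t39_01, t39_10, t39_11, t49_00, t49_01, t49_10, t49_11, ab9_00, ab9_01, ab9_10, ab9_11, sl_mul_apply, sl_inv_00, sl_inv_01, sl_inv_10, sl_inv_11] <;> grind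
theorem w9_b : mkP (w9 lam h3 hl) * mkP (b9 lam h3 hl) * (mkP (w9 lam h3 hl))⁻¹ = mkP (a9 lam h3 hl) := by
  rw [← mkP_mul, ← mkP_inv, ← mkP_mul]
  refine mkP_eq_of_sign _ _ (1) (by norm_num) ?_ ?_ ?_ ?_ <;> simp [uu_00, uu_01, uu_10, uu_11, ll_00, ll_01, ll_10, ll_11, a9_00, a9_01, a9_10, a9_11, b9_00, b9_01, b9_10, b9_11, w9_00, w9_01, w9_10, w9_11, w29_00, w29_01, w29_10, w29_11, t9_00, t9_01, t9_10, t9_11, t29_00, t29_01, t29_10, t29_11, t39_00, t39_01, t39_10, t39_11, t49_00, t49_01, t49_10, t49_11, ab9_00, ab9_01, ab9_10, ab9_11, sl_mul_apply, sl_inv_00, sl_inv_01, sl_inv_10, sl_inv_11] <;> grind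
theorem a9_ne : mkP (a9 lam h3 hl) ≠ 1 := by
  apply mkP_ne_of_entry _ 1 0 0 <;> simp [uu_00, uu_01, uu_10, uu_11, ll_00, ll_01, ll_10, ll_11, a9_00, a9_01, a9_10, a9_11, b9_00, b9_01, b9_10, b9_11, w9_00, w9_01, w9_10, w9_11, w29_00, w29_01, w29_10, w29_11, t9_00, t9_01, t9_10, t9_11, t29_00, t29_01, t29_10, t29_11, t39_00, t39_01, t39_10, t39_11, t49_00, t49_01, t49_10, t49_11, ab9_00, ab9_01, ab9_10, ab9_11, sl_mul_apply, sl_inv_00, sl_inv_01, sl_inv_10, sl_inv_11]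
theorem b9_ne : mkP (b9 lam h3 hl) ≠ 1 := by
  apply mkP_ne_of_entry _ 1 0 0 <;> simp [uu_00, uu_01, uu_10, uu_11, ll_00, ll_01, ll_10, ll_11, a9_00, a9_01, a9_10, a9_11, b9_00, b9_01, b9_10, b9_11, w9_00, w9_01, w9_10, w9_11, w29_00, w29_01, w29_10, w29_11, t9_00, t9_01, t9_10, t9_11, t29_00, t29_01, t29_10, t29_11, t39_00, t39_01, t39_10, t39_11, t49_00, t49_01, t49_10, t49_11, ab9_00, ab9_01, ab9_10, ab9_11, sl_mul_apply, sl_inv_00, sl_inv_01, sl_inv_10, sl_inv_11]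
theorem w9_ne : mkP (w9 lam h3 hl) ≠ 1 := by
  apply mkP_ne_of_entry _ 1 0 1 <;> simp [uu_00, uu_01, uu_10, uu_11, ll_00, ll_01, ll_10, ll_11, a9_00, a9_01, a9_10, a9_11, b9_00, b9_01, b9_10, b9_11, w9_00, w9_01, w9_10, w9_11, w29_00, w29_01, w29_10, w29_11, t9_00, t9_01, t9_10, t9_11, t29_00, t29_01, t29_10, t29_11, t39_00, t39_01, t39_10, t39_11, t49_00, t49_01, t49_10, t49_11, ab9_00, ab9_01, ab9_10, ab9_11, sl_mul_apply, sl_inv_00, sl_inv_01, sl_inv_10, sl_inv_11]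
theorem t9_ne : mkP (t9 lam h3 hl) ≠ 1 := by
  apply mkP_ne_of_entry _ 1 0 0 <;> simp [uu_00, uu_01, uu_10, uu_11, ll_00, ll_01, ll_10, ll_11, a9_00, a9_01, a9_10, a9_11, b9_00, b9_01, b9_10, b9_11, w9_00, w9_01, w9_10, w9_11, w29_00, w29_01, w29_10, w29_11, t9_00, t9_01, t9_10, t9_11, t29_00, t29_01, t29_10, t29_11, t39_00, t39_01, t39_10, t39_11, t49_00, t49_01, t49_10, t49_11, ab9_00, ab9_01, ab9_10, ab9_11, sl_mul_apply, sl_inv_00, sl_inv_01, sl_inv_10, sl_inv_11]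
theorem a9_ne_b9 : mkP (a9 lam h3 hl) ≠ mkP (b9 lam h3 hl) := by
  have h2 := f9_two (lam := lam) h3 hl
  have h0 := f9_lam lam h3 hl
  apply mkP_ne_of_entry _ _ 0 1 <;> simp [uu_00, uu_01, uu_10, uu_11, ll_00, ll_01, ll_10, ll_11, a9_00, a9_01, a9_10, a9_11, b9_00, b9_01, b9_10, b9_11, w9_00, w9_01, w9_10, w9_11, w29_00, w29_01, w29_10, w29_11, t9_00, t9_01, t9_10, t9_11, t29_00, t29_01, t29_10, t29_11, t39_00, t39_01, t39_10, t39_11, t49_00, t49_01, t49_10, t49_11, ab9_00, ab9_01, ab9_10, ab9_11, sl_mul_apply, sl_inv_00, sl_inv_01, sl_inv_10, sl_inv_11] <;> first | grind | (intro h; grind)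
/-- `A₄`-data in `PSL₂(9)`. -/
def a4_9 : A4Data (Pe F) where
  a := mkP (a9 lam h3 hl)
  b := mkP (b9 lam h3 hl)
  w := mkP (w9 lam h3 hl)
  ha := a9_sq lam h3 hl
  hb := b9_sq lam h3 hl
  hab := ab9_comm lam h3 hl
  ha1 := a9_ne lam h3 hl
  hb1 := b9_ne lam h3 hl
  hne := a9_ne_b9 lam h3 hl
  hw3 := w9_p3 lam h3 hl
  hw1 := w9_ne lam h3 hl
  h1 := w9_a lam h3 hl
  h2 := w9_b lam h3 hl
theorem cos9a [Finite F] (n : ℕ) (hn : n < 5) : ∃ m : ℕ, m < 5 ∧ mkP (t9 lam h3 hl) ^ n * mkP (a9 lam h3 hl) * (mkP (t9 lam h3 hl) ^ m)⁻¹ ∈ (a4_9 lam h3 hl).T := by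
  interval_cases n
  · refine ⟨0, by norm_num, mkP (a9 lam h3 hl), (a4_9 lam h3 hl).a_mem, 0, ?_⟩
    show mkP (t9 lam h3 hl) ^ 0 * mkP (a9 lam h3 hl) * (mkP (t9 lam h3 hl) ^ 0)⁻¹ = mkP (a9 lam h3 hl) * mkP (w9 lam h3 hl) ^ 0
    simp only [t9_p2, t9_p3, t9_p4, w9_p2, pow_one, pow_zero, one_mul, mul_one, inv_one, ab9_eq]
  · refine ⟨2, by norm_num, mkP (a9 lam h3 hl) * mkP (b9 lam h3 hl), (a4_9 lam h3 hl).V.mul_mem (a4_9 lam h3 hl).a_mem (a4_9 lam h3 hl).b_mem, 2, ?_⟩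
    show mkP (t9 lam h3 hl) ^ 1 * mkP (a9 lam h3 hl) * (mkP (t9 lam h3 hl) ^ 2)⁻¹ = mkP (a9 lam h3 hl) * mkP (b9 lam h3 hl) * mkP (w9 lam h3 hl) ^ 2
    simp only [t9_p2, t9_p3, t9_p4, w9_p2, pow_one, pow_zero, one_mul, mul_one, inv_one, ab9_eq]
    all_goals simp only [← mkP_inv, ← mkP_mul]
    all_goals refine mkP_eq_of_sign _ _ (-1) (by norm_num) ?_ ?_ ?_ ?_ <;> simp [uu_00, uu_01, uu_10, uu_11, ll_00, ll_01, ll_10, ll_11, a9_00, a9_01, a9_10, a9_11, b9_00, b9_01, b9_10, b9_11, w9_00, w9_01, w9_10, w9_11, w29_00, w29_01, w29_10, w29_11, t9_00, t9_01, t9_10, t9_11, t29_00, t29_01, t29_10, t29_11, t39_00, t39_01, t39_10, t39_11, t49_00, t49_01, t49_10, t49_11, ab9_00, ab9_01, ab9_10, ab9_11, sl_mul_apply, sl_inv_00, sl_inv_01, sl_inv_10, sl_inv_11] <;> grind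
  · refine ⟨1, by norm_num, mkP (b9 lam h3 hl), (a4_9 lam h3 hl).b_mem, 1, ?_⟩
    show mkP (t9 lam h3 hl) ^ 2 * mkP (a9 lam h3 hl) * (mkP (t9 lam h3 hl) ^ 1)⁻¹ = mkP (b9 lam h3 hl) * mkP (w9 lam h3 hl) ^ 1
    simp only [t9_p2, t9_p3, t9_p4, w9_p2, pow_one, pow_zero, one_mul, mul_one, inv_one, ab9_eq]
    all_goals simp only [← mkP_inv, ← mkP_mul]
    all_goals refine mkP_eq_of_sign _ _ (-1) (by norm_num) ?_ ?_ ?_ ?_ <;> simp [uu_00, uu_01, uu_10, uu_11, ll_00, ll_01, ll_10, ll_11, a9_00, a9_01, a9_10, a9_11, b9_00, b9_01, b9_10, b9_11, w9_00, w9_01, w9_10, w9_11, w29_00, w29_01, w29_10, w29_11, t9_00, t9_01, t9_10, t9_11, t29_00, t29_01, t29_10, t29_11, t39_00, t39_01, t39_10, t39_11, t49_00, t49_01, t49_10, t49_11, ab9_00, ab9_01, ab9_10, ab9_11, sl_mul_apply, sl_inv_00, sl_inv_01, sl_inv_10, sl_inv_11] <;> grind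
  · refine ⟨4, by norm_num, mkP (a9 lam h3 hl), (a4_9 lam h3 hl).a_mem, 1, ?_⟩
    show mkP (t9 lam h3 hl) ^ 3 * mkP (a9 lam h3 hl) * (mkP (t9 lam h3 hl) ^ 4)⁻¹ = mkP (a9 lam h3 hl) * mkP (w9 lam h3 hl) ^ 1
    simp only [t9_p2, t9_p3, t9_p4, w9_p2, pow_one, pow_zero, one_mul, mul_one, inv_one, ab9_eq]
    all_goals simp only [← mkP_inv, ← mkP_mul]
    all_goals refine mkP_eq_of_sign _ _ (1) (by norm_num) ?_ ?_ ?_ ?_ <;> simp [uu_00, uu_01, uu_10, uu_11, ll_00, ll_01, ll_10, ll_11, a9_00, a9_01, a9_10, a9_11, b9_00, b9_01, b9_10, b9_11, w9_00, w9_01, w9_10, w9_11, w29_00, w29_01, w29_10, w29_11, t9_00, t9_01, t9_10, t9_11, t29_00, t29_01, t29_10, t29_11, t39_00, t39_01, t39_10, t39_11, t49_00, t49_01, t49_10, t49_11, ab9_00, ab9_01, ab9_10, ab9_11, sl_mul_apply, sl_inv_00, sl_inv_01, sl_inv_10, sl_inv_11] <;> grind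
  · refine ⟨3, by norm_num, mkP (b9 lam h3 hl), (a4_9 lam h3 hl).b_mem, 2, ?_⟩
    show mkP (t9 lam h3 hl) ^ 4 * mkP (a9 lam h3 hl) * (mkP (t9 lam h3 hl) ^ 3)⁻¹ = mkP (b9 lam h3 hl) * mkP (w9 lam h3 hl) ^ 2
    simp only [t9_p2, t9_p3, t9_p4, w9_p2, pow_one, pow_zero, one_mul, mul_one, inv_one, ab9_eq]
    all_goals simp only [← mkP_inv, ← mkP_mul]
    all_goals refine mkP_eq_of_sign _ _ (1) (by norm_num) ?_ ?_ ?_ ?_ <;> simp [uu_00, uu_01, uu_10, uu_11, ll_00, ll_01, ll_10, ll_11, a9_00, a9_01, a9_10, a9_11, b9_00, b9_01, b9_10, b9_11, w9_00, w9_01, w9_10, w9_11, w29_00, w29_01, w29_10, w29_11, t9_00, t9_01, t9_10, t9_11, t29_00, t29_01, t29_10, t29_11, t39_00, t39_01, t39_10, t39_11, t49_00, t49_01, t49_10, t49_11, ab9_00, ab9_01, ab9_10, ab9_11, sl_mul_apply, sl_inv_00, sl_inv_01, sl_inv_10, sl_inv_11] <;> grind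
theorem cos9b [Finite F] (n : ℕ) (hn : n < 5) : ∃ m : ℕ, m < 5 ∧ mkP (t9 lam h3 hl) ^ n * mkP (b9 lam h3 hl) * (mkP (t9 lam h3 hl) ^ m)⁻¹ ∈ (a4_9 lam h3 hl).T := by
  interval_cases n
  · refine ⟨0, by norm_num, mkP (b9 lam h3 hl), (a4_9 lam h3 hl).b_mem, 0, ?_⟩
    show mkP (t9 lam h3 hl) ^ 0 * mkP (b9 lam h3 hl) * (mkP (t9 lam h3 hl) ^ 0)⁻¹ = mkP (b9 lam h3 hl) * mkP (w9 lam h3 hl) ^ 0
    simp only [t9_p2, t9_p3, t9_p4, w9_p2, pow_one, pow_zero, one_mul, mul_one, inv_one, ab9_eq]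
  · refine ⟨4, by norm_num, mkP (b9 lam h3 hl), (a4_9 lam h3 hl).b_mem, 0, ?_⟩
    show mkP (t9 lam h3 hl) ^ 1 * mkP (b9 lam h3 hl) * (mkP (t9 lam h3 hl) ^ 4)⁻¹ = mkP (b9 lam h3 hl) * mkP (w9 lam h3 hl) ^ 0
    simp only [t9_p2, t9_p3, t9_p4, w9_p2, pow_one, pow_zero, one_mul, mul_one, inv_one, ab9_eq]
    all_goals simp only [← mkP_inv, ← mkP_mul]
    all_goals refine mkP_eq_of_sign _ _ (1) (by norm_num) ?_ ?_ ?_ ?_ <;> simp [uu_00, uu_01, uu_10, uu_11, ll_00, ll_01, ll_10, ll_11, a9_00, a9_01, a9_10, a9_11, b9_00, b9_01, b9_10, b9_11, w9_00, w9_01, w9_10, w9_11, w29_00, w29_01, w29_10, w29_11, t9_00, t9_01, t9_10, t9_11, t29_00, t29_01, t29_10, t29_11, t39_00, t39_01, t39_10, t39_11, t49_00, t49_01, t49_10, t49_11, ab9_00, ab9_01, ab9_10, ab9_11, sl_mul_apply, sl_inv_00, sl_inv_01, sl_inv_10, sl_inv_11] <;> grind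
  · refine ⟨3, by norm_num, mkP (b9 lam h3 hl), (a4_9 lam h3 hl).b_mem, 0, ?_⟩
    show mkP (t9 lam h3 hl) ^ 2 * mkP (b9 lam h3 hl) * (mkP (t9 lam h3 hl) ^ 3)⁻¹ = mkP (b9 lam h3 hl) * mkP (w9 lam h3 hl) ^ 0
    simp only [t9_p2, t9_p3, t9_p4, w9_p2, pow_one, pow_zero, one_mul, mul_one, inv_one, ab9_eq]
    all_goals simp only [← mkP_inv, ← mkP_mul]
    all_goals refine mkP_eq_of_sign _ _ (1) (by norm_num) ?_ ?_ ?_ ?_ <;> simp [uu_00, uu_01, uu_10, uu_11, ll_00, ll_01, ll_10, ll_11, a9_00, a9_01, a9_10, a9_11, b9_00, b9_01, b9_10, b9_11, w9_00, w9_01, w9_10, w9_11, w29_00, w29_01, w29_10, w29_11, t9_00, t9_01, t9_10, t9_11, t29_00, t29_01, t29_10, t29_11, t39_00, t39_01, t39_10, t39_11, t49_00, t49_01, t49_10, t49_11, ab9_00, ab9_01, ab9_10, ab9_11, sl_mul_apply, sl_inv_00, sl_inv_01, sl_inv_10, sl_inv_11] <;> grind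
  · refine ⟨2, by norm_num, mkP (b9 lam h3 hl), (a4_9 lam h3 hl).b_mem, 0, ?_⟩
    show mkP (t9 lam h3 hl) ^ 3 * mkP (b9 lam h3 hl) * (mkP (t9 lam h3 hl) ^ 2)⁻¹ = mkP (b9 lam h3 hl) * mkP (w9 lam h3 hl) ^ 0
    simp only [t9_p2, t9_p3, t9_p4, w9_p2, pow_one, pow_zero, one_mul, mul_one, inv_one, ab9_eq]
    all_goals simp only [← mkP_inv, ← mkP_mul]
    all_goals refine mkP_eq_of_sign _ _ (1) (by norm_num) ?_ ?_ ?_ ?_ <;> simp [uu_00, uu_01, uu_10, uu_11, ll_00, ll_01, ll_10, ll_11, a9_00, a9_01, a9_10, a9_11, b9_00, b9_01, b9_10, b9_11, w9_00, w9_01, w9_10, w9_11, w29_00, w29_01, w29_10, w29_11, t9_00, t9_01, t9_10, t9_11, t29_00, t29_01, t29_10, t29_11, t39_00, t39_01, t39_10, t39_11, t49_00, t49_01, t49_10, t49_11, ab9_00, ab9_01, ab9_10, ab9_11, sl_mul_apply, sl_inv_00, sl_inv_01, sl_inv_10, sl_inv_11] <;> grind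
  · refine ⟨1, by norm_num, mkP (b9 lam h3 hl), (a4_9 lam h3 hl).b_mem, 0, ?_⟩
    show mkP (t9 lam h3 hl) ^ 4 * mkP (b9 lam h3 hl) * (mkP (t9 lam h3 hl) ^ 1)⁻¹ = mkP (b9 lam h3 hl) * mkP (w9 lam h3 hl) ^ 0
    simp only [t9_p2, t9_p3, t9_p4, w9_p2, pow_one, pow_zero, one_mul, mul_one, inv_one, ab9_eq]
    all_goals simp only [← mkP_inv, ← mkP_mul]
    all_goals refine mkP_eq_of_sign _ _ (1) (by norm_num) ?_ ?_ ?_ ?_ <;> simp [uu_00, uu_01, uu_10, uu_11, ll_00, ll_01, ll_10, ll_11, a9_00, a9_01, a9_10, a9_11, b9_00, b9_01, b9_10, b9_11, w9_00, w9_01, w9_10, w9_11, w29_00, w29_01, w29_10, w29_11, t9_00, t9_01, t9_10, t9_11, t29_00, t29_01, t29_10, t29_11, t39_00, t39_01, t39_10, t39_11, t49_00, t49_01, t49_10, t49_11, ab9_00, ab9_01, ab9_10, ab9_11, sl_mul_apply, sl_inv_00, sl_inv_01, sl_inv_10, sl_inv_11] <;> grind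
theorem cos9w [Finite F] (n : ℕ) (hn : n < 5) : ∃ m : ℕ, m < 5 ∧ mkP (t9 lam h3 hl) ^ n * mkP (w9 lam h3 hl) * (mkP (t9 lam h3 hl) ^ m)⁻¹ ∈ (a4_9 lam h3 hl).T := by
  interval_cases n
  · refine ⟨0, by norm_num, 1, (a4_9 lam h3 hl).V.one_mem, 1, ?_⟩
    show mkP (t9 lam h3 hl) ^ 0 * mkP (w9 lam h3 hl) * (mkP (t9 lam h3 hl) ^ 0)⁻¹ = 1 * mkP (w9 lam h3 hl) ^ 1
    simp only [t9_p2, t9_p3, t9_p4, w9_p2, pow_one, pow_zero, one_mul, mul_one, inv_one, ab9_eq]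
  · refine ⟨1, by norm_num, mkP (a9 lam h3 hl), (a4_9 lam h3 hl).a_mem, 2, ?_⟩
    show mkP (t9 lam h3 hl) ^ 1 * mkP (w9 lam h3 hl) * (mkP (t9 lam h3 hl) ^ 1)⁻¹ = mkP (a9 lam h3 hl) * mkP (w9 lam h3 hl) ^ 2
    simp only [t9_p2, t9_p3, t9_p4, w9_p2, pow_one, pow_zero, one_mul, mul_one, inv_one, ab9_eq]
    all_goals simp only [← mkP_inv, ← mkP_mul]
    all_goals refine mkP_eq_of_sign _ _ (-1) (by norm_num) ?_ ?_ ?_ ?_ <;> simp [uu_00, uu_01, uu_10, uu_11, ll_00, ll_01, ll_10, ll_11, a9_00, a9_01, a9_10, a9_11, b9_00, b9_01, b9_10, b9_11, w9_00, w9_01, w9_10, w9_11, w29_00, w29_01, w29_10, w29_11, t9_00, t9_01, t9_10, t9_11, t29_00, t29_01, t29_10, t29_11, t39_00, t39_01, t39_10, t39_11, t49_00, t49_01, t49_10, t49_11, ab9_00, ab9_01, ab9_10, ab9_11, sl_mul_apply, sl_inv_00, sl_inv_01, sl_inv_10, sl_inv_11] <;> grind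
  · refine ⟨4, by norm_num, mkP (a9 lam h3 hl) * mkP (b9 lam h3 hl), (a4_9 lam h3 hl).V.mul_mem (a4_9 lam h3 hl).a_mem (a4_9 lam h3 hl).b_mem, 0, ?_⟩
    show mkP (t9 lam h3 hl) ^ 2 * mkP (w9 lam h3 hl) * (mkP (t9 lam h3 hl) ^ 4)⁻¹ = mkP (a9 lam h3 hl) * mkP (b9 lam h3 hl) * mkP (w9 lam h3 hl) ^ 0
    simp only [t9_p2, t9_p3, t9_p4, w9_p2, pow_one, pow_zero, one_mul, mul_one, inv_one, ab9_eq]
    all_goals simp only [← mkP_inv, ← mkP_mul]
    all_goals refine mkP_eq_of_sign _ _ (-1) (by norm_num) ?_ ?_ ?_ ?_ <;> simp [uu_00, uu_01, uu_10, uu_11, ll_00, ll_01, ll_10, ll_11, a9_00, a9_01, a9_10, a9_11, b9_00, b9_01, b9_10, b9_11, w9_00, w9_01, w9_10, w9_11, w29_00, w29_01, w29_10, w29_11, t9_00, t9_01, t9_10, t9_11, t29_00, t29_01, t29_10, t29_11, t39_00, t39_01, t39_10, t39_11, t49_00, t49_01, t49_10, t49_11, ab9_00, ab9_01, ab9_10, ab9_11, sl_mul_apply, sl_inv_00, sl_inv_01, sl_inv_10, sl_inv_11]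 <;> grind
  · refine ⟨2, by norm_num, 1, (a4_9 lam h3 hl).V.one_mem, 2, ?_⟩
    show mkP (t9 lam h3 hl) ^ 3 * mkP (w9 lam h3 hl) * (mkP (t9 lam h3 hl) ^ 2)⁻¹ = 1 * mkP (w9 lam h3 hl) ^ 2
    simp only [t9_p2, t9_p3, t9_p4, w9_p2, pow_one, pow_zero, one_mul, mul_one, inv_one, ab9_eq]
    all_goals simp only [← mkP_inv, ← mkP_mul]
    all_goals refine mkP_eq_of_sign _ _ (-1) (by norm_num) ?_ ?_ ?_ ?_ <;> simp [uu_00, uu_01, uu_10, uu_11, ll_00, ll_01, ll_10, ll_11, a9_00, a9_01, a9_10, a9_11, b9_00, b9_01, b9_10, b9_11, w9_00, w9_01, w9_10, w9_11, w29_00, w29_01, w29_10, w29_11, t9_00, t9_01, t9_10, t9_11, t29_00, t29_01, t29_10, t29_11, t39_00, t39_01, t39_10, t39_11, t49_00, t49_01, t49_10, t49_11, ab9_00, ab9_01, ab9_10, ab9_11, sl_mul_apply, sl_inv_00, sl_inv_01, sl_inv_10, sl_inv_11] <;> grind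
  · refine ⟨3, by norm_num, mkP (a9 lam h3 hl) * mkP (b9 lam h3 hl), (a4_9 lam h3 hl).V.mul_mem (a4_9 lam h3 hl).a_mem (a4_9 lam h3 hl).b_mem, 1, ?_⟩
    show mkP (t9 lam h3 hl) ^ 4 * mkP (w9 lam h3 hl) * (mkP (t9 lam h3 hl) ^ 3)⁻¹ = mkP (a9 lam h3 hl) * mkP (b9 lam h3 hl) * mkP (w9 lam h3 hl) ^ 1
    simp only [t9_p2, t9_p3, t9_p4, w9_p2, pow_one, pow_zero, one_mul, mul_one, inv_one, ab9_eq]
    all_goals simp only [← mkP_inv, ← mkP_mul]
    all_goals refine mkP_eq_of_sign _ _ (-1) (by norm_num) ?_ ?_ ?_ ?_ <;> simp [uu_00, uu_01, uu_10, uu_11, ll_00, ll_01, ll_10, ll_11, a9_00, a9_01, a9_10, a9_11, b9_00, b9_01, b9_10, b9_11, w9_00, w9_01, w9_10, w9_11, w29_00, w29_01, w29_10, w29_11, t9_00, t9_01, t9_10, t9_11, t29_00, t29_01, t29_10, t29_11, t39_00, t39_01, t39_10, t39_11, t49_00, t49_01, t49_10, t49_11, ab9_00, ab9_01, ab9_10, ab9_11, sl_mul_apply, sl_inv_00, sl_inv_01, sl_inv_10, sl_inv_11]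 <;> grind
theorem not9 [Finite F] : mkP (t9 lam h3 hl) * mkP (a9 lam h3 hl) * (mkP (t9 lam h3 hl))⁻¹ ∉ (a4_9 lam h3 hl).V := by
  have h2 := f9_two (lam := lam) h3 hl
  have h0 := f9_lam lam h3 hl
  rw [A4Data.mem_V]
  show ¬ (_ = 1 ∨ _ = mkP (a9 lam h3 hl) ∨ _ = mkP (b9 lam h3 hl) ∨ _ = mkP (a9 lam h3 hl) * mkP (b9 lam h3 hl))
  rw [ab9_eq]
  simp only [← mkP_inv, ← mkP_mul]
  rintro (h | h | h | h)
  · revert h
    apply mkP_ne_of_entry _ 1 1 0 <;> simp [uu_00, uu_01, uu_10, uu_11, ll_00, ll_01, ll_10, ll_11, a9_00, a9_01, a9_10, a9_11, b9_00, b9_01, b9_10, b9_11, w9_00, w9_01, w9_10, w9_11, w29_00, w29_01, w29_10, w29_11, t9_00, t9_01, t9_10, t9_11, t29_00, t29_01, t29_10, t29_11, t39_00, t39_01, t39_10, t39_11, t49_00, t49_01, t49_10, t49_11, ab9_00, ab9_01, ab9_10, ab9_11, sl_mul_apply, sl_inv_00, sl_inv_01, sl_inv_10, sl_inv_11] <;> first | grind | (intro h; grind)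
  · revert h
    apply mkP_ne_of_entry _ (a9 lam h3 hl) 0 0 <;> simp [uu_00, uu_01, uu_10, uu_11, ll_00, ll_01, ll_10, ll_11, a9_00, a9_01, a9_10, a9_11, b9_00, b9_01, b9_10, b9_11, w9_00, w9_01, w9_10, w9_11, w29_00, w29_01, w29_10, w29_11, t9_00, t9_01, t9_10, t9_11, t29_00, t29_01, t29_10, t29_11, t39_00, t39_01, t39_10, t39_11, t49_00, t49_01, t49_10, t49_11, ab9_00, ab9_01, ab9_10, ab9_11, sl_mul_apply, sl_inv_00, sl_inv_01, sl_inv_10, sl_inv_11] <;> first | grind | (intro h; grind)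
  · revert h
    apply mkP_ne_of_entry _ (b9 lam h3 hl) 0 0 <;> simp [uu_00, uu_01, uu_10, uu_11, ll_00, ll_01, ll_10, ll_11, a9_00, a9_01, a9_10, a9_11, b9_00, b9_01, b9_10, b9_11, w9_00, w9_01, w9_10, w9_11, w29_00, w29_01, w29_10, w29_11, t9_00, t9_01, t9_10, t9_11, t29_00, t29_01, t29_10, t29_11, t39_00, t39_01, t39_10, t39_11, t49_00, t49_01, t49_10, t49_11, ab9_00, ab9_01, ab9_10, ab9_11, sl_mul_apply, sl_inv_00, sl_inv_01, sl_inv_10, sl_inv_11] <;> first | grind | (intro h; grind)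
  · revert h
    apply mkP_ne_of_entry _ (ab9 lam h3 hl) 1 0 <;> simp [uu_00, uu_01, uu_10, uu_11, ll_00, ll_01, ll_10, ll_11, a9_00, a9_01, a9_10, a9_11, b9_00, b9_01, b9_10, b9_11, w9_00, w9_01, w9_10, w9_11, w29_00, w29_01, w29_10, w29_11, t9_00, t9_01, t9_10, t9_11, t29_00, t29_01, t29_10, t29_11, t39_00, t39_01, t39_10, t39_11, t49_00, t49_01, t49_10, t49_11, ab9_00, ab9_01, ab9_10, ab9_11, sl_mul_apply, sl_inv_00, sl_inv_01, sl_inv_10, sl_inv_11] <;> first | grind | (intro h; grind)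
/-- `A₅`-data in `PSL₂(9)`. -/
def a5_9 [Finite F] : A5Data (Pe F) where
  toA4Data := a4_9 lam h3 hl
  t := mkP (t9 lam h3 hl)
  ht5 := t9_p5 lam h3 hl
  ht1 := t9_ne lam h3 hl
  hcosa := cos9a lam h3 hl
  hcosb := cos9b lam h3 hl
  hcosw := cos9w lam h3 hl
  hnot := not9 lam h3 hl
theorem ll9_mem [Finite F] : mkP (ll 1) ∈ (a5_9 lam h3 hl).I := by
  refine ⟨mkP (a9 lam h3 hl) * mkP (b9 lam h3 hl) * mkP (w9 lam h3 hl) ^ 2, ⟨mkP (a9 lam h3 hl) * mkP (b9 lam h3 hl), (a4_9 lam h3 hl).V.mul_mem (a4_9 lam h3 hl).a_mem (a4_9 lam h3 hl).b_mem, 2, rfl⟩, 2, ?_⟩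
  show _ = mkP (a9 lam h3 hl) * mkP (b9 lam h3 hl) * mkP (w9 lam h3 hl) ^ 2 * mkP (t9 lam h3 hl) ^ 2
  simp only [t9_p2, t9_p3, t9_p4, w9_p2, pow_one, pow_zero, one_mul, mul_one, inv_one, ab9_eq]
  simp only [← mkP_inv, ← mkP_mul]
  refine mkP_eq_of_sign _ _ (1) (by norm_num) ?_ ?_ ?_ ?_ <;> simp [uu_00, uu_01, uu_10, uu_11, ll_00, ll_01, ll_10, ll_11, a9_00, a9_01, a9_10, a9_11, b9_00, b9_01, b9_10, b9_11, w9_00, w9_01, w9_10, w9_11, w29_00, w29_01, w29_10, w29_11, t9_00, t9_01, t9_10, t9_11, t29_00, t29_01, t29_10, t29_11, t39_00, t39_01, t39_10, t39_11, t49_00, t49_01, t49_10, t49_11, ab9_00, ab9_01, ab9_10, ab9_11, sl_mul_apply, sl_inv_00, sl_inv_01, sl_inv_10, sl_inv_11] <;> grind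
theorem uu9_mem [Finite F] : mkP (uu lam) ∈ (a5_9 lam h3 hl).I := by
  refine ⟨mkP (a9 lam h3 hl) * mkP (w9 lam h3 hl) ^ 0, ⟨mkP (a9 lam h3 hl), (a4_9 lam h3 hl).a_mem, 0, rfl⟩, 1, ?_⟩
  show _ = mkP (a9 lam h3 hl) * mkP (w9 lam h3 hl) ^ 0 * mkP (t9 lam h3 hl) ^ 1
  simp only [t9_p2, t9_p3, t9_p4, w9_p2, pow_one, pow_zero, one_mul, mul_one, inv_one, ab9_eq]
  simp only [← mkP_inv, ← mkP_mul]
  refine mkP_eq_of_sign _ _ (-1) (by norm_num) ?_ ?_ ?_ ?_ <;> simp [uu_00, uu_01, uu_10, uu_11, ll_00, ll_01, ll_10, ll_11, a9_00, a9_01, a9_10, a9_11, b9_00, b9_01, b9_10, b9_11, w9_00, w9_01, w9_10, w9_11, w29_00, w29_01, w29_10, w29_11, t9_00, t9_01, t9_10, t9_11, t29_00, t29_01, t29_10, t29_11, t39_00, t39_01, t39_10, t39_11, t49_00, t49_01, t49_10, t49_11, ab9_00, ab9_01, ab9_10, ab9_11, sl_mul_apply, sl_inv_00, sl_inv_01, sl_inv_10, sl_inv_11] <;> grind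

end F9

section Main

variable (p : ℕ) [hp : Fact p.Prime] [CharP F p]

/-- The hypotheses of Hua's argument, for an explicit basis. -/
theorem huaHyp_of_basis (H : Subgroup (Pe F)) {v w : Fin 2 → F} (hd : dt v w ≠ 0)
    (hOa : mk F v (ne_zero_of_dt_left hd) ∈ DGeom.Om H (ℙ F (Fin 2 → F)) p)
    (hOb : mk F w (ne_zero_of_dt_right hd) ∈ DGeom.Om H (ℙ F (Fin 2 → F)) p)
    (htr : ∀ x ∈ DGeom.Om H (ℙ F (Fin 2 → F)) p, ∀ y ∈ DGeom.Om H (ℙ F (Fin 2 → F)) p, ∀ z ∈ DGeom.Om H (ℙ F (Fin 2 → F)) p, y ≠ x → z ≠ x →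
      ∃ u : H, u ^ p = 1 ∧ u • x = x ∧ u • y = z)
    (hone : mkP (uu 1) ∈ conjSub (colGL v w hd) H) : HuaHyp (conjSub (colGL v w hd) H) := by
  have hv0 : v ≠ 0 := ne_zero_of_dt_left hd
  have hw : w ≠ 0 := ne_zero_of_dt_right hd
  have hthem : ∀ x : Pe F, x ∈ conjSub (colGL v w hd) H → ∀ A : SL(2, F), mkP A = x → mkP (ThS (colGL v w hd) A) ∈ H := by
    rintro x hx A rfl
    exact hx
  have hu_of : ∀ s : F, (∃ U' : SL(2, F), mkP U' ∈ H ∧ U'.1 *ᵥ v = v ∧ U'.1 *ᵥ w = s • v + w) → mkP (uu s) ∈ conjSub (colGL v w hd) H := by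
    rintro s ⟨U', h1, h2, h3⟩
    rw [mem_conjSub, Th_mkP, ThS_eq_of_basis hd (uu s) U']
    · exact h1
    · simp [h2]
    · simp [h3]
  have hl_of : ∀ s : F, (∃ U' : SL(2, F), mkP U' ∈ H ∧ U'.1 *ᵥ w = w ∧ U'.1 *ᵥ v = s • w + v) → mkP (ll s) ∈ conjSub (colGL v w hd) H := by
    rintro s ⟨U', h1, h2, h3⟩
    rw [mem_conjSub, Th_mkP, ThS_eq_of_basis hd (ll s) U']
    · exact h1
    · simp [h3, add_comm]
    · simp [h2]
  have hd' : dt w v ≠ 0 := by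
    rw [dt_swap]
    exact neg_ne_zero.2 hd
  have himg : ∀ A : SL(2, F), mkP A ∈ conjSub (colGL v w hd) H → ∀ {u : Fin 2 → F} (hu : u ≠ 0), (u = A.1 0 0 • v + A.1 1 0 • w ∨ u = A.1 0 1 • v + A.1 1 1 • w) →
      mk F u hu ∈ DGeom.Om H (ℙ F (Fin 2 → F)) p := by
    intro A hA u hu hue
    have hB := hthem _ hA A rfl
    rcases hue with hue | hue
    · have := om_smul p H hOa ⟨_, hB⟩
      obtain ⟨h1, e⟩ := mkP_smul_mk (ThS (colGL v w hd) A) hv0
      have e2 : (⟨_, hB⟩ : H) • mk F v hv0 = mkP (ThS (colGL v w hd) A) • mk F v hv0 := rfl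
      rw [e2, e] at this
      convert this using 1
      congr 1
      rw [hue, ThS_mulVec_left]
    · have := om_smul p H hOb ⟨_, hB⟩
      obtain ⟨h1, e⟩ := mkP_smul_mk (ThS (colGL v w hd) A) hw
      have e2 : (⟨_, hB⟩ : H) • mk F w hw = mkP (ThS (colGL v w hd) A) • mk F w hw := rfl
      rw [e2, e] at this
      convert this using 1
      congr 1
      rw [hue, ThS_mulVec_right]
  have hne1 : ∀ x y : F, y ≠ 0 → x • v + y • w ≠ 0 := by
    intro x y hy h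
    have : dt v (x • v + y • w) = 0 := by rw [h]; simp [dt]
    rw [dt_add_right, dt_smul_right, dt_smul_right, dt_self, mul_zero, zero_add] at this
    exact (mul_ne_zero hy hd) this
  have hne2 : ∀ x y : F, x ≠ 0 → x • v + y • w ≠ 0 := by
    intro x y hx h
    have : dt (x • v + y • w) w = 0 := by rw [h]; simp [dt]
    rw [dt_add_left, dt_smul_left, dt_smul_left, dt_self, mul_zero, add_zero] at this
    exact (mul_ne_zero hx hd) this
  refine ⟨hone, ?_, ?_, ?_, ?_⟩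
  · intro A hA h0
    apply hu_of
    exact tr_coord p H htr hd hOa hOb h0 (himg A hA (hne1 _ _ h0) (Or.inl rfl)) (hne1 _ _ h0) rfl rfl
  · intro A hA h0
    apply hu_of
    exact tr_coord p H htr hd hOa hOb h0 (himg A hA (hne1 _ _ h0) (Or.inr rfl)) (hne1 _ _ h0) rfl rfl
  · intro A hA h0
    apply hl_of
    exact tr_coord p H htr hd' hOb hOa h0 (himg A hA (hne2 _ _ h0) (Or.inl rfl)) (hne2 _ _ h0) rfl (add_comm _ _)
  · intro A hA h0
    apply hl_of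
    exact tr_coord p H htr hd' hOb hOa h0 (himg A hA (hne2 _ _ h0) (Or.inr rfl)) (hne2 _ _ h0) rfl (add_comm _ _)

theorem ll_one_pow : mkP (ll (1 : F)) ^ p = 1 :=
  pow_char_of_eig p (ll (1 : F)) (v := ![0, 1]) e1_ne (l := 1) (by simp) (by
    ext i; fin_cases i <;> simp [Matrix.mulVec, dotProduct, Fin.sum_univ_two, ll])

theorem uu_pow (lam : F) : mkP (uu lam) ^ p = 1 :=
  pow_char_of_eig p (uu lam) (v := ![1, 0]) e0_ne (l := 1) (by simp) (by
    ext i; fin_cases i <;> simp [Matrix.mulVec, dotProduct, Fin.sum_univ_two, uu])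

end Main

theorem uu_ne_one {lam : F} (h : lam ≠ 0) : mkP (uu lam) ≠ 1 := by
  apply mkP_ne_of_entry _ 1 0 1 <;> simp [h]

theorem ll_ne_one {lam : F} (h : lam ≠ 0) : mkP (ll lam) ≠ 1 := by
  apply mkP_ne_of_entry _ 1 1 0 <;> simp [h]

/-- `H = ⟨L, U⟩` is everything in the transitive case. -/
theorem two_gen_top [Finite F] (p : ℕ) [hp : Fact p.Prime] [CharP F p] (H : Subgroup (Pe F)) {lam : F} (hlam : lam ≠ 0)
    (hgen : Subfield.closure ({lam} : Set F) = ⊤)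
    (hL : mkP (ll 1) ∈ H) (hU : mkP (uu lam) ∈ H)
    (htr : ∀ x ∈ DGeom.Om H (ℙ F (Fin 2 → F)) p, ∀ y ∈ DGeom.Om H (ℙ F (Fin 2 → F)) p, ∀ z ∈ DGeom.Om H (ℙ F (Fin 2 → F)) p, y ≠ x → z ≠ x →
      ∃ u : H, u ^ p = 1 ∧ u • x = x ∧ u • y = z) : H = ⊤ := by
  obtain ⟨v, hv⟩ : ∃ v : Fin 2 → F, v = lam • ![1, 0] := ⟨_, rfl⟩
  have hd : dt v ![0, 1] ≠ 0 := by
    simpa [hv, dt] using hlam
  have ev : uu lam * 1 = uu lam := mul_one _
  have hu1 : (uu lam).1 *ᵥ v = v := by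
    rw [hv]
    ext i; fin_cases i <;> simp [Matrix.mulVec, dotProduct, Fin.sum_univ_two, uu]
  have hu2 : (uu lam).1 *ᵥ ![0, 1] = v + ![0, 1] := by
    rw [hv]
    ext i; fin_cases i <;> simp [Matrix.mulVec, dotProduct, Fin.sum_univ_two, uu]
  have hl1 : (ll (1 : F)).1 *ᵥ v = v + lam • ![0, 1] := by
    rw [hv]
    ext i; fin_cases i <;> simp [Matrix.mulVec, dotProduct, Fin.sum_univ_two, ll]
  have hl2 : (ll (1 : F)).1 *ᵥ ![0, 1] = ![0, 1] := by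
    ext i; fin_cases i <;> simp [Matrix.mulVec, dotProduct, Fin.sum_univ_two, ll]
  have hOa : mk F v (ne_zero_of_dt_left hd) ∈ DGeom.Om H (ℙ F (Fin 2 → F)) p := by
    refine ⟨⟨_, hU⟩, ?_, ?_, ?_⟩
    · intro h
      exact uu_ne_one hlam (congrArg Subtype.val h)
    · show mkP (uu lam) • mk F v (ne_zero_of_dt_left hd) = mk F v (ne_zero_of_dt_left hd)
      rw [mkP_fix_iff]
      exact ⟨1, by rw [hu1, one_smul]⟩
    · exact Subtype.ext (uu_pow p lam)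
  have hOb : mk F ![0, 1] (ne_zero_of_dt_right hd) ∈ DGeom.Om H (ℙ F (Fin 2 → F)) p := by
    refine ⟨⟨_, hL⟩, ?_, ?_, ?_⟩
    · intro h
      exact ll_ne_one (one_ne_zero) (congrArg Subtype.val h)
    · show mkP (ll (1 : F)) • mk F ![0, 1] (ne_zero_of_dt_right hd) = mk F ![0, 1] (ne_zero_of_dt_right hd)
      rw [mkP_fix_iff]
      exact ⟨1, by rw [hl2, one_smul]⟩
    · exact Subtype.ext (ll_one_pow p)
  have hone : mkP (uu 1) ∈ conjSub (colGL v ![0, 1] hd) H := by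
    rw [mem_conjSub, Th_mkP, ThS_eq_of_basis hd (uu 1) (uu lam)]
    · exact hU
    · simp [hu1]
    · simp [hu2]
  have S := huaHyp_of_basis p H hd hOa hOb htr hone
  have hll : mkP (ll lam) ∈ conjSub (colGL v ![0, 1] hd) H := by
    rw [mem_conjSub, Th_mkP, ThS_eq_of_basis hd (ll lam) (ll 1)]
    · exact hL
    · simp [hl1]
    · simp [hl2]
  have hfld : lam ∈ S.fld := S.uu_of_ll hll
  have htop : S.fld = ⊤ := by
    rw [eq_top_iff, ← hgen, Subfield.closure_le]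
    rintro x (rfl : x = lam)
    exact hfld
  have hall : ∀ x : Pe F, x ∈ conjSub (colGL v ![0, 1] hd) H := by
    intro x
    obtain ⟨A, rfl⟩ := mkP_surj x
    apply S.mem_of_entries <;> rw [htop] <;> exact Subfield.mem_top _
  rw [eq_top_iff]
  intro x _
  have := hall ((Th (colGL v ![0, 1] hd)).symm x)
  rw [mem_conjSub, MulEquiv.apply_symm_apply] at this
  exact this

/-- Traces from orders. -/
theorem trace_of_order (A : SL(2, F)) (h3 : (3 : F) = 0) (hb : A.1 0 1 ≠ 0)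
    (h : mkP A ^ 2 = 1 ∨ mkP A ^ 3 = 1 ∨ mkP A ^ 5 = 1) :
    A.1 0 0 + A.1 1 1 = 0 ∨ (A.1 0 0 + A.1 1 1) ^ 2 = 1 ∨ (A.1 0 0 + A.1 1 1) ^ 4 + 1 = 0 := by
  have hd := sl_det A
  have key : ∀ n : ℕ, mkP A ^ n = 1 → (A ^ n).1 0 1 = 0 := by
    intro n hn
    rw [← mkP_pow, mkP_eq_one_iff] at hn
    rcases hn with hn | hn
    · rw [hn]; simp
    · rw [hn]; simp
  rcases h with h | h | h
  · left
    have e := key 2 h
    have e2 : (A ^ 2).1 0 1 = (A.1 0 0 + A.1 1 1) * A.1 0 1 := by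
      rw [pow_two, sl_mul_apply]; ring
    rw [e2] at e
    exact (mul_eq_zero.1 e).resolve_right hb
  · right; left
    have e := key 3 h
    have e2 : (A ^ 3).1 0 1 = ((A.1 0 0 + A.1 1 1) ^ 2 - 1) * A.1 0 1 := by
      rw [pow_succ, pow_two, sl_mul_apply, sl_mul_apply, sl_mul_apply]
      grind
    rw [e2] at e
    have := (mul_eq_zero.1 e).resolve_right hb
    linear_combination this
  · right; right
    have e := key 5 h
    have e2 : (A ^ 5).1 0 1 = ((A.1 0 0 + A.1 1 1) ^ 4 - 3 * (A.1 0 0 + A.1 1 1) ^ 2 + 1) * A.1 0 1 := by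
      simp only [pow_succ, pow_zero, one_mul, sl_mul_apply]
      grind
    rw [e2] at e
    have := (mul_eq_zero.1 e).resolve_right hb
    linear_combination this + (A.1 0 0 + A.1 1 1) ^ 2 * h3

/-- The algebra: the parameter is `±1` or a square root of `-1`. -/
theorem lam_cases {lam : F} (h3 : (3 : F) = 0) (hlam : lam ≠ 0)
    (h1 : 2 + lam = 0 ∨ (2 + lam) ^ 2 = 1 ∨ (2 + lam) ^ 4 + 1 = 0)
    (h2 : 2 + 2 * lam = 0 ∨ (2 + 2 * lam) ^ 2 = 1 ∨ (2 + 2 * lam) ^ 4 + 1 = 0) :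
    lam = 1 ∨ lam = -1 ∨ lam ^ 2 = -1 := by
  have h20 : (2 : F) ≠ 0 := by
    intro h
    have : (1 : F) = 0 := by linear_combination h3 - h
    exact one_ne_zero this
  rcases h1 with h1 | h1 | h1
  · left
    linear_combination h1 - h3
  · right; left
    have : lam * (lam + 1) = 0 := by linear_combination h1 + (- lam - 1) * h3
    have := (mul_eq_zero.1 this).resolve_left hlam
    linear_combination this
  rcases h2 with h2 | h2 | h2
  · right; left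
    have : 2 * (lam + 1) = 0 := by linear_combination h2
    have := (mul_eq_zero.1 this).resolve_left h20
    linear_combination this
  · left
    have : lam * (lam - 1) = 0 := by linear_combination h2 + (- 1 - 3 * lam - lam ^ 2) * h3
    have := (mul_eq_zero.1 this).resolve_left hlam
    linear_combination this
  · right; right
    have : 2 * (lam * (lam ^ 2 + 1)) = 0 := by grind
    have := (mul_eq_zero.1 this).resolve_left h20
    have := (mul_eq_zero.1 this).resolve_left hlam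
    linear_combination this

/-- Fields generated by a root of `x^q = x`. -/
theorem all_frob [CharP F 3] {lam : F} (hgen : Subfield.closure ({lam} : Set F) = ⊤) (n : ℕ) (h : lam ^ 3 ^ n = lam) :
    ∀ x : F, x ^ 3 ^ n = x := by
  haveI : Fact (Nat.Prime 3) := ⟨by norm_num⟩
  have hle : Subfield.closure ({lam} : Set F) ≤ RingHom.eqLocusField (iterateFrobenius F 3 n) (RingHom.id F) := by
    rw [Subfield.closure_le]
    rintro x (rfl : x = lam)
    show iterateFrobenius F 3 n x = x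
    rw [iterateFrobenius_def, h]
  intro x
  have hx : x ∈ Subfield.closure ({lam} : Set F) := by rw [hgen]; exact Subfield.mem_top _
  have := hle hx
  change iterateFrobenius F 3 n x = x at this
  rwa [iterateFrobenius_def] at this

/-- A field all of whose elements are roots of `x^k = x` is small. -/
theorem card_le_of_all_pow [Fintype F] {k : ℕ} (hk : 1 < k) (h : ∀ x : F, x ^ k = x) : Fintype.card F ≤ k := by
  classical
  have h0 : (Polynomial.X ^ k - Polynomial.X : Polynomial F) ≠ 0 := by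
    have h' := FiniteField.X_pow_card_pow_sub_X_ne_zero F (n := 1) (p := k) one_ne_zero hk
    simpa using h'
  have hd : (Polynomial.X ^ k - Polynomial.X : Polynomial F).natDegree = k := by
    have h' := FiniteField.X_pow_card_pow_sub_X_natDegree_eq F (n := 1) (p := k) one_ne_zero hk
    simpa using h'
  have := Polynomial.card_le_degree_of_subset_roots (p := (Polynomial.X ^ k - Polynomial.X : Polynomial F)) (Z := Finset.univ) (by
    intro x _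
    rw [Polynomial.mem_roots h0]
    simp [Polynomial.IsRoot, h x])
  rw [hd] at this
  simpa using this


section Lift

variable [Fintype F]

/-- The projection as a homomorphism. -/
abbrev prj (F : Type*) [Field F] : SL(2, F) →* Pe F := QuotientGroup.mk' _

theorem neg_one_of_invol (hodd : Odd (Fintype.card F)) (Γ : Subgroup SL(2, F)) {x : Pe F} (hx : x ∈ Γ.map (prj F))
    (h1 : x ≠ 1) (h2 : x ^ 2 = 1) : ∃ g ∈ Γ, (g : SL(2, F)).1 = -1 := by
  obtain ⟨A, hA, rfl⟩ := hx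
  change mkP A ≠ 1 at h1
  change mkP A ^ 2 = 1 at h2
  rw [← mkP_pow, mkP_eq_one_iff] at h2
  rcases h2 with h2 | h2
  · exfalso
    apply h1
    rw [mkP_eq_one_iff]
    exact sq_eq_one_center hodd h2
  · exact ⟨A ^ 2, Γ.pow_mem hA 2, h2⟩

theorem gamma_top (Γ : Subgroup SL(2, F)) (hneg : ∃ g ∈ Γ, (g : SL(2, F)).1 = -1) (h : Γ.map (prj F) = ⊤) : Γ = ⊤ := by
  obtain ⟨g₀, hg₀, hn⟩ := hneg
  rw [eq_top_iff]
  intro A _
  have hA : mkP A ∈ Γ.map (prj F) := by rw [h]; exact Subgroup.mem_top _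
  obtain ⟨B, hB, e⟩ := hA
  have e' : mkP B = mkP A := e
  rw [mkP_eq_iff] at e'
  rcases e' with e' | e'
  · rwa [← e']
  · have : A = B * g₀ := by
      apply Subtype.ext
      rw [e']
      simp [hn]
    rw [this]
    exact Γ.mul_mem hB hg₀

theorem gamma_card (h2 : (2 : F) ≠ 0) (Γ : Subgroup SL(2, F)) (hneg : ∃ g ∈ Γ, (g : SL(2, F)).1 = -1) :
    Nat.card Γ = 2 * Nat.card (Γ.map (prj F)) := by
  obtain ⟨g₀, hg₀, hn⟩ := hneg
  let φ : Γ →* Γ.map (prj F) := (prj F).subgroupMap Γ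
  have hsurj : Function.Surjective φ := (prj F).subgroupMap_surjective Γ
  have hc := Subgroup.card_mul_index φ.ker
  rw [Subgroup.index_ker, MonoidHom.range_eq_top.2 hsurj, Subgroup.card_top] at hc
  have hk : Nat.card φ.ker = 2 := by
    rw [Nat.card_eq_two_iff]
    have h1m : (⟨1, Γ.one_mem⟩ : Γ) ∈ φ.ker := by
      rw [MonoidHom.mem_ker]
      exact map_one φ
    have hgm : (⟨g₀, hg₀⟩ : Γ) ∈ φ.ker := by
      rw [MonoidHom.mem_ker]
      apply Subtype.ext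
      change mkP g₀ = 1
      rw [mkP_eq_one_iff]
      exact Or.inr hn
    refine ⟨⟨⟨1, Γ.one_mem⟩, h1m⟩, ⟨⟨g₀, hg₀⟩, hgm⟩, ?_, ?_⟩
    · intro h
      have e : (1 : SL(2, F)) = g₀ := congrArg (fun x : φ.ker => ((x : Γ) : SL(2, F))) h
      have e2 := congrArg (fun M : SL(2, F) => M.1 0 0) e
      simp only [hn] at e2
      simp at e2
      apply h2
      linear_combination e2
    · ext x
      simp only [Set.mem_insert_iff, Set.mem_singleton_iff, Set.mem_univ, iff_true]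
      obtain ⟨⟨x, hxΓ⟩, hx⟩ := x
      rw [MonoidHom.mem_ker] at hx
      have hx' : mkP x = 1 := congrArg Subtype.val hx
      rw [mkP_eq_one_iff] at hx'
      rcases hx' with hx' | hx'
      · left
        apply Subtype.ext
        apply Subtype.ext
        exact hx'
      · right
        apply Subtype.ext
        apply Subtype.ext
        apply Subtype.ext
        change x.1 = g₀.1
        rw [hx', hn]
  rw [hk] at hc
  exact hc.symm

theorem wz_invol (h2 : (2 : F) ≠ 0) : mkP (wz : SL(2, F)) ≠ 1 ∧ mkP (wz : SL(2, F)) ^ 2 = 1 := by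
  constructor
  · apply mkP_ne_of_entry _ 1 0 1 <;> simp
  · rw [← mkP_pow, mkP_eq_one_iff]
    right
    ext i j
    fin_cases i <;> fin_cases j <;> simp [pow_two, sl_mul_apply]

end Lift

/-- The main theorem about two transvections. -/
theorem two_transvections [Fintype F] (h2 : (2 : F) ≠ 0) (lam : F) (hlam : lam ≠ 0)
    (hgen : Subfield.closure ({lam} : Set F) = ⊤) (Γ : Subgroup SL(2, F)) (hΓL : ll 1 ∈ Γ) (hΓU : uu lam ∈ Γ)
    (hΓle : Γ.map (prj F) ≤ Subgroup.closure {mkP (ll (1 : F)), mkP (uu lam)}) :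
    (Γ = ⊤ ∧ ¬ (Fintype.card F = 9 ∧ lam ^ 2 = -1)) ∨ (Fintype.card F = 9 ∧ lam ^ 2 = -1 ∧ Nat.card Γ = 120) := by
  classical
  obtain ⟨p, hCh⟩ := CharP.exists F
  haveI : Fact p.Prime := ⟨CharP.char_is_prime F p⟩
  have hp2 : p ≠ 2 := by
    rintro rfl
    exact h2 (by simpa using CharP.cast_eq_zero F 2)
  have hodd : Odd (Fintype.card F) := Nat.odd_iff.2 (FiniteField.odd_card_of_char_ne_two (by
    rw [ringChar.eq F p]
    exact hp2))
  obtain ⟨H, hH⟩ : ∃ H, H = Γ.map (prj F) := ⟨_, rfl⟩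
  have hL : mkP (ll (1 : F)) ∈ H := by rw [hH]; exact ⟨_, hΓL, rfl⟩
  have hU : mkP (uu lam) ∈ H := by rw [hH]; exact ⟨_, hΓU, rfl⟩
  have hUne : (⟨_, hU⟩ : H) ≠ 1 := fun h => uu_ne_one hlam (congrArg Subtype.val h)
  have hUp : (⟨_, hU⟩ : H) ^ p = 1 := Subtype.ext (uu_pow p lam)
  have hq2 : 2 ≤ Fintype.card F := Fintype.one_lt_card
  -- the exceptional case
  have hexc : Fintype.card F = 9 → lam ^ 2 = -1 → Nat.card H ≤ 60 := by
    intro hc hsq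
    have h9 : (9 : F) = 0 := by
      have := FiniteField.cast_card_eq_zero F
      rw [hc] at this
      exact_mod_cast this
    have h3 : (3 : F) = 0 := by
      have : (3 : F) ^ 2 = 0 := by linear_combination h9
      exact pow_eq_zero_iff (by norm_num) |>.1 this
    have hI : H ≤ (a5_9 lam h3 hsq).I := by
      rw [hH]
      refine hΓle.trans ?_
      rw [Subgroup.closure_le]
      rintro x (rfl | rfl)
      · exact ll9_mem lam h3 hsq
      · exact uu9_mem lam h3 hsq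
    have := Subgroup.card_le_of_le hI
    rwa [(a5_9 lam h3 hsq).card_I] at this
  have hne_top : Fintype.card F = 9 → lam ^ 2 = -1 → H ≠ ⊤ := by
    rintro hc hsq rfl
    have h1 := hexc hc hsq
    rw [Subgroup.card_top] at h1
    have h2 := card_gcd_mul hc
    have h3 : Nat.gcd 2 (9 - 1) = 2 := by norm_num
    rw [h3] at h2
    omega
  have hcases := dickson_cases p H
  rcases hcases with ⟨h1, -⟩ | ⟨h1 | h1, -⟩ | ⟨h1, ⟨e⟩⟩ | ⟨-, a, ha⟩ | ⟨-, -, -, -, -, htr⟩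
  · exact absurd hUp (h1 _ hUne)
  · exact absurd h1 hp2
  · exact absurd hUp (h1 _ hUne)
  · -- the case of `A₅`
    have hcH : Nat.card H = 60 := by
      rw [Nat.card_congr e.toEquiv, Nat.card_eq_fintype_card]
      decide
    rcases h1 with rfl | h1
    swap
    · exact absurd hUp (h1 _ hUne)
    have h3 : (3 : F) = 0 := by simpa using CharP.cast_eq_zero F 3
    have hord : ∀ A : SL(2, F), mkP A ∈ H → mkP A ^ 2 = 1 ∨ mkP A ^ 3 = 1 ∨ mkP A ^ 5 = 1 := by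
      intro A hA
      have key : ∀ k : ℕ, e ⟨_, hA⟩ ^ k = 1 → mkP A ^ k = 1 := by
        intro k hk
        rw [← map_pow, map_eq_one_iff e e.injective] at hk
        exact congrArg Subtype.val hk
      rcases a5_orders (e ⟨_, hA⟩) with h | h | h
      · exact Or.inl (key 2 h)
      · exact Or.inr (Or.inl (key 3 h))
      · exact Or.inr (Or.inr (key 5 h))
    have t1 := trace_of_order (ll 1 * uu lam) h3 (by simp [sl_mul_apply, hlam]) (hord _ (H.mul_mem hL hU))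
    have hU2 : mkP (uu (2 * lam)) ∈ H := by
      rw [two_mul, uu_add]
      exact H.mul_mem hU hU
    have t2 := trace_of_order (ll 1 * uu (2 * lam)) h3 (by simp [sl_mul_apply, hlam, h2]) (hord _ (H.mul_mem hL hU2))
    have e1 : (ll 1 * uu lam).1 0 0 + (ll 1 * uu lam).1 1 1 = 2 + lam := by
      simp [sl_mul_apply]
      ring
    have e2 : (ll 1 * uu (2 * lam)).1 0 0 + (ll 1 * uu (2 * lam)).1 1 1 = 2 + 2 * lam := by
      simp [sl_mul_apply]
      ring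
    rw [e1] at t1
    rw [e2] at t2
    -- a small field is impossible
    have hsmall : Fintype.card F ≤ 3 → False := by
      intro hc
      have h5 := card_gcd_mul (F := F) rfl
      have h6 : Nat.card H ≤ Nat.card (Pe F) := Subgroup.card_le_card_group H
      rw [hcH] at h6
      have h7 : 1 ≤ Nat.gcd 2 (Fintype.card F - 1) := Nat.gcd_pos_of_pos_left _ (by norm_num)
      have h8 : Fintype.card F * (Fintype.card F ^ 2 - 1) ≤ 24 := by
        have h9 : Fintype.card F = 2 ∨ Fintype.card F = 3 := by omega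
        rcases h9 with h9 | h9 <;> rw [h9] <;> norm_num
      have h10 : Nat.card (Pe F) ≤ Nat.gcd 2 (Fintype.card F - 1) * Nat.card (Pe F) := Nat.le_mul_of_pos_left _ h7
      omega
    have hsq : lam ^ 2 = -1 := by
      rcases lam_cases h3 hlam t1 t2 with rfl | h | h
      · exfalso
        apply hsmall
        have := all_frob hgen 1 (by norm_num)
        exact card_le_of_all_pow (k := 3) (by norm_num) (fun x => by simpa using this x)
      · exfalso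
        apply hsmall
        have := all_frob hgen 1 (by rw [h]; norm_num)
        exact card_le_of_all_pow (k := 3) (by norm_num) (fun x => by simpa using this x)
      · exact h
    have hc9 : Fintype.card F = 9 := by
      have hall := all_frob hgen 2 (by
        have : lam ^ 3 ^ 2 = (lam ^ 2) ^ 4 * lam := by ring
        rw [this, hsq]
        norm_num)
      have hle := card_le_of_all_pow (k := 9) (by norm_num) (fun x => by simpa using hall x)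
      obtain ⟨n, -, hn⟩ := FiniteField.card F 3
      have hn2 : (n : ℕ) ≤ 2 := by
        by_contra hlt
        have h10 : 3 ^ 3 ≤ 3 ^ (n : ℕ) := Nat.pow_le_pow_right (by norm_num) (by omega)
        omega
      have hn0 := n.pos
      have : (n : ℕ) = 1 ∨ (n : ℕ) = 2 := by omega
      rcases this with h' | h'
      · exfalso
        rw [h'] at hn
        have h4 := FiniteField.pow_card lam
        rw [hn, pow_one] at h4
        have h5 : 2 * lam = 0 := by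
          have : lam ^ 3 = lam ^ 2 * lam := by ring
          rw [this, hsq] at h4
          linear_combination -h4
        exact (mul_ne_zero h2 hlam) h5
      · rw [hn, h']
        norm_num
    right
    refine ⟨hc9, hsq, ?_⟩
    -- the order of `Γ`
    haveI : Fact (Nat.Prime 2) := ⟨by norm_num⟩
    obtain ⟨x, hx⟩ := exists_prime_orderOf_dvd_card' (G := H) 2 (by rw [hcH]; norm_num)
    have hx1 : x ≠ 1 := by
      rintro rfl
      simp at hx
    have hx2 : x ^ 2 = 1 := by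
      have := pow_orderOf_eq_one x
      rwa [hx] at this
    have hneg := neg_one_of_invol hodd Γ (x := (x : Pe F)) (by rw [← hH]; exact x.2)
      (fun h => hx1 (Subtype.ext h)) (congrArg Subtype.val hx2)
    rw [gamma_card h2 Γ hneg, ← hH, hcH]
  · -- a fixed point
    exfalso
    have e1 := ha ⟨_, hU⟩
    have e2 := ha ⟨_, hL⟩
    have hu := (fix_uni (uu lam) (v := ![1, 0]) e0_ne (l := 1) (by simp) (by
      ext i; fin_cases i <;> simp [Matrix.mulVec, dotProduct, Fin.sum_univ_two, uu]) (uu_ne_one hlam) a).1 e1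
    have hl := (fix_uni (ll (1 : F)) (v := ![0, 1]) e1_ne (l := 1) (by simp) (by
      ext i; fin_cases i <;> simp [Matrix.mulVec, dotProduct, Fin.sum_univ_two, ll]) (ll_ne_one one_ne_zero) a).1 e2
    rw [hu] at hl
    exact std_ne.1 hl
  · -- the transitive case
    have htop : H = ⊤ := two_gen_top p H hlam hgen hL hU htr
    left
    have hw := wz_invol (F := F) h2
    have hneg := neg_one_of_invol hodd Γ (x := mkP (wz : SL(2, F))) (by rw [← hH, htop]; exact Subgroup.mem_top _) hw.1 hw.2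
    refine ⟨gamma_top Γ hneg (by rw [← hH, htop]), ?_⟩
    rintro ⟨hc, hsq⟩
    exact hne_top hc hsq htop

end Cfsg.Agent.Lib.Classical
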