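import Mathlib
import Cfsg.Agent.Lib.Classical.SL

set_option autoImplicit false
set_option linter.unusedSimpArgs false
open Matrix Matrix.SpecialLinearGroup
open scoped MatrixGroups commutatorElement

namespace Cfsg.Agent.Lib.Classical

variable {ι F : Type*} [Fintype ι] [DecidableEq ι] [Field F]

/-- A diagonal matrix with one non-identity entry, as an element of GL. -/
def diagOneGL (i : ι) (a : F) (ha : a ≠ 0) : Matrix.GeneralLinearGroup ι F where
  val := Matrix.diagonal (fun k => if k = i then a else 1)
  inv := Matrix.diagonal (fun k => if k = i then a⁻¹ else 1)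
  val_inv := by
    rw [Matrix.diagonal_mul_diagonal, ← Matrix.diagonal_one]
    congr 1
    funext k
    by_cases h : k = i <;> simp [h, ha]
  inv_val := by
    rw [Matrix.diagonal_mul_diagonal, ← Matrix.diagonal_one]
    congr 1
    funext k
    by_cases h : k = i <;> simp [h, ha]

theorem commutator_diagOneGL_transvection {i j : ι} (hij : i ≠ j) (a : F) (ha : a ≠ 0) (b : F) :
    ⁅diagOneGL i a ha, SpecialLinearGroup.toGL (SpecialLinearGroup.transvection hij b)⁆ =
      SpecialLinearGroup.toGL (SpecialLinearGroup.transvection hij ((a - 1) * b)) := by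
  rw [commutatorElement_def, ← map_inv, transvection_inv]
  apply Units.ext
  change (Matrix.diagonal (fun k => if k = i then a else 1)) * (transvection hij b).1 * (Matrix.diagonal (fun k => if k = i then a⁻¹ else 1)) * (transvection hij (-b)).1 = (transvection hij ((a-1)*b)).1
  simp only [transvection_coe]
  have hji := hij.symm
  ext k l
  simp only [Matrix.mul_apply, Matrix.add_apply, Matrix.one_apply, Matrix.diagonal_apply, Matrix.single_apply, mul_ite, mul_zero, ite_mul, zero_mul, Finset.sum_ite_eq, Finset.sum_ite_eq', Finset.mem_univ, if_true, mul_add, add_mul, Finset.sum_add_distrib, mul_one, one_mul]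
  by_cases h1 : k = i
  · subst h1
    by_cases h3 : l = k
    · subst h3; simp [hji, hij, ha]
    · by_cases h4 : l = j
      · subst h4; simp [hji, hij, ha, Ne.symm h3, h3]; ring
      · simp [hji, hij, ha, Ne.symm h3, h3, h4, Ne.symm h4]
  · by_cases h3 : l = i
    · subst h3; simp [h1, Ne.symm h1, hij, hji]
    · by_cases h4 : l = j
      · subst h4; simp [h1, Ne.symm h1, hij, hji, h3, Ne.symm h3]
      · simp [h1, h3, h4, Ne.symm h1, Ne.symm h3, Ne.symm h4, hji, hij]

theorem toGL_transvection_mem_commutator_of_ne {i j : ι} (hij : i ≠ j) (a : F) (ha : a ≠ 0) (ha1 : a ≠ 1) (c : F) :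
    SpecialLinearGroup.toGL (SpecialLinearGroup.transvection hij c) ∈ commutator (Matrix.GeneralLinearGroup ι F) := by
  have h := commutator_diagOneGL_transvection hij a ha (c / (a - 1))
  have hne : a - 1 ≠ 0 := sub_ne_zero.2 ha1
  rw [mul_div_cancel₀ _ hne] at h
  rw [← h]
  exact Subgroup.commutator_mem_commutator (Subgroup.mem_top _) (Subgroup.mem_top _)

/-- The derived subgroup of `GL_n` is `SL_n`, with the usual exception. -/
theorem commutator_gl_eq_ker_det (n : ℕ) (h : n = 2 → ∃ a : F, a ≠ 0 ∧ a ≠ 1) :
    commutator (Matrix.GeneralLinearGroup (Fin n) F) = (Matrix.GeneralLinearGroup.det : Matrix.GeneralLinearGroup (Fin n) F →* Fˣ).ker := by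
  apply le_antisymm
  · rw [commutator_def, Subgroup.commutator_le]
    intro g₁ _ g₂ _
    rw [MonoidHom.mem_ker, map_commutatorElement, commutatorElement_eq_one_iff_commute.2 (Commute.all _ _)]
  · intro g hg
    rw [MonoidHom.mem_ker] at hg
    have hg' : (g : Matrix (Fin n) (Fin n) F).det = 1 := by
      simpa using congrArg Units.val hg
    let s : Matrix.SpecialLinearGroup (Fin n) F := ⟨g, hg'⟩
    have hs : g = SpecialLinearGroup.toGL s := by ext; rfl
    rw [hs]
    refine sl_transvection_induction (fun s => SpecialLinearGroup.toGL s ∈ commutator (Matrix.GeneralLinearGroup (Fin n) F)) ?_ (by simp [one_mem]) ?_ s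
    · intro i j hij c
      by_cases hn : n = 2
      · obtain ⟨a, ha, ha1⟩ := h hn
        exact toGL_transvection_mem_commutator_of_ne hij a ha ha1 c
      · have hn3 : 3 ≤ Fintype.card (Fin n) := by
          have hi := i.2
          have hj := j.2
          have : i.val ≠ j.val := fun h => hij (Fin.ext h)
          simp only [Fintype.card_fin]
          omega
        obtain ⟨k, hik, hkj⟩ := exists_third_index hn3 i j
        obtain ⟨x, y, hxy⟩ := transvection_mem_commutatorSet_of_third (F := F) hij hik hkj c
        rw [← hxy, map_commutatorElement]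
        exact Subgroup.commutator_mem_commutator (Subgroup.mem_top _) (Subgroup.mem_top _)
    · intro A B hA hB
      rw [map_mul]
      exact mul_mem hA hB

end Cfsg.Agent.Lib.Classical
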