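import Mathlib
import Cfsg.Agent.Lib.Classical.InvolEven2
import Cfsg.Agent.Lib.Classical.SympStab

/-! Classes of involutions in characteristic two: counting via a code, and existence of representatives. -/

set_option autoImplicit false
set_option linter.unusedSimpArgs false
set_option linter.unusedVariables false
set_option linter.unusedSectionVars false
set_option linter.style.haveILetI false

namespace Cfsg.Agent.Lib.Classical.InvolEven

open Matrix Module Cfsg.Agent.Lib.Classical

/-- Counting classes of involutions by a numerical code. -/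
theorem card_classes_of_code {G : Type*} [Group G] (code : G → ℕ) (N : ℕ)
    (h1 : ∀ x y : G, orderOf x = 2 → IsConj x y → code x = code y)
    (h2 : ∀ x y : G, orderOf x = 2 → orderOf y = 2 → code x = code y → IsConj x y)
    (h3 : ∀ x : G, orderOf x = 2 → 1 ≤ code x ∧ code x ≤ N)
    (h4 : ∀ n, 1 ≤ n → n ≤ N → ∃ x : G, orderOf x = 2 ∧ code x = n) :
    Nat.card {C : ConjClasses G // ∃ g : G, ConjClasses.mk g = C ∧ orderOf g = 2} = N := by
  classical
  have hrep : ∀ C : {C : ConjClasses G // ∃ g : G, ConjClasses.mk g = C ∧ orderOf g = 2}, ∃ g : G, ConjClasses.mk g = C.1 ∧ orderOf g = 2 := fun C => C.2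
  choose rep hrep1 hrep2 using hrep
  let f : {C : ConjClasses G // ∃ g : G, ConjClasses.mk g = C ∧ orderOf g = 2} → ↥(Finset.Icc 1 N) :=
    fun C => ⟨code (rep C), Finset.mem_Icc.2 (h3 _ (hrep2 C))⟩
  have hf : Function.Bijective f := by
    constructor
    · intro C C' hCC
      have h5 : code (rep C) = code (rep C') := congrArg Subtype.val hCC
      have h6 := h2 _ _ (hrep2 C) (hrep2 C') h5
      apply Subtype.ext
      rw [← hrep1 C, ← hrep1 C']
      exact ConjClasses.mk_eq_mk_iff_isConj.2 h6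
    · rintro ⟨n, hn⟩
      obtain ⟨hn1, hn2⟩ := Finset.mem_Icc.1 hn
      obtain ⟨x, hx, hxn⟩ := h4 n hn1 hn2
      refine ⟨⟨ConjClasses.mk x, x, rfl, hx⟩, ?_⟩
      apply Subtype.ext
      show code (rep _) = n
      rw [← hxn]
      symm
      apply h1 x _ hx
      apply ConjClasses.mk_eq_mk_iff_isConj.1
      exact (hrep1 ⟨ConjClasses.mk x, x, rfl, hx⟩).symm
  rw [Nat.card_congr (Equiv.ofBijective f hf), Nat.card_eq_fintype_card, Fintype.card_coe, Nat.card_Icc]
  simp

section mk

variable {F : Type*} [Field F] [CharP F 2] {V : Type*} [AddCommGroup V] [Module F V] {L : Type} [Fintype L] [DecidableEq L]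

/-- The involution `x ↦ x + Σ B (w (σ l)) x • w l`. -/
noncomputable def mkT (B : LinearMap.BilinForm F V) (σ : L → L) (w : L → V) : V →ₗ[F] V :=
  LinearMap.id + ∑ l, (B (w (σ l))).smulRight (w l)

theorem mkT_apply (B : LinearMap.BilinForm F V) (σ : L → L) (w : L → V) (x : V) : mkT B σ w x = x + ∑ l, B (w (σ l)) x • w l := by
  simp [mkT, LinearMap.sum_apply]

theorem mkT_nn (B : LinearMap.BilinForm F V) (σ : L → L) (w : L → V) (x : V) : nn (mkT B σ w) x = ∑ l, B (w (σ l)) x • w l := by
  rw [nn_apply', mkT_apply, add_sub_cancel_left]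

variable {B : LinearMap.BilinForm F V} {σ : L → L} {w : L → V}

theorem mkT_mkT (hw : ∀ i j, B (w i) (w j) = 0) (x : V) : mkT B σ w (mkT B σ w x) = x := by
  have h1 : ∀ l, B (w (σ l)) (mkT B σ w x) = B (w (σ l)) x := by
    intro l
    rw [mkT_apply, map_add, map_sum]
    simp [hw]
  rw [mkT_apply (x := mkT B σ w x)]
  simp only [h1]
  rw [mkT_apply]
  have h2 : (2 : F) • (∑ l, B (w (σ l)) x • w l) = 0 := by rw [two_eq_zero', zero_smul]
  rw [two_smul] at h2
  rw [add_assoc, h2, add_zero]

omit [CharP F 2] [Fintype L] [DecidableEq L] in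
theorem sum_inv_zero [CharP F 2] [Fintype L] [DecidableEq L] (hσ : ∀ l, σ (σ l) = l) (d : L → F) :
    ∑ l, d (σ l) * d l = ∑ l ∈ Finset.univ.filter (fun l => σ l = l), d l * d l := by
  have h2 : (2 : F) = 0 := two_eq_zero'
  rw [← Finset.sum_filter_add_sum_filter_not Finset.univ (fun l => σ l = l)]
  have h3 : ∑ l ∈ Finset.univ.filter (fun l => ¬ σ l = l), d (σ l) * d l = 0 := by
    apply Finset.sum_involution (fun l _ => σ l)
    · intro l hl
      rw [hσ, mul_comm]
      linear_combination (d l * d (σ l)) * h2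
    · intro l hl _ hc
      exact (Finset.mem_filter.1 hl).2 hc
    · intro l hl
      refine Finset.mem_filter.2 ⟨Finset.mem_univ _, ?_⟩
      rw [hσ]
      exact fun h => (Finset.mem_filter.1 hl).2 h.symm
    · intro l _
      exact hσ l
  rw [h3, add_zero]
  refine Finset.sum_congr rfl (fun l hl => ?_)
  rw [(Finset.mem_filter.1 hl).2]

/-- The polar value on `x`. -/
theorem mkT_value (hS : ∀ x y, B x y = B y x) (hσ : ∀ l, σ (σ l) = l) (x : V) :
    B (nn (mkT B σ w) x) x = ∑ l ∈ Finset.univ.filter (fun l => σ l = l), B (w l) x * B (w l) x := by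
  rw [mkT_nn, map_sum, LinearMap.sum_apply]
  simp only [map_smul, LinearMap.smul_apply, smul_eq_mul]
  exact sum_inv_zero hσ (fun l => B (w l) x)

theorem mkT_polar (hS : ∀ x y, B x y = B y x) (hσ : ∀ l, σ (σ l) = l) (hw : ∀ i j, B (w i) (w j) = 0) (x y : V) :
    B (mkT B σ w x) (mkT B σ w y) = B x y := by
  have h2 : (2 : F) = 0 := two_eq_zero'
  have e : (Equiv.mk σ σ hσ hσ : L ≃ L) = Equiv.mk σ σ hσ hσ := rfl
  have hre : ∑ l, B (w (σ l)) y * B (w l) x = ∑ l, B (w l) y * B (w (σ l)) x := by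
    refine Fintype.sum_equiv (Equiv.mk σ σ hσ hσ) _ _ (fun l => ?_)
    simp [hσ]
  simp only [mkT_apply, map_add, LinearMap.add_apply, map_sum, LinearMap.sum_apply, map_smul, LinearMap.smul_apply, smul_eq_mul, hw, mul_zero, Finset.sum_const_zero, add_zero]
  have h3 : ∑ l, B (w (σ l)) y * B x (w l) = ∑ l, B (w (σ l)) y * B (w l) x := Finset.sum_congr rfl (fun l _ => by rw [hS x])
  rw [h3, hre, add_assoc, ← Finset.sum_add_distrib]
  have h4 : ∑ l, (B (w (σ l)) x * B (w l) y + B (w l) y * B (w (σ l)) x) = 2 * ∑ l, B (w l) y * B (w (σ l)) x := by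
    rw [Finset.mul_sum]
    refine Finset.sum_congr rfl (fun l _ => ?_)
    ring
  rw [h4, h2, zero_mul, add_zero]

theorem mkT_ker (hnd : B.Nondegenerate) (hσ : ∀ l, σ (σ l) = l) (hli : LinearIndependent F w) :
    LinearMap.ker (nn (mkT B σ w)) = B.orthogonal (Submodule.span F (Set.range w)) := by
  ext x
  rw [LinearMap.mem_ker, mkT_nn, LinearMap.BilinForm.mem_orthogonal_iff]
  constructor
  · intro h n hn
    have h1 := Fintype.linearIndependent_iff.1 hli _ h
    induction hn using Submodule.span_induction with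
    | mem z hz =>
      obtain ⟨l, rfl⟩ := hz
      have := h1 (σ l)
      rwa [hσ] at this
    | zero => simp
    | add a b _ _ ha hb => simp [ha, hb]
    | smul c a _ ha => simp [ha]
  · intro h
    refine Finset.sum_eq_zero (fun l _ => ?_)
    rw [h _ (Submodule.subset_span ⟨σ l, rfl⟩), zero_smul]

/-- The rank of `mkT`. -/
theorem mkT_rank [FiniteDimensional F V] (hnd : B.Nondegenerate) (hσ : ∀ l, σ (σ l) = l) (hli : LinearIndependent F w) :
    finrank F (LinearMap.range (nn (mkT B σ w))) = Fintype.card L := by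
  have h1 := LinearMap.finrank_range_add_finrank_ker (nn (mkT B σ w))
  rw [mkT_ker hnd hσ hli, LinearMap.BilinForm.finrank_orthogonal hnd, finrank_span_eq_card hli] at h1
  have h3 : Fintype.card L ≤ finrank F V := by
    rw [← finrank_span_eq_card hli]
    exact Submodule.finrank_le _
  omega

theorem q_mkT {Q : QuadraticForm F V} {σ : L → L} {w : L → V} (hσ : ∀ l, σ (σ l) = l) (hw : ∀ i j, (QuadraticMap.polarBilin Q) (w i) (w j) = 0)
    (h1 : ∀ l, σ l = l → Q (w l) = 1) (h0 : ∀ l, σ l ≠ l → Q (w l) = 0) (x : V) : Q (mkT (QuadraticMap.polarBilin Q) σ w x) = Q x := by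
  have h2 : (2 : F) = 0 := two_eq_zero'
  have hS : ∀ x y, (QuadraticMap.polarBilin Q) x y = (QuadraticMap.polarBilin Q) y x := fun x y => QuadraticMap.polar_comm _ _ _
  rw [mkT_apply, Cfsg.Agent.Lib.Classical.Q_add, q_sum_orth w hw]
  have h3 : (QuadraticMap.polarBilin Q) x (∑ l, (QuadraticMap.polarBilin Q) (w (σ l)) x • w l) = ∑ l ∈ Finset.univ.filter (fun l => σ l = l), (QuadraticMap.polarBilin Q) (w l) x * (QuadraticMap.polarBilin Q) (w l) x := by
    rw [← mkT_value (w := w) hS hσ x, mkT_nn, hS]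
  have h4 : ∑ l, (QuadraticMap.polarBilin Q) (w (σ l)) x * (QuadraticMap.polarBilin Q) (w (σ l)) x * Q (w l) = ∑ l ∈ Finset.univ.filter (fun l => σ l = l), (QuadraticMap.polarBilin Q) (w l) x * (QuadraticMap.polarBilin Q) (w l) x := by
    rw [← Finset.sum_filter_add_sum_filter_not Finset.univ (fun l => σ l = l)]
    have h5 : ∑ l ∈ Finset.univ.filter (fun l => ¬ σ l = l), (QuadraticMap.polarBilin Q) (w (σ l)) x * (QuadraticMap.polarBilin Q) (w (σ l)) x * Q (w l) = 0 := by
      refine Finset.sum_eq_zero (fun l hl => ?_)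
      rw [h0 l (Finset.mem_filter.1 hl).2, mul_zero]
    rw [h5, add_zero]
    refine Finset.sum_congr rfl (fun l hl => ?_)
    rw [h1 l (Finset.mem_filter.1 hl).2, (Finset.mem_filter.1 hl).2, mul_one]
  rw [h3, h4]
  linear_combination (∑ l ∈ Finset.univ.filter (fun l => σ l = l), (QuadraticMap.polarBilin Q) (w l) x * (QuadraticMap.polarBilin Q) (w l) x) * h2

end mk

section og

variable {F : Type*} [Field F] [CharP F 2] {ι : Type} [Fintype ι] [DecidableEq ι] {Q : QuadraticForm F (ι → F)}

/-- Existence of involutions with prescribed invariants. -/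
theorem exists_invol_Q (hnd : (QuadraticMap.polarBilin Q).Nondegenerate) {L : Type} [Fintype L] [DecidableEq L] {σ : L → L} {w : L → ι → F} (hσ : ∀ l, σ (σ l) = l)
    (hw : ∀ i j, QuadraticMap.polar (⇑Q) (w i) (w j) = 0) (hli : LinearIndependent F w)
    (h1 : ∀ l, σ l = l → Q (w l) = 1) (h0 : ∀ l, σ l ≠ l → Q (w l) = 0) :
    ∃ t : OG Q, t * t = 1 ∧ (oM t - 1).rank = Fintype.card L ∧ (IsAType t ↔ ∀ l, σ l ≠ l) := by
  have hS : ∀ x y, (QuadraticMap.polarBilin Q) x y = (QuadraticMap.polarBilin Q) y x := fun x y => QuadraticMap.polar_comm _ _ _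
  set T := mkT (QuadraticMap.polarBilin Q) σ w with hT
  have hinv : Function.Involutive T := mkT_mkT hw
  let g : (ι → F) ≃ₗ[F] (ι → F) := LinearEquiv.ofInvolutive T hinv
  have hg : ∀ x, g x = T x := fun x => rfl
  have hq : ∀ v, Q (g v) = Q v := fun v => q_mkT hσ hw h1 h0 v
  let t : OG Q := ogOfEquiv g hq
  have ht : ∀ x, oM t *ᵥ x = T x := fun x => by rw [ogOfEquiv_apply, hg]
  have hTt : tL t = T := by
    ext1
    apply LinearMap.ext
    intro x
    exact ht _
  refine ⟨t, ?_, ?_, ?_⟩
  · apply og_ext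
    intro x
    rw [oM_mul, ht, ht, oM_one]
    exact hinv x
  · rw [← finrank_nn, hTt]
    exact mkT_rank hnd hσ hli
  · rw [isAType_iff_polar]
    have hval : ∀ x, QuadraticMap.polar (⇑Q) (oM t *ᵥ x - x) x = ∑ l ∈ Finset.univ.filter (fun l => σ l = l), (QuadraticMap.polarBilin Q) (w l) x * (QuadraticMap.polarBilin Q) (w l) x := by
      intro x
      rw [← mkT_value (w := w) hS hσ x, ht]
      rfl
    constructor
    · intro h l hl
      have hz : ∑ i ∈ Finset.univ.filter (fun l => σ l = l), w i ≠ 0 := by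
        intro hz
        have h3 := linearIndependent_iff'.1 hli (Finset.univ.filter (fun l => σ l = l)) (fun _ => 1) (by simpa using hz) l (Finset.mem_filter.2 ⟨Finset.mem_univ _, hl⟩)
        exact one_ne_zero h3
      obtain ⟨x, hx⟩ : ∃ x, (QuadraticMap.polarBilin Q) (∑ i ∈ Finset.univ.filter (fun l => σ l = l), w i) x ≠ 0 := by
        by_contra hcon
        push Not at hcon
        exact hz (hnd.1 _ hcon)
      apply hx
      have h5 := h x
      rw [hval] at h5
      have h6 : ((QuadraticMap.polarBilin Q) (∑ i ∈ Finset.univ.filter (fun l => σ l = l), w i) x) ^ 2 = ∑ l ∈ Finset.univ.filter (fun l => σ l = l), (QuadraticMap.polarBilin Q) (w l) x * (QuadraticMap.polarBilin Q) (w l) x := by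
        rw [map_sum, LinearMap.sum_apply, sum_pow_char 2]
        exact Finset.sum_congr rfl (fun l _ => pow_two _)
      rw [h5] at h6
      exact pow_eq_zero_iff (two_ne_zero) |>.1 h6
    · intro h x
      rw [hval]
      refine Finset.sum_eq_zero (fun l hl => ?_)
      exact absurd (Finset.mem_filter.1 hl).2 (h l)

section count

theorem conj_rank {t s : OG Q} (h : IsConj t s) : (oM t - 1).rank = (oM s - 1).rank := by
  obtain ⟨c, rfl⟩ := isConj_iff.1 h
  have h1 : oM (c * t * c⁻¹) - 1 = oM c * (oM t - 1) * oM c⁻¹ := by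
    have h6 : oM c * oM c⁻¹ = 1 := by
      show ((c.1 : GL ι F) : Matrix ι ι F) * (((c⁻¹ : OG Q).1 : GL ι F) : Matrix ι ι F) = 1
      rw [← Units.val_mul]
      have : (c.1 : GL ι F) * (c⁻¹ : OG Q).1 = 1 := by
        rw [← Subgroup.coe_mul, mul_inv_cancel]
        rfl
      rw [this, Units.val_one]
    have h7 : oM (c * t * c⁻¹) = oM c * oM t * oM c⁻¹ := rfl
    rw [h7, Matrix.mul_sub, Matrix.sub_mul, Matrix.mul_one, h6]
  rw [h1, Matrix.rank_mul_eq_left_of_isUnit_det _ _ (Matrix.isUnits_det_units (c⁻¹ : OG Q).1), Matrix.rank_mul_eq_right_of_isUnit_det _ _ (Matrix.isUnits_det_units c.1)]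

theorem conj_type {t s : OG Q} (h : IsConj t s) : IsAType t ↔ IsAType s := by
  have key : ∀ (c t : OG Q), IsAType t → IsAType (c * t * c⁻¹) := by
    intro c t ht x
    have h1 : oM (c * t * c⁻¹) *ᵥ x - x = oM c *ᵥ (oM t *ᵥ (oM c⁻¹ *ᵥ x) - oM c⁻¹ *ᵥ x) := by
      rw [mulVec_sub, oM_mul, oM_mul, oM_self_inv]
    rw [h1, oM_Q]
    exact ht _
  obtain ⟨c, rfl⟩ := isConj_iff.1 h
  refine ⟨key c t, fun h2 => ?_⟩
  have := key c⁻¹ _ h2
  have e : c⁻¹ * (c * t * c⁻¹) * c⁻¹⁻¹ = t := by group
  rwa [e] at this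

theorem rank_pos {t : OG Q} (ht : orderOf t = 2) : 1 ≤ (oM t - 1).rank := by
  by_contra h
  have h1 : (oM t - 1).rank = 0 := by omega
  have h2 := RankParity.rank_add_fx t
  have h4 : RankParity.fx t = ⊤ := Submodule.eq_top_of_finrank_eq (by
    rw [Module.finrank_fintype_fun_eq_card]
    omega)
  have h3 : t = 1 := by
    apply og_ext
    intro x
    rw [oM_one]
    exact (RankParity.mem_fx t x).1 (by rw [h4]; exact Submodule.mem_top)
  rw [h3, orderOf_one] at ht
  omega

variable [Fintype F]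

theorem even_of_A (hnd : (QuadraticMap.polarBilin Q).Nondegenerate) {t : OG Q} (ht : t * t = 1) (hA : IsAType t) : ∃ k, (oM t - 1).rank = 2 * k := by
  have hS : ∀ x y, (QuadraticMap.polarBilin Q) x y = (QuadraticMap.polarBilin Q) y x := fun x y => QuadraticMap.polar_comm _ _ _
  obtain ⟨k, u, hk, -⟩ := exists_frame_alt (T := tL t) hS hnd (tL_tL ht) (polar_of_iso (fun y => oM_Q t y)) (fun x => (isAType_iff_polar t).1 hA x)
  exact ⟨k, by rw [← finrank_nn, hk]⟩

theorem rank_le_of_A {t : OG Q} (hA : IsAType t) {M : ℕ} (hmax : ∀ U : Submodule F (ι → F), (∀ u ∈ U, Q u = 0) → finrank F U ≤ M) : (oM t - 1).rank ≤ M := by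
  have := hmax (LinearMap.range (Matrix.toLin' (oM t - 1))) (by
    rintro _ ⟨x, rfl⟩
    have h3 := hA x
    simpa [Matrix.toLin'_apply, sub_mulVec] using h3)
  exact this

/-- The number of classes of involutions of the orthogonal group. -/
theorem card_classes_O {Q0 : (ι → F) → F} (h0 : NDQ Q0) {m M : ℕ} (hc : Fintype.card ι = 2 * m)
    (hmax : ∀ U : Submodule F (ι → F), (∀ u ∈ U, Q0 u = 0) → finrank F U ≤ M)
    (hb : ∀ s, 1 ≤ s → s ≤ m → ∃ w : Fin s → ι → F, (∀ i j, QuadraticMap.polar Q0 (w i) (w j) = 0) ∧ LinearIndependent F w ∧ ∀ l, Q0 (w l) = 1)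
    (ha : ∀ k, 1 ≤ k → 2 * k ≤ M → ∃ w : Fin k ⊕ Fin k → ι → F, (∀ i j, QuadraticMap.polar Q0 (w i) (w j) = 0) ∧ LinearIndependent F w ∧ ∀ l, Q0 (w l) = 0) :
    Nat.card {C : ConjClasses ↥(Cfsg.isometryGroup F Q0) // ∃ g : ↥(Cfsg.isometryGroup F Q0), ConjClasses.mk g = C ∧ orderOf g = 2} = m + M / 2 := by
  classical
  obtain ⟨Q, rfl, hnd⟩ := h0
  let code : OG Q → ℕ := fun t => if IsAType t then m + (oM t - 1).rank / 2 else (oM t - 1).rank
  have hcode : ∀ t, code t = if IsAType t then m + (oM t - 1).rank / 2 else (oM t - 1).rank := fun t => rfl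
  have hrk : ∀ t : OG Q, orderOf t = 2 → (oM t - 1).rank ≤ m := fun t ht => (fixed_dim hnd (sq_of_order ht) hc).1
  apply card_classes_of_code code
  · intro x y hx hxy
    rw [hcode, hcode, conj_rank hxy]
    simp only [conj_type hxy]
  · intro x y hx hy hxy
    rw [hcode, hcode] at hxy
    have h1 := hrk x hx
    have h2 := hrk y hy
    have h3 := rank_pos hx
    have h4 := rank_pos hy
    by_cases ha1 : IsAType x <;> by_cases ha2 : IsAType y
    · rw [if_pos ha1, if_pos ha2] at hxy
      obtain ⟨k, hk⟩ := even_of_A hnd (sq_of_order hx) ha1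
      obtain ⟨k', hk'⟩ := even_of_A hnd (sq_of_order hy) ha2
      exact isConj_of_invariants hnd (sq_of_order hx) (sq_of_order hy) (by omega) (by simp [ha1, ha2])
    · exfalso
      rw [if_pos ha1, if_neg ha2] at hxy
      obtain ⟨k, hk⟩ := even_of_A hnd (sq_of_order hx) ha1
      omega
    · exfalso
      rw [if_neg ha1, if_pos ha2] at hxy
      obtain ⟨k, hk⟩ := even_of_A hnd (sq_of_order hy) ha2
      omega
    · rw [if_neg ha1, if_neg ha2] at hxy
      exact isConj_of_invariants hnd (sq_of_order hx) (sq_of_order hy) hxy (by simp [ha1, ha2])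
  · intro x hx
    rw [hcode]
    have h1 := hrk x hx
    have h3 := rank_pos hx
    by_cases ha1 : IsAType x
    · rw [if_pos ha1]
      obtain ⟨k, hk⟩ := even_of_A hnd (sq_of_order hx) ha1
      have h5 := rank_le_of_A ha1 hmax
      constructor
      · omega
      · have : (oM x - 1).rank / 2 ≤ M / 2 := Nat.div_le_div_right h5
        omega
    · rw [if_neg ha1]
      omega
  · intro n hn1 hn2
    by_cases hnm : n ≤ m
    · obtain ⟨w, hw, hli, hq⟩ := hb n hn1 hnm
      obtain ⟨t, ht, hr, hty⟩ := exists_invol_Q hnd (σ := id) (w := w) (fun _ => rfl) hw hli (fun l _ => hq l) (fun l hl => absurd rfl hl)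
      have hnA : ¬ IsAType t := fun h => (hty.1 h) ⟨0, by omega⟩ rfl
      have hr' : (oM t - 1).rank = n := by simpa using hr
      refine ⟨t, ?_, ?_⟩
      · apply orderOf_eq_prime
        · rwa [pow_two]
        · intro h
          rw [h] at hr'
          have : oM (1 : OG Q) - 1 = 0 := sub_self _
          rw [this, Matrix.rank_zero] at hr'
          omega
      · rw [hcode, if_neg hnA, hr']
    · obtain ⟨k, rfl⟩ : ∃ k, n = m + k := ⟨n - m, by omega⟩
      have hk1 : 1 ≤ k := by omega
      have hk2 : 2 * k ≤ M := by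
        have : k ≤ M / 2 := by omega
        omega
      obtain ⟨w, hw, hli, hq⟩ := ha k hk1 hk2
      have hswap : ∀ l : Fin k ⊕ Fin k, Sum.swap l ≠ l := by
        rintro (l | l) <;> simp
      obtain ⟨t, ht, hr, hty⟩ := exists_invol_Q hnd (σ := Sum.swap) (w := w) (fun l => by simp) hw hli (fun l hl => absurd hl (hswap l)) (fun l _ => hq l)
      have hA : IsAType t := hty.2 hswap
      have hr' : (oM t - 1).rank = 2 * k := by
        rw [hr]
        simp
        omega
      refine ⟨t, ?_, ?_⟩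
      · apply orderOf_eq_prime
        · rwa [pow_two]
        · intro h
          rw [h] at hr'
          have : oM (1 : OG Q) - 1 = 0 := sub_self _
          rw [this, Matrix.rank_zero] at hr'
          omega
      · rw [hcode, if_pos hA, hr']
        simp

end count

end og

end Cfsg.Agent.Lib.Classical.InvolEven
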