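import Mathlib
import Cfsg.Agent.Lib.Classical.InvolEven3
import Cfsg.Agent.Lib.Quad.Types

/-! Families of vectors in the standard orthogonal spaces and class numbers of involutions. -/

set_option autoImplicit false
set_option linter.unusedSimpArgs false
set_option linter.unusedVariables false
set_option linter.unusedSectionVars false
set_option linter.style.haveILetI false

namespace Cfsg.Agent.Lib.Classical.InvolEven

open Matrix Module Cfsg.Agent.Lib.Classical

variable {F : Type*} [Field F] [CharP F 2]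

section plus

/-- `e_i + f_i`. -/
def plusW (m : ℕ) (F : Type*) [Field F] (i : Fin m) : Fin m ⊕ Fin m → F :=
  Sum.elim (fun k => if k = i then 1 else 0) (fun k => if k = i then 1 else 0)

/-- `e_i`. -/
def plusE (m : ℕ) (F : Type*) [Field F] (i : Fin m) : Fin m ⊕ Fin m → F :=
  Sum.elim (fun k => if k = i then 1 else 0) (fun _ => 0)

theorem polar_plusW {m : ℕ} (i j : Fin m) : QuadraticMap.polar (Cfsg.quadFormPlus m F) (plusW m F i) (plusW m F j) = 0 := by
  rw [Cfsg.Agent.Lib.Quad.polar_plus_eq']
  refine Finset.sum_eq_zero (fun k _ => ?_)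
  simp only [plusW, Sum.elim_inl, Sum.elim_inr]
  have h2 : (2 : F) = 0 := two_eq_zero'
  linear_combination ((if k = i then (1 : F) else 0) * (if k = j then (1 : F) else 0)) * h2

omit [CharP F 2] in
theorem polar_plusE {m : ℕ} (i j : Fin m) : QuadraticMap.polar (Cfsg.quadFormPlus m F) (plusE m F i) (plusE m F j) = 0 := by
  rw [Cfsg.Agent.Lib.Quad.polar_plus_eq']
  refine Finset.sum_eq_zero (fun k _ => ?_)
  simp [plusE]

omit [CharP F 2] in
theorem q_plusW {m : ℕ} (i : Fin m) : Cfsg.quadFormPlus m F (plusW m F i) = 1 := by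
  simp [Cfsg.quadFormPlus, plusW]

omit [CharP F 2] in
theorem q_plusE {m : ℕ} (i : Fin m) : Cfsg.quadFormPlus m F (plusE m F i) = 0 := by
  simp [Cfsg.quadFormPlus, plusE]

omit [CharP F 2] in
theorem li_plusW (m : ℕ) : LinearIndependent F (plusW m F) := by
  rw [Fintype.linearIndependent_iff]
  intro c hc k
  have := congrFun hc (Sum.inl k)
  simpa [plusW, Finset.sum_apply] using this

omit [CharP F 2] in
theorem li_plusE (m : ℕ) : LinearIndependent F (plusE m F) := by
  rw [Fintype.linearIndependent_iff]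
  intro c hc k
  have := congrFun hc (Sum.inl k)
  simpa [plusE, Finset.sum_apply] using this

end plus

section minus

/-- The orthogonal unit vectors of the elliptic space. -/
def minusW (n : ℕ) (F : Type*) [Field F] (i : Fin (n + 1)) : (Fin n ⊕ Fin n) ⊕ Fin 2 → F :=
  Sum.elim (Sum.elim (fun k => if (k : ℕ) = i then 1 else 0) (fun k => if (k : ℕ) = i then 1 else 0)) (fun j => if (i : ℕ) = n ∧ j = 0 then 1 else 0)

/-- `e_i`. -/
def minusE (n : ℕ) (F : Type*) [Field F] (i : Fin n) : (Fin n ⊕ Fin n) ⊕ Fin 2 → F :=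
  Sum.elim (Sum.elim (fun k => if k = i then 1 else 0) (fun _ => 0)) (fun _ => 0)

theorem polar_minusW {n : ℕ} (a b : F) (i j : Fin (n + 1)) : QuadraticMap.polar (Cfsg.quadFormMinus n F a b) (minusW n F i) (minusW n F j) = 0 := by
  rw [Cfsg.Agent.Lib.Quad.polar_minus_eq']
  have h2 : (2 : F) = 0 := two_eq_zero'
  have h1 : ∑ k, (minusW n F i (.inl (.inl k)) * minusW n F j (.inl (.inr k)) + minusW n F j (.inl (.inl k)) * minusW n F i (.inl (.inr k))) = 0 := by
    refine Finset.sum_eq_zero (fun k _ => ?_)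
    simp only [minusW, Sum.elim_inl, Sum.elim_inr]
    linear_combination ((if (k : ℕ) = i then (1 : F) else 0) * (if (k : ℕ) = j then (1 : F) else 0)) * h2
  rw [h1, h2]
  simp [minusW]

omit [CharP F 2] in
theorem polar_minusE {n : ℕ} (a b : F) (i j : Fin n) : QuadraticMap.polar (Cfsg.quadFormMinus n F a b) (minusE n F i) (minusE n F j) = 0 := by
  rw [Cfsg.Agent.Lib.Quad.polar_minus_eq']
  simp [minusE]

omit [CharP F 2] in
theorem q_minusW {n : ℕ} (a b : F) (i : Fin (n + 1)) : Cfsg.quadFormMinus n F a b (minusW n F i) = 1 := by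
  simp only [Cfsg.quadFormMinus, minusW, Sum.elim_inl, Sum.elim_inr]
  by_cases hi : (i : ℕ) = n
  · have h1 : ∀ k : Fin n, ¬ (k : ℕ) = n := fun k => by
      have := k.2
      omega
    simp [h1, hi]
  · have hi' : (i : ℕ) < n := by
      have := i.2
      omega
    have h1 : ∀ k : Fin n, ((k : ℕ) = i) ↔ k = ⟨i, hi'⟩ := fun k => by
      rw [Fin.ext_iff]
    simp [h1, hi]

omit [CharP F 2] in
theorem q_minusE {n : ℕ} (a b : F) (i : Fin n) : Cfsg.quadFormMinus n F a b (minusE n F i) = 0 := by
  simp [Cfsg.quadFormMinus, minusE]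

omit [CharP F 2] in
theorem li_minusW (n : ℕ) : LinearIndependent F (minusW n F) := by
  rw [Fintype.linearIndependent_iff]
  intro c hc k
  by_cases hk : (k : ℕ) = n
  · have h1 := congrFun hc (Sum.inr 0)
    simp only [minusW, Finset.sum_apply, Pi.smul_apply, Sum.elim_inr, smul_eq_mul, Pi.zero_apply] at h1
    rw [Finset.sum_eq_single k] at h1
    · simpa [hk] using h1
    · intro b _ hb
      have : ¬ (b : ℕ) = n := fun h => hb (Fin.ext (by omega))
      simp [this]
    · simp
  · have hk' : (k : ℕ) < n := by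
      have := k.2
      omega
    have h1 := congrFun hc (Sum.inl (Sum.inl ⟨k, hk'⟩))
    simp only [minusW, Finset.sum_apply, Pi.smul_apply, Sum.elim_inl, smul_eq_mul, Pi.zero_apply] at h1
    rw [Finset.sum_eq_single k] at h1
    · simpa using h1
    · intro b _ hb
      have : ¬ (k : ℕ) = b := fun h => hb (Fin.ext h.symm)
      simp [this]
    · simp

omit [CharP F 2] in
theorem li_minusE (n : ℕ) : LinearIndependent F (minusE n F) := by
  rw [Fintype.linearIndependent_iff]
  intro c hc k
  have := congrFun hc (Sum.inl (Sum.inl k))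
  simpa [minusE, Finset.sum_apply] using this

end minus

/-- An injection from `Fin k ⊕ Fin k` into `Fin n`. -/
def sumInj {k n : ℕ} (h : k + k ≤ n) (l : Fin k ⊕ Fin k) : Fin n := Fin.castLE h (finSumFinEquiv l)

theorem sumInj_injective {k n : ℕ} (h : k + k ≤ n) : Function.Injective (sumInj h) :=
  (Fin.castLE_injective h).comp finSumFinEquiv.injective

variable [Fintype F]

/-- Classes of involutions of the orthogonal group of plus type. -/
theorem card_classes_plus {m : ℕ} : Nat.card {C : ConjClasses ↥(Cfsg.isometryGroup F (Cfsg.quadFormPlus m F)) // ∃ g : ↥(Cfsg.isometryGroup F (Cfsg.quadFormPlus m F)), ConjClasses.mk g = C ∧ orderOf g = 2} = m + m / 2 := by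
  apply card_classes_O (ndq_plus m) (by simp; omega) (fun U hU => Cfsg.Agent.Lib.Quad.finrank_le_of_plus_singular U hU)
  · intro s _ hs
    exact ⟨fun l => plusW m F (Fin.castLE hs l), fun i j => polar_plusW _ _, (li_plusW m).comp _ (Fin.castLE_injective hs), fun l => q_plusW _⟩
  · intro k _ hk
    have h : k + k ≤ m := by omega
    exact ⟨fun l => plusE m F (sumInj h l), fun i j => polar_plusE _ _, (li_plusE m).comp _ (sumInj_injective h), fun l => q_plusE _⟩

/-- Classes of involutions of the orthogonal group of minus type. -/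
theorem card_classes_minus {m : ℕ} (hm : 1 ≤ m) (a b : F) (hab : ∀ z₁ z₂ : F, z₁ ^ 2 + a * z₁ * z₂ + b * z₂ ^ 2 = 0 → z₁ = 0 ∧ z₂ = 0) :
    Nat.card {C : ConjClasses ↥(Cfsg.isometryGroup F (Cfsg.quadFormMinus (m - 1) F a b)) // ∃ g : ↥(Cfsg.isometryGroup F (Cfsg.quadFormMinus (m - 1) F a b)), ConjClasses.mk g = C ∧ orderOf g = 2} = m + (m - 1) / 2 := by
  apply card_classes_O (ndq_minus a b hab (m - 1)) (by simp; omega) (fun U hU => Cfsg.Agent.Lib.Quad.finrank_le_of_minus_singular hab U hU)
  · intro s _ hs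
    have hs' : s ≤ (m - 1) + 1 := by omega
    exact ⟨fun l => minusW (m - 1) F (Fin.castLE hs' l), fun i j => polar_minusW _ _ _ _, (li_minusW (m - 1)).comp _ (Fin.castLE_injective hs'), fun l => q_minusW _ _ _⟩
  · intro k _ hk
    have h : k + k ≤ m - 1 := by omega
    exact ⟨fun l => minusE (m - 1) F (sumInj h l), fun i j => polar_minusE _ _ _ _, (li_minusE (m - 1)).comp _ (sumInj_injective h), fun l => q_minusE _ _ _⟩

end Cfsg.Agent.Lib.Classical.InvolEven
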