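import Mathlib
import Cfsg.Agent.Lib.Classical.SympStab
import Cfsg.Agent.Lib.Classical.Symp2
import Cfsg.Agent.Lib.Quad.Split

/-! Conjugacy of involutions of the projective symplectic group, odd characteristic. -/

set_option autoImplicit false
set_option linter.unusedSimpArgs false
set_option linter.unusedVariables false
set_option linter.unusedSectionVars false
set_option linter.style.haveILetI false

namespace Cfsg.Agent.Lib.Classical

open Matrix Module Cfsg.Agent.Lib.KnownSimple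

variable {F : Type*} [Field F] {m : ℕ}

local notation "ff" => Cfsg.sympForm m F
local notation "VV" => (Fin m ⊕ Fin m → F)
local notation "Sp" => Matrix.symplecticGroup (Fin m) F

theorem sym_nondeg {u : VV} (h : ∀ y, ff u y = 0) : u = 0 := by
  apply sympForm_right_eq_zero
  intro z
  rw [sympForm_swap, h, neg_zero]

/-- A form preserving linear map gives an element of `Sp`. -/
noncomputable def spOfLin (L : VV →ₗ[F] VV) (h : ∀ u v, ff (L u) (L v) = ff u v) : Sp :=
  ⟨LinearMap.toMatrix' L, mem_sp_of_preserves (by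
    intro u v
    rw [LinearMap.toMatrix'_mulVec, LinearMap.toMatrix'_mulVec]
    exact h u v)⟩

theorem spOfLin_mulVec (L : VV →ₗ[F] VV) (h : ∀ u v, ff (L u) (L v) = ff u v) (x : VV) :
    (spOfLin L h).1 *ᵥ x = L x := LinearMap.toMatrix'_mulVec L x

/-- Conjugacy from an intertwiner. -/
theorem isConj_of_intertwine {t t' g : Sp} (h : ∀ x : VV, g.1 *ᵥ (t.1 *ᵥ x) = t'.1 *ᵥ (g.1 *ᵥ x)) : IsConj t t' := by
  rw [isConj_iff]
  refine ⟨g, ?_⟩
  have h1 : g * t = t' * g := by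
    apply Subtype.ext
    apply mat_ext_mulVec
    intro x
    change (g.1 * t.1) *ᵥ x = (t'.1 * g.1) *ᵥ x
    rw [← mulVec_mulVec, ← mulVec_mulVec, h]
  rw [h1]
  group

/-- The `+1`-eigenspace. -/
noncomputable def vPlus (t : Sp) : Submodule F VV := LinearMap.ker (t.1.mulVecLin - LinearMap.id)

/-- The `-1`-eigenspace. -/
noncomputable def vMinus (t : Sp) : Submodule F VV := LinearMap.ker (t.1.mulVecLin + LinearMap.id)

theorem mem_vPlus {t : Sp} {x : VV} : x ∈ vPlus t ↔ t.1 *ᵥ x = x := by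
  simp [vPlus, LinearMap.mem_ker, sub_eq_zero]

theorem mem_vMinus {t : Sp} {x : VV} : x ∈ vMinus t ↔ t.1 *ᵥ x = -x := by
  simp [vMinus, LinearMap.mem_ker, add_eq_zero_iff_eq_neg]

noncomputable def pPlusL (t : Sp) : VV →ₗ[F] VV := (2⁻¹ : F) • (LinearMap.id + t.1.mulVecLin)

noncomputable def pMinusL (t : Sp) : VV →ₗ[F] VV := (2⁻¹ : F) • (LinearMap.id - t.1.mulVecLin)

theorem pPlusL_apply (t : Sp) (x : VV) : pPlusL t x = (2⁻¹ : F) • (x + t.1 *ᵥ x) := by
  simp [pPlusL]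

theorem pMinusL_apply (t : Sp) (x : VV) : pMinusL t x = (2⁻¹ : F) • (x - t.1 *ᵥ x) := by
  simp [pMinusL]

section Invol


theorem invol_apply {t : Sp} (ht : t.1 * t.1 = 1) (x : VV) : t.1 *ᵥ (t.1 *ᵥ x) = x := by
  rw [mulVec_mulVec, ht, one_mulVec]

/-- The projection onto the `+1`-eigenspace. -/
theorem half_plus_mem (h2 : (2 : F) ≠ 0) {t : Sp} (ht : t.1 * t.1 = 1) (x : VV) : (2⁻¹ : F) • (x + t.1 *ᵥ x) ∈ vPlus t := by
  rw [mem_vPlus, mulVec_smul, mulVec_add, invol_apply ht, add_comm]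

theorem half_minus_mem (h2 : (2 : F) ≠ 0) {t : Sp} (ht : t.1 * t.1 = 1) (x : VV) : (2⁻¹ : F) • (x - t.1 *ᵥ x) ∈ vMinus t := by
  rw [mem_vMinus, mulVec_smul, mulVec_sub, invol_apply ht, ← smul_neg, neg_sub]

theorem half_decomp (h2 : (2 : F) ≠ 0) (x y : VV) : (2⁻¹ : F) • (x + y) + (2⁻¹ : F) • (x - y) = x := by
  rw [← smul_add]
  have : x + y + (x - y) = (2 : F) • x := by
    rw [two_smul]
    abel
  rw [this, smul_smul, inv_mul_cancel₀ h2, one_smul]

/-- The eigenspaces are orthogonal. -/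
theorem plus_minus_orth (h2 : (2 : F) ≠ 0) {t : Sp} {u w : VV} (hu : u ∈ vPlus t) (hw : w ∈ vMinus t) : ff u w = 0 := by
  have h1 := sp_form t u w
  rw [mem_vPlus.1 hu, mem_vMinus.1 hw] at h1
  have h3 : ff u (-w) = - ff u w := by
    have := sympForm_smul_right (-1) u w
    rwa [neg_one_smul, neg_one_mul] at this
  rw [h3] at h1
  have h4 : (2 : F) * ff u w = 0 := by linear_combination -h1
  exact (mul_eq_zero.1 h4).resolve_left h2

theorem vPlus_nondeg (h2 : (2 : F) ≠ 0) {t : Sp} (ht : t.1 * t.1 = 1) : ∀ u ∈ vPlus t, (∀ v ∈ vPlus t, ff u v = 0) → u = 0 := by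
  intro u hu h
  apply sym_nondeg
  intro y
  rw [← half_decomp h2 y (t.1 *ᵥ y), sympForm_add_right, h _ (half_plus_mem h2 ht y),
    plus_minus_orth h2 hu (half_minus_mem h2 ht y), add_zero]

theorem vMinus_nondeg (h2 : (2 : F) ≠ 0) {t : Sp} (ht : t.1 * t.1 = 1) : ∀ u ∈ vMinus t, (∀ v ∈ vMinus t, ff u v = 0) → u = 0 := by
  intro u hu h
  apply sym_nondeg
  intro y
  have h3 : ff u ((2⁻¹ : F) • (y + t.1 *ᵥ y)) = 0 := by
    rw [sympForm_swap, plus_minus_orth h2 (half_plus_mem h2 ht y) hu, neg_zero]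
  rw [← half_decomp h2 y (t.1 *ᵥ y), sympForm_add_right, h _ (half_minus_mem h2 ht y), h3, add_zero]

theorem isCompl_plus_minus (h2 : (2 : F) ≠ 0) {t : Sp} (ht : t.1 * t.1 = 1) : IsCompl (vPlus t) (vMinus t) := by
  constructor
  · rw [Submodule.disjoint_def]
    intro x hx hx'
    have h1 := mem_vPlus.1 hx
    have h3 := mem_vMinus.1 hx'
    rw [h1] at h3
    have h4 : (2 : F) • x = 0 := by
      rw [two_smul]
      nth_rewrite 1 [h3]
      simp
    exact (smul_eq_zero.1 h4).resolve_left h2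
  · rw [codisjoint_iff, eq_top_iff]
    intro x _
    rw [← half_decomp h2 x (t.1 *ᵥ x)]
    exact Submodule.add_mem_sup (half_plus_mem h2 ht x) (half_minus_mem h2 ht x)

theorem finrank_plus_add_minus (h2 : (2 : F) ≠ 0) {t : Sp} (ht : t.1 * t.1 = 1) : finrank F (vPlus t) + finrank F (vMinus t) = 2 * m := by
  have h1 := Submodule.finrank_add_eq_of_isCompl (isCompl_plus_minus h2 ht)
  rw [h1, Module.finrank_fintype_fun_eq_card]
  simp [two_mul]

/-- Non-degenerate subspaces have even dimension. -/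
theorem exists_finrank_even (W : Submodule F VV) (hW : ∀ u ∈ W, (∀ v ∈ W, ff u v = 0) → u = 0) :
    ∃ k, finrank F W = 2 * k := by
  classical
  let B : LinearMap.BilinForm F W := (sympBil m F).restrict W
  have hB : ∀ u v : W, B u v = ff u v := fun u v => rfl
  have hA : B.IsAlt := fun x => sympForm_self _
  have hBl : ∀ u : W, (∀ v : W, B u v = 0) → u = 0 := by
    intro u hu
    apply Subtype.ext
    exact hW _ u.2 (fun v hv => hu ⟨v, hv⟩)
  obtain ⟨m', r, b, h1, h3, h4, h5⟩ := exists_alt_basis _ W B hA rfl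
  have hr : r = 0 := by
    by_contra hne
    obtain ⟨j⟩ : Nonempty (Fin r) := ⟨⟨0, by omega⟩⟩
    have := hBl (b (Sum.inr j)) (h5 j)
    exact b.ne_zero _ this
  subst hr
  refine ⟨m', ?_⟩
  have := Module.finrank_eq_card_basis b
  simp at this
  omega

/-- Involutions with eigenspaces of the same dimension are conjugate. -/
theorem sp_conj_of_invol (h2 : (2 : F) ≠ 0) {t t' : Sp} (ht : t.1 * t.1 = 1) (ht' : t'.1 * t'.1 = 1) (hdim : finrank F (vPlus t) = finrank F (vPlus t')) : IsConj t t' := by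
  obtain ⟨a, ha⟩ := exists_finrank_even (vPlus t) (vPlus_nondeg h2 ht)
  obtain ⟨b, hb⟩ := exists_finrank_even (vMinus t) (vMinus_nondeg h2 ht)
  have h1 := finrank_plus_add_minus h2 ht
  have h3 := finrank_plus_add_minus h2 ht'
  have ha' : finrank F (vPlus t') = 2 * a := by rw [← hdim, ha]
  have hb' : finrank F (vMinus t') = 2 * b := by omega
  obtain ⟨e₁, he₁⟩ := exists_symp_coords (vPlus t) ha (vPlus_nondeg h2 ht)
  obtain ⟨e₂, he₂⟩ := exists_symp_coords (vPlus t') ha' (vPlus_nondeg h2 ht')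
  obtain ⟨e₃, he₃⟩ := exists_symp_coords (vMinus t) hb (vMinus_nondeg h2 ht)
  obtain ⟨e₄, he₄⟩ := exists_symp_coords (vMinus t') hb' (vMinus_nondeg h2 ht')
  let A : vPlus t ≃ₗ[F] vPlus t' := e₁.trans e₂.symm
  let B : vMinus t ≃ₗ[F] vMinus t' := e₃.trans e₄.symm
  have hA : ∀ u v : vPlus t, ff (A u) (A v) = ff u v := by
    intro u v
    rw [← he₂, ← he₁]
    simp [A]
  have hB : ∀ u v : vMinus t, ff (B u) (B v) = ff u v := by
    intro u v
    rw [← he₄, ← he₃]
    simp [B]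
  let p₁ : VV →ₗ[F] vPlus t := LinearMap.codRestrict (vPlus t) (pPlusL t)
    (fun x => by rw [pPlusL_apply]; exact half_plus_mem h2 ht x)
  let p₂ : VV →ₗ[F] vMinus t := LinearMap.codRestrict (vMinus t) (pMinusL t)
    (fun x => by rw [pMinusL_apply]; exact half_minus_mem h2 ht x)
  have hp₁ : ∀ x, (p₁ x : VV) = (2⁻¹ : F) • (x + t.1 *ᵥ x) := fun x => pPlusL_apply t x
  have hp₂ : ∀ x, (p₂ x : VV) = (2⁻¹ : F) • (x - t.1 *ᵥ x) := fun x => pMinusL_apply t x
  have hdec : ∀ x, x = (p₁ x : VV) + (p₂ x : VV) := by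
    intro x
    rw [hp₁, hp₂]
    exact (half_decomp h2 x _).symm
  let L : VV →ₗ[F] VV := (vPlus t').subtype ∘ₗ (A : vPlus t →ₗ[F] vPlus t') ∘ₗ p₁ +
    (vMinus t').subtype ∘ₗ (B : vMinus t →ₗ[F] vMinus t') ∘ₗ p₂
  have hL : ∀ x, L x = (A (p₁ x) : VV) + (B (p₂ x) : VV) := fun x => rfl
  have hpres : ∀ u v, ff (L u) (L v) = ff u v := by
    intro u v
    rw [hL, hL, sympForm_add_left, sympForm_add_right, sympForm_add_right, hA, hB,
      plus_minus_orth h2 (A (p₁ u)).2 (B (p₂ v)).2, sympForm_swap (B (p₂ u) : VV) (A (p₁ v) : VV),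
      plus_minus_orth h2 (A (p₁ v)).2 (B (p₂ u)).2]
    have e : ff u v = ff ((p₁ u : VV) + (p₂ u : VV)) ((p₁ v : VV) + (p₂ v : VV)) := by
      rw [← hdec, ← hdec]
    rw [e, sympForm_add_left, sympForm_add_right, sympForm_add_right,
      plus_minus_orth h2 (p₁ u).2 (p₂ v).2, sympForm_swap (p₂ u : VV) (p₁ v : VV),
      plus_minus_orth h2 (p₁ v).2 (p₂ u).2]
  apply isConj_of_intertwine (g := spOfLin L hpres)
  intro x
  rw [spOfLin_mulVec, spOfLin_mulVec, hL, hL, mulVec_add]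
  have h5 : p₁ (t.1 *ᵥ x) = p₁ x := by
    apply Subtype.ext
    rw [hp₁, hp₁, invol_apply ht, add_comm]
  have h6 : p₂ (t.1 *ᵥ x) = - p₂ x := by
    apply Subtype.ext
    rw [hp₂, Submodule.coe_neg, hp₂, invol_apply ht, ← smul_neg, neg_sub]
  rw [h5, h6, map_neg, mem_vPlus.1 (A (p₁ x)).2, mem_vMinus.1 (B (p₂ x)).2]
  rfl

end Invol

end Cfsg.Agent.Lib.Classical
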