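import Mathlib
import Cfsg.Agent.Lib.Classical.InvolEven4
import Cfsg.Agent.Lib.Classical.SpInvol

/-! Classes of involutions of the symplectic group in characteristic two. -/

set_option autoImplicit false
set_option linter.unusedSimpArgs false
set_option linter.unusedVariables false
set_option linter.unusedSectionVars false
set_option linter.style.haveILetI false

namespace Cfsg.Agent.Lib.Classical.InvolEven

open Matrix Module Cfsg.Agent.Lib.Classical Cfsg.Agent.Lib.KnownSimple

variable {F : Type*} [Field F] [CharP F 2] {m : ℕ}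

local notation "VV" => (Fin m ⊕ Fin m → F)
local notation "Sp" => Matrix.symplecticGroup (Fin m) F
local notation "BB" => sympBil m F

theorem mkT_type {V : Type*} [AddCommGroup V] [Module F V] {L : Type} [Fintype L] [DecidableEq L] {B : LinearMap.BilinForm F V} {σ : L → L} {w : L → V} (hnd : B.Nondegenerate) (hS : ∀ x y, B x y = B y x) (hσ : ∀ l, σ (σ l) = l) (hli : LinearIndependent F w) :
    (∀ x, B (nn (mkT B σ w) x) x = 0) ↔ ∀ l, σ l ≠ l := by
  constructor
  · intro h l hl
    have hz : ∑ i ∈ Finset.univ.filter (fun l => σ l = l), w i ≠ 0 := by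
      intro hz
      have h3 := linearIndependent_iff'.1 hli (Finset.univ.filter (fun l => σ l = l)) (fun _ => 1) (by simpa using hz) l (Finset.mem_filter.2 ⟨Finset.mem_univ _, hl⟩)
      exact one_ne_zero h3
    obtain ⟨x, hx⟩ : ∃ x, B (∑ i ∈ Finset.univ.filter (fun l => σ l = l), w i) x ≠ 0 := by
      by_contra hcon
      push Not at hcon
      exact hz (hnd.1 _ hcon)
    apply hx
    have h5 := h x
    rw [mkT_value hS hσ] at h5
    have h6 : (B (∑ i ∈ Finset.univ.filter (fun l => σ l = l), w i) x) ^ 2 = ∑ l ∈ Finset.univ.filter (fun l => σ l = l), B (w l) x * B (w l) x := by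
      rw [map_sum, LinearMap.sum_apply, sum_pow_char 2]
      exact Finset.sum_congr rfl (fun l _ => pow_two _)
    rw [h5] at h6
    exact pow_eq_zero_iff (two_ne_zero) |>.1 h6
  · intro h x
    rw [mkT_value hS hσ]
    refine Finset.sum_eq_zero (fun l hl => ?_)
    exact absurd (Finset.mem_filter.1 hl).2 (h l)

omit [CharP F 2] in
theorem sympBil_nd : (sympBil m F).Nondegenerate := by
  constructor
  · intro x hx
    exact sym_nondeg hx
  · intro y hy
    apply sym_nondeg
    intro z
    rw [sympForm_swap]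
    have : Cfsg.sympForm m F z y = 0 := hy z
    rw [this, neg_zero]

theorem sympBil_symm (x y : VV) : sympBil m F x y = sympBil m F y x := by
  change Cfsg.sympForm m F x y = Cfsg.sympForm m F y x
  rw [sympForm_swap x y]
  have h2 : (2 : F) = 0 := two_eq_zero'
  linear_combination (- Cfsg.sympForm m F y x) * h2

/-- The linear map of a symplectic matrix. -/
abbrev sL (t : Sp) : VV →ₗ[F] VV := (t.1).mulVecLin

theorem sL_apply (t : Sp) (x : VV) : sL t x = t.1 *ᵥ x := rfl

theorem sL_form (t : Sp) (x y : VV) : sympBil m F (sL t x) (sL t y) = sympBil m F x y :=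
  sympForm_mulVec_mulVec t.2 x y

theorem sL_sL {t : Sp} (ht : t * t = 1) (x : VV) : sL t (sL t x) = x := by
  show t.1 *ᵥ (t.1 *ᵥ x) = x
  rw [mulVec_mulVec]
  have : t.1 * t.1 = 1 := by
    have := congrArg Subtype.val ht
    simpa using this
  rw [this, one_mulVec]

theorem nn_sL (t : Sp) : nn (sL t) = (t.1 - 1).mulVecLin := by
  ext x
  simp [nn, Matrix.sub_mulVec]

theorem finrank_nnS (t : Sp) : finrank F (LinearMap.range (nn (sL t))) = (t.1 - 1).rank := by
  rw [nn_sL]
  rfl

/-- The type of a symplectic involution. -/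
def IsATypeS (t : Sp) : Prop := ∀ x, sympBil m F (nn (sL t) x) x = 0

theorem isATypeS_iff (t : Sp) : IsATypeS t ↔ ∀ v : VV, Cfsg.sympForm m F v (t.1 *ᵥ v) = 0 := by
  have h : ∀ v : VV, sympBil m F (nn (sL t) v) v = Cfsg.sympForm m F v (t.1 *ᵥ v) := by
    intro v
    rw [nn_apply', map_sub, LinearMap.sub_apply, sympBil_symm (sL t v) v]
    have : sympBil m F v v = 0 := sympForm_self v
    rw [this, sub_zero]
    rfl
  simp only [IsATypeS, h]

theorem rank_le_S (t : Sp) (ht : t * t = 1) : (t.1 - 1).rank ≤ m := by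
  have h1 := LinearMap.finrank_range_add_finrank_ker (nn (sL t))
  have h2 : LinearMap.range (nn (sL t)) ≤ LinearMap.ker (nn (sL t)) := by
    rintro _ ⟨x, rfl⟩
    exact nn_nn (sL_sL ht) x
  have h3 := Submodule.finrank_mono h2
  rw [Module.finrank_fintype_fun_eq_card] at h1
  rw [finrank_nnS] at h1 h3
  simp at h1
  omega

theorem rank_pos_S {t : Sp} (ht : orderOf t = 2) : 1 ≤ (t.1 - 1).rank := by
  by_contra h
  have h1 : (t.1 - 1).rank = 0 := by omega
  have h2 := LinearMap.finrank_range_add_finrank_ker (nn (sL t))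
  rw [finrank_nnS, h1, Module.finrank_fintype_fun_eq_card, zero_add] at h2
  have h4 : LinearMap.ker (nn (sL t)) = ⊤ := Submodule.eq_top_of_finrank_eq (by
    rw [Module.finrank_fintype_fun_eq_card, h2])
  have h3 : t = 1 := by
    apply Subtype.ext
    apply mat_ext_mulVec
    intro x
    have h5 : x ∈ LinearMap.ker (nn (sL t)) := by rw [h4]; exact Submodule.mem_top
    have h6 : t.1 *ᵥ x - x = 0 := h5
    rw [sub_eq_zero.1 h6]
    simp
  rw [h3, orderOf_one] at ht
  omega

theorem conj_rank_S {t s : Sp} (h : IsConj t s) : (t.1 - 1).rank = (s.1 - 1).rank := by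
  obtain ⟨c, rfl⟩ := isConj_iff.1 h
  have h1 : (c * t * c⁻¹).1 - 1 = c.1 * (t.1 - 1) * (c⁻¹).1 := by
    have h6 : c.1 * (c⁻¹).1 = 1 := congrArg Subtype.val (mul_inv_cancel c)
    have h7 : (c * t * c⁻¹).1 = c.1 * t.1 * (c⁻¹).1 := rfl
    rw [h7, Matrix.mul_sub, Matrix.sub_mul, Matrix.mul_one, h6]
  have hu : ∀ c : Sp, IsUnit c.1.det := by
    intro c
    have h6 : c.1 * (c⁻¹).1 = 1 := congrArg Subtype.val (mul_inv_cancel c)
    exact Matrix.isUnit_det_of_right_inverse h6
  rw [h1, Matrix.rank_mul_eq_left_of_isUnit_det _ _ (hu c⁻¹), Matrix.rank_mul_eq_right_of_isUnit_det _ _ (hu c)]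

theorem conj_type_S {t s : Sp} (h : IsConj t s) : IsATypeS t ↔ IsATypeS s := by
  have key : ∀ (c t : Sp), IsATypeS t → IsATypeS (c * t * c⁻¹) := by
    intro c t ht x
    have h6 : c.1 * (c⁻¹).1 = 1 := congrArg Subtype.val (mul_inv_cancel c)
    have h6' : (c⁻¹).1 * c.1 = 1 := congrArg Subtype.val (inv_mul_cancel c)
    have h7 : ∀ y : VV, (c⁻¹).1 *ᵥ (c.1 *ᵥ y) = y := by
      intro y
      rw [mulVec_mulVec, h6', one_mulVec]
    have h8 : ∀ y : VV, c.1 *ᵥ ((c⁻¹).1 *ᵥ y) = y := by
      intro y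
      rw [mulVec_mulVec, h6, one_mulVec]
    obtain ⟨y, rfl⟩ : ∃ y, x = sL c y := ⟨sL c⁻¹ x, (h8 x).symm⟩
    have h1 : nn (sL (c * t * c⁻¹)) (sL c y) = sL c (nn (sL t) y) := by
      simp only [nn_apply', sL_apply, map_sub]
      have h9 : (c * t * c⁻¹).1 *ᵥ (c.1 *ᵥ y) = c.1 *ᵥ (t.1 *ᵥ ((c⁻¹).1 *ᵥ (c.1 *ᵥ y))) := by
        rw [mulVec_mulVec, mulVec_mulVec, mulVec_mulVec, mulVec_mulVec]
        rfl
      rw [h9, h7]
    rw [h1, sL_form]
    exact ht y
  obtain ⟨c, rfl⟩ := isConj_iff.1 h
  refine ⟨key c t, fun h2 => ?_⟩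
  have := key c⁻¹ _ h2
  have e : c⁻¹ * (c * t * c⁻¹) * c⁻¹⁻¹ = t := by group
  rwa [e] at this

theorem even_of_AS [Fintype F] {t : Sp} (ht : t * t = 1) (hA : IsATypeS t) : ∃ k, (t.1 - 1).rank = 2 * k := by
  obtain ⟨k, u, hk, -⟩ := exists_frame_alt (T := sL t) sympBil_symm sympBil_nd (sL_sL ht) (sL_form t) hA
  exact ⟨k, by rw [← finrank_nnS, hk]⟩

theorem isConj_of_invariants_S [Fintype F] {t s : Sp} (ht : t * t = 1) (hs : s * s = 1) (hr : (t.1 - 1).rank = (s.1 - 1).rank) (hty : IsATypeS t ↔ IsATypeS s) : IsConj t s := by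
  obtain ⟨g, hg1, hg2⟩ := exists_conj_alt (T := sL t) (T' := sL s) sympBil_nd (sympBil_alt m) sympBil_symm (sL_sL ht) (sL_form t) (sL_sL hs) (sL_form s)
    (by rw [finrank_nnS, finrank_nnS, hr]) hty
  have hg3 : ∀ u v, Cfsg.sympForm m F ((g : VV →ₗ[F] VV) u) ((g : VV →ₗ[F] VV) v) = Cfsg.sympForm m F u v := hg1
  exact isConj_of_intertwine (g := spOfLin (g : VV →ₗ[F] VV) hg3) (fun x => by
    rw [spOfLin_mulVec, spOfLin_mulVec]
    exact hg2 x)

/-- A symplectic involution with prescribed invariants. -/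
theorem exists_invol_S {L : Type} [Fintype L] [DecidableEq L] {σ : L → L} {w : L → VV} (hσ : ∀ l, σ (σ l) = l)
    (hw : ∀ i j, sympBil m F (w i) (w j) = 0) (hli : LinearIndependent F w) :
    ∃ t : Sp, t * t = 1 ∧ (t.1 - 1).rank = Fintype.card L ∧ (IsATypeS t ↔ ∀ l, σ l ≠ l) := by
  set T := mkT (sympBil m F) σ w with hT
  have hform : ∀ u v, Cfsg.sympForm m F (T u) (T v) = Cfsg.sympForm m F u v := fun u v => mkT_polar sympBil_symm hσ hw u v
  let t : Sp := spOfLin T hform
  have ht : ∀ x, t.1 *ᵥ x = T x := spOfLin_mulVec T hform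
  have hTt : sL t = T := by
    apply LinearMap.ext
    intro x
    exact ht _
  refine ⟨t, ?_, ?_, ?_⟩
  · apply Subtype.ext
    apply mat_ext_mulVec
    intro x
    change (t.1 * t.1) *ᵥ x = 1 *ᵥ x
    rw [← mulVec_mulVec, ht, ht, one_mulVec]
    exact mkT_mkT hw x
  · rw [← finrank_nnS, hTt]
    exact mkT_rank sympBil_nd hσ hli
  · rw [IsATypeS, hTt]
    exact mkT_type sympBil_nd sympBil_symm hσ hli

theorem polar_sympE {k : ℕ} (i j : Fin k) : sympBil k F (plusE k F i) (plusE k F j) = 0 := by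
  change Cfsg.sympForm k F _ _ = 0
  simp [Cfsg.sympForm, Matrix.J, plusE, dotProduct, Matrix.mulVec, Matrix.fromBlocks, Fintype.sum_sum_type]

/-- The number of classes of involutions of the symplectic group. -/
theorem card_classes_Sp [Fintype F] : Nat.card {C : ConjClasses Sp // ∃ g : Sp, ConjClasses.mk g = C ∧ orderOf g = 2} = m + m / 2 := by
  classical
  let code : Sp → ℕ := fun t => if IsATypeS t then m + (t.1 - 1).rank / 2 else (t.1 - 1).rank
  have hcode : ∀ t, code t = if IsATypeS t then m + (t.1 - 1).rank / 2 else (t.1 - 1).rank := fun t => rfl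
  have hrk : ∀ t : Sp, orderOf t = 2 → (t.1 - 1).rank ≤ m := fun t ht => rank_le_S t (sq_of_order ht)
  apply card_classes_of_code code
  · intro x y hx hxy
    rw [hcode, hcode, conj_rank_S hxy]
    simp only [conj_type_S hxy]
  · intro x y hx hy hxy
    rw [hcode, hcode] at hxy
    have h1 := hrk x hx
    have h2 := hrk y hy
    have h3 := rank_pos_S hx
    have h4 := rank_pos_S hy
    by_cases ha1 : IsATypeS x <;> by_cases ha2 : IsATypeS y
    · rw [if_pos ha1, if_pos ha2] at hxy
      obtain ⟨k, hk⟩ := even_of_AS (sq_of_order hx) ha1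
      obtain ⟨k', hk'⟩ := even_of_AS (sq_of_order hy) ha2
      exact isConj_of_invariants_S (sq_of_order hx) (sq_of_order hy) (by omega) (by simp [ha1, ha2])
    · exfalso
      rw [if_pos ha1, if_neg ha2] at hxy
      obtain ⟨k, hk⟩ := even_of_AS (sq_of_order hx) ha1
      omega
    · exfalso
      rw [if_neg ha1, if_pos ha2] at hxy
      obtain ⟨k, hk⟩ := even_of_AS (sq_of_order hy) ha2
      omega
    · rw [if_neg ha1, if_neg ha2] at hxy
      exact isConj_of_invariants_S (sq_of_order hx) (sq_of_order hy) hxy (by simp [ha1, ha2])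
  · intro x hx
    rw [hcode]
    have h1 := hrk x hx
    have h3 := rank_pos_S hx
    by_cases ha1 : IsATypeS x
    · rw [if_pos ha1]
      obtain ⟨k, hk⟩ := even_of_AS (sq_of_order hx) ha1
      constructor
      · omega
      · have : (x.1 - 1).rank / 2 ≤ m / 2 := Nat.div_le_div_right h1
        omega
    · rw [if_neg ha1]
      omega
  · intro n hn1 hn2
    have hne : ∀ t : Sp, t * t = 1 → 1 ≤ (t.1 - 1).rank → orderOf t = 2 := by
      intro t ht hr
      apply orderOf_eq_prime
      · rwa [pow_two]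
      · intro h
        rw [h] at hr
        have : ((1 : Sp).1 - 1 : Matrix (Fin m ⊕ Fin m) (Fin m ⊕ Fin m) F) = 0 := sub_self _
        rw [this, Matrix.rank_zero] at hr
        omega
    by_cases hnm : n ≤ m
    · obtain ⟨t, ht, hr, hty⟩ := exists_invol_S (F := F) (m := m) (σ := id) (w := fun l : Fin n => plusE m F (Fin.castLE hnm l)) (fun _ => rfl)
        (fun i j => polar_sympE _ _) ((li_plusE m).comp _ (Fin.castLE_injective hnm))
      have hnA : ¬ IsATypeS t := fun h => (hty.1 h) ⟨0, by omega⟩ rfl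
      have hr' : (t.1 - 1).rank = n := by simpa using hr
      refine ⟨t, hne t ht (by omega), ?_⟩
      rw [hcode, if_neg hnA, hr']
    · obtain ⟨k, rfl⟩ : ∃ k, n = m + k := ⟨n - m, by omega⟩
      have hk1 : 1 ≤ k := by omega
      have hk2 : k + k ≤ m := by
        have : k ≤ m / 2 := by omega
        omega
      have hswap : ∀ l : Fin k ⊕ Fin k, Sum.swap l ≠ l := by
        rintro (l | l) <;> simp
      obtain ⟨t, ht, hr, hty⟩ := exists_invol_S (F := F) (m := m) (σ := Sum.swap) (w := fun l => plusE m F (sumInj hk2 l)) (fun l => by simp)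
        (fun i j => polar_sympE _ _) ((li_plusE m).comp _ (sumInj_injective hk2))
      have hA : IsATypeS t := hty.2 hswap
      have hr' : (t.1 - 1).rank = 2 * k := by
        rw [hr]
        simp
        omega
      refine ⟨t, hne t ht (by omega), ?_⟩
      rw [hcode, if_pos hA, hr']
      simp

end Cfsg.Agent.Lib.Classical.InvolEven
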