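import Mathlib

/-! Counting Klein four-subgroups of a finite group by commuting involutions. -/

set_option autoImplicit false
set_option linter.unusedSimpArgs false
set_option linter.unusedVariables false
set_option linter.unusedSectionVars false
set_option linter.style.haveILetI false

namespace Cfsg.Agent.Lib.Classical

/-- Constant fibres. -/
theorem card_eq_mul_of_fibers {α β : Type*} [Finite α] [Finite β] (f : α → β) (k : ℕ)
    (h : ∀ b, Nat.card {a // f a = b} = k) : Nat.card α = Nat.card β * k := by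
  classical
  haveI := Fintype.ofFinite β
  rw [← Nat.card_congr (Equiv.sigmaFiberEquiv f), Nat.card_sigma]
  simp only [h]
  rw [Finset.sum_const, smul_eq_mul, Finset.card_univ, Nat.card_eq_fintype_card]

/-- Fibres of conjugation are cosets of the centraliser. -/
theorem conj_fiber_card {G : Type*} [Group G] (a b g₀ : G) (h : g₀ * a * g₀⁻¹ = b) :
    Nat.card {g : G // g * a * g⁻¹ = b} = Nat.card (Subgroup.centralizer ({a} : Set G)) := by
  apply Nat.card_congr
  refine ⟨fun g => ⟨g₀⁻¹ * g.1, ?_⟩, fun c => ⟨g₀ * c.1, ?_⟩, ?_, ?_⟩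
  · rw [Subgroup.mem_centralizer_iff]
    intro y hy
    rw [Set.mem_singleton_iff] at hy
    rw [hy]
    have h1 := g.2
    have h2 : g.1 * a = b * g.1 := by
      calc g.1 * a = (g.1 * a * g.1⁻¹) * g.1 := by group
        _ = b * g.1 := by rw [h1]
    have h3 : g₀ * a = b * g₀ := by rw [← h]; group
    have h4 : a = g₀⁻¹ * b * g₀ := by rw [← h]; group
    calc a * (g₀⁻¹ * g.1) = (g₀⁻¹ * b * g₀) * (g₀⁻¹ * g.1) := by rw [← h4]
      _ = g₀⁻¹ * (b * g.1) := by group
      _ = g₀⁻¹ * (g.1 * a) := by rw [h2]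
      _ = _ := by group
  · have h2 := Subgroup.mem_centralizer_iff.1 c.2 a rfl
    have h5 : c.1 * a * c.1⁻¹ = a := by
      rw [← h2]
      group
    calc g₀ * c.1 * a * (g₀ * c.1)⁻¹ = g₀ * (c.1 * a * c.1⁻¹) * g₀⁻¹ := by group
      _ = b := by rw [h5, h]
  · intro g
    apply Subtype.ext
    simp
  · intro c
    apply Subtype.ext
    simp

variable {G : Type*} [Group G]

/-- The Klein subgroup of two commuting involutions. -/
def kleinSub (u v : G) (hu : u ^ 2 = 1) (hv : v ^ 2 = 1) (huv : u * v = v * u) : Subgroup G where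
  carrier := {1, u, v, u * v}
  mul_mem' := by
    have uu : u * u = 1 := by rwa [pow_two] at hu
    have vv : v * v = 1 := by rwa [pow_two] at hv
    have e1 : u * (u * v) = v := by rw [← mul_assoc, uu, one_mul]
    have e2 : v * (u * v) = u := by rw [huv, ← mul_assoc, vv, one_mul]
    have e3 : u * v * u = v := by rw [huv, mul_assoc, uu, mul_one]
    have e4 : u * v * v = u := by rw [mul_assoc, vv, mul_one]
    have e5 : u * v * (u * v) = 1 := by rw [← mul_assoc, e3, vv]
    have e6 : v * u = u * v := huv.symm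
    rintro a b (rfl | rfl | rfl | rfl) (rfl | rfl | rfl | rfl) <;>
      simp [uu, vv, e1, e2, e3, e4, e5, e6]
  one_mem' := by simp
  inv_mem' := by
    have uu : u⁻¹ = u := inv_eq_of_mul_eq_one_left (by rwa [pow_two] at hu)
    have vv : v⁻¹ = v := inv_eq_of_mul_eq_one_left (by rwa [pow_two] at hv)
    rintro a (rfl | rfl | rfl | rfl)
    · simp
    · simp [uu]
    · simp [vv]
    · simp only [Set.mem_insert_iff, Set.mem_singleton_iff, _root_.mul_inv_rev, uu, vv, ← huv]
      simp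

theorem mem_kleinSub {u v : G} {hu : u ^ 2 = 1} {hv : v ^ 2 = 1} {huv : u * v = v * u} {x : G} :
    x ∈ kleinSub u v hu hv huv ↔ x = 1 ∨ x = u ∨ x = v ∨ x = u * v := Iff.rfl

/-- The data of commuting distinct involutions. -/
def CommInv (u v : G) : Prop :=
  u ^ 2 = 1 ∧ v ^ 2 = 1 ∧ u ≠ 1 ∧ v ≠ 1 ∧ u ≠ v ∧ u * v = v * u

theorem card_kleinSub {u v : G} (h : CommInv u v) : Nat.card (kleinSub u v h.1 h.2.1 h.2.2.2.2.2) = 4 := by
  classical
  obtain ⟨hu, hv, hu1, hv1, hne, huv⟩ := h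
  have e : (kleinSub u v hu hv huv : Set G) = (({1, u, v, u * v} : Finset G) : Set G) := by
    ext x
    simp [mem_kleinSub]
  have uu : u * u = 1 := by rwa [pow_two] at hu
  have hui : u⁻¹ = u := inv_eq_of_mul_eq_one_left uu
  have h1 : u * v ≠ 1 := by
    intro h
    apply hne
    rw [eq_inv_of_mul_eq_one_right h, hui]
  have h2 : u * v ≠ u := by
    intro h
    exact hv1 (by simpa using h)
  have h3 : u * v ≠ v := by
    intro h
    exact hu1 (by simpa using h)
  have h4 : ({1, u, v, u * v} : Finset G).card = 4 := by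
    rw [Finset.card_insert_of_notMem, Finset.card_insert_of_notMem, Finset.card_pair (Ne.symm h3)]
    · simp [hne, Ne.symm h2]
    · simp [Ne.symm hu1, Ne.symm hv1, Ne.symm h1]
  change (kleinSub u v hu hv huv : Set G).ncard = 4
  rw [e, Set.ncard_coe_finset, h4]

theorem kleinFour_kleinSub {u v : G} (h : CommInv u v) : IsKleinFour (kleinSub u v h.1 h.2.1 h.2.2.2.2.2) := by
  have hc := card_kleinSub h
  haveI : Finite (kleinSub u v h.1 h.2.1 h.2.2.2.2.2) := Nat.finite_of_card_ne_zero (by omega)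
  have hnt : Nontrivial (kleinSub u v h.1 h.2.1 h.2.2.2.2.2) := by
    rw [← Finite.one_lt_card_iff_nontrivial]
    omega
  refine ⟨hc, ?_⟩
  rw [Monoid.exponent_eq_prime_iff Nat.prime_two]
  rintro ⟨x, hx⟩ hx1
  have hx1' : x ≠ 1 := fun h0 => hx1 (Subtype.ext h0)
  have h2 : x ^ 2 = 1 := by
    rcases mem_kleinSub.1 hx with h3 | h3 | h3 | h3
    · exact absurd h3 hx1'
    · rw [h3]
      exact h.1
    · rw [h3]
      exact h.2.1
    · have hcm : Commute u v := h.2.2.2.2.2
      rw [h3, hcm.mul_pow, h.1, h.2.1, one_mul]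
  apply orderOf_eq_prime
  · apply Subtype.ext
    exact h2
  · exact hx1

/-- Pairs of distinct non-identity elements in a set with four elements. -/
theorem card_pairs_four {T : Type*} [Finite T] (e : T) (hT : Nat.card T = 4) :
    Nat.card {p : T × T // p.1 ≠ e ∧ p.2 ≠ e ∧ p.1 ≠ p.2} = 6 := by
  classical
  haveI := Fintype.ofFinite T
  rw [Nat.card_eq_fintype_card, Fintype.card_subtype]
  have h1 : (Finset.univ.filter fun p : T × T => p.1 ≠ e ∧ p.2 ≠ e ∧ p.1 ≠ p.2) = (Finset.univ.erase e).offDiag := by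
    ext ⟨a, b⟩
    simp [Finset.mem_offDiag]
  rw [h1, Finset.offDiag_card, Finset.card_erase_of_mem (Finset.mem_univ _), Finset.card_univ, ← Nat.card_eq_fintype_card, hT]

theorem kleinSub_mem_left {u v : G} {hu : u ^ 2 = 1} {hv : v ^ 2 = 1} {huv : u * v = v * u} : u ∈ kleinSub u v hu hv huv :=
  mem_kleinSub.2 (Or.inr (Or.inl rfl))

theorem kleinSub_mem_right {u v : G} {hu : u ^ 2 = 1} {hv : v ^ 2 = 1} {huv : u * v = v * u} : v ∈ kleinSub u v hu hv huv :=
  mem_kleinSub.2 (Or.inr (Or.inr (Or.inl rfl)))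

/-- The number of Klein four-subgroups. -/
theorem card_commInv_eq [Finite G] :
    Nat.card {p : G × G // CommInv p.1 p.2} = Nat.card {V : Subgroup G // IsKleinFour V} * 6 := by
  classical
  let f : {p : G × G // CommInv p.1 p.2} → {V : Subgroup G // IsKleinFour V} := fun p =>
    ⟨kleinSub p.1.1 p.1.2 p.2.1 p.2.2.1 p.2.2.2.2.2.2, kleinFour_kleinSub p.2⟩
  apply card_eq_mul_of_fibers f
  rintro ⟨V, hV⟩
  have hsq : ∀ x ∈ V, x ^ 2 = 1 := by
    intro x hx
    have h1 := Monoid.pow_exponent_eq_one (⟨x, hx⟩ : V)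
    rw [IsKleinFour.exponent_two] at h1
    exact congrArg Subtype.val h1
  have hcomm : ∀ x ∈ V, ∀ y ∈ V, x * y = y * x := by
    intro x hx y hy
    have h1 := hsq _ (mul_mem hx hy)
    have h2 := hsq _ hx
    have h3 := hsq _ hy
    rw [pow_two] at h1 h2 h3
    have hxi : x⁻¹ = x := inv_eq_of_mul_eq_one_left h2
    have hyi : y⁻¹ = y := inv_eq_of_mul_eq_one_left h3
    have : (x * y)⁻¹ = x * y := inv_eq_of_mul_eq_one_left h1
    rw [_root_.mul_inv_rev, hxi, hyi] at this
    exact this.symm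
  have hV4 : Nat.card V = 4 := IsKleinFour.card_four
  rw [← card_pairs_four (1 : V) hV4]
  apply Nat.card_congr
  refine ⟨fun a => ⟨(⟨a.1.1.1, ?_⟩, ⟨a.1.1.2, ?_⟩), ?_⟩, fun b => ⟨⟨(b.1.1.1, b.1.2.1), ?_⟩, ?_⟩, ?_, ?_⟩
  · have : a.1.1.1 ∈ kleinSub a.1.1.1 a.1.1.2 a.1.2.1 a.1.2.2.1 a.1.2.2.2.2.2.2 := kleinSub_mem_left
    have h2 := congrArg Subtype.val a.2
    change kleinSub a.1.1.1 a.1.1.2 a.1.2.1 a.1.2.2.1 a.1.2.2.2.2.2.2 = V at h2
    rwa [h2] at this
  · have : a.1.1.2 ∈ kleinSub a.1.1.1 a.1.1.2 a.1.2.1 a.1.2.2.1 a.1.2.2.2.2.2.2 := kleinSub_mem_right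
    have h2 := congrArg Subtype.val a.2
    change kleinSub a.1.1.1 a.1.1.2 a.1.2.1 a.1.2.2.1 a.1.2.2.2.2.2.2 = V at h2
    rwa [h2] at this
  · obtain ⟨⟨⟨u, v⟩, hc⟩, ha⟩ := a
    refine ⟨?_, ?_, ?_⟩
    · intro h0
      exact hc.2.2.1 (congrArg Subtype.val h0)
    · intro h0
      exact hc.2.2.2.1 (congrArg Subtype.val h0)
    · intro h0
      exact hc.2.2.2.2.1 (congrArg Subtype.val h0)
  · obtain ⟨⟨⟨s, hs⟩, ⟨t, ht⟩⟩, h1, h2, h3⟩ := b
    refine ⟨hsq s hs, hsq t ht, ?_, ?_, ?_, hcomm s hs t ht⟩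
    · intro h0
      exact h1 (Subtype.ext h0)
    · intro h0
      exact h2 (Subtype.ext h0)
    · intro h0
      exact h3 (Subtype.ext h0)
  · obtain ⟨⟨⟨s, hs⟩, ⟨t, ht⟩⟩, h1, h2, h3⟩ := b
    apply Subtype.ext
    change kleinSub s t (hsq s hs) (hsq t ht) (hcomm s hs t ht) = V
    have hle : kleinSub s t (hsq s hs) (hsq t ht) (hcomm s hs t ht) ≤ V := by
      intro x hx
      rcases mem_kleinSub.1 hx with h4 | h4 | h4 | h4
      · rw [h4]; exact one_mem _
      · rw [h4]; exact hs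
      · rw [h4]; exact ht
      · rw [h4]; exact mul_mem hs ht
    have hc4 : Nat.card (kleinSub s t (hsq s hs) (hsq t ht) (hcomm s hs t ht)) = 4 := by
      have hci : CommInv s t := by
        refine ⟨hsq s hs, hsq t ht, ?_, ?_, ?_, hcomm s hs t ht⟩
        · intro h0
          exact h1 (Subtype.ext h0)
        · intro h0
          exact h2 (Subtype.ext h0)
        · intro h0
          exact h3 (Subtype.ext h0)
      exact card_kleinSub hci
    apply Subgroup.eq_of_le_of_card_ge hle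
    rw [hV4, hc4]
  · rintro ⟨⟨⟨u, v⟩, hc⟩, ha⟩
    rfl
  · rintro ⟨⟨⟨s, hs⟩, ⟨t, ht⟩⟩, h1, h2, h3⟩
    rfl

end Cfsg.Agent.Lib.Classical
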