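import Mathlib
import Cfsg.Agent.Lib.Classical.InvolEvenSp
import Cfsg.Agent.Lib.Classical.SympFrames
import Cfsg.Agent.Lib.Classical.KleinCount

/-! Centralizers of involutions in characteristic two by counting isotropic tuples. -/

set_option autoImplicit false
set_option linter.unusedSimpArgs false
set_option linter.unusedVariables false
set_option linter.unusedSectionVars false
set_option linter.style.haveILetI false

namespace Cfsg.Agent.Lib.Classical.InvolEven

open Module

universe v

section fiber

variable {F : Type*} [Field F] [CharP F 2] {V : Type v} [AddCommGroup V] [Module F V] [FiniteDimensional F V]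
  {B : LinearMap.BilinForm F V} {T : V →ₗ[F] V} {L : Type} [Fintype L] [DecidableEq L] {σ : L → L}

/-- The Gram matrix attached to an involution of the index set. -/
def gramOf (F : Type*) [Field F] {L : Type} [DecidableEq L] (σ : L → L) : Matrix L L F := fun i j => if σ i = j then 1 else 0

omit [CharP F 2] in
theorem gramOf_sq (hσ : ∀ l, σ (σ l) = l) : gramOf F σ * gramOf F σ = 1 := by
  ext i j
  rw [Matrix.mul_apply, Matrix.one_apply]
  simp only [gramOf]
  rw [Finset.sum_eq_single (σ i)]
  · rw [if_pos rfl, one_mul, hσ]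
  · intro b _ hb
    rw [if_neg (fun h => hb h.symm), zero_mul]
  · intro h
    exact absurd (Finset.mem_univ _) h

/-- Independent isotropic tuples giving a fixed map. -/
def Fib (B : LinearMap.BilinForm F V) (σ : L → L) (T : V →ₗ[F] V) : Type v :=
  {w : L → V // LinearIndependent F w ∧ (∀ i j, B (w i) (w j) = 0) ∧ mkT B σ w = T}

theorem card_fib (hS : ∀ x y, B x y = B y x) (hnd : B.Nondegenerate) (hT : ∀ x, T (T x) = x) (hB : ∀ x y, B (T x) (T y) = B x y) (hσ : ∀ l, σ (σ l) = l)
    {U : Submodule F V} (χ : LinearMap.BilinForm F U) (hU : IsCompl U (LinearMap.ker (nn T))) (hχ : ∀ a b : U, χ a b = B (nn T a) b)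
    (hcard : Fintype.card L = finrank F U) :
    Nat.card (Fib B σ T) = Nat.card {u : L → U // ∀ i j, χ (u i) (u j) = gramOf F σ i j} := by
  symm
  have hE := gramOf_sq (F := F) hσ
  have hli' : ∀ u : {u : L → U // ∀ i j, χ (u i) (u j) = gramOf F σ i j}, LinearIndependent F (fun l => nn T (u.1 l : V)) := by
    intro u
    refine li_of_gram (B := B) (u := fun l => (u.1 l : V)) hE (fun i j => ?_)
    rw [← hχ]
    exact u.2 i j
  have hmk : ∀ u : {u : L → U // ∀ i j, χ (u i) (u j) = gramOf F σ i j}, mkT B σ (fun l => nn T (u.1 l : V)) = T := by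
    intro u
    apply LinearMap.ext
    intro x
    have hfr := frame_of_family hE χ hU hχ u.1 u.2 hcard
    have h1 : nn T x ∈ Submodule.span F (Set.range (fun i => nn T (u.1 i : V))) := hfr.span ⟨x, rfl⟩
    obtain ⟨c, hc⟩ := (Submodule.mem_span_range_iff_exists_fun F).1 h1
    have h2 : ∀ j, c (σ j) = B (nn T (u.1 j : V)) x := by
      intro j
      have h3 : B (nn T x) (u.1 j : V) = c (σ j) := by
        rw [← hc]
        simp only [map_sum, map_smul, LinearMap.sum_apply, LinearMap.smul_apply, smul_eq_mul, hfr.gram]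
        rw [Finset.sum_eq_single (σ j)]
        · simp [gramOf, hσ]
        · intro b _ hb
          have : σ b ≠ j := fun h => hb (by rw [← h, hσ])
          simp [gramOf, this]
        · intro h
          exact absurd (Finset.mem_univ _) h
      rw [← h3, nn_left hT hB, hS]
    have h4 : nn (mkT B σ (fun l => nn T (u.1 l : V))) x = nn T x := by
      rw [mkT_nn, ← hc]
      refine Finset.sum_congr rfl (fun l _ => ?_)
      rw [← h2, hσ]
    rw [nn_apply', nn_apply', sub_left_inj] at h4
    exact h4
  let f : {u : L → U // ∀ i j, χ (u i) (u j) = gramOf F σ i j} → Fib B σ T := fun u =>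
    ⟨fun l => nn T (u.1 l : V), hli' u, fun i j => bil_range hT hB _ _, hmk u⟩
  apply Nat.card_eq_of_bijective f
  constructor
  · intro u u' h
    apply Subtype.ext
    funext l
    apply Subtype.ext
    have h1 : nn T (u.1 l : V) = nn T (u'.1 l : V) := congrFun (congrArg Subtype.val h) l
    have h2 : (u.1 l : V) - (u'.1 l : V) ∈ U ⊓ LinearMap.ker (nn T) := by
      refine ⟨Submodule.sub_mem _ (u.1 l).2 (u'.1 l).2, ?_⟩
      change nn T _ = 0
      rw [map_sub, h1, sub_self]
    rw [hU.inf_eq_bot, Submodule.mem_bot, sub_eq_zero] at h2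
    exact h2
  · rintro ⟨w, hli, hti, hw⟩
    have hran : LinearMap.range (nn T) = Submodule.span F (Set.range w) := by
      apply Submodule.eq_of_le_of_finrank_eq
      · rintro _ ⟨x, rfl⟩
        rw [← hw, mkT_nn]
        exact Submodule.sum_mem _ (fun l _ => Submodule.smul_mem _ _ (Submodule.subset_span ⟨l, rfl⟩))
      · rw [finrank_span_eq_card hli, ← hw]
        exact mkT_rank hnd hσ hli
    have hex : ∀ l, ∃ a : U, nn T (a : V) = w l := by
      intro l
      have h1 : w l ∈ LinearMap.range (nn T) := by
        rw [hran]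
        exact Submodule.subset_span ⟨l, rfl⟩
      obtain ⟨x, hx⟩ := h1
      have : x ∈ U ⊔ LinearMap.ker (nn T) := by
        rw [hU.sup_eq_top]
        exact Submodule.mem_top
      obtain ⟨a, ha, k, hk, rfl⟩ := Submodule.mem_sup.1 this
      refine ⟨⟨a, ha⟩, ?_⟩
      rw [← hx, map_add, LinearMap.mem_ker.1 hk, add_zero]
    choose u hu using hex
    have hgram : ∀ i j, χ (u i) (u j) = gramOf F σ i j := by
      intro i j
      rw [hχ, hu]
      have h1 : nn (mkT B σ w) (u j : V) = w j := by
        rw [hw, hu]
      rw [mkT_nn] at h1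
      have h2 := Fintype.linearIndependent_iff.1 hli (fun l => B (w (σ l)) (u j : V) - if l = j then 1 else 0) (by
        simp only [sub_smul, Finset.sum_sub_distrib]
        rw [h1]
        simp)
      have h3 := h2 (σ i)
      rw [hσ, sub_eq_zero] at h3
      rw [h3]
      simp [gramOf]
    refine ⟨⟨u, hgram⟩, ?_⟩
    apply Subtype.ext
    funext l
    exact hu l

/-- Alternating type in terms of the complement. -/
theorem compl_alt_iff (hS : ∀ x y, B x y = B y x) (hT : ∀ x, T (T x) = x) (hB : ∀ x y, B (T x) (T y) = B x y)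
    {U : Submodule F V} (χ : LinearMap.BilinForm F U) (hU : IsCompl U (LinearMap.ker (nn T))) (hχ : ∀ a b : U, χ a b = B (nn T a) b) :
    (∀ a : U, χ a a = 0) ↔ ∀ x, B (nn T x) x = 0 := by
  constructor
  · intro h x
    have : x ∈ U ⊔ LinearMap.ker (nn T) := by
      rw [hU.sup_eq_top]
      exact Submodule.mem_top
    obtain ⟨a, ha, k, hk, rfl⟩ := Submodule.mem_sup.1 this
    have e : nn T (a + k) = nn T a := by rw [map_add, LinearMap.mem_ker.1 hk, add_zero]
    rw [e, map_add, nn_left hT hB a k, LinearMap.mem_ker.1 hk, map_zero, add_zero, ← h ⟨a, ha⟩, hχ]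
  · intro h a
    rw [hχ]
    exact h a

end fiber

section frames

variable {F : Type*} [Field F] [CharP F 2] [Fintype F] {U : Type v} [AddCommGroup U] [Module F U] [FiniteDimensional F U]

/-- The frames of an alternating form correspond to the symplectic group. -/
theorem card_frames_alt (χ : LinearMap.BilinForm F U) (hA : ∀ x, χ x x = 0) (hnd : χ.Nondegenerate) (k : ℕ) (hfin : finrank F U = 2 * k) :
    Nat.card {u : Fin k ⊕ Fin k → U // ∀ i j, χ (u i) (u j) = gramOf F Sum.swap i j} = Nat.card (Matrix.symplecticGroup (Fin k) F) := by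
  classical
  obtain ⟨k', u0, hk', h1, h2, h3⟩ := exists_alt_family χ hA hnd
  obtain rfl : k' = k := by omega
  have h2' : (2 : F) = 0 := two_eq_zero'
  have hSym : ∀ x y, χ x y = χ y x := by
    intro x y
    have := LinearMap.IsAlt.neg (B := χ) hA x y
    linear_combination (χ x y) * h2' + this
  have hE : ∀ i j, χ (u0 i) (u0 j) = gramOf F Sum.swap i j := by
    rintro (i | i) (j | j)
    · rw [h2]; simp [gramOf]
    · rw [h1]; simp [gramOf, eq_comm]
    · rw [hSym, h1]; simp [gramOf, eq_comm]
    · rw [h3]; simp [gramOf]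
  have hJ : Matrix.J (Fin k') F = gramOf F Sum.swap := by
    have hneg : (-1 : F) = 1 := by linear_combination (-1 : F) * h2'
    ext i j
    rcases i with i | i <;> rcases j with j | j <;> simp [Matrix.J, gramOf, Matrix.one_apply, eq_comm]
    split_ifs <;> simp [hneg]
  have hli : LinearIndependent F u0 := li_of_gram (gramOf_sq (F := F) (σ := Sum.swap) (fun l => by simp)) hE
  have hbasis := hli.span_eq_top_of_card_eq_finrank' (by rw [hfin]; simp; omega)
  let b := Module.Basis.mk hli hbasis.ge
  have hb : ∀ i, b i = u0 i := fun i => by simp [b]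
  have hgr : ∀ (A : Matrix (Fin k' ⊕ Fin k') (Fin k' ⊕ Fin k') F) (l l' : Fin k' ⊕ Fin k'), χ (∑ i, A i l • u0 i) (∑ j, A j l' • u0 j) = (A.transpose * Matrix.J (Fin k') F * A) l l' := by
    intro A l l'
    rw [hJ, Matrix.mul_apply]
    simp only [map_sum, map_smul, LinearMap.sum_apply, LinearMap.smul_apply, smul_eq_mul, hE, Matrix.mul_apply, Matrix.transpose_apply, Finset.sum_mul, Finset.mul_sum]
    refine Finset.sum_congr rfl (fun i _ => Finset.sum_congr rfl (fun j _ => ?_))
    ring
  have hmem : ∀ A : Matrix (Fin k' ⊕ Fin k') (Fin k' ⊕ Fin k') F, A ∈ Matrix.symplecticGroup (Fin k') F ↔ A.transpose * Matrix.J (Fin k') F * A = Matrix.J (Fin k') F := by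
    intro A
    exact SymplecticGroup.mem_iff'
  symm
  let f : Matrix.symplecticGroup (Fin k') F → {u : Fin k' ⊕ Fin k' → U // ∀ i j, χ (u i) (u j) = gramOf F Sum.swap i j} := fun A =>
    ⟨fun l => ∑ i, A.1 i l • u0 i, fun l l' => by
      rw [hgr, (hmem A.1).1 A.2, hJ]⟩
  apply Nat.card_eq_of_bijective f
  constructor
  · intro A A' h
    apply Subtype.ext
    ext i l
    have h1 : ∑ i, A.1 i l • u0 i = ∑ i, A'.1 i l • u0 i := congrFun (congrArg Subtype.val h) l
    have h5 := Fintype.linearIndependent_iff.1 hli (fun i => A.1 i l - A'.1 i l) (by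
      simp only [sub_smul, Finset.sum_sub_distrib]
      rw [h1, sub_self])
    exact sub_eq_zero.1 (h5 i)
  · rintro ⟨u, hu⟩
    let A : Matrix (Fin k' ⊕ Fin k') (Fin k' ⊕ Fin k') F := Matrix.of (fun i l => b.repr (u l) i)
    have hA' : ∀ l, ∑ i, A i l • u0 i = u l := by
      intro l
      conv_rhs => rw [← b.sum_repr (u l)]
      refine Finset.sum_congr rfl (fun i _ => ?_)
      rw [hb]
      rfl
    have hAm : A ∈ Matrix.symplecticGroup (Fin k') F := by
      rw [hmem]
      ext l l'
      rw [← hgr, hA', hA', hu, hJ]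
    refine ⟨⟨A, hAm⟩, ?_⟩
    apply Subtype.ext
    funext l
    exact hA' l

/-- The recursion for the number of orthonormal tuples. -/
def Aq (q : ℕ) : ℕ → ℕ
  | 0 => 1
  | n + 1 => (if n = 0 then 1 else if Even n then q ^ n - 1 else q ^ n) * Aq q n

omit [CharP F 2] [Fintype F] [FiniteDimensional F U] in
theorem card_affine_eq [Fintype F] [FiniteDimensional F U] {q n : ℕ} (hF : Fintype.card F = q) (l : U →ₗ[F] F) (hl : l ≠ 0) (hn : finrank F U = n + 1) :
    Nat.card {e : U // l e = 1} = q ^ n := by
  classical
  obtain ⟨x0, hx0⟩ : ∃ x0, l x0 = 1 := by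
    obtain ⟨y, hy⟩ : ∃ y, l y ≠ 0 := by
      by_contra hcon
      push Not at hcon
      exact hl (LinearMap.ext hcon)
    refine ⟨(l y)⁻¹ • y, ?_⟩
    rw [map_smul, smul_eq_mul, inv_mul_cancel₀ hy]
  have e : {e : U // l e = 1} ≃ LinearMap.ker l :=
    { toFun := fun y => ⟨y.1 - x0, by rw [LinearMap.mem_ker, map_sub, y.2, hx0, sub_self]⟩
      invFun := fun y => ⟨y.1 + x0, by rw [map_add, LinearMap.mem_ker.1 y.2, hx0, zero_add]⟩
      left_inv := fun y => by simp
      right_inv := fun y => by simp }
  rw [Nat.card_congr e]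
  have h1 := LinearMap.finrank_range_add_finrank_ker l
  have h2 : LinearMap.range l = ⊤ := by
    rw [LinearMap.range_eq_top]
    intro c
    exact ⟨c • x0, by rw [map_smul, hx0, smul_eq_mul, mul_one]⟩
  rw [h2, finrank_top, finrank_self, hn] at h1
  have : Finite (LinearMap.ker l) := Module.finite_of_finite F
  haveI : Fintype (LinearMap.ker l) := Fintype.ofFinite _
  rw [Nat.card_eq_fintype_card (α := LinearMap.ker l), Module.card_eq_pow_finrank (K := F), hF]
  congr 1
  omega

/-- The number of orthonormal tuples. -/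
theorem card_orthonormal {q : ℕ} (hF : Fintype.card F = q) : ∀ (n : ℕ) (W : Type v) [AddCommGroup W] [Module F W] [FiniteDimensional F W] (χ : LinearMap.BilinForm F W),
    (∀ x y, χ x y = χ y x) → χ.Nondegenerate → finrank F W = n → (∃ w, χ w w ≠ 0) →
    Nat.card {u : Fin n → W // ∀ i j, χ (u i) (u j) = if i = j then 1 else 0} = Aq q n := by
  classical
  intro n
  induction n with
  | zero =>
    intro W _ _ _ χ _ _ _ _
    change _ = 1
    rw [Nat.card_eq_one_iff_unique]
    refine ⟨⟨?_⟩, ⟨⟨fun i => i.elim0, fun i => i.elim0⟩⟩⟩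
    rintro ⟨a, ha⟩ ⟨b, hb⟩
    apply Subtype.ext
    funext i
    exact i.elim0
  | succ n ih =>
    intro W _ _ _ χ hS hnd hn hw
    have h2 : (2 : F) = 0 := two_eq_zero'
    have hrefl : χ.IsRefl := fun x y h => by rw [hS, h]
    have : Finite W := Module.finite_of_finite F
    obtain ⟨u0, hu0⟩ := exists_orthonormal (n + 1) W χ hS hnd hn hw
    have hli : LinearIndependent F u0 := li_of_gram (E := (1 : Matrix (Fin (n + 1)) (Fin (n + 1)) F)) (Matrix.one_mul 1) (fun i j => by rw [hu0, Matrix.one_apply])
    have hsp := hli.span_eq_top_of_card_eq_finrank' (by rw [hn]; simp)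
    set c : W := ∑ i, u0 i with hc
    have hadd : ∀ x y : W, χ (x + y) (x + y) = χ x x + χ y y := by
      intro x y
      simp only [map_add, LinearMap.add_apply]
      rw [hS y x]
      linear_combination (χ x y) * h2
    have hsq : ∀ x, χ x x = χ x c * χ x c := by
      intro x
      have h3 : x ∈ Submodule.span F (Set.range u0) := by
        rw [hsp]
        exact Submodule.mem_top
      obtain ⟨a, rfl⟩ := (Submodule.mem_span_range_iff_exists_fun F).1 h3
      have h4 : χ (∑ i, a i • u0 i) c = ∑ i, a i := by
        rw [hc]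
        simp only [map_sum, map_smul, LinearMap.sum_apply, LinearMap.smul_apply, smul_eq_mul, hu0]
        refine Finset.sum_congr rfl (fun i _ => ?_)
        rw [Finset.sum_eq_single i]
        · simp
        · intro b _ hb
          simp [hb, hb.symm]
        · intro h
          exact absurd (Finset.mem_univ _) h
      have h5 : χ (∑ i, a i • u0 i) (∑ i, a i • u0 i) = ∑ i, a i * a i := by
        simp only [map_sum, map_smul, LinearMap.sum_apply, LinearMap.smul_apply, smul_eq_mul, hu0]
        refine Finset.sum_congr rfl (fun i _ => ?_)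
        rw [Finset.sum_eq_single i]
        · simp
        · intro b _ hb
          simp [hb, hb.symm]
        · intro h
          exact absurd (Finset.mem_univ _) h
      rw [h4, h5, ← pow_two, sum_pow_char 2]
      exact Finset.sum_congr rfl (fun i _ => pow_two _ |>.symm)
    have hc0 : c ≠ 0 := by
      intro h
      have h3 := hsq (u0 0)
      rw [h, map_zero, mul_zero, hu0] at h3
      simp at h3
    have hcc : χ c c = ((n + 1 : ℕ) : F) := by
      rw [hc]
      simp only [map_sum, LinearMap.sum_apply, hu0]
      simp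
    -- unit vectors
    have hunit : ∀ e, χ e e = 1 ↔ χ e c = 1 := by
      intro e
      rw [hsq]
      constructor
      · intro h
        have h3 : (χ e c - 1) * (χ e c - 1) = 0 := by
          linear_combination h + (1 - χ e c) * h2
        exact sub_eq_zero.1 (mul_self_eq_zero.1 h3)
      · intro h
        rw [h, mul_one]
    let ℓ : W →ₗ[F] F := χ.flip c
    have hℓ : ∀ x, ℓ x = χ x c := fun x => rfl
    have hℓ0 : ℓ ≠ 0 := by
      intro h
      apply hc0
      apply hnd.2
      intro x
      have := LinearMap.congr_fun h x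
      simpa [hℓ] using this
    have hUn : Nat.card {e : W // χ e e = 1} = q ^ n := by
      rw [← card_affine_eq hF ℓ hℓ0 hn]
      apply Nat.card_congr
      exact Equiv.subtypeEquivRight (fun e => hunit e)
    -- the split
    let On : {e : W // χ e e = 1} → Type _ := fun e => {u : Fin n → ↥(χ.orthogonal (F ∙ e.1)) // ∀ i j, (χ.restrict (χ.orthogonal (F ∙ e.1))) (u i) (u j) = if i = j then 1 else 0}
    have hmem : ∀ {e x : W}, x ∈ χ.orthogonal (F ∙ e) ↔ χ e x = 0 := by
      intro e x
      constructor
      · intro h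
        exact h e (Submodule.mem_span_singleton_self _)
      · intro h z hz
        obtain ⟨a, rfl⟩ := Submodule.mem_span_singleton.1 hz
        change χ (a • e) x = 0
        rw [map_smul, LinearMap.smul_apply, h, smul_zero]
    let split : {u : Fin (n + 1) → W // ∀ i j, χ (u i) (u j) = if i = j then 1 else 0} ≃ Σ e : {e : W // χ e e = 1}, On e :=
      { toFun := fun u => ⟨⟨u.1 0, by rw [u.2]; simp⟩, ⟨fun j => ⟨u.1 j.succ, hmem.2 (by rw [u.2]; simp [(Fin.succ_ne_zero j).symm])⟩, fun i j => by
            change χ (u.1 i.succ) (u.1 j.succ) = _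
            rw [u.2]
            simp⟩⟩
        invFun := fun p => ⟨Fin.cons p.1.1 (fun j => (p.2.1 j : W)), by
          intro i j
          refine Fin.cases ?_ (fun i' => ?_) i
          · refine Fin.cases ?_ (fun j' => ?_) j
            · simpa using p.1.2
            · simp only [Fin.cons_zero, Fin.cons_succ]
              rw [hmem.1 (p.2.1 j').2]
              simp [(Fin.succ_ne_zero j').symm]
          · refine Fin.cases ?_ (fun j' => ?_) j
            · simp only [Fin.cons_zero, Fin.cons_succ]
              rw [hS, hmem.1 (p.2.1 i').2]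
              simp [Fin.succ_ne_zero i']
            · simp only [Fin.cons_succ, Fin.succ_inj]
              exact p.2.2 i' j'⟩
        left_inv := fun u => by
          apply Subtype.ext
          exact Fin.cons_self_tail u.1
        right_inv := by
          rintro ⟨⟨e, he⟩, ⟨u, hu⟩⟩
          rfl }
    have hfinOn : ∀ e, Finite (On e) := fun e => by
      have : Finite ↥(χ.orthogonal (F ∙ e.1)) := Module.finite_of_finite F
      exact Subtype.finite
    rw [Nat.card_congr split]
    haveI : Fintype {e : W // χ e e = 1} := Fintype.ofFinite _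
    rw [Nat.card_sigma]
    -- the perpendicular
    have hperp : ∀ e : {e : W // χ e e = 1}, finrank F (χ.orthogonal (F ∙ e.1)) = n := by
      intro e
      have he0 : e.1 ≠ 0 := fun h => by
        have := e.2
        rw [h] at this
        simp at this
      rw [LinearMap.BilinForm.finrank_orthogonal hnd, finrank_span_singleton he0, hn]
      rfl
    have hnd' : ∀ e : {e : W // χ e e = 1}, (χ.restrict (χ.orthogonal (F ∙ e.1))).Nondegenerate := by
      intro e
      exact LinearMap.BilinForm.restrict_nondegenerate_orthogonal_spanSingleton χ hnd hrefl (by rw [e.2]; exact one_ne_zero)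
    -- non-alternating perpendicular
    have hgood : ∀ e : {e : W // χ e e = 1}, (∃ x : ↥(χ.orthogonal (F ∙ e.1)), (χ.restrict (χ.orthogonal (F ∙ e.1))) x x ≠ 0) → Nat.card (On e) = Aq q n := by
      intro e hx
      exact ih _ (χ.restrict (χ.orthogonal (F ∙ e.1))) (fun a b => hS _ _) (hnd' e) (hperp e) hx
    -- the only bad vector
    have hbad : ∀ e : {e : W // χ e e = 1}, (¬ ∃ x : ↥(χ.orthogonal (F ∙ e.1)), (χ.restrict (χ.orthogonal (F ∙ e.1))) x x ≠ 0) → e.1 = c := by
      rintro ⟨e, he⟩ hx
      push Not at hx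
      have hx' : ∀ x, χ e x = 0 → χ x c = 0 := by
        intro x hxe
        have := hx ⟨x, hmem.2 hxe⟩
        change χ x x = 0 at this
        rw [hsq] at this
        exact mul_self_eq_zero.1 this
      have hec : χ e c = 1 := (hunit e).1 he
      rw [← sub_eq_zero]
      apply hnd.2
      intro v
      have h3 : χ e (v - χ e v • e) = 0 := by
        rw [map_sub, map_smul, he, smul_eq_mul, mul_one, sub_self]
      have h4 := hx' _ h3
      rw [map_sub, LinearMap.sub_apply, map_smul, LinearMap.smul_apply, smul_eq_mul, hec, mul_one, sub_eq_zero] at h4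
      rw [map_sub, h4, hS v e, sub_self]
    have hcalt : ∀ e : {e : W // χ e e = 1}, e.1 = c → ∀ x : ↥(χ.orthogonal (F ∙ e.1)), (χ.restrict (χ.orthogonal (F ∙ e.1))) x x = 0 := by
      rintro ⟨e, he⟩ rfl x
      change χ x x = 0
      rw [hsq, hS, hmem.1 x.2, mul_zero]
    by_cases hn0 : n = 0
    · subst hn0
      have hone : ∀ e : {e : W // χ e e = 1}, Nat.card (On e) = 1 := by
        intro e
        rw [Nat.card_eq_one_iff_unique]
        refine ⟨⟨?_⟩, ⟨⟨fun i => i.elim0, fun i => i.elim0⟩⟩⟩
        rintro ⟨a, ha⟩ ⟨b, hb⟩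
        apply Subtype.ext
        funext i
        exact i.elim0
      simp only [hone]
      rw [Finset.sum_const, Finset.card_univ, ← Nat.card_eq_fintype_card, hUn]
      simp [Aq]
    · have hzero : ∀ e : {e : W // χ e e = 1}, e.1 = c → Nat.card (On e) = 0 := by
        intro e he
        haveI : IsEmpty (On e) := by
          constructor
          rintro ⟨u, hu⟩
          have hn' : 0 < n := Nat.pos_of_ne_zero hn0
          have h3 := hu ⟨0, hn'⟩ ⟨0, hn'⟩
          rw [hcalt e he] at h3
          simp at h3
        simp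
      have hval : ∀ e : {e : W // χ e e = 1}, Nat.card (On e) = if e.1 = c then 0 else Aq q n := by
        intro e
        by_cases hec : e.1 = c
        · rw [if_pos hec, hzero e hec]
        · rw [if_neg hec]
          apply hgood
          by_contra hcon
          exact hec (hbad e hcon)
      simp only [hval]
      simp only [Aq, if_neg hn0]
      by_cases hev : Even n
      · rw [if_pos hev]
        have hcunit : χ c c = 1 := by
          rw [hcc]
          obtain ⟨r, hr⟩ := hev
          have : ((n + 1 : ℕ) : F) = (2 : F) * r + 1 := by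
            rw [hr]
            push_cast
            ring
          rw [this, h2, zero_mul, zero_add]
        rw [Finset.sum_ite, Finset.sum_const_zero, zero_add, Finset.sum_const, smul_eq_mul]
        congr 1
        have h3 : (Finset.univ.filter (fun e : {e : W // χ e e = 1} => ¬ e.1 = c)) = Finset.univ.erase ⟨c, hcunit⟩ := by
          ext e
          simp [Subtype.ext_iff]
        rw [h3, Finset.card_erase_of_mem (Finset.mem_univ _), Finset.card_univ, ← Nat.card_eq_fintype_card, hUn]
      · rw [if_neg hev]
        have hcn : χ c c = 0 := by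
          rw [hcc]
          obtain ⟨r, hr⟩ := Nat.not_even_iff_odd.1 hev
          have : ((n + 1 : ℕ) : F) = (2 : F) * (r + 1) := by
            rw [hr]
            push_cast
            ring
          rw [this, h2, zero_mul]
        have hne : ∀ e : {e : W // χ e e = 1}, e.1 ≠ c := by
          rintro ⟨e, he⟩ rfl
          rw [hcn] at he
          exact zero_ne_one he
        simp only [hne, if_false]
        rw [Finset.sum_const, smul_eq_mul, Finset.card_univ, ← Nat.card_eq_fintype_card, hUn]

end frames

section arith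

theorem Aq_odd (q k : ℕ) : Aq q (2 * k + 1) = q ^ (k ^ 2) * ∏ i ∈ Finset.range k, (q ^ (2 * (i + 1)) - 1) := by
  induction k with
  | zero => simp [Aq]
  | succ k ih =>
    have h1 : Aq q (2 * (k + 1) + 1) = (q ^ (2 * (k + 1)) - 1) * Aq q (2 * k + 1 + 1) := by
      rw [show 2 * (k + 1) + 1 = (2 * k + 1 + 1) + 1 by ring, Aq, if_neg (by omega), if_pos (by exact ⟨k + 1, by ring⟩)]
      rw [show 2 * k + 1 + 1 = 2 * (k + 1) by ring]
    have h2 : Aq q (2 * k + 1 + 1) = q ^ (2 * k + 1) * Aq q (2 * k + 1) := by
      rw [Aq, if_neg (by omega), if_neg (by simp [Nat.even_add_one])]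
    rw [h1, h2, ih, Finset.prod_range_succ]
    have e : (k + 1) ^ 2 = 2 * k + 1 + k ^ 2 := by ring
    rw [e, pow_add]
    ring

theorem Aq_even (q k : ℕ) : Aq q (2 * k + 2) = q ^ (2 * k + 1) * (q ^ (k ^ 2) * ∏ i ∈ Finset.range k, (q ^ (2 * (i + 1)) - 1)) := by
  have h2 : Aq q (2 * k + 1 + 1) = q ^ (2 * k + 1) * Aq q (2 * k + 1) := by
    rw [Aq, if_neg (by omega), if_neg (by simp [Nat.even_add_one])]
  rw [show 2 * k + 2 = 2 * k + 1 + 1 by ring, h2, Aq_odd]

end arith

section cent

/-- Orbit counting for a class parametrised by tuples. -/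
theorem cent_mul_card {G X : Type*} [Group G] [Finite G] [Finite X] (Φ : X → G) (t : G) (f : ℕ) (hconj : ∀ x, IsConj t (Φ x))
    (hf : ∀ g, IsConj t g → Nat.card {x // Φ x = g} = f) :
    Nat.card (Subgroup.centralizer ({t} : Set G)) * Nat.card X = Nat.card G * f := by
  classical
  let C := {g : G // IsConj t g}
  have h1 : Nat.card X = Nat.card C * f := by
    apply Cfsg.Agent.Lib.Classical.card_eq_mul_of_fibers (fun x => (⟨Φ x, hconj x⟩ : C)) f
    rintro ⟨g, hg⟩
    rw [← hf g hg]
    apply Nat.card_congr
    exact Equiv.subtypeEquivRight (fun x => by simp [Subtype.ext_iff])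
  have h2 : Nat.card G = Nat.card C * Nat.card (Subgroup.centralizer ({t} : Set G)) := by
    apply Cfsg.Agent.Lib.Classical.card_eq_mul_of_fibers (fun g => (⟨g * t * g⁻¹, isConj_iff.2 ⟨g, rfl⟩⟩ : C))
    rintro ⟨b, hb⟩
    obtain ⟨g0, hg0⟩ := isConj_iff.1 hb
    rw [← Cfsg.Agent.Lib.Classical.conj_fiber_card t b g0 hg0]
    apply Nat.card_congr
    exact Equiv.subtypeEquivRight (fun x => by simp [Subtype.ext_iff])
  rw [h1, h2]
  ring

end cent

end Cfsg.Agent.Lib.Classical.InvolEven
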