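import Mathlib
import Cfsg.Agent.Lib.Classical.InvolCent

/-! Centralizers of involutions of the symplectic group in characteristic two. -/

set_option autoImplicit false
set_option linter.unusedSimpArgs false
set_option linter.unusedVariables false
set_option linter.unusedSectionVars false
set_option linter.style.haveILetI false

namespace Cfsg.Agent.Lib.Classical.InvolEven

open Matrix Module Cfsg.Agent.Lib.Classical Cfsg.Agent.Lib.KnownSimple

universe v

section TI

variable {F : Type*} [Field F] {V : Type v} [AddCommGroup V] [Module F V]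

/-- Independent isotropic tuples indexed by `L`. -/
def TI (B : LinearMap.BilinForm F V) (L : Type) : Type v := {w : L → V // LinearIndependent F w ∧ ∀ i j, B (w i) (w j) = 0}

theorem card_TI (B : LinearMap.BilinForm F V) (L : Type) [Fintype L] :
    Nat.card (TI B L) = Nat.card (FR (σ := RingHom.id F) B (Fintype.card L)) := by
  classical
  let e := Fintype.equivFin L
  apply Nat.card_congr
  exact
    { toFun := fun w => ⟨fun i => w.1 (e.symm i), (linearIndependent_equiv e.symm).2 w.2.1, fun i j => w.2.2 _ _⟩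
      invFun := fun w => ⟨fun i => w.1 (e i), (linearIndependent_equiv e).2 w.2.1, fun i j => w.2.2 _ _⟩
      left_inv := fun w => by
        apply Subtype.ext
        funext i
        change w.1 (e.symm (e i)) = w.1 i
        rw [e.symm_apply_apply]
      right_inv := fun w => by
        apply Subtype.ext
        funext i
        change w.1 (e (e.symm i)) = w.1 i
        rw [e.apply_symm_apply] }

end TI

variable {F : Type*} [Field F] [CharP F 2] {m : ℕ}

local notation "VV" => (Fin m ⊕ Fin m → F)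
local notation "Sp" => Matrix.symplecticGroup (Fin m) F
local notation "BB" => sympBil m F

section phi

variable {L : Type} [Fintype L] [DecidableEq L] {σ : L → L}

/-- The symplectic involution of a tuple. -/
noncomputable def phiS (hσ : ∀ l, σ (σ l) = l) (w : TI BB L) : Sp :=
  spOfLin (mkT BB σ w.1) (fun u v => mkT_polar sympBil_symm hσ w.2.2 u v)

theorem sL_phiS (hσ : ∀ l, σ (σ l) = l) (w : TI BB L) : sL (phiS hσ w) = mkT BB σ w.1 := by
  apply LinearMap.ext
  intro x
  exact spOfLin_mulVec _ _ _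

theorem sp_ext_sL {a b : Sp} (h : sL a = sL b) : a = b := by
  apply Subtype.ext
  apply mat_ext_mulVec
  intro x
  exact LinearMap.congr_fun h x

theorem phiS_sq (hσ : ∀ l, σ (σ l) = l) (w : TI BB L) : phiS hσ w * phiS hσ w = 1 := by
  apply Subtype.ext
  apply mat_ext_mulVec
  intro x
  change ((phiS hσ w).1 * (phiS hσ w).1) *ᵥ x = (1 : Matrix _ _ F) *ᵥ x
  have h1 : ∀ y, (phiS hσ w).1 *ᵥ y = mkT BB σ w.1 y := fun y => LinearMap.congr_fun (sL_phiS hσ w) y
  rw [← mulVec_mulVec, h1, h1, one_mulVec]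
  exact mkT_mkT w.2.2 x

theorem phiS_rank (hσ : ∀ l, σ (σ l) = l) (w : TI BB L) : ((phiS hσ w).1 - 1).rank = Fintype.card L := by
  rw [← finrank_nnS, sL_phiS]
  exact mkT_rank sympBil_nd hσ w.2.1

theorem phiS_type (hσ : ∀ l, σ (σ l) = l) (w : TI BB L) : IsATypeS (phiS hσ w) ↔ ∀ l, σ l ≠ l := by
  rw [IsATypeS, sL_phiS]
  exact mkT_type sympBil_nd sympBil_symm hσ w.2.1

end phi

/-- The centralizer from the frames. -/
theorem sp_cent [Fintype F] (t : Sp) (ht : t * t = 1) {L : Type} [Fintype L] [DecidableEq L] (σ : L → L) (hσ : ∀ l, σ (σ l) = l)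
    (hr : (t.1 - 1).rank = Fintype.card L) (hty : IsATypeS t ↔ ∀ l, σ l ≠ l) (f : ℕ)
    (hf : ∀ (U : Submodule F VV) (χ : LinearMap.BilinForm F U), (∀ a b, χ a b = χ b a) → χ.Nondegenerate → finrank F U = Fintype.card L →
      ((∀ a, χ a a = 0) ↔ ∀ l, σ l ≠ l) → Nat.card {u : L → U // ∀ i j, χ (u i) (u j) = gramOf F σ i j} = f) :
    Nat.card (Subgroup.centralizer ({t} : Set Sp)) * Nat.card (TI BB L) = Nat.card Sp * f := by
  classical
  haveI : Finite (TI BB L) := by
    unfold TI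
    infer_instance
  apply cent_mul_card (phiS hσ)
  · intro w
    exact isConj_of_invariants_S ht (phiS_sq hσ w) (hr.trans (phiS_rank hσ w).symm) (hty.trans (phiS_type hσ w).symm)
  · intro g hg
    obtain ⟨c, rfl⟩ := isConj_iff.1 hg
    set g := c * t * c⁻¹ with hg'
    have hgg : g * g = 1 := by
      rw [hg']
      calc c * t * c⁻¹ * (c * t * c⁻¹) = c * (t * t) * c⁻¹ := by group
        _ = 1 := by rw [ht]; group
    have hgr : (g.1 - 1).rank = Fintype.card L := by
      rw [← conj_rank_S hg, hr]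
    have hgty : IsATypeS g ↔ ∀ l, σ l ≠ l := by
      rw [← conj_type_S hg, hty]
    obtain ⟨U, χ, hU, hχ, hsym, hχnd, hfin⟩ := exists_compl_form (T := sL g) sympBil_symm sympBil_nd (sL_sL hgg) (sL_form g)
    rw [← hf U χ hsym hχnd (by rw [hfin, finrank_nnS, hgr]) ?_]
    · rw [← card_fib sympBil_symm sympBil_nd (sL_sL hgg) (sL_form g) hσ χ hU hχ (by rw [hfin, finrank_nnS, hgr])]
      apply Nat.card_congr
      exact
        { toFun := fun x => ⟨x.1.1, x.1.2.1, x.1.2.2, by rw [← sL_phiS hσ, x.2]⟩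
          invFun := fun x => ⟨⟨x.1, x.2.1, x.2.2.1⟩, sp_ext_sL ((sL_phiS hσ _).trans x.2.2.2)⟩
          left_inv := fun x => rfl
          right_inv := fun x => rfl }
    · rw [compl_alt_iff sympBil_symm (sL_sL hgg) (sL_form g) χ hU hχ]
      exact hgty

theorem sp_cent_closed [Fintype F] {q : ℕ} (hF : Fintype.card F = q) (t : Sp) (ht : t * t = 1) {L : Type} [Fintype L] [DecidableEq L] (σ : L → L) (hσ : ∀ l, σ (σ l) = l)
    (hr : (t.1 - 1).rank = Fintype.card L) (hty : IsATypeS t ↔ ∀ l, σ l ≠ l) (f : ℕ)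
    (hf : ∀ (U : Submodule F VV) (χ : LinearMap.BilinForm F U), (∀ a b, χ a b = χ b a) → χ.Nondegenerate → finrank F U = Fintype.card L →
      ((∀ a, χ a a = 0) ↔ ∀ l, σ l ≠ l) → Nat.card {u : L → U // ∀ i j, χ (u i) (u j) = gramOf F σ i j} = f) :
    Nat.card (Subgroup.centralizer ({t} : Set Sp)) * q ^ (Fintype.card L * (Fintype.card L - 1) / 2) =
      q ^ (m ^ 2) * (∏ i ∈ Finset.range (m - Fintype.card L), (q ^ (2 * (i + 1)) - 1)) * f := by
  have h1 := sp_cent t ht σ hσ hr hty f hf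
  have hs : Fintype.card L ≤ m := by
    rw [← hr]
    exact rank_le_S t ht
  have h2 := card_FR_alt hF (Fintype.card L) (m - Fintype.card L) VV BB (fun x => sympForm_self x) sympBil_nd (by
    rw [Module.finrank_fintype_fun_eq_card]
    simp
    omega)
  rw [card_TI, card_sp hF] at h1
  have hq : 2 ≤ q := hF ▸ two_le_card_field
  rw [show m - Fintype.card L + Fintype.card L = m by omega] at h2
  have hP : 0 < ∏ i ∈ Finset.range m, (q ^ (2 * (i + 1)) - 1) := prod_pos_aux hq m
  apply Nat.eq_of_mul_eq_mul_right hP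
  calc Nat.card (Subgroup.centralizer ({t} : Set Sp)) * q ^ (Fintype.card L * (Fintype.card L - 1) / 2) * ∏ i ∈ Finset.range m, (q ^ (2 * (i + 1)) - 1)
      = Nat.card (Subgroup.centralizer ({t} : Set Sp)) * (q ^ (Fintype.card L * (Fintype.card L - 1) / 2) * ∏ i ∈ Finset.range m, (q ^ (2 * (i + 1)) - 1)) := by ring
    _ = Nat.card (Subgroup.centralizer ({t} : Set Sp)) * Nat.card (FR (σ := RingHom.id F) BB (Fintype.card L)) * ∏ i ∈ Finset.range (m - Fintype.card L), (q ^ (2 * (i + 1)) - 1) := by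
        rw [← h2]
        ring
    _ = _ := by
        rw [h1]
        ring

/-- The frame count for a non-alternating involution. -/
theorem sp_cent_nonalt [Fintype F] {q : ℕ} (hF : Fintype.card F = q) (t : Sp) (ht : t * t = 1) {s : ℕ} (hs : 1 ≤ s) (hr : (t.1 - 1).rank = s) (hty : ¬ IsATypeS t) :
    Nat.card (Subgroup.centralizer ({t} : Set Sp)) * q ^ (s * (s - 1) / 2) =
      q ^ (m ^ 2) * (∏ i ∈ Finset.range (m - s), (q ^ (2 * (i + 1)) - 1)) * Aq q s := by
  have h := sp_cent_closed hF t ht (L := Fin s) id (fun _ => rfl) (by simpa using hr) (by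
    constructor
    · intro h
      exact absurd h hty
    · intro h
      exact absurd rfl (h ⟨0, hs⟩)) (Aq q s) (by
    intro U χ hsym hnd hfin ha
    have hna : ∃ a, χ a a ≠ 0 := by
      by_contra hcon
      push Not at hcon
      exact (ha.1 hcon) ⟨0, hs⟩ rfl
    rw [← card_orthonormal hF s U χ hsym hnd (by simpa using hfin) hna]
    apply Nat.card_congr
    apply Equiv.subtypeEquivRight
    intro u
    simp [gramOf])
  simpa using h

theorem sp_cent_alt [Fintype F] {q : ℕ} (hF : Fintype.card F = q) (t : Sp) (ht : t * t = 1) {k : ℕ} (hr : (t.1 - 1).rank = 2 * k) (hty : IsATypeS t) :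
    Nat.card (Subgroup.centralizer ({t} : Set Sp)) * q ^ (2 * k * (2 * k - 1) / 2) =
      q ^ (m ^ 2) * (∏ i ∈ Finset.range (m - 2 * k), (q ^ (2 * (i + 1)) - 1)) * (q ^ (k ^ 2) * ∏ i ∈ Finset.range k, (q ^ (2 * (i + 1)) - 1)) := by
  have hswap : ∀ l : Fin k ⊕ Fin k, Sum.swap l ≠ l := by
    rintro (l | l) <;> simp
  have hc : Fintype.card (Fin k ⊕ Fin k) = 2 * k := by
    simp
    omega
  have h := sp_cent_closed hF t ht (L := Fin k ⊕ Fin k) Sum.swap (fun l => by simp) (by rw [hr, hc]) (by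
    constructor
    · exact fun _ => hswap
    · exact fun _ => hty) (q ^ (k ^ 2) * ∏ i ∈ Finset.range k, (q ^ (2 * (i + 1)) - 1)) (by
    intro U χ hsym hnd hfin ha
    rw [card_frames_alt χ (ha.2 hswap) hnd k (by rw [hfin, hc]), card_sp hF])
  rw [hc] at h
  exact h

theorem expo1 {m s : ℕ} (h : s ≤ m) : 2 * m * s - (3 * s ^ 2 - s) / 2 + s * (s - 1) / 2 + (m - s) ^ 2 = m ^ 2 := by
  obtain ⟨d, rfl⟩ : ∃ d, m = s + d := ⟨m - s, by omega⟩
  obtain ⟨T, hT⟩ : ∃ T, s * (s - 1) / 2 = T := ⟨_, rfl⟩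
  have h2 : 2 * T + s = s ^ 2 := by
    have := Nat.even_mul_pred_self s
    obtain ⟨r, hr⟩ := this
    cases s with
    | zero =>
      simp at hT ⊢
      omega
    | succ j =>
      simp only [Nat.add_sub_cancel] at hT hr ⊢
      have : T = r := by rw [← hT, hr]; omega
      subst this
      nlinarith
  rw [hT, Nat.add_sub_cancel_left]
  have h3 : (3 * s ^ 2 - s) / 2 = s ^ 2 + T := by omega
  rw [h3]
  have e1 : 2 * (s + d) * s = 2 * s ^ 2 + 2 * (s * d) := by ring
  have e2 : (s + d) ^ 2 = s ^ 2 + 2 * (s * d) + d ^ 2 := by ring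
  rw [e1, e2]
  omega

theorem expo2 {m s : ℕ} (h : s ≤ m) (h1 : 1 ≤ s) : 2 * m * s - (3 * s ^ 2 - 3 * s) / 2 - 1 + s * (s - 1) / 2 + (m - s) ^ 2 = m ^ 2 + (s - 1) := by
  obtain ⟨d, rfl⟩ : ∃ d, m = s + d := ⟨m - s, by omega⟩
  obtain ⟨T, hT⟩ : ∃ T, s * (s - 1) / 2 = T := ⟨_, rfl⟩
  have h2 : 2 * T + s = s ^ 2 := by
    have := Nat.even_mul_pred_self s
    obtain ⟨r, hr⟩ := this
    cases s with
    | zero =>
      simp at hT ⊢
      omega
    | succ j =>
      simp only [Nat.add_sub_cancel] at hT hr ⊢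
      have : T = r := by rw [← hT, hr]; omega
      subst this
      nlinarith
  rw [hT, Nat.add_sub_cancel_left]
  have h3 : (3 * s ^ 2 - 3 * s) / 2 = 3 * T := by omega
  rw [h3]
  have e1 : 2 * (s + d) * s = 2 * s ^ 2 + 2 * (s * d) := by ring
  have e2 : (s + d) ^ 2 = s ^ 2 + 2 * (s * d) + d ^ 2 := by ring
  rw [e1, e2]
  omega

theorem finish1 {q C m s X P : ℕ} (hq : 2 ≤ q) (hsm : s ≤ m) (h : C * q ^ (s * (s - 1) / 2) = q ^ (m ^ 2) * P * X) :
    C = q ^ (2 * m * s - (3 * s ^ 2 - s) / 2) * X * (q ^ ((m - s) ^ 2) * P) := by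
  apply Nat.eq_of_mul_eq_mul_right (Nat.pow_pos (n := s * (s - 1) / 2) (by omega : 0 < q))
  rw [h, ← expo1 hsm, pow_add, pow_add]
  ring

theorem finish2 {q C m s X P : ℕ} (hq : 2 ≤ q) (hsm : s ≤ m) (h1 : 1 ≤ s) (h : C * q ^ (s * (s - 1) / 2) = q ^ (m ^ 2) * P * (q ^ (s - 1) * X)) :
    C = q ^ (2 * m * s - (3 * s ^ 2 - 3 * s) / 2 - 1) * X * (q ^ ((m - s) ^ 2) * P) := by
  apply Nat.eq_of_mul_eq_mul_right (Nat.pow_pos (n := s * (s - 1) / 2) (by omega : 0 < q))
  have e := expo2 hsm h1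
  have e' : q ^ (2 * m * s - (3 * s ^ 2 - 3 * s) / 2 - 1) * q ^ (s * (s - 1) / 2) * q ^ ((m - s) ^ 2) = q ^ (m ^ 2) * q ^ (s - 1) := by
    rw [← pow_add, ← pow_add, ← pow_add, e]
  rw [h]
  calc q ^ (m ^ 2) * P * (q ^ (s - 1) * X) = (q ^ (m ^ 2) * q ^ (s - 1)) * (P * X) := by ring
    _ = _ := by
      rw [← e']
      ring

end Cfsg.Agent.Lib.Classical.InvolEven
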