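import Mathlib
import Cfsg.Agent.Lib.Classical.InvolCentSp
import Cfsg.Agent.Lib.Classical.QuadCount

/-! Counting tuples with prescribed values of a quadratic form in characteristic two. -/

set_option autoImplicit false
set_option linter.unusedSimpArgs false
set_option linter.unusedVariables false
set_option linter.unusedSectionVars false
set_option linter.style.haveILetI false

namespace Cfsg.Agent.Lib.Classical.InvolEven

open Module Cfsg.Agent.Lib.Classical

universe v

section gen

variable {F : Type*} [Field F] {V : Type v} [AddCommGroup V] [Module F V]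

/-- `B` is the polar form of `Qf`. -/
structure IsPol (B : LinearMap.BilinForm F V) (Qf : V → F) : Prop where
  add : ∀ x y, Qf (x + y) = Qf x + Qf y + B x y
  smul : ∀ (c : F) x, Qf (c • x) = c * c * Qf x

/-- Independent isotropic tuples on which the form has a fixed value. -/
def XV (B : LinearMap.BilinForm F V) (Qf : V → F) (k : ℕ) (c : F) : Type v :=
  {s : Fin k → V // LinearIndependent F s ∧ (∀ i j, B (s i) (s j) = 0) ∧ ∀ l, Qf (s l) = c}

variable {B : LinearMap.BilinForm F V} {Qf : V → F}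

theorem IsPol.zero (h : IsPol B Qf) : Qf 0 = 0 := by
  have := h.smul 0 0
  simpa using this

theorem IsPol.symm (h : IsPol B Qf) (x y : V) : B x y = B y x := by
  have h1 := h.add x y
  have h2 := h.add y x
  rw [add_comm y x] at h2
  linear_combination h2 - h1

theorem IsPol.self [CharP F 2] (h : IsPol B Qf) (x : V) : B x x = 0 := by
  have h2 : (2 : F) = 0 := two_eq_zero'
  have h1 := h.add x x
  have h3 : x + x = (2 : F) • x := (two_smul F x).symm
  rw [h3, h2, zero_smul, h.zero] at h1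
  linear_combination -h1 - (Qf x) * h2

theorem IsPol.res (h : IsPol B Qf) (U : Submodule F V) : IsPol (resB (σ := RingHom.id F) B U) (fun z : U => Qf z) :=
  ⟨fun x y => h.add x y, fun c x => h.smul c x⟩

theorem IsPol.comb (h : IsPol B Qf) {v z : V} (hvz : B v z = 0) (c : F) : Qf (c • v + z) = c * c * Qf v + Qf z := by
  rw [h.add, h.smul, map_smul, LinearMap.smul_apply, hvz, smul_zero, add_zero]

/-- Split over the first vector. -/
def xvSplit (hR : ∀ x y, B x y = 0 → B y x = 0) (hself : ∀ x, B x x = 0) (k : ℕ) (c : F) : XV B Qf (k + 1) c ≃ Σ v : {v : V // v ≠ 0 ∧ Qf v = c}, {x : FRv (σ := RingHom.id F) B v.1 k // ∀ j, Qf (x.1 j) = c} where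
  toFun s := ⟨⟨s.1 0, s.2.1.ne_zero 0, s.2.2.2 0⟩, ⟨⟨Fin.tail s.1, by
    rw [show (Fin.cons (s.1 0) (Fin.tail s.1) : Fin (k + 1) → V) = s.1 from Fin.cons_self_tail s.1]
    exact s.2.1, fun j => s.2.2.1 0 j.succ, fun i j => s.2.2.1 i.succ j.succ⟩, fun j => s.2.2.2 j.succ⟩⟩
  invFun p := ⟨Fin.cons p.1.1 p.2.1.1, p.2.1.2.1, by
    intro i j
    refine Fin.cases ?_ (fun i' => ?_) i
    · refine Fin.cases ?_ (fun j' => ?_) j
      · exact hself _
      · exact p.2.1.2.2.1 j'
    · refine Fin.cases ?_ (fun j' => ?_) j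
      · exact hR _ _ (p.2.1.2.2.1 i')
      · exact p.2.1.2.2.2 i' j', by
    intro l
    refine Fin.cases ?_ (fun l' => ?_) l
    · exact p.1.2.2
    · exact p.2.2 l'⟩
  left_inv s := by
    apply Subtype.ext
    exact Fin.cons_self_tail s.1
  right_inv := by
    rintro ⟨⟨v, hv⟩, ⟨x, hx⟩⟩
    rfl

theorem frv_coord (hR : ∀ x y, B x y = 0 → B y x = 0) {v w : V} (hv : v ≠ 0) (hvv : B v v = 0) (hvw : B v w = 1) {k : ℕ} (x : FRv (σ := RingHom.id F) B v k) (j : Fin k) :
    x.1 j = (frvEquiv (σ := RingHom.id F) B hR hv hvv hvw k x).1 j • v + ((frvEquiv (σ := RingHom.id F) B hR hv hvv hvw k x).2.1 j : V) := by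
  have := congrArg (fun y => y.1 j) ((frvEquiv (σ := RingHom.id F) B hR hv hvv hvw k).symm_apply_apply x)
  exact this.symm

theorem frv_symm_coord (hR : ∀ x y, B x y = 0 → B y x = 0) {v w : V} (hv : v ≠ 0) (hvv : B v v = 0) (hvw : B v w = 1) {k : ℕ} (p : (Fin k → F) × FR (σ := RingHom.id F) (resB (σ := RingHom.id F) B (perp2 (σ := RingHom.id F) B v w)) k) (j : Fin k) :
    ((frvEquiv (σ := RingHom.id F) B hR hv hvv hvw k).symm p).1 j = p.1 j • v + (p.2.1 j : V) := rfl

theorem frv_sing [Fintype F] (hpol : IsPol B Qf) (hR : ∀ x y, B x y = 0 → B y x = 0) {v w : V} (hv : v ≠ 0) (hvv : B v v = 0) (hQ : Qf v = 0) (hvw : B v w = 1) (k : ℕ) :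
    Nat.card {x : FRv (σ := RingHom.id F) B v k // ∀ j, Qf (x.1 j) = 0} = Fintype.card F ^ k * Nat.card (XV (resB (σ := RingHom.id F) B (perp2 (σ := RingHom.id F) B v w)) (fun z => Qf z) k 0) := by
  classical
  set e := frvEquiv (σ := RingHom.id F) B hR hv hvv hvw k with he
  have hz : ∀ (z : perp2 (σ := RingHom.id F) B v w), B v z = 0 := fun z => ((mem_perp2 (σ := RingHom.id F) B).1 z.2).1
  have key : ∀ (c : F) (z : perp2 (σ := RingHom.id F) B v w), Qf (c • v + z) = Qf z := by
    intro c z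
    rw [hpol.comb (hz z), hQ, mul_zero, zero_add]
  have hg : ∀ p : (Fin k → F) × XV (resB (σ := RingHom.id F) B (perp2 (σ := RingHom.id F) B v w)) (fun z => Qf z) k 0, ∀ j, Qf ((e.symm (p.1, ⟨p.2.1, p.2.2.1, p.2.2.2.1⟩)).1 j) = 0 := by
    intro p j
    rw [he, frv_symm_coord]
    exact (key _ _).trans (p.2.2.2.2 j)
  let g : (Fin k → F) × XV (resB (σ := RingHom.id F) B (perp2 (σ := RingHom.id F) B v w)) (fun z => Qf z) k 0 → {x : FRv (σ := RingHom.id F) B v k // ∀ j, Qf (x.1 j) = 0} :=
    fun p => ⟨e.symm (p.1, ⟨p.2.1, p.2.2.1, p.2.2.2.1⟩), hg p⟩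
  have hbij : Function.Bijective g := by
    constructor
    · rintro ⟨c, z⟩ ⟨c', z'⟩ h
      have h1 := e.symm.injective (congrArg Subtype.val h)
      have h2 := congrArg Prod.fst h1
      have h3 := congrArg (fun y => (y.2).1) h1
      exact Prod.ext h2 (Subtype.ext h3)
    · rintro ⟨x, hx⟩
      refine ⟨((e x).1, ⟨(e x).2.1, (e x).2.2.1, (e x).2.2.2, fun j => ?_⟩), ?_⟩
      · have h1 := hx j
        rw [frv_coord hR hv hvv hvw x j, key] at h1
        exact h1
      · apply Subtype.ext
        exact e.symm_apply_apply x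
  rw [← Nat.card_congr (Equiv.ofBijective g hbij), Nat.card_prod, Nat.card_fun, Nat.card_eq_fintype_card, Nat.card_eq_fintype_card (α := Fin k), Fintype.card_fin]

theorem frv_one [Fintype F] [CharP F 2] (hpol : IsPol B Qf) (hR : ∀ x y, B x y = 0 → B y x = 0) {v w : V} (hv : v ≠ 0) (hvv : B v v = 0) (hQ : Qf v = 1) (hvw : B v w = 1) (k : ℕ) :
    Nat.card {x : FRv (σ := RingHom.id F) B v k // ∀ j, Qf (x.1 j) = 1} = Nat.card (FR (σ := RingHom.id F) (resB (σ := RingHom.id F) B (perp2 (σ := RingHom.id F) B v w)) k) := by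
  classical
  set e := frvEquiv (σ := RingHom.id F) B hR hv hvv hvw k with he
  have h2 : (2 : F) = 0 := two_eq_zero'
  have hz : ∀ (z : perp2 (σ := RingHom.id F) B v w), B v z = 0 := fun z => ((mem_perp2 (σ := RingHom.id F) B).1 z.2).1
  have key : ∀ (c : F) (z : perp2 (σ := RingHom.id F) B v w), Qf (c • v + z) = c * c + Qf z := by
    intro c z
    rw [hpol.comb (hz z), hQ, mul_one]
  choose r hr using fun a : F => exists_sqrt a
  have hg : ∀ p : FR (σ := RingHom.id F) (resB (σ := RingHom.id F) B (perp2 (σ := RingHom.id F) B v w)) k, ∀ j, Qf ((e.symm (fun j => r (1 + Qf (p.1 j)), p)).1 j) = 1 := by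
    intro p j
    rw [he, frv_symm_coord, key, hr]
    linear_combination (Qf (p.1 j)) * h2
  let g : FR (σ := RingHom.id F) (resB (σ := RingHom.id F) B (perp2 (σ := RingHom.id F) B v w)) k → {x : FRv (σ := RingHom.id F) B v k // ∀ j, Qf (x.1 j) = 1} :=
    fun p => ⟨e.symm (fun j => r (1 + Qf (p.1 j)), p), hg p⟩
  have hbij : Function.Bijective g := by
    constructor
    · intro p p' h
      have h1 := e.symm.injective (congrArg Subtype.val h)
      exact congrArg Prod.snd h1
    · rintro ⟨x, hx⟩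
      refine ⟨(e x).2, ?_⟩
      apply Subtype.ext
      change e.symm _ = x
      have h1 : (fun j => r (1 + Qf ((e x).2.1 j))) = (e x).1 := by
        funext j
        have h3 := hx j
        rw [frv_coord hR hv hvv hvw x j, key] at h3
        have h4 := hr (1 + Qf ((e x).2.1 j))
        have h5 : (r (1 + Qf ((e x).2.1 j)) - (e x).1 j) * (r (1 + Qf ((e x).2.1 j)) - (e x).1 j) = 0 := by
          linear_combination h4 - h3 + ((e x).1 j * (e x).1 j - r (1 + Qf ((e x).2.1 j)) * (e x).1 j + Qf ((e x).2.1 j) - 0) * h2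
        exact sub_eq_zero.1 (mul_self_eq_zero.1 h5)
      rw [h1]
      exact e.symm_apply_apply x
  rw [← Nat.card_congr (Equiv.ofBijective g hbij)]

/-- The count of zeros after peeling a hyperbolic plane. -/
theorem card_zero_peel [Fintype F] {U0 : Type*} [Finite U0] (Q0 : U0 → F) {q : ℕ} (hF : Fintype.card F = q) :
    Nat.card {p : F × (F × U0) // p.1 * p.2.1 + Q0 p.2.2 = 0} = q * Nat.card {z // Q0 z = 0} + (q - 1) * Nat.card U0 := by
  classical
  have h1 := card_pair_subtype (fun (x : F) (r : F × U0) => x * r.1 + Q0 r.2 = 0)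
  rw [h1]
  have h2 : ∀ x : F, Nat.card {r : F × U0 // x * r.1 + Q0 r.2 = 0} = if x = 0 then q * Nat.card {z // Q0 z = 0} else Nat.card U0 := by
    intro x
    split_ifs with hx
    · subst hx
      have e0 : {r : F × U0 // (0 : F) * r.1 + Q0 r.2 = 0} ≃ F × {z // Q0 z = 0} :=
        { toFun := fun r => (r.1.1, ⟨r.1.2, by simpa using r.2⟩)
          invFun := fun p => ⟨(p.1, p.2.1), by simpa using p.2.2⟩
          left_inv := fun r => by simp
          right_inv := fun p => by simp }
      rw [Nat.card_congr e0, Nat.card_prod, Nat.card_eq_fintype_card, hF]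
    · have e1 : {r : F × U0 // x * r.1 + Q0 r.2 = 0} ≃ U0 :=
        { toFun := fun r => r.1.2
          invFun := fun w => ⟨((- Q0 w) / x, w), by
            simp only
            field_simp
            ring⟩
          left_inv := fun r => by
            apply Subtype.ext
            apply Prod.ext
            · have := r.2
              simp only
              field_simp
              linear_combination -this
            · rfl
          right_inv := fun w => rfl }
      exact Nat.card_congr e1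
  rw [Finset.sum_congr rfl (fun x _ => h2 x), Finset.sum_ite]
  simp only [Finset.sum_const, smul_eq_mul]
  have h3 : (Finset.univ.filter (fun x : F => x = 0)).card = 1 := by
    rw [Finset.filter_eq' Finset.univ (0 : F)]
    simp
  have h4 : (Finset.univ.filter (fun x : F => ¬ x = 0)).card = q - 1 := by
    have := Finset.card_filter_add_card_filter_not (s := (Finset.univ : Finset F)) (fun x : F => x = 0)
    rw [h3, Finset.card_univ, hF] at this
    omega
  rw [h3, h4]
  ring

/-- The count of zeros on the perpendicular of a hyperbolic pair. -/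
theorem sing_peel [Fintype F] [FiniteDimensional F V] [CharP F 2] (hpol : IsPol B Qf) {v w : V} (hQv : Qf v = 0) (hQw : Qf w = 0) (hvw : B v w = 1) {q : ℕ} (hF : Fintype.card F = q) :
    Nat.card {x : V // Qf x = 0} = q * Nat.card {z : perp2 (σ := RingHom.id F) B v w // Qf z = 0} + (q - 1) * Nat.card (perp2 (σ := RingHom.id F) B v w) := by
  classical
  have : Finite V := Module.finite_of_finite F
  have h2 : (2 : F) = 0 := two_eq_zero'
  have hvv := hpol.self v
  have hww := hpol.self w
  have hwv : B w v = 1 := by rw [hpol.symm, hvw]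
  rw [← card_zero_peel (fun z : perp2 (σ := RingHom.id F) B v w => Qf z) hF]
  apply Nat.card_congr
  have hmem : ∀ x, x - B w x • v - B v x • w ∈ perp2 (σ := RingHom.id F) B v w := by
    intro x
    rw [mem_perp2]
    constructor
    · simp only [map_sub, map_smul, smul_eq_mul, hvv, hvw, mul_zero, mul_one, sub_zero, sub_self]
    · simp only [map_sub, map_smul, smul_eq_mul, hww, hwv, mul_zero, mul_one, sub_zero, sub_self]
  have hval : ∀ (a b : F) (z : perp2 (σ := RingHom.id F) B v w), Qf (a • v + b • w + z) = a * b + Qf z := by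
    intro a b z
    have hz := (mem_perp2 (σ := RingHom.id F) B).1 z.2
    rw [hpol.add, hpol.add, hpol.smul, hpol.smul, hQv, hQw]
    simp only [map_add, LinearMap.add_apply, map_smul, LinearMap.smul_apply, smul_eq_mul, hz.1, hz.2, hvw]
    ring
  refine
    { toFun := fun x => ⟨(B w x.1, B v x.1, ⟨_, hmem x.1⟩), ?_⟩
      invFun := fun p => ⟨p.1.1 • v + p.1.2.1 • w + p.1.2.2, by
        rw [hval]
        exact p.2⟩
      left_inv := ?_
      right_inv := ?_ }
  · have := hval (B w x.1) (B v x.1) ⟨_, hmem x.1⟩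
    have e : B w x.1 • v + B v x.1 • w + (x.1 - B w x.1 • v - B v x.1 • w) = x.1 := by abel
    simp only at this
    rw [e, x.2] at this
    exact this.symm
  · intro x
    apply Subtype.ext
    change B w x.1 • v + B v x.1 • w + (x.1 - B w x.1 • v - B v x.1 • w) = x.1
    abel
  · rintro ⟨⟨a, b, z⟩, hp⟩
    have hz := (mem_perp2 (σ := RingHom.id F) B).1 z.2
    have h1 : B w (a • v + b • w + (z : V)) = a := by
      simp only [map_add, map_smul, smul_eq_mul, hwv, hww, hz.2]
      ring
    have h3 : B v (a • v + b • w + (z : V)) = b := by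
      simp only [map_add, map_smul, smul_eq_mul, hvv, hvw, hz.1]
      ring
    apply Subtype.ext
    apply Prod.ext
    · exact h1
    · apply Prod.ext
      · exact h3
      · apply Subtype.ext
        change (a • v + b • w + (z : V)) - B w (a • v + b • w + (z : V)) • v - B v (a • v + b • w + (z : V)) • w = z
        rw [h1, h3]
        abel

end gen

section count

variable {F : Type*} [Field F] [CharP F 2] [Fintype F] {q : ℕ}

/-- Recursion for the number of singular vectors. -/
def SP (q : ℕ) : ℕ → ℕ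
  | 0 => 1
  | n + 1 => q * SP q n + (q - 1) * q ^ (2 * n)

/-- The order of the orthogonal group by recursion. -/
def Dq (q : ℕ) : ℕ → ℕ
  | 0 => 1
  | n + 1 => (SP q (n + 1) - 1) * q ^ (2 * n) * Dq q n

theorem SP_succ_closed (hq : 2 ≤ q) (n : ℕ) : SP q (n + 1) - 1 = (q ^ (n + 1) - 1) * (q ^ n + 1) := by
  have h1 : ((SP q (n + 1) : ℤ)) = q ^ (2 * n + 1) + q ^ (n + 1) - q ^ n := by
    induction n with
    | zero =>
      simp only [SP]
      push_cast [Nat.cast_sub (show 1 ≤ q by omega)]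
      ring
    | succ k ih =>
      rw [SP]
      push_cast [Nat.cast_sub (show 1 ≤ q by omega)]
      rw [ih]
      ring
  have h3 : 1 ≤ q ^ (n + 1) := Nat.one_le_pow _ _ (by omega)
  have h4 : 1 ≤ SP q (n + 1) := by
    have : (1 : ℤ) ≤ SP q (n + 1) := by
      rw [h1]
      have h5 : (q : ℤ) ^ (n + 1) = q * q ^ n := by ring
      have h6 : (q : ℤ) ^ (2 * n + 1) = q ^ n * q ^ (n + 1) := by ring
      have h7 : (1 : ℤ) ≤ q ^ n := by
        have : 1 ≤ q ^ n := Nat.one_le_pow _ _ (by omega)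
        exact_mod_cast this
      have h8 : (2 : ℤ) ≤ q := by exact_mod_cast hq
      nlinarith [mul_pos (by linarith : (0 : ℤ) < q ^ n) (by linarith : (0 : ℤ) < q ^ (n + 1))]
    exact_mod_cast this
  zify [h4, h3]
  rw [h1]
  ring

theorem Dq_pos (hq : 2 ≤ q) (n : ℕ) : 0 < Dq q n := by
  induction n with
  | zero => simp [Dq]
  | succ n ih =>
    rw [Dq, SP_succ_closed hq]
    have h3 : 1 < q ^ (n + 1) := Nat.one_lt_pow (by omega) (by omega)
    have h4 : 0 < q ^ (2 * n) := Nat.pow_pos (by omega)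
    have h5 : 0 < q ^ n + 1 := by omega
    have h6 : 0 < q ^ (n + 1) - 1 := by omega
    positivity

theorem Dq_closed (hq : 2 ≤ q) (n : ℕ) : Dq q (n + 1) = 2 * q ^ ((n + 1) * n) * (q ^ (n + 1) - 1) * ∏ i ∈ Finset.range n, (q ^ (2 * (i + 1)) - 1) := by
  induction n with
  | zero =>
    rw [Dq, SP_succ_closed hq]
    simp [Dq]
    ring
  | succ n ih =>
    rw [Dq, SP_succ_closed hq, ih, Finset.prod_range_succ]
    have h3 : 1 ≤ q ^ (n + 1) := Nat.one_le_pow _ _ (by omega)
    have e : q ^ (2 * (n + 1)) - 1 = (q ^ (n + 1) - 1) * (q ^ (n + 1) + 1) := by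
      have : 1 ≤ q ^ (2 * (n + 1)) := Nat.one_le_pow _ _ (by omega)
      zify [this, h3]
      ring
    rw [e]
    have e2 : (n + 1 + 1) * (n + 1) = (n + 1) * n + 2 * (n + 1) := by ring
    rw [e2, pow_add]
    ring

theorem expoE_succ {n k : ℕ} (h : k ≤ n) : 2 * (n + 1) * (k + 1) - (3 * (k + 1) ^ 2 + (k + 1)) / 2 = 2 * n * k - (3 * k ^ 2 + k) / 2 + (2 * n - k) := by
  obtain ⟨d, rfl⟩ : ∃ d, n = k + d := ⟨n - k, by omega⟩
  obtain ⟨T, hT⟩ : ∃ T, (3 * k ^ 2 + k) / 2 = T := ⟨_, rfl⟩
  have h2 : 2 * T = 3 * k ^ 2 + k := by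
    obtain ⟨r, hr⟩ := Nat.even_mul_succ_self k
    have h5 : 3 * k ^ 2 + k = 2 * (r + k ^ 2) := by nlinarith
    rw [h5] at hT
    omega
  have h3 : (3 * (k + 1) ^ 2 + (k + 1)) / 2 = T + 3 * k + 2 := by
    have : 3 * (k + 1) ^ 2 + (k + 1) = 2 * (T + 3 * k + 2) := by
      nlinarith
    rw [this]
    omega
  rw [hT, h3]
  have e1 : 2 * (k + d + 1) * (k + 1) = 2 * k ^ 2 + 2 * (k * d) + 4 * k + 2 * d + 2 := by ring
  have e2 : 2 * (k + d) * k = 2 * k ^ 2 + 2 * (k * d) := by ring
  rw [e1, e2]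
  have hk : k ≤ k ^ 2 := by nlinarith
  have : 0 ≤ k * d := Nat.zero_le _
  omega

/-- The number of independent totally singular tuples. -/
theorem card_XV_mul (hF : Fintype.card F = q) : ∀ (k n : ℕ) (V : Type v) [AddCommGroup V] [Module F V] [FiniteDimensional F V] (B : LinearMap.BilinForm F V) (Qf : V → F),
    IsPol B Qf → B.Nondegenerate → finrank F V = 2 * n → Nat.card {x : V // Qf x = 0} = SP q n → k ≤ n →
    Nat.card (XV B Qf k 0) * q ^ (2 * n * k - (3 * k ^ 2 + k) / 2) * Dq q (n - k) = Dq q n := by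
  have hq : 2 ≤ q := hF ▸ two_le_card_field
  have h2 : (2 : F) = 0 := two_eq_zero'
  intro k
  induction k with
  | zero =>
    intro n V _ _ _ B Qf hpol hnd hn hS _
    have h1 : Nat.card (XV B Qf 0 0) = 1 := by
      rw [Nat.card_eq_one_iff_unique]
      refine ⟨⟨?_⟩, ⟨⟨Fin.elim0, linearIndependent_empty_type, fun i => i.elim0, fun i => i.elim0⟩⟩⟩
      rintro ⟨a, ha⟩ ⟨b, hb⟩
      apply Subtype.ext
      funext i
      exact i.elim0
    simp [h1]
  | succ k ih =>
    intro n V _ _ _ B Qf hpol hnd hn hS hk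
    obtain ⟨n', rfl⟩ : ∃ n', n = n' + 1 := ⟨n - 1, by omega⟩
    have hk' : k ≤ n' := by omega
    classical
    have : Finite V := Module.finite_of_finite F
    have hR : ∀ x y, B x y = 0 → B y x = 0 := fun x y h => by rw [hpol.symm, h]
    have hself := hpol.self
    let _ : Fintype {v : V // v ≠ 0 ∧ Qf v = 0} := Fintype.ofFinite _
    have hcount : Nat.card {v : V // v ≠ 0 ∧ Qf v = 0} + 1 = SP q (n' + 1) := by
      rw [← hS]
      have e : {v : V // v ≠ 0 ∧ Qf v = 0} ≃ {v : {x : V // Qf x = 0} // v ≠ ⟨0, hpol.zero⟩} :=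
        { toFun := fun v => ⟨⟨v.1, v.2.2⟩, fun h => v.2.1 (congrArg Subtype.val h)⟩
          invFun := fun v => ⟨v.1.1, fun h => v.2 (Subtype.ext h), v.1.2⟩
          left_inv := fun v => rfl
          right_inv := fun v => rfl }
      rw [Nat.card_congr e]
      have : Finite {x : V // Qf x = 0} := inferInstance
      haveI : Fintype {x : V // Qf x = 0} := Fintype.ofFinite _
      rw [Nat.card_eq_fintype_card, Nat.card_eq_fintype_card, Fintype.card_subtype_compl]
      have h4 : 0 < Fintype.card {x : V // Qf x = 0} := Fintype.card_pos_iff.2 ⟨⟨0, hpol.zero⟩⟩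
      simp
      omega
    have hcpos : 0 < Nat.card {v : V // v ≠ 0 ∧ Qf v = 0} := by
      have h5 := SP_succ_closed hq n'
      have h6 : 1 < q ^ (n' + 1) := Nat.one_lt_pow (by omega) (by omega)
      have h7 : 0 < (q ^ (n' + 1) - 1) * (q ^ n' + 1) := Nat.mul_pos (by omega) (by omega)
      omega
    -- each fibre
    have hfib' : ∀ v : {v : V // v ≠ 0 ∧ Qf v = 0}, ∃ N, Nat.card {x : FRv (σ := RingHom.id F) B v.1 k // ∀ j, Qf (x.1 j) = 0} = q ^ k * N ∧ N * q ^ (2 * n' * k - (3 * k ^ 2 + k) / 2) * Dq q (n' - k) = Dq q n' := by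
      rintro ⟨v, hv, hQv⟩
      obtain ⟨w0, hw0⟩ : ∃ w0, B v w0 ≠ 0 := by
        by_contra hcon
        push Not at hcon
        exact hv (hnd.1 v hcon)
      obtain ⟨w1, hvw1⟩ : ∃ w1, B v w1 = 1 := ⟨(B v w0)⁻¹ • w0, by
        rw [map_smul, smul_eq_mul, inv_mul_cancel₀ hw0]⟩
      obtain ⟨w, hvw, hQw⟩ : ∃ w, B v w = 1 ∧ Qf w = 0 := by
        refine ⟨w1 + Qf w1 • v, ?_, ?_⟩
        · rw [map_add, map_smul, hself, smul_zero, add_zero, hvw1]
        · rw [hpol.add, hpol.smul, hQv, map_smul, hpol.symm w1 v, hvw1, mul_zero, add_zero, smul_eq_mul, mul_one]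
          linear_combination (Qf w1) * h2
      have hfin := finrank_perp2 (σ := RingHom.id F) B hR hv hvw (hself v)
      have hnd' := resB_nondeg (σ := RingHom.id F) B hR hnd hvw (hself v)
      have hS' : Nat.card {z : perp2 (σ := RingHom.id F) B v w // Qf z = 0} = SP q n' := by
        have h3 := sing_peel hpol hQv hQw hvw hF
        rw [hS] at h3
        have h4 : Nat.card (perp2 (σ := RingHom.id F) B v w) = q ^ (2 * n') := by
          have : Finite (perp2 (σ := RingHom.id F) B v w) := Module.finite_of_finite F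
          haveI : Fintype (perp2 (σ := RingHom.id F) B v w) := Fintype.ofFinite _
          rw [Nat.card_eq_fintype_card, Module.card_eq_pow_finrank (K := F), hF]
          congr 1
          omega
        rw [h4, SP] at h3
        have h5 := Nat.add_right_cancel h3
        exact (Nat.eq_of_mul_eq_mul_left (by omega) h5).symm
      refine ⟨_, ?_, ih n' (perp2 (σ := RingHom.id F) B v w) (resB (σ := RingHom.id F) B (perp2 (σ := RingHom.id F) B v w)) (fun z => Qf z) (hpol.res _) hnd' (by omega) hS' hk'⟩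
      rw [frv_sing hpol hR hv (hself v) hQv hvw k, hF]
    obtain ⟨⟨v0⟩⟩ := (Nat.card_pos_iff.1 hcpos)
    obtain ⟨N, -, hN⟩ := hfib' v0
    have hfib : ∀ v : {v : V // v ≠ 0 ∧ Qf v = 0}, Nat.card {x : FRv (σ := RingHom.id F) B v.1 k // ∀ j, Qf (x.1 j) = 0} = q ^ k * N := by
      intro v
      obtain ⟨N', h3, h4⟩ := hfib' v
      rw [h3]
      congr 1
      have hpos : 0 < q ^ (2 * n' * k - (3 * k ^ 2 + k) / 2) * Dq q (n' - k) := Nat.mul_pos (Nat.pow_pos (by omega)) (Dq_pos hq _)
      apply Nat.eq_of_mul_eq_mul_right hpos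
      rw [← mul_assoc, ← mul_assoc, h4, hN]
    have hcard : Nat.card (XV B Qf (k + 1) 0) = (SP q (n' + 1) - 1) * (q ^ k * N) := by
      haveI hfin : ∀ a : {v : V // v ≠ 0 ∧ Qf v = 0}, Finite {x : FRv (σ := RingHom.id F) B a.1 k // ∀ j, Qf (x.1 j) = 0} := by
        intro a
        unfold FRv
        infer_instance
      rw [Nat.card_congr (xvSplit hR hself k 0), Nat.card_sigma]
      rw [Finset.sum_congr rfl (fun a _ => hfib a), Finset.sum_const, smul_eq_mul, Finset.card_univ, ← Nat.card_eq_fintype_card]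
      congr 1
      omega
    rw [hcard, show n' + 1 - (k + 1) = n' - k by omega, expoE_succ hk', Dq, ← hN, pow_add]
    have e : q ^ (2 * n') = q ^ k * q ^ (2 * n' - k) := by
      rw [← pow_add]
      congr 1
      omega
    rw [e]
    ring

/-- The number of tuples of vectors of value one. -/
theorem card_XV_one (hF : Fintype.card F = q) (k m : ℕ) (V : Type v) [AddCommGroup V] [Module F V] [FiniteDimensional F V] (B : LinearMap.BilinForm F V) (Qf : V → F)
    (hpol : IsPol B Qf) (hnd : B.Nondegenerate) (hn : finrank F V = 2 * m) (hk : k + 1 ≤ m) :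
    Nat.card (XV B Qf (k + 1) 1) * ∏ i ∈ Finset.range (m - 1 - k), (q ^ (2 * (i + 1)) - 1) =
      Nat.card {v : V // Qf v = 1} * (q ^ (k * (k - 1) / 2) * ∏ i ∈ Finset.range (m - 1), (q ^ (2 * (i + 1)) - 1)) := by
  classical
  have hq : 2 ≤ q := hF ▸ two_le_card_field
  have : Finite V := Module.finite_of_finite F
  have hR : ∀ x y, B x y = 0 → B y x = 0 := fun x y h => by rw [hpol.symm, h]
  have hself := hpol.self
  have hne : ∀ v, Qf v = 1 → v ≠ 0 := by
    rintro v hv rfl
    rw [hpol.zero] at hv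
    exact zero_ne_one hv
  have e : {v : V // v ≠ 0 ∧ Qf v = 1} ≃ {v : V // Qf v = 1} :=
    { toFun := fun v => ⟨v.1, v.2.2⟩
      invFun := fun v => ⟨v.1, hne _ v.2, v.2⟩
      left_inv := fun v => rfl
      right_inv := fun v => rfl }
  let _ : Fintype {v : V // v ≠ 0 ∧ Qf v = 1} := Fintype.ofFinite _
  haveI hfin : ∀ a : {v : V // v ≠ 0 ∧ Qf v = 1}, Finite {x : FRv (σ := RingHom.id F) B a.1 k // ∀ j, Qf (x.1 j) = 1} := by
    intro a
    unfold FRv
    infer_instance
  have hfib : ∀ a : {v : V // v ≠ 0 ∧ Qf v = 1}, Nat.card {x : FRv (σ := RingHom.id F) B a.1 k // ∀ j, Qf (x.1 j) = 1} * ∏ i ∈ Finset.range (m - 1 - k), (q ^ (2 * (i + 1)) - 1) =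
      q ^ (k * (k - 1) / 2) * ∏ i ∈ Finset.range (m - 1), (q ^ (2 * (i + 1)) - 1) := by
    rintro ⟨v, hv, hQv⟩
    obtain ⟨w0, hw0⟩ : ∃ w0, B v w0 ≠ 0 := by
      by_contra hcon
      push Not at hcon
      exact hv (hnd.1 v hcon)
    obtain ⟨w, hvw⟩ : ∃ w1, B v w1 = 1 := ⟨(B v w0)⁻¹ • w0, by
      rw [map_smul, smul_eq_mul, inv_mul_cancel₀ hw0]⟩
    have hfinr := finrank_perp2 (σ := RingHom.id F) B hR hv hvw (hself v)
    have hnd' := resB_nondeg (σ := RingHom.id F) B hR hnd hvw (hself v)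
    rw [frv_one hpol hR hv (hself v) hQv hvw k]
    have h3 := card_FR_alt hF k (m - 1 - k) (perp2 (σ := RingHom.id F) B v w) (resB (σ := RingHom.id F) B (perp2 (σ := RingHom.id F) B v w)) (fun x => hself x) hnd' (by omega)
    rw [h3, show m - 1 - k + k = m - 1 by omega]
  rw [Nat.card_congr (xvSplit hR hself k 1), Nat.card_sigma, Finset.sum_mul, Finset.sum_congr rfl (fun a _ => hfib a), Finset.sum_const, smul_eq_mul, Finset.card_univ, ← Nat.card_eq_fintype_card, Nat.card_congr e]

end count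

end Cfsg.Agent.Lib.Classical.InvolEven
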