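import Mathlib
import Cfsg.Agent.Lib.Classical.InvolEven4

/-! Classes of involutions of `Ω` in characteristic two. -/

set_option autoImplicit false
set_option linter.unusedSimpArgs false
set_option linter.unusedVariables false
set_option linter.unusedSectionVars false
set_option linter.style.haveILetI false

namespace Cfsg.Agent.Lib.Classical.InvolEven

open Matrix Module Cfsg.Agent.Lib.Classical
open Cfsg.Agent.Lib.Spinor (lp rO rr rO_mat lp_nil lp_cons nm lp_mem_omega_iff' exists_lp' par_lp lp_append CDOK ndf)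
open Cfsg.Agent.Lib.Classical.RankParity (rO_mulVec even_rank_lp)
open Cfsg.Agent.Lib.ClassMax.OmegaCore (IsMaxTS imgOf mem_imgOf par_triple)

variable {F : Type*} [Field F] [CharP F 2] [Fintype F] {ι : Type} [Fintype ι] [DecidableEq ι] {Q : QuadraticForm F (ι → F)}

theorem mem_omega_iff_even_rank' (hnd : (QuadraticMap.polarBilin Q).Nondegenerate) (hq : CDOK Q) (t : OG Q) :
    t ∈ Cfsg.Omega F ⇑Q ↔ Even (oM t - 1).rank := by
  obtain ⟨vs, hvs, rfl⟩ := exists_lp' hnd hq t
  rw [lp_mem_omega_iff' hnd hq hvs, even_rank_lp hnd vs hvs]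
  have h2 : ringChar F = 2 := ringChar.eq F 2
  simp [FiniteField.isSquare_of_char_two h2]

theorem omega_conj_of_fixed' (hnd : (QuadraticMap.polarBilin Q).Nondegenerate) (hq : CDOK Q) {t s : OG Q} (hconj : IsConj t s)
    {v : ι → F} (hv : Q v ≠ 0) (htv : oM t *ᵥ v = v) : ∃ g ∈ Cfsg.Omega F ⇑Q, g * t * g⁻¹ = s := by
  obtain ⟨g, hg⟩ := isConj_iff.1 hconj
  by_cases hgO : g ∈ Cfsg.Omega F ⇑Q
  · exact ⟨g, hgO, hg⟩
  refine ⟨g * rO Q v, ?_, ?_⟩
  · obtain ⟨vs, hvs, rfl⟩ := exists_lp' hnd hq g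
    have h2 : ringChar F = 2 := ringChar.eq F 2
    rw [lp_mem_omega_iff' hnd hq hvs] at hgO
    have h3 : lp Q vs * rO Q v = lp Q (vs ++ [v]) := by
      rw [lp_append, lp_cons, lp_nil, mul_one]
    rw [h3, lp_mem_omega_iff' hnd hq (by
      intro w hw
      rcases List.mem_append.1 hw with hw | hw
      · exact hvs w hw
      · rw [List.mem_singleton.1 hw]
        exact hv)]
    refine ⟨?_, FiniteField.isSquare_of_char_two h2 _⟩
    rw [List.length_append, List.length_singleton, Nat.even_add_one]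
    intro hev
    exact hgO ⟨hev, FiniteField.isSquare_of_char_two h2 _⟩
  · have h3 : rO Q v * t * (rO Q v)⁻¹ = t := by
      rw [rO_comm hv htv]
      group
    calc g * rO Q v * t * (g * rO Q v)⁻¹ = g * (rO Q v * t * (rO Q v)⁻¹) * g⁻¹ := by group
      _ = s := by rw [h3, hg]

/-- Conjugation moves the image. -/
theorem range_conj (g t : OG Q) : imgOf g.1 (LinearMap.range (Matrix.toLin' (oM t - 1))) = LinearMap.range (Matrix.toLin' (oM (g * t * g⁻¹) - 1)) := by
  have key : ∀ x, oM (g * t * g⁻¹) *ᵥ (oM g *ᵥ x) = oM g *ᵥ (oM t *ᵥ x) := by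
    intro x
    rw [oM_mul, oM_mul, oM_inv_self]
  apply le_antisymm
  · intro y hy
    obtain ⟨z, ⟨x, rfl⟩, rfl⟩ := mem_imgOf.1 hy
    refine ⟨oM g *ᵥ x, ?_⟩
    simp only [Matrix.toLin'_apply, sub_mulVec, one_mulVec, mulVec_sub]
    rw [key]
  · rintro _ ⟨z, rfl⟩
    refine mem_imgOf.2 ⟨(oM t - 1) *ᵥ (oM g⁻¹ *ᵥ z), ⟨oM g⁻¹ *ᵥ z, rfl⟩, ?_⟩
    simp only [Matrix.toLin'_apply, sub_mulVec, one_mulVec, mulVec_sub]
    rw [← key, oM_self_inv]

/-- The `Ω`-parity for a conjugating element. -/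
theorem omega_par (hnd : (QuadraticMap.polarBilin Q).Nondegenerate) (hq : CDOK Q) {U : Submodule F (ι → F)} (hU : IsMaxTS (⇑Q) U) (g : OG Q) :
    g ∈ Cfsg.Omega F ⇑Q ↔ (finrank F ↥(U ⊓ imgOf g.1 U) + finrank F U) % 2 = 0 := by
  obtain ⟨vs, hvs, rfl⟩ := exists_lp' hnd hq g
  have h2 : ringChar F = 2 := ringChar.eq F 2
  rw [par_lp hnd hU hvs, lp_mem_omega_iff' hnd hq hvs, ← Nat.even_iff]
  exact ⟨fun h => h.1, fun h => ⟨h, FiniteField.isSquare_of_char_two h2 _⟩⟩

theorem isConj_omega {x y : ↥(Cfsg.Omega F ⇑Q)} (h : ∃ g ∈ Cfsg.Omega F ⇑Q, g * x.1 * g⁻¹ = y.1) : IsConj x y := by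
  obtain ⟨g, hg, e⟩ := h
  rw [isConj_iff]
  exact ⟨⟨g, hg⟩, Subtype.ext e⟩

theorem conj_of_omega {x y : ↥(Cfsg.Omega F ⇑Q)} (h : IsConj x y) : IsConj x.1 y.1 := by
  obtain ⟨g, rfl⟩ := isConj_iff.1 h
  rw [isConj_iff]
  exact ⟨g.1, rfl⟩

theorem order_omega (x : ↥(Cfsg.Omega F ⇑Q)) : orderOf x.1 = orderOf x := Subgroup.orderOf_coe x

theorem even_rank_of_omega {Q0 : (ι → F) → F} (h0 : NDQ Q0) (hq0 : ∀ Q : QuadraticForm F (ι → F), ⇑Q = Q0 → CDOK Q) (x : ↥(Cfsg.Omega F Q0)) :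
    Even (((((x.1 : ↥(Cfsg.isometryGroup F Q0)) : GL ι F) : Matrix ι ι F) - 1).rank) := by
  obtain ⟨Q, rfl, hnd⟩ := h0
  exact (mem_omega_iff_even_rank' hnd (hq0 Q rfl) x.1).1 x.2

/-- The number of classes of involutions of `Ω` when no class splits. -/
theorem card_classes_Omega_nosplit {Q0 : (ι → F) → F} (h0 : NDQ Q0) {m M : ℕ} (hc : Fintype.card ι = 2 * m) (hq0 : ∀ Q : QuadraticForm F (ι → F), ⇑Q = Q0 → CDOK Q)
    (hM : M ≤ m) (hmax : ∀ U : Submodule F (ι → F), (∀ u ∈ U, Q0 u = 0) → finrank F U ≤ M) (hne : ∀ x : ↥(Cfsg.Omega F Q0), orderOf x = 2 → ¬ ((((x.1 : ↥(Cfsg.isometryGroup F Q0)) : GL ι F) : Matrix ι ι F) - 1).rank = m ∨ ¬ ∀ v, Q0 (((x.1 : ↥(Cfsg.isometryGroup F Q0)) : GL ι F) *ᵥ v - v) = 0)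
    (hb : ∀ s, 1 ≤ s → s ≤ m → ∃ w : Fin s → ι → F, (∀ i j, QuadraticMap.polar Q0 (w i) (w j) = 0) ∧ LinearIndependent F w ∧ ∀ l, Q0 (w l) = 1)
    (ha : ∀ k, 1 ≤ k → 2 * k ≤ M → ∃ w : Fin k ⊕ Fin k → ι → F, (∀ i j, QuadraticMap.polar Q0 (w i) (w j) = 0) ∧ LinearIndependent F w ∧ ∀ l, Q0 (w l) = 0) :
    Nat.card {C : ConjClasses ↥(Cfsg.Omega F Q0) // ∃ g : ↥(Cfsg.Omega F Q0), ConjClasses.mk g = C ∧ orderOf g = 2} = m / 2 + M / 2 := by
  classical
  obtain ⟨Q, rfl, hnd⟩ := h0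
  have hq := hq0 Q rfl
  let code : ↥(Cfsg.Omega F ⇑Q) → ℕ := fun t => if IsAType t.1 then m / 2 + (oM t.1 - 1).rank / 2 else (oM t.1 - 1).rank / 2
  have hcode : ∀ t, code t = if IsAType t.1 then m / 2 + (oM t.1 - 1).rank / 2 else (oM t.1 - 1).rank / 2 := fun t => rfl
  have hord : ∀ x : ↥(Cfsg.Omega F ⇑Q), orderOf x = 2 → orderOf x.1 = 2 := fun x hx => by rw [order_omega, hx]
  have hrk : ∀ t : ↥(Cfsg.Omega F ⇑Q), orderOf t = 2 → (oM t.1 - 1).rank ≤ m := fun t ht => (fixed_dim hnd (sq_of_order (hord t ht)) hc).1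
  have hev : ∀ t : ↥(Cfsg.Omega F ⇑Q), Even (oM t.1 - 1).rank := fun t => (mem_omega_iff_even_rank' hnd hq t.1).1 t.2
  apply card_classes_of_code code
  · intro x y hx hxy
    have h := conj_of_omega hxy
    rw [hcode, hcode, conj_rank h]
    simp only [conj_type h]
  · intro x y hx hy hxy
    rw [hcode, hcode] at hxy
    have h1 := hrk x hx
    have h2 := hrk y hy
    have h3 := rank_pos (hord x hx)
    have h4 := rank_pos (hord y hy)
    obtain ⟨r, hr⟩ := hev x
    obtain ⟨r', hr'⟩ := hev y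
    have hfin : (oM x.1 - 1).rank = (oM y.1 - 1).rank ∧ (IsAType x.1 ↔ IsAType y.1) := by
      by_cases ha1 : IsAType x.1 <;> by_cases ha2 : IsAType y.1
      · rw [if_pos ha1, if_pos ha2] at hxy
        exact ⟨by omega, by simp [ha1, ha2]⟩
      · exfalso
        rw [if_pos ha1, if_neg ha2] at hxy
        have : (oM y.1 - 1).rank / 2 ≤ m / 2 := Nat.div_le_div_right h2
        omega
      · exfalso
        rw [if_neg ha1, if_pos ha2] at hxy
        have : (oM x.1 - 1).rank / 2 ≤ m / 2 := Nat.div_le_div_right h1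
        omega
      · rw [if_neg ha1, if_neg ha2] at hxy
        exact ⟨by omega, by simp [ha1, ha2]⟩
    have hconj := isConj_of_invariants hnd (sq_of_order (hord x hx)) (sq_of_order (hord y hy)) hfin.1 hfin.2
    obtain ⟨v, hv, htv⟩ := exists_nonsingular_fixed hnd (sq_of_order (hord x hx)) hc
      (fun U hU => (hmax U hU).trans hM) (fun h => by
        rcases hne x hx with h3 | h3
        · exact h3 h.1
        · exact h3 h.2)
    exact isConj_omega (omega_conj_of_fixed' hnd hq hconj hv htv)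
  · intro x hx
    rw [hcode]
    have h1 := hrk x hx
    have h3 := rank_pos (hord x hx)
    obtain ⟨r, hr⟩ := hev x
    by_cases ha1 : IsAType x.1
    · rw [if_pos ha1]
      have h5 := rank_le_of_A ha1 hmax
      have : (oM x.1 - 1).rank / 2 ≤ M / 2 := Nat.div_le_div_right h5
      omega
    · rw [if_neg ha1]
      have : (oM x.1 - 1).rank / 2 ≤ m / 2 := Nat.div_le_div_right h1
      omega
  · intro n hn1 hn2
    have hne' : ∀ t : OG Q, t * t = 1 → 1 ≤ (oM t - 1).rank → orderOf t = 2 := by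
      intro t ht hr
      apply orderOf_eq_prime
      · rwa [pow_two]
      · intro h
        rw [h] at hr
        have : oM (1 : OG Q) - 1 = 0 := sub_self _
        rw [this, Matrix.rank_zero] at hr
        omega
    by_cases hnm : n ≤ m / 2
    · obtain ⟨w, hw, hli, hqw⟩ := hb (2 * n) (by omega) (by omega)
      obtain ⟨t, ht, hr, hty⟩ := exists_invol_Q hnd (σ := id) (w := w) (fun _ => rfl) hw hli (fun l _ => hqw l) (fun l hl => absurd rfl hl)
      have hnA : ¬ IsAType t := fun h => (hty.1 h) ⟨0, by omega⟩ rfl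
      have hr' : (oM t - 1).rank = 2 * n := by simpa using hr
      have hmem : t ∈ Cfsg.Omega F ⇑Q := (mem_omega_iff_even_rank' hnd hq t).2 (by rw [hr']; exact even_two_mul n)
      refine ⟨⟨t, hmem⟩, ?_, ?_⟩
      · rw [← order_omega]
        exact hne' t ht (by omega)
      · rw [hcode, if_neg hnA, hr']
        simp
    · obtain ⟨k, rfl⟩ : ∃ k, n = m / 2 + k := ⟨n - m / 2, by omega⟩
      have hk1 : 1 ≤ k := by omega
      have hk2 : 2 * k ≤ M := by omega
      obtain ⟨w, hw, hli, hqw⟩ := ha k hk1 hk2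
      have hswap : ∀ l : Fin k ⊕ Fin k, Sum.swap l ≠ l := by
        rintro (l | l) <;> simp
      obtain ⟨t, ht, hr, hty⟩ := exists_invol_Q hnd (σ := Sum.swap) (w := w) (fun l => by simp) hw hli (fun l hl => absurd hl (hswap l)) (fun l _ => hqw l)
      have hA : IsAType t := hty.2 hswap
      have hr' : (oM t - 1).rank = 2 * k := by
        rw [hr]
        simp
        omega
      have hmem : t ∈ Cfsg.Omega F ⇑Q := (mem_omega_iff_even_rank' hnd hq t).2 (by rw [hr']; exact even_two_mul k)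
      refine ⟨⟨t, hmem⟩, ?_, ?_⟩
      · rw [← order_omega]
        exact hne' t ht (by omega)
      · rw [hcode, if_pos hA, hr']
        simp

/-- The number of classes of involutions of `Ω` with a splitting class (plus type, `m` even). -/
theorem card_classes_Omega_split {Q0 : (ι → F) → F} (h0 : NDQ Q0) {m : ℕ} (hm : 1 ≤ m) (hev2 : Even m) (hc : Fintype.card ι = 2 * m) (hq0 : ∀ Q : QuadraticForm F (ι → F), ⇑Q = Q0 → CDOK Q)
    (hmax : ∀ U : Submodule F (ι → F), (∀ u ∈ U, Q0 u = 0) → finrank F U ≤ m)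
    (hb : ∀ s, 1 ≤ s → s ≤ m → ∃ w : Fin s → ι → F, (∀ i j, QuadraticMap.polar Q0 (w i) (w j) = 0) ∧ LinearIndependent F w ∧ ∀ l, Q0 (w l) = 1)
    (ha : ∀ k, 1 ≤ k → 2 * k ≤ m → ∃ w : Fin k ⊕ Fin k → ι → F, (∀ i j, QuadraticMap.polar Q0 (w i) (w j) = 0) ∧ LinearIndependent F w ∧ ∀ l, Q0 (w l) = 0) :
    Nat.card {C : ConjClasses ↥(Cfsg.Omega F Q0) // ∃ g : ↥(Cfsg.Omega F Q0), ConjClasses.mk g = C ∧ orderOf g = 2} = m / 2 + m / 2 + 1 := by
  classical
  obtain ⟨Q, rfl, hnd⟩ := h0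
  have hq := hq0 Q rfl
  have hnd' := ndf hnd
  have hswap : ∀ k, ∀ l : Fin k ⊕ Fin k, Sum.swap l ≠ l := by
    intro k
    rintro (l | l) <;> simp
  have hne' : ∀ t : OG Q, t * t = 1 → 1 ≤ (oM t - 1).rank → orderOf t = 2 := by
    intro t ht hr
    apply orderOf_eq_prime
    · rwa [pow_two]
    · intro h
      rw [h] at hr
      have : oM (1 : OG Q) - 1 = 0 := sub_self _
      rw [this, Matrix.rank_zero] at hr
      omega
  have hmk : m / 2 + m / 2 = m := by
    obtain ⟨k, hk⟩ := hev2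
    omega
  -- the base element
  obtain ⟨t₀, ht₀, hr₀, hA₀⟩ : ∃ t₀ : OG Q, t₀ * t₀ = 1 ∧ (oM t₀ - 1).rank = m ∧ IsAType t₀ := by
    obtain ⟨w, hw, hli, hqw⟩ := ha (m / 2) (by omega) (by omega)
    obtain ⟨t, ht, hr, hty⟩ := exists_invol_Q hnd (σ := Sum.swap) (w := w) (fun l => by simp) hw hli (fun l hl => absurd hl (hswap _ l)) (fun l _ => hqw l)
    refine ⟨t, ht, ?_, hty.2 (hswap _)⟩
    rw [hr]
    simp
    omega
  let W : OG Q → Submodule F (ι → F) := fun t => LinearMap.range (Matrix.toLin' (oM t - 1))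
  have hWd : ∀ t, finrank F (W t) = (oM t - 1).rank := fun t => rfl
  have hWM : ∀ t : OG Q, (oM t - 1).rank = m → IsAType t → IsMaxTS (⇑Q) (W t) := by
    intro t hr hA
    refine ⟨?_, by rw [hWd, hr, hc]⟩
    rintro _ ⟨x, rfl⟩
    have := hA x
    simpa [Matrix.toLin'_apply, sub_mulVec] using this
  set U₀ := W t₀ with hU₀
  have hU₀M : IsMaxTS (⇑Q) U₀ := hWM t₀ hr₀ hA₀
  have hU₀d : finrank F U₀ = m := hr₀
  let code : ↥(Cfsg.Omega F ⇑Q) → ℕ := fun t => if IsAType t.1 then (if (oM t.1 - 1).rank = m ∧ ¬ Even (finrank F ↥(U₀ ⊓ W t.1)) then m / 2 + m / 2 + 1 else m / 2 + (oM t.1 - 1).rank / 2) else (oM t.1 - 1).rank / 2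
  have hcode : ∀ t, code t = if IsAType t.1 then (if (oM t.1 - 1).rank = m ∧ ¬ Even (finrank F ↥(U₀ ⊓ W t.1)) then m / 2 + m / 2 + 1 else m / 2 + (oM t.1 - 1).rank / 2) else (oM t.1 - 1).rank / 2 := fun t => rfl
  have hord : ∀ x : ↥(Cfsg.Omega F ⇑Q), orderOf x = 2 → orderOf x.1 = 2 := fun x hx => by rw [order_omega, hx]
  have hrk : ∀ t : ↥(Cfsg.Omega F ⇑Q), orderOf t = 2 → (oM t.1 - 1).rank ≤ m := fun t ht => (fixed_dim hnd (sq_of_order (hord t ht)) hc).1
  have hev : ∀ t : ↥(Cfsg.Omega F ⇑Q), Even (oM t.1 - 1).rank := fun t => (mem_omega_iff_even_rank' hnd hq t.1).1 t.2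
  -- parity of the exceptional classes
  have hpar : ∀ x y : OG Q, (oM x - 1).rank = m → IsAType x → (oM y - 1).rank = m → IsAType y →
      (Even (finrank F ↥(W x ⊓ W y)) ↔ (Even (finrank F ↥(U₀ ⊓ W x)) ↔ Even (finrank F ↥(U₀ ⊓ W y)))) := by
    intro x y hx1 hx2 hy1 hy2
    have h3 := par_triple hnd' hU₀M (hWM x hx1 hx2) (hWM y hy1 hy2)
    rw [hWd, hx1] at h3
    obtain ⟨k, hk⟩ := hev2
    simp only [Nat.even_iff]
    omega
  have hconjO : ∀ x y : OG Q, IsConj x y → (oM x - 1).rank = m → IsAType x → ((∃ g ∈ Cfsg.Omega F ⇑Q, g * x * g⁻¹ = y) ↔ Even (finrank F ↥(W x ⊓ W y))) := by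
    intro x y hxy hr hA
    obtain ⟨g, hg⟩ := isConj_iff.1 hxy
    have hkey : ∀ g : OG Q, g * x * g⁻¹ = y → (g ∈ Cfsg.Omega F ⇑Q ↔ Even (finrank F ↥(W x ⊓ W y))) := by
      intro g hg
      have h3 := omega_par hnd hq (hWM x hr hA) g
      have h4 : imgOf g.1 (W x) = W y := by
        rw [← hg]
        exact range_conj g x
      rw [h4, hWd, hr] at h3
      rw [h3]
      obtain ⟨k, hk⟩ := hev2
      simp only [Nat.even_iff]
      omega
    constructor
    · rintro ⟨g', hg', e⟩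
      exact (hkey g' e).1 hg'
    · intro h
      exact ⟨g, (hkey g hg).2 h, hg⟩
  apply card_classes_of_code code
  · intro x y hx hxy
    have h := conj_of_omega hxy
    rw [hcode, hcode, conj_rank h]
    simp only [conj_type h]
    by_cases ha1 : IsAType y.1
    · simp only [ha1, if_true]
      have hax := (conj_type h).2 ha1
      by_cases hry : (oM y.1 - 1).rank = m
      · have hrx : (oM x.1 - 1).rank = m := by rw [conj_rank h, hry]
        have h5 : Even (finrank F ↥(W x.1 ⊓ W y.1)) := (hconjO x.1 y.1 h hrx hax).1 (by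
          obtain ⟨g, e⟩ := isConj_iff.1 hxy
          exact ⟨g.1, g.2, congrArg Subtype.val e⟩)
        have h6 := (hpar x.1 y.1 hrx hax hry ha1).1 h5
        simp only [hry, true_and, h6]
      · simp [hry]
    · simp [ha1]
  · intro x y hx hy hxy
    rw [hcode, hcode] at hxy
    have h1 := hrk x hx
    have h2 := hrk y hy
    have h3 := rank_pos (hord x hx)
    have h4 := rank_pos (hord y hy)
    obtain ⟨r, hr⟩ := hev x
    obtain ⟨r', hr'⟩ := hev y
    have hdx : (oM x.1 - 1).rank / 2 ≤ m / 2 := Nat.div_le_div_right h1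
    have hdy : (oM y.1 - 1).rank / 2 ≤ m / 2 := Nat.div_le_div_right h2
    have hfin : (oM x.1 - 1).rank = (oM y.1 - 1).rank ∧ (IsAType x.1 ↔ IsAType y.1) ∧ (IsAType x.1 → (oM x.1 - 1).rank = m → (Even (finrank F ↥(U₀ ⊓ W x.1)) ↔ Even (finrank F ↥(U₀ ⊓ W y.1)))) := by
      by_cases ha1 : IsAType x.1 <;> by_cases ha2 : IsAType y.1
      · rw [if_pos ha1, if_pos ha2] at hxy
        split_ifs at hxy with h5 h6 h6
        · refine ⟨by omega, by simp [ha1, ha2], fun _ _ => ?_⟩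
          simp [h5.2, h6.2]
        · exfalso
          omega
        · exfalso
          omega
        · refine ⟨by omega, by simp [ha1, ha2], fun _ h7 => ?_⟩
          have h8 : (oM y.1 - 1).rank = m := by omega
          have h9 : Even (finrank F ↥(U₀ ⊓ W x.1)) := by
            by_contra h10
            exact h5 ⟨h7, h10⟩
          have h10 : Even (finrank F ↥(U₀ ⊓ W y.1)) := by
            by_contra h10
            exact h6 ⟨h8, h10⟩
          simp [h9, h10]
      · exfalso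
        rw [if_pos ha1, if_neg ha2] at hxy
        split_ifs at hxy <;> omega
      · exfalso
        rw [if_neg ha1, if_pos ha2] at hxy
        split_ifs at hxy <;> omega
      · rw [if_neg ha1, if_neg ha2] at hxy
        exact ⟨by omega, by simp [ha1, ha2], fun h => absurd h ha1⟩
    have hconj := isConj_of_invariants hnd (sq_of_order (hord x hx)) (sq_of_order (hord y hy)) hfin.1 hfin.2.1
    by_cases hexc : (oM x.1 - 1).rank = m ∧ IsAType x.1
    · apply isConj_omega
      refine (hconjO x.1 y.1 hconj hexc.1 hexc.2).2 ?_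
      exact (hpar x.1 y.1 hexc.1 hexc.2 (by rw [← hfin.1]; exact hexc.1) (hfin.2.1.1 hexc.2)).2 (hfin.2.2 hexc.2 hexc.1)
    · obtain ⟨v, hv, htv⟩ := exists_nonsingular_fixed hnd (sq_of_order (hord x hx)) hc hmax hexc
      exact isConj_omega (omega_conj_of_fixed' hnd hq hconj hv htv)
  · intro x hx
    rw [hcode]
    have h1 := hrk x hx
    have h3 := rank_pos (hord x hx)
    obtain ⟨r, hr⟩ := hev x
    have hdx : (oM x.1 - 1).rank / 2 ≤ m / 2 := Nat.div_le_div_right h1
    by_cases ha1 : IsAType x.1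
    · rw [if_pos ha1]
      split_ifs <;> omega
    · rw [if_neg ha1]
      omega
  · intro n hn1 hn2
    by_cases hnm : n ≤ m / 2
    · obtain ⟨w, hw, hli, hqw⟩ := hb (2 * n) (by omega) (by omega)
      obtain ⟨t, ht, hr, hty⟩ := exists_invol_Q hnd (σ := id) (w := w) (fun _ => rfl) hw hli (fun l _ => hqw l) (fun l hl => absurd rfl hl)
      have hnA : ¬ IsAType t := fun h => (hty.1 h) ⟨0, by omega⟩ rfl
      have hr' : (oM t - 1).rank = 2 * n := by simpa using hr
      have hmem : t ∈ Cfsg.Omega F ⇑Q := (mem_omega_iff_even_rank' hnd hq t).2 (by rw [hr']; exact even_two_mul n)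
      refine ⟨⟨t, hmem⟩, ?_, ?_⟩
      · rw [← order_omega]
        exact hne' t ht (by omega)
      · rw [hcode, if_neg hnA, hr']
        simp
    · by_cases hnm2 : n ≤ m / 2 + m / 2 - 0 ∧ n < m
      · obtain ⟨k, rfl⟩ : ∃ k, n = m / 2 + k := ⟨n - m / 2, by omega⟩
        have hk1 : 1 ≤ k := by omega
        have hk2 : 2 * k ≤ m := by omega
        obtain ⟨w, hw, hli, hqw⟩ := ha k hk1 hk2
        obtain ⟨t, ht, hr, hty⟩ := exists_invol_Q hnd (σ := Sum.swap) (w := w) (fun l => by simp) hw hli (fun l hl => absurd hl (hswap _ l)) (fun l _ => hqw l)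
        have hA : IsAType t := hty.2 (hswap _)
        have hr' : (oM t - 1).rank = 2 * k := by
          rw [hr]
          simp
          omega
        have hmem : t ∈ Cfsg.Omega F ⇑Q := (mem_omega_iff_even_rank' hnd hq t).2 (by rw [hr']; exact even_two_mul k)
        refine ⟨⟨t, hmem⟩, ?_, ?_⟩
        · rw [← order_omega]
          exact hne' t ht (by omega)
        · rw [hcode, if_pos hA, if_neg, hr']
          · simp
          · rintro ⟨h5, -⟩
            have h6 : (oM t - 1).rank = m := h5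
            omega
      · have hnm3 : n = m ∨ n = m + 1 := by omega
        have hmem₀ : t₀ ∈ Cfsg.Omega F ⇑Q := (mem_omega_iff_even_rank' hnd hq t₀).2 (by rw [hr₀]; exact hev2)
        rcases hnm3 with rfl | rfl
        · refine ⟨⟨t₀, hmem₀⟩, ?_, ?_⟩
          · rw [← order_omega]
            exact hne' t₀ ht₀ (by omega)
          · rw [hcode, if_pos hA₀, if_neg, hr₀]
            · omega
            · rintro ⟨-, h5⟩
              apply h5
              have h6 : U₀ ⊓ W t₀ = U₀ := inf_idem _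
              rw [h6, hU₀d]
              exact hev2
        · -- conjugate by a reflection
          obtain ⟨z, hz⟩ : ∃ z, Q z ≠ 0 := by
            obtain ⟨w, hw, hli, hqw⟩ := hb 1 (by omega) (by omega)
            exact ⟨w 0, by rw [hqw]; exact one_ne_zero⟩
          let r : OG Q := rO Q z
          let t₁ : OG Q := r * t₀ * r⁻¹
          have hc₁ : IsConj t₀ t₁ := isConj_iff.2 ⟨r, rfl⟩
          have hr₁ : (oM t₁ - 1).rank = m := by rw [← conj_rank hc₁, hr₀]
          have hA₁ : IsAType t₁ := (conj_type hc₁).1 hA₀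
          have hmem₁ : t₁ ∈ Cfsg.Omega F ⇑Q := (mem_omega_iff_even_rank' hnd hq t₁).2 (by rw [hr₁]; exact hev2)
          have ht₁ : t₁ * t₁ = 1 := by
            show r * t₀ * r⁻¹ * (r * t₀ * r⁻¹) = 1
            calc r * t₀ * r⁻¹ * (r * t₀ * r⁻¹) = r * (t₀ * t₀) * r⁻¹ := by group
              _ = 1 := by rw [ht₀]; group
          have hnot : ¬ Even (finrank F ↥(U₀ ⊓ W t₁)) := by
            have h6 : imgOf r.1 U₀ = W t₁ := range_conj r t₀
            have h7 := par_lp hnd hU₀M (vs := [z]) (by simpa using hz)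
            have h8 : lp Q [z] = r := by
              rw [lp_cons, lp_nil, mul_one]
            rw [h8, h6, hU₀d] at h7
            simp only [List.length_singleton] at h7
            obtain ⟨k, hk⟩ := hev2
            rw [Nat.even_iff]
            omega
          refine ⟨⟨t₁, hmem₁⟩, ?_, ?_⟩
          · rw [← order_omega]
            exact hne' t₁ ht₁ (by omega)
          · rw [hcode, if_pos hA₁, if_pos ⟨hr₁, hnot⟩]
            omega

end Cfsg.Agent.Lib.Classical.InvolEven
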