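import Mathlib
import Cfsg.Agent.Lib.Classical.InvolCentQ
import Cfsg.Agent.Lib.Classical.InvolEven5
import Cfsg.Agent.Lib.Classical.OrthOrder

/-! Centralizers of involutions of orthogonal groups in characteristic two. -/

set_option autoImplicit false
set_option linter.unusedSimpArgs false
set_option linter.unusedVariables false
set_option linter.unusedSectionVars false
set_option linter.style.haveILetI false

namespace Cfsg.Agent.Lib.Classical.InvolEven

open Matrix Module Cfsg.Agent.Lib.Classical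
open Cfsg.Agent.Lib.Spinor (lp rO rr rO_mat lp_nil lp_cons nm lp_mem_omega_iff' exists_lp' par_lp lp_append lp_reverse CDOK ndf)
open Cfsg.Agent.Lib.Classical.RankParity (rO_mulVec even_rank_lp)

variable {F : Type*} [Field F] [CharP F 2] [Fintype F] {ι : Type} [Fintype ι] [DecidableEq ι] {Q : QuadraticForm F (ι → F)}

local notation "BQ" => QuadraticMap.polarBilin Q

section phi

variable {L : Type} [Fintype L] [DecidableEq L] {σ : L → L}

/-- Tuples with prescribed values of the form. -/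
def XQ (Q : QuadraticForm F (ι → F)) (σ : L → L) : Type _ :=
  {w : L → ι → F // LinearIndependent F w ∧ (∀ i j, (QuadraticMap.polarBilin Q) (w i) (w j) = 0) ∧ ∀ l, Q (w l) = if σ l = l then 1 else 0}

/-- The orthogonal involution of a tuple. -/
noncomputable def phiO (hσ : ∀ l, σ (σ l) = l) (w : XQ Q σ) : OG Q :=
  ogOfEquiv (LinearEquiv.ofInvolutive (mkT BQ σ w.1) (mkT_mkT w.2.2.1)) (fun v => q_mkT hσ w.2.2.1 (fun l hl => by rw [w.2.2.2 l, if_pos hl]) (fun l hl => by rw [w.2.2.2 l, if_neg hl]) v)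

theorem tL_phiO (hσ : ∀ l, σ (σ l) = l) (w : XQ Q σ) : tL (phiO hσ w) = mkT BQ σ w.1 := by
  apply LinearMap.ext
  intro x
  exact ogOfEquiv_apply _ _ _

theorem og_ext_tL {a b : OG Q} (h : tL a = tL b) : a = b := by
  apply og_ext
  intro x
  exact LinearMap.congr_fun h x

theorem phiO_sq (hσ : ∀ l, σ (σ l) = l) (w : XQ Q σ) : phiO hσ w * phiO hσ w = 1 := by
  apply og_ext
  intro x
  have h1 : ∀ y, oM (phiO hσ w) *ᵥ y = mkT BQ σ w.1 y := fun y => LinearMap.congr_fun (tL_phiO hσ w) y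
  rw [oM_mul, oM_one, h1, h1]
  exact mkT_mkT w.2.2.1 x

theorem phiO_rank (hnd : (QuadraticMap.polarBilin Q).Nondegenerate) (hσ : ∀ l, σ (σ l) = l) (w : XQ Q σ) : (oM (phiO hσ w) - 1).rank = Fintype.card L := by
  rw [← finrank_nn, tL_phiO]
  exact mkT_rank hnd hσ w.2.1

theorem phiO_type (hnd : (QuadraticMap.polarBilin Q).Nondegenerate) (hσ : ∀ l, σ (σ l) = l) (w : XQ Q σ) : IsAType (phiO hσ w) ↔ ∀ l, σ l ≠ l := by
  have hS : ∀ x y, (QuadraticMap.polarBilin Q) x y = (QuadraticMap.polarBilin Q) y x := fun x y => QuadraticMap.polar_comm _ _ _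
  rw [← mkT_type hnd hS hσ w.2.1, isAType_iff_polar, ← tL_phiO]
  rfl

/-- Values of the form on a tuple in a fibre. -/
theorem fib_values (hnd : (QuadraticMap.polarBilin Q).Nondegenerate) (hσ : ∀ l, σ (σ l) = l) {T : (ι → F) →ₗ[F] (ι → F)} (hQ : ∀ x, Q (T x) = Q x) (w : Fib BQ σ T) (l : L) :
    Q (w.1 l) = if σ l = l then 1 else 0 := by
  obtain ⟨w, hli, hti, hw⟩ := w
  have hran : LinearMap.range (nn T) = Submodule.span F (Set.range w) := by
    apply Submodule.eq_of_le_of_finrank_eq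
    · rintro _ ⟨x, rfl⟩
      rw [← hw, mkT_nn]
      exact Submodule.sum_mem _ (fun l _ => Submodule.smul_mem _ _ (Submodule.subset_span ⟨l, rfl⟩))
    · rw [finrank_span_eq_card hli, ← hw]
      exact mkT_rank hnd hσ hli
  have h1 : w l ∈ LinearMap.range (nn T) := by
    rw [hran]
    exact Submodule.subset_span ⟨l, rfl⟩
  obtain ⟨x, hx⟩ := h1
  have h3 : nn (mkT BQ σ w) x = w l := by rw [hw, hx]
  rw [mkT_nn] at h3
  have h2 := Fintype.linearIndependent_iff.1 hli (fun j => BQ (w (σ j)) x - if j = l then 1 else 0) (by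
    simp only [sub_smul, Finset.sum_sub_distrib]
    rw [h3]
    simp)
  have h5 := h2 (σ l)
  rw [hσ, sub_eq_zero] at h5
  change Q (w l) = _
  rw [← hx, q_nn hQ, hx, h5]

end phi

/-- The centralizer from the frames. -/
theorem o_cent (hnd : (QuadraticMap.polarBilin Q).Nondegenerate) (t : OG Q) (ht : t * t = 1) {L : Type} [Fintype L] [DecidableEq L] (σ : L → L) (hσ : ∀ l, σ (σ l) = l)
    (hr : (oM t - 1).rank = Fintype.card L) (hty : IsAType t ↔ ∀ l, σ l ≠ l) (f : ℕ)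
    (hf : ∀ (U : Submodule F (ι → F)) (χ : LinearMap.BilinForm F U), (∀ a b, χ a b = χ b a) → χ.Nondegenerate → finrank F U = Fintype.card L →
      ((∀ a, χ a a = 0) ↔ ∀ l, σ l ≠ l) → Nat.card {u : L → U // ∀ i j, χ (u i) (u j) = gramOf F σ i j} = f) :
    Nat.card (Subgroup.centralizer ({t} : Set (OG Q))) * Nat.card (XQ Q σ) = Nat.card (OG Q) * f := by
  classical
  have hS : ∀ x y, (QuadraticMap.polarBilin Q) x y = (QuadraticMap.polarBilin Q) y x := fun x y => QuadraticMap.polar_comm _ _ _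
  haveI : Finite (XQ Q σ) := by
    unfold XQ
    infer_instance
  apply cent_mul_card (phiO hσ)
  · intro w
    exact isConj_of_invariants hnd ht (phiO_sq hσ w) (hr.trans (phiO_rank hnd hσ w).symm) (hty.trans (phiO_type hnd hσ w).symm)
  · intro g hg
    obtain ⟨c, rfl⟩ := isConj_iff.1 hg
    set g := c * t * c⁻¹ with hg'
    have hgg : g * g = 1 := by
      rw [hg']
      calc c * t * c⁻¹ * (c * t * c⁻¹) = c * (t * t) * c⁻¹ := by group
        _ = 1 := by rw [ht]; group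
    have hgr : (oM g - 1).rank = Fintype.card L := by
      rw [← conj_rank hg, hr]
    have hgty : IsAType g ↔ ∀ l, σ l ≠ l := by
      rw [← conj_type hg, hty]
    have hB : ∀ x y, BQ (tL g x) (tL g y) = BQ x y := polar_of_iso (fun y => oM_Q g y)
    obtain ⟨U, χ, hU, hχ, hsym, hχnd, hfin⟩ := exists_compl_form (T := tL g) hS hnd (tL_tL hgg) hB
    rw [← hf U χ hsym hχnd (by rw [hfin, finrank_nn, hgr]) ?_]
    · rw [← card_fib hS hnd (tL_tL hgg) hB hσ χ hU hχ (by rw [hfin, finrank_nn, hgr])]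
      apply Nat.card_congr
      exact
        { toFun := fun x => ⟨x.1.1, x.1.2.1, x.1.2.2.1, by rw [← tL_phiO hσ, x.2]⟩
          invFun := fun x => ⟨⟨x.1, x.2.1, x.2.2.1, fib_values hnd hσ (fun y => oM_Q g y) x⟩, og_ext_tL ((tL_phiO hσ _).trans x.2.2.2)⟩
          left_inv := fun x => rfl
          right_inv := fun x => rfl }
    · rw [compl_alt_iff hS (tL_tL hgg) hB χ hU hχ, ← hgty, isAType_iff_polar]
      rfl

theorem isPol_Q : IsPol (QuadraticMap.polarBilin Q) ⇑Q :=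
  ⟨fun x y => Q_add Q x y, fun c x => Q_smul Q c x⟩

theorem card_XQ_const {L : Type} [Fintype L] [DecidableEq L] (σ : L → L) (c : F) (hc : ∀ l, (if σ l = l then (1 : F) else 0) = c) :
    Nat.card (XQ Q σ) = Nat.card (XV (QuadraticMap.polarBilin Q) ⇑Q (Fintype.card L) c) := by
  classical
  let e := Fintype.equivFin L
  apply Nat.card_congr
  exact
    { toFun := fun w => ⟨fun i => w.1 (e.symm i), (linearIndependent_equiv e.symm).2 w.2.1, fun i j => w.2.2.1 _ _, fun i => (w.2.2.2 _).trans (hc _)⟩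
      invFun := fun w => ⟨fun i => w.1 (e i), (linearIndependent_equiv e).2 w.2.1, fun i j => w.2.2.1 _ _, fun i => (w.2.2.2 _).trans (hc _).symm⟩
      left_inv := fun w => by
        apply Subtype.ext
        funext i
        change w.1 (e.symm (e i)) = w.1 i
        rw [e.symm_apply_apply]
      right_inv := fun w => by
        apply Subtype.ext
        funext i
        change w.1 (e (e.symm i)) = w.1 i
        rw [e.apply_symm_apply] }

theorem finrank_V {m : ℕ} (hc : Fintype.card ι = 2 * m) : finrank F (ι → F) = 2 * m := by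
  rw [Module.finrank_fintype_fun_eq_card, hc]

/-- The centralizer of an alternating involution. -/
theorem o_cent_alt (hnd : (QuadraticMap.polarBilin Q).Nondegenerate) {q m r : ℕ} (hF : Fintype.card F = q) (hc : Fintype.card ι = 2 * m)
    (hS : Nat.card {x : ι → F // Q x = 0} = SP q m) (hO : Nat.card (OG Q) = Dq q m) (t : OG Q) (ht : t * t = 1) (hr : (oM t - 1).rank = 2 * r) (hA : IsAType t) (hsm : 2 * r ≤ m) :
    Nat.card (Subgroup.centralizer ({t} : Set (OG Q))) = q ^ (2 * m * (2 * r) - (3 * (2 * r) ^ 2 + 2 * r) / 2) * Dq q (m - 2 * r) * (q ^ (r ^ 2) * ∏ i ∈ Finset.range r, (q ^ (2 * (i + 1)) - 1)) := by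
  have hq : 2 ≤ q := hF ▸ two_le_card_field
  have hswap : ∀ l : Fin r ⊕ Fin r, Sum.swap l ≠ l := by
    rintro (l | l) <;> simp
  have hcL : Fintype.card (Fin r ⊕ Fin r) = 2 * r := by
    simp
    omega
  have h1 := o_cent hnd t ht (L := Fin r ⊕ Fin r) Sum.swap (fun l => by simp) (by rw [hr, hcL]) (by
    constructor
    · exact fun _ => hswap
    · exact fun _ => hA) (q ^ (r ^ 2) * ∏ i ∈ Finset.range r, (q ^ (2 * (i + 1)) - 1)) (by
    intro U χ hsym hnd' hfin ha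
    rw [card_frames_alt χ (ha.2 hswap) hnd' r (by rw [hfin, hcL]), card_sp hF])
  rw [card_XQ_const (Sum.swap) 0 (fun l => if_neg (hswap l)), hcL, hO] at h1
  have h2 := card_XV_mul hF (2 * r) m (ι → F) (QuadraticMap.polarBilin Q) ⇑Q isPol_Q hnd (finrank_V hc) hS hsm
  set X := Nat.card (XV (QuadraticMap.polarBilin Q) ⇑Q (2 * r) 0) with hX
  have hXpos : 0 < X := by
    rcases Nat.eq_zero_or_pos X with h | h
    · rw [h] at h2
      have := Dq_pos hq m
      simp at h2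
      omega
    · exact h
  apply Nat.eq_of_mul_eq_mul_right hXpos
  rw [h1, ← h2]
  ring

/-- The centralizer of a non-alternating involution. -/
theorem o_cent_nonalt (hnd : (QuadraticMap.polarBilin Q).Nondegenerate) {q m k : ℕ} (hF : Fintype.card F = q) (hc : Fintype.card ι = 2 * m)
    (hone : Nat.card {x : ι → F // Q x = 1} = q ^ (m - 1) * (q ^ m - 1))
    (hO : Nat.card (OG Q) = 2 * q ^ (m * (m - 1)) * (q ^ m - 1) * ∏ i ∈ Finset.range (m - 1), (q ^ (2 * (i + 1)) - 1)) (t : OG Q) (ht : t * t = 1) (hr : (oM t - 1).rank = k + 1) (hA : ¬ IsAType t) (hsm : k + 1 ≤ m) :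
    Nat.card (Subgroup.centralizer ({t} : Set (OG Q))) * q ^ (m - 1) * q ^ (k * (k - 1) / 2) = 2 * q ^ (m * (m - 1)) * Aq q (k + 1) * ∏ i ∈ Finset.range (m - 1 - k), (q ^ (2 * (i + 1)) - 1) := by
  have hq : 2 ≤ q := hF ▸ two_le_card_field
  have h1 := o_cent hnd t ht (L := Fin (k + 1)) id (fun _ => rfl) (by simpa using hr) (by
    constructor
    · intro h
      exact absurd h hA
    · intro h
      exact absurd rfl (h 0)) (Aq q (k + 1)) (by
    intro U χ hsym hnd' hfin ha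
    have hna : ∃ a, χ a a ≠ 0 := by
      by_contra hcon
      push Not at hcon
      exact (ha.1 hcon) 0 rfl
    rw [← card_orthonormal hF (k + 1) U χ hsym hnd' (by simpa using hfin) hna]
    apply Nat.card_congr
    apply Equiv.subtypeEquivRight
    intro u
    simp [gramOf])
  rw [card_XQ_const id 1 (fun l => if_pos rfl), Fintype.card_fin, hO] at h1
  have h2 := card_XV_one hF k m (ι → F) (QuadraticMap.polarBilin Q) ⇑Q isPol_Q hnd (finrank_V hc) hsm
  rw [hone] at h2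
  set X := Nat.card (XV (QuadraticMap.polarBilin Q) ⇑Q (k + 1) 1) with hX
  set P := ∏ i ∈ Finset.range (m - 1), (q ^ (2 * (i + 1)) - 1) with hP
  set R := ∏ i ∈ Finset.range (m - 1 - k), (q ^ (2 * (i + 1)) - 1) with hR
  have hPpos : 0 < P := prod_pos_aux hq _
  have hm : 1 ≤ m := by omega
  have hqm : 0 < q ^ m - 1 := by
    have : 1 < q ^ m := Nat.one_lt_pow (by omega) (by omega)
    omega
  apply Nat.eq_of_mul_eq_mul_right (Nat.mul_pos hPpos hqm)
  set C := Nat.card (Subgroup.centralizer ({t} : Set (OG Q))) with hC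
  calc C * q ^ (m - 1) * q ^ (k * (k - 1) / 2) * (P * (q ^ m - 1)) = C * (q ^ (m - 1) * (q ^ m - 1) * (q ^ (k * (k - 1) / 2) * P)) := by ring
    _ = C * (X * R) := by rw [h2]
    _ = (C * X) * R := by ring
    _ = _ := by
      rw [h1]
      ring

/-! ### Passage to `Ω` -/

theorem omega_mul_of_not (hnd : (QuadraticMap.polarBilin Q).Nondegenerate) (hq : CDOK Q) {a b : OG Q} (ha : a ∉ Cfsg.Omega F ⇑Q) (hb : b ∉ Cfsg.Omega F ⇑Q) : a * b ∈ Cfsg.Omega F ⇑Q := by
  obtain ⟨vs, hvs, rfl⟩ := exists_lp' hnd hq a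
  obtain ⟨ws, hws, rfl⟩ := exists_lp' hnd hq b
  have h2 : ringChar F = 2 := ringChar.eq F 2
  rw [lp_mem_omega_iff' hnd hq hvs] at ha
  rw [lp_mem_omega_iff' hnd hq hws] at hb
  rw [← lp_append, lp_mem_omega_iff' hnd hq (by
    intro w hw
    rcases List.mem_append.1 hw with hw | hw
    · exact hvs w hw
    · exact hws w hw)]
  refine ⟨?_, FiniteField.isSquare_of_char_two h2 _⟩
  rw [List.length_append, Nat.even_add]
  have h3 : ¬ Even vs.length := fun h => ha ⟨h, FiniteField.isSquare_of_char_two h2 _⟩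
  have h4 : ¬ Even ws.length := fun h => hb ⟨h, FiniteField.isSquare_of_char_two h2 _⟩
  simp [h3, h4]

theorem card_cent_eq (x : OG Q) : Nat.card {g : OG Q // g * x = x * g} = Nat.card (Subgroup.centralizer ({x} : Set (OG Q))) := by
  apply Nat.card_congr
  exact Equiv.subtypeEquivRight (fun g => by
    rw [Subgroup.mem_centralizer_singleton_iff])

/-- Halving when the centralizer is not inside `Ω`. -/
theorem cent_half (hnd : (QuadraticMap.polarBilin Q).Nondegenerate) (hq : CDOK Q) (x r : OG Q) (hr : r * x = x * r) (hrO : r ∉ Cfsg.Omega F ⇑Q) :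
    Nat.card {g : OG Q // g * x = x * g} = 2 * Nat.card {g : ↥(Cfsg.Omega F ⇑Q) // (g : OG Q) * x = x * (g : OG Q)} := by
  classical
  have h1 := card_eq_mul_of_fibers (α := {g : OG Q // g * x = x * g}) (β := Bool) (fun g => decide (g.1 ∈ Cfsg.Omega F ⇑Q)) (Nat.card {g : ↥(Cfsg.Omega F ⇑Q) // (g : OG Q) * x = x * (g : OG Q)}) ?_
  · rw [h1]
    simp
  · intro b
    cases b
    · apply Nat.card_congr
      refine
        { toFun := fun g => ⟨⟨r * g.1.1, ?_⟩, ?_⟩
          invFun := fun g => ⟨⟨r⁻¹ * g.1.1, ?_⟩, ?_⟩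
          left_inv := fun g => by
            apply Subtype.ext
            apply Subtype.ext
            group
          right_inv := fun g => by
            apply Subtype.ext
            apply Subtype.ext
            group }
      · exact omega_mul_of_not hnd hq hrO (by simpa using g.2)
      · change r * g.1.1 * x = x * (r * g.1.1)
        calc r * g.1.1 * x = r * (g.1.1 * x) := by group
          _ = r * (x * g.1.1) := by rw [g.1.2]
          _ = (r * x) * g.1.1 := by group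
          _ = x * (r * g.1.1) := by rw [hr]; group
      · have hrx : r⁻¹ * x = x * r⁻¹ := by
          calc r⁻¹ * x = r⁻¹ * (x * r) * r⁻¹ := by group
            _ = r⁻¹ * (r * x) * r⁻¹ := by rw [hr]
            _ = x * r⁻¹ := by group
        change r⁻¹ * g.1.1 * x = x * (r⁻¹ * g.1.1)
        calc r⁻¹ * g.1.1 * x = r⁻¹ * (g.1.1 * x) := by group
          _ = r⁻¹ * (x * g.1.1) := by rw [g.2]
          _ = (r⁻¹ * x) * g.1.1 := by group
          _ = x * (r⁻¹ * g.1.1) := by rw [hrx]; group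
      · simp only [decide_eq_false_iff_not]
        intro h
        apply hrO
        have := Subgroup.mul_mem _ g.1.2 (Subgroup.inv_mem _ h)
        have e : (g.1.1 : OG Q) * (r⁻¹ * g.1.1)⁻¹ = r := by group
        rwa [e] at this
    · apply Nat.card_congr
      refine
        { toFun := fun g => ⟨⟨g.1.1, by simpa using g.2⟩, g.1.2⟩
          invFun := fun g => ⟨⟨g.1.1, g.2⟩, by simpa using g.1.2⟩
          left_inv := fun g => rfl
          right_inv := fun g => rfl }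

/-- A reflection commuting with an involution. -/
theorem cent_half_of_fixed (hnd : (QuadraticMap.polarBilin Q).Nondegenerate) (hq : CDOK Q) (x : OG Q) {v : ι → F} (hv : Q v ≠ 0) (hxv : oM x *ᵥ v = v) :
    Nat.card {g : OG Q // g * x = x * g} = 2 * Nat.card {g : ↥(Cfsg.Omega F ⇑Q) // (g : OG Q) * x = x * (g : OG Q)} := by
  refine cent_half hnd hq x (rO Q v) (rO_comm hv hxv) ?_
  have h3 : rO Q v = lp Q [v] := by
    rw [lp_cons, lp_nil, mul_one]
  rw [h3, lp_mem_omega_iff' hnd hq (by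
    intro w hw
    rw [List.mem_singleton.1 hw]
    exact hv)]
  rintro ⟨h4, -⟩
  simp at h4

/-- The exceptional case: the centralizer lies in `Ω`. -/
theorem cent_all (hnd : (QuadraticMap.polarBilin Q).Nondegenerate) (hq : CDOK Q) {m : ℕ} (hc : Fintype.card ι = 2 * m) (x : OG Q) (hr : (oM x - 1).rank = m) (hA : IsAType x) :
    Nat.card {g : OG Q // g * x = x * g} = Nat.card {g : ↥(Cfsg.Omega F ⇑Q) // (g : OG Q) * x = x * (g : OG Q)} := by
  set U : Submodule F (ι → F) := LinearMap.range (Matrix.toLin' (oM x - 1)) with hU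
  have hUd : finrank F U = m := hr
  have hUM : Cfsg.Agent.Lib.ClassMax.OmegaCore.IsMaxTS (⇑Q) U := by
    refine ⟨?_, by rw [hUd, hc]⟩
    rintro _ ⟨y, rfl⟩
    have := hA y
    simpa [Matrix.toLin'_apply, sub_mulVec] using this
  have hmem : ∀ g : OG Q, g * x = x * g → g ∈ Cfsg.Omega F ⇑Q := by
    intro g hg
    rw [omega_par hnd hq hUM g]
    have h1 := range_conj g x
    have h3 : g * x * g⁻¹ = x := by
      rw [hg]
      group
    rw [h3] at h1
    rw [h1, inf_idem, hUd]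
    omega
  apply Nat.card_congr
  exact
    { toFun := fun g => ⟨⟨g.1, hmem g.1 g.2⟩, g.2⟩
      invFun := fun g => ⟨g.1.1, g.2⟩
      left_inv := fun g => rfl
      right_inv := fun g => rfl }

/-! ### Statements for a form given as a function -/

theorem omega_cent_nonalt {Q0 : (ι → F) → F} (h0 : NDQ Q0) (hq0 : ∀ Q : QuadraticForm F (ι → F), ⇑Q = Q0 → CDOK Q) {q m k : ℕ} (hF : Fintype.card F = q) (hc : Fintype.card ι = 2 * m)
    (hone : Nat.card {x : ι → F // Q0 x = 1} = q ^ (m - 1) * (q ^ m - 1))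
    (hO : Nat.card (Cfsg.isometryGroup F Q0) = 2 * q ^ (m * (m - 1)) * (q ^ m - 1) * ∏ i ∈ Finset.range (m - 1), (q ^ (2 * (i + 1)) - 1))
    (hmax : ∀ U : Submodule F (ι → F), (∀ u ∈ U, Q0 u = 0) → finrank F U ≤ m)
    (x : ↥(Cfsg.isometryGroup F Q0)) (hx : x * x = 1) (hr : (((x : ↥(Cfsg.isometryGroup F Q0)) : GL ι F) - 1 : Matrix ι ι F).rank = k + 1)
    (hA : ¬ ∀ v, Q0 (((x : ↥(Cfsg.isometryGroup F Q0)) : GL ι F) *ᵥ v - v) = 0) (hsm : k + 1 ≤ m) :
    Nat.card {g : ↥(Cfsg.Omega F Q0) // (g : ↥(Cfsg.isometryGroup F Q0)) * x = x * (g : ↥(Cfsg.isometryGroup F Q0))} * q ^ (m - 1) * q ^ (k * (k - 1) / 2) =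
      q ^ (m * (m - 1)) * Aq q (k + 1) * ∏ i ∈ Finset.range (m - 1 - k), (q ^ (2 * (i + 1)) - 1) := by
  obtain ⟨Q, rfl, hnd⟩ := h0
  have hq := hq0 Q rfl
  have h1 := o_cent_nonalt hnd hF hc hone hO x hx hr hA hsm
  obtain ⟨v, hv, hxv⟩ := exists_nonsingular_fixed hnd hx hc hmax (fun h => hA h.2)
  have h2 := cent_half_of_fixed hnd hq x hv hxv
  rw [← card_cent_eq, h2] at h1
  have e : 2 * q ^ (m * (m - 1)) * Aq q (k + 1) * ∏ i ∈ Finset.range (m - 1 - k), (q ^ (2 * (i + 1)) - 1) = 2 * (q ^ (m * (m - 1)) * Aq q (k + 1) * ∏ i ∈ Finset.range (m - 1 - k), (q ^ (2 * (i + 1)) - 1)) := by ring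
  rw [e] at h1
  have h3 : 2 * Nat.card {g : ↥(Cfsg.Omega F ⇑Q) // (g : OG Q) * x = x * (g : OG Q)} * q ^ (m - 1) * q ^ (k * (k - 1) / 2) = 2 * (Nat.card {g : ↥(Cfsg.Omega F ⇑Q) // (g : OG Q) * x = x * (g : OG Q)} * q ^ (m - 1) * q ^ (k * (k - 1) / 2)) := by ring
  rw [h3] at h1
  exact Nat.eq_of_mul_eq_mul_left (by omega) h1

theorem omega_cent_alt {Q0 : (ι → F) → F} (h0 : NDQ Q0) (hq0 : ∀ Q : QuadraticForm F (ι → F), ⇑Q = Q0 → CDOK Q) {q m r : ℕ} (hF : Fintype.card F = q) (hc : Fintype.card ι = 2 * m)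
    (hS : Nat.card {x : ι → F // Q0 x = 0} = SP q m) (hO : Nat.card (Cfsg.isometryGroup F Q0) = Dq q m)
    (hmax : ∀ U : Submodule F (ι → F), (∀ u ∈ U, Q0 u = 0) → finrank F U ≤ m)
    (x : ↥(Cfsg.isometryGroup F Q0)) (hx : x * x = 1) (hr : (((x : ↥(Cfsg.isometryGroup F Q0)) : GL ι F) - 1 : Matrix ι ι F).rank = 2 * r)
    (hA : ∀ v, Q0 (((x : ↥(Cfsg.isometryGroup F Q0)) : GL ι F) *ᵥ v - v) = 0) (hsm : 2 * r ≤ m) :
    (2 * r < m → 2 * Nat.card {g : ↥(Cfsg.Omega F Q0) // (g : ↥(Cfsg.isometryGroup F Q0)) * x = x * (g : ↥(Cfsg.isometryGroup F Q0))} =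
      q ^ (2 * m * (2 * r) - (3 * (2 * r) ^ 2 + 2 * r) / 2) * Dq q (m - 2 * r) * (q ^ (r ^ 2) * ∏ i ∈ Finset.range r, (q ^ (2 * (i + 1)) - 1))) ∧
    (2 * r = m → Nat.card {g : ↥(Cfsg.Omega F Q0) // (g : ↥(Cfsg.isometryGroup F Q0)) * x = x * (g : ↥(Cfsg.isometryGroup F Q0))} =
      q ^ (2 * m * (2 * r) - (3 * (2 * r) ^ 2 + 2 * r) / 2) * (q ^ (r ^ 2) * ∏ i ∈ Finset.range r, (q ^ (2 * (i + 1)) - 1))) := by
  obtain ⟨Q, rfl, hnd⟩ := h0
  have hq := hq0 Q rfl
  have h1 := o_cent_alt hnd hF hc hS hO x hx hr hA hsm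
  have hr' : (oM x - 1).rank = 2 * r := hr
  rw [← card_cent_eq] at h1
  constructor
  · intro hlt
    obtain ⟨v, hv, hxv⟩ := exists_nonsingular_fixed hnd hx hc hmax (fun h => by omega)
    rw [← cent_half_of_fixed hnd hq x hv hxv]
    exact h1
  · intro heq
    rw [← cent_all hnd hq hc x (by rw [hr', heq]) hA, h1, heq]
    simp [Dq]

/-! ### Numbers for the hyperbolic form -/

section plus

variable {q : ℕ}

omit [CharP F 2] in
theorem card_zero_plus (hF : Fintype.card F = q) (m : ℕ) : Nat.card {x : Fin m ⊕ Fin m → F // Cfsg.quadFormPlus m F x = 0} = SP q m := by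
  change hypCount F m 0 = SP q m
  induction m with
  | zero =>
    rw [hypCount_zero_zero]
    rfl
  | succ k ih =>
    rw [hypCount_succ hF, ih, SP]

omit [CharP F 2] in
theorem card_one_plus (hF : Fintype.card F = q) (m : ℕ) (hm : 1 ≤ m) : Nat.card {x : Fin m ⊕ Fin m → F // Cfsg.quadFormPlus m F x = 1} = q ^ (m - 1) * (q ^ m - 1) := by
  change hypCount F m 1 = _
  obtain ⟨k, rfl⟩ : ∃ k, m = k + 1 := ⟨m - 1, by omega⟩
  have h1 := hypCount_closed_ne hF k (1 : F) one_ne_zero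
  have hq : 2 ≤ q := hF ▸ Fintype.one_lt_card
  have h3 : 1 ≤ q ^ (k + 1) := Nat.one_le_pow _ _ (by omega)
  simp only [Nat.add_sub_cancel]
  zify [h3]
  rw [h1]
  ring

theorem card_O_plus (hF : Fintype.card F = q) (m : ℕ) : Nat.card (Cfsg.isometryGroup F (Cfsg.quadFormPlus m F)) = 2 * q ^ (m * (m - 1)) * (q ^ m - 1) * ∏ i ∈ Finset.range (m - 1), (q ^ (2 * (i + 1)) - 1) ∨ m = 0 := by
  rcases Nat.eq_zero_or_pos m with h | h
  · exact Or.inr h
  · exact Or.inl (card_isometry_plus hF m h)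

theorem card_O_plus_Dq (hF : Fintype.card F = q) (m : ℕ) (hm : 1 ≤ m) : Nat.card (Cfsg.isometryGroup F (Cfsg.quadFormPlus m F)) = Dq q m := by
  obtain ⟨k, rfl⟩ : ∃ k, m = k + 1 := ⟨m - 1, by omega⟩
  rw [card_isometry_plus hF (k + 1) hm, Dq_closed (hF ▸ two_le_card_field) k]
  simp

end plus

theorem expo3 {m s : ℕ} (h1 : 1 ≤ s) (hs : s ≤ m) : 2 * m * (s - 1) - (3 * s ^ 2 - 3 * s) / 2 + (m - s) ^ 2 + (m - 1) + (s - 1) * (s - 1 - 1) / 2 = m * (m - 1) := by
  obtain ⟨d, rfl⟩ : ∃ d, m = s + d := ⟨m - s, by omega⟩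
  obtain ⟨j, rfl⟩ : ∃ j, s = j + 1 := ⟨s - 1, by omega⟩
  simp only [Nat.add_sub_cancel]
  rw [show j + 1 + d - (j + 1) = d by omega, show j + 1 + d - 1 = j + d by omega]
  obtain ⟨T', hT'⟩ : ∃ T', j * (j + 1) = 2 * T' := by
    obtain ⟨r, hr⟩ := Nat.even_mul_succ_self j
    exact ⟨r, by omega⟩
  have h3 : (3 * (j + 1) ^ 2 - 3 * (j + 1)) / 2 = 3 * T' := by
    have : 3 * (j + 1) ^ 2 - 3 * (j + 1) = 2 * (3 * T') := by
      have e : 3 * (j + 1) ^ 2 = 3 * (j * (j + 1)) + 3 * (j + 1) := by ring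
      rw [e, hT']
      omega
    rw [this]
    omega
  have h4 : j * (j - 1) / 2 + j = T' := by
    cases j with
    | zero =>
      simp at hT' ⊢
      omega
    | succ i =>
      simp only [Nat.add_sub_cancel]
      obtain ⟨r, hr⟩ := Nat.even_mul_succ_self i
      have h6 : (i + 1) * i = 2 * r := by
        rw [mul_comm]
        omega
      rw [h6, Nat.mul_div_cancel_left _ (by omega : 0 < 2)]
      have h7 : (i + 1) * (i + 1 + 1) = i * (i + 1) + 2 * (i + 1) := by ring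
      rw [h7, hr] at hT'
      omega
  rw [h3]
  have e1 : 2 * (j + 1 + d) * j = 2 * (j * (j + 1)) + 2 * (d * j) := by ring
  have e2 : (j + d) * (j + d) = j * j + 2 * (d * j) + d * d := by ring
  rw [e1, hT']
  have e3 : (j + 1 + d) * (j + d) = j * (j + 1) + 2 * (d * j) + d * d + d := by ring
  rw [e3, hT', pow_two]
  omega

theorem expo4 {m s : ℕ} (h1 : 2 ≤ s) (hs : s ≤ m) : 2 * m * (s - 1) - (3 * s ^ 2 - 5 * s) / 2 - 1 + (m - s) ^ 2 + (m - 1) + (s - 1) * (s - 1 - 1) / 2 = m * (m - 1) + (s - 1) := by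
  have h0 := expo3 (m := m) (s := s) (by omega) hs
  obtain ⟨A, hA⟩ : ∃ A, (3 * s ^ 2 - 3 * s) / 2 = A := ⟨_, rfl⟩
  have h3 : (3 * s ^ 2 - 5 * s) / 2 + s = A := by
    rw [← hA]
    obtain ⟨j, rfl⟩ : ∃ j, s = j + 2 := ⟨s - 2, by omega⟩
    have e1 : 3 * (j + 2) ^ 2 = 3 * (j * j) + 12 * j + 12 := by ring
    rw [e1]
    omega
  rw [hA] at h0
  have h4 : A ≤ 2 * m * (s - 1) := by
    rw [← hA]
    have h5 : (3 * s ^ 2 - 3 * s) / 2 ≤ 2 * s * (s - 1) := by
      obtain ⟨j, rfl⟩ : ∃ j, s = j + 1 := ⟨s - 1, by omega⟩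
      simp only [Nat.add_sub_cancel]
      have e1 : 3 * (j + 1) ^ 2 = 3 * (j * j) + 6 * j + 3 := by ring
      have e2 : 2 * (j + 1) * j = 2 * (j * j) + 2 * j := by ring
      rw [e1, e2]
      omega
    calc _ ≤ 2 * s * (s - 1) := h5
      _ ≤ 2 * m * (s - 1) := by
        apply Nat.mul_le_mul_right
        omega
  have h5 : s + (s - 1) * (s - 1 - 1) / 2 = (s - 1) * (s - 1 - 1) / 2 + s := by ring
  omega

theorem finish3 {q C m s X P : ℕ} (hq : 2 ≤ q) (h1 : 1 ≤ s) (hsm : s ≤ m) (h : C * q ^ (m - 1) * q ^ ((s - 1) * (s - 1 - 1) / 2) = q ^ (m * (m - 1)) * X * P) :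
    C = q ^ (2 * m * (s - 1) - (3 * s ^ 2 - 3 * s) / 2) * X * (q ^ ((m - s) ^ 2) * P) := by
  apply Nat.eq_of_mul_eq_mul_right (Nat.mul_pos (Nat.pow_pos (n := m - 1) (by omega : 0 < q)) (Nat.pow_pos (n := (s - 1) * (s - 1 - 1) / 2) (by omega : 0 < q)))
  rw [← mul_assoc, h, ← expo3 h1 hsm, pow_add, pow_add, pow_add]
  ring

theorem finish4 {q C m s X P : ℕ} (hq : 2 ≤ q) (h1 : 2 ≤ s) (hsm : s ≤ m) (h : C * q ^ (m - 1) * q ^ ((s - 1) * (s - 1 - 1) / 2) = q ^ (m * (m - 1)) * (q ^ (s - 1) * X) * P) :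
    C = q ^ (2 * m * (s - 1) - (3 * s ^ 2 - 5 * s) / 2 - 1) * X * (q ^ ((m - s) ^ 2) * P) := by
  apply Nat.eq_of_mul_eq_mul_right (Nat.mul_pos (Nat.pow_pos (n := m - 1) (by omega : 0 < q)) (Nat.pow_pos (n := (s - 1) * (s - 1 - 1) / 2) (by omega : 0 < q)))
  have e := expo4 h1 hsm
  have e' : q ^ (2 * m * (s - 1) - (3 * s ^ 2 - 5 * s) / 2 - 1) * q ^ ((m - s) ^ 2) * q ^ (m - 1) * q ^ ((s - 1) * (s - 1 - 1) / 2) = q ^ (m * (m - 1)) * q ^ (s - 1) := by
    rw [← pow_add, ← pow_add, ← pow_add, ← pow_add, e]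
  rw [← mul_assoc, h]
  calc q ^ (m * (m - 1)) * (q ^ (s - 1) * X) * P = (q ^ (m * (m - 1)) * q ^ (s - 1)) * (X * P) := by ring
    _ = _ := by
      rw [← e']
      ring

theorem rank_le_Q0 {Q0 : (ι → F) → F} (h0 : NDQ Q0) {m : ℕ} (hc : Fintype.card ι = 2 * m) (x : ↥(Cfsg.isometryGroup F Q0)) (hx : x * x = 1) :
    (((x : ↥(Cfsg.isometryGroup F Q0)) : GL ι F) - 1 : Matrix ι ι F).rank ≤ m := by
  obtain ⟨Q, rfl, hnd⟩ := h0
  exact (fixed_dim hnd hx hc).1

theorem even_of_alt_Q0 {Q0 : (ι → F) → F} (h0 : NDQ Q0) (x : ↥(Cfsg.isometryGroup F Q0)) (hx : x * x = 1) (hA : ∀ v, Q0 (((x : ↥(Cfsg.isometryGroup F Q0)) : GL ι F) *ᵥ v - v) = 0) :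
    ∃ k, (((x : ↥(Cfsg.isometryGroup F Q0)) : GL ι F) - 1 : Matrix ι ι F).rank = 2 * k := by
  obtain ⟨Q, rfl, hnd⟩ := h0
  exact even_of_A hnd hx hA

omit [CharP F 2] [Fintype F] in
theorem eq_one_of_rank_zero {Q0 : (ι → F) → F} (x : ↥(Cfsg.isometryGroup F Q0)) (h : (((x : ↥(Cfsg.isometryGroup F Q0)) : GL ι F) - 1 : Matrix ι ι F).rank = 0) : x = 1 := by
  apply Subtype.ext
  apply Units.ext
  have h3 : Module.finrank F (LinearMap.range ((((x : ↥(Cfsg.isometryGroup F Q0)) : GL ι F) - 1 : Matrix ι ι F).mulVecLin)) = 0 := h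
  have h4 := Submodule.finrank_eq_zero.1 h3
  apply Cfsg.Agent.Lib.Classical.mat_ext_mulVec
  intro y
  have h5 : (((x : ↥(Cfsg.isometryGroup F Q0)) : GL ι F) - 1 : Matrix ι ι F).mulVecLin y ∈ LinearMap.range ((((x : ↥(Cfsg.isometryGroup F Q0)) : GL ι F) - 1 : Matrix ι ι F).mulVecLin) := ⟨y, rfl⟩
  rw [h4, Submodule.mem_bot] at h5
  have h6 : (((x : ↥(Cfsg.isometryGroup F Q0)) : GL ι F) : Matrix ι ι F) *ᵥ y - y = 0 := by
    simpa [Matrix.sub_mulVec] using h5
  change (((x : ↥(Cfsg.isometryGroup F Q0)) : GL ι F) : Matrix ι ι F) *ᵥ y = (1 : Matrix ι ι F) *ᵥ y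
  rw [Matrix.one_mulVec]
  exact sub_eq_zero.1 h6

end Cfsg.Agent.Lib.Classical.InvolEven
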