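import Mathlib
import Cfsg.Prelude.Def_Classical

/-! Maximal totally singular subspaces of a hyperbolic quadric. -/

set_option autoImplicit false
set_option linter.unusedSimpArgs false
set_option linter.unusedVariables false
set_option linter.unusedSectionVars false
set_option linter.style.haveILetI false

namespace Cfsg.Agent.Lib.Classical

open Module

variable {F V : Type*} [Field F] [AddCommGroup V] [Module F V] [FiniteDimensional F V]

/-- The hypotheses on a quadratic space of dimension `2m`. -/
structure QSp (B : LinearMap.BilinForm F V) (Q : V → F) (m : ℕ) : Prop where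
  symm : ∀ x y, B x y = B y x
  nondeg : B.Nondegenerate
  add : ∀ x y, Q (x + y) = Q x + Q y + B x y
  smul : ∀ (c : F) x, Q (c • x) = c ^ 2 * Q x
  dim : finrank F V = 2 * m

variable {B : LinearMap.BilinForm F V} {Q : V → F} {m : ℕ} (H : QSp B Q m)
include H

namespace QSp

omit [FiniteDimensional F V] in
theorem isRefl : B.IsRefl := fun x y h => by rw [H.symm, h]

omit [FiniteDimensional F V] in
theorem q_zero : Q 0 = 0 := by
  have := H.smul 0 0
  simpa using this

omit [FiniteDimensional F V] in
theorem q_neg (x : V) : Q (-x) = Q x := by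
  have := H.smul (-1) x
  simpa using this

omit [FiniteDimensional F V] in
theorem ts_bil {W : Submodule F V} (hW : ∀ x ∈ W, Q x = 0) {x y : V} (hx : x ∈ W) (hy : y ∈ W) : B x y = 0 := by
  have := H.add x y
  rw [hW _ (W.add_mem hx hy), hW x hx, hW y hy] at this
  simpa using this.symm

theorem finrank_orth (W : Submodule F V) : finrank F (B.orthogonal W) + finrank F W = 2 * m := by
  have h1 := LinearMap.BilinForm.finrank_orthogonal H.nondeg W
  have h2 := Submodule.finrank_le W
  rw [H.dim] at h1 h2
  omega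

omit [FiniteDimensional F V] in
theorem mem_orth {W : Submodule F V} {x : V} : x ∈ B.orthogonal W ↔ ∀ w ∈ W, B w x = 0 := by
  simp [LinearMap.BilinForm.mem_orthogonal_iff, LinearMap.BilinForm.IsOrtho]

theorem orth_eq {W : Submodule F V} (hW : ∀ x ∈ W, Q x = 0) (hd : finrank F W = m) : B.orthogonal W = W := by
  symm
  apply Submodule.eq_of_le_of_finrank_eq
  · intro x hx
    rw [H.mem_orth]
    intro w hw
    exact H.ts_bil hW hw hx
  · have := H.finrank_orth W
    omega

omit H in
theorem sup_span_eq {W A : Submodule F V} {u : V} (hA : A ≤ W) (hd : finrank F A + 1 = finrank F W) (hu : u ∈ W) (huA : u ∉ A) :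
    A ⊔ Submodule.span F {u} = W := by
  apply Submodule.eq_of_le_of_finrank_le
  · exact sup_le hA (by rwa [Submodule.span_singleton_le_iff_mem])
  · have h1 : finrank F A < finrank F (A ⊔ Submodule.span F {u} : Submodule F V) := by
      apply Submodule.finrank_lt_finrank_of_lt
      apply lt_of_le_of_ne le_sup_left
      intro h
      apply huA
      rw [h]
      exact Submodule.mem_sup_right (Submodule.mem_span_singleton_self u)
    omega

omit [FiniteDimensional F V] in
omit H in
theorem mem_sup_span {A : Submodule F V} {u x : V} : x ∈ A ⊔ Submodule.span F {u} ↔ ∃ a ∈ A, ∃ c : F, x = a + c • u := by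
  rw [Submodule.mem_sup]
  constructor
  · rintro ⟨a, ha, z, hz, rfl⟩
    obtain ⟨c, rfl⟩ := Submodule.mem_span_singleton.1 hz
    exact ⟨a, ha, c, rfl⟩
  · rintro ⟨a, ha, c, rfl⟩
    exact ⟨a, ha, c • u, Submodule.smul_mem _ _ (Submodule.mem_span_singleton_self u), rfl⟩

/-- The neighbour lemma. -/
theorem neighbour {U W W' : Submodule F V} (hU : ∀ x ∈ U, Q x = 0) (hUd : finrank F U = m)
    (hW : ∀ x ∈ W, Q x = 0) (hWd : finrank F W = m) (hW' : ∀ x ∈ W', Q x = 0) (hW'd : finrank F W' = m)
    (hn : finrank F (W ⊓ W' : Submodule F V) + 1 = m) :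
    finrank F (U ⊓ W : Submodule F V) + 1 = finrank F (U ⊓ W' : Submodule F V) ∨
      finrank F (U ⊓ W' : Submodule F V) + 1 = finrank F (U ⊓ W : Submodule F V) := by
  classical
  set D := W ⊓ W' with hD
  set A := U ⊓ W with hA
  set A' := U ⊓ W' with hA'
  set C := U ⊓ D with hC
  have hAH : A ⊓ D = C := by
    rw [hA, hC, hD]
    ext x
    simp only [Submodule.mem_inf]
    tauto
  have hA'H : A' ⊓ D = C := by
    rw [hA', hC, hD]
    ext x
    simp only [Submodule.mem_inf]
    tauto
  have hCA : C ≤ A := by rw [← hAH]; exact inf_le_left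
  have hCA' : C ≤ A' := by rw [← hA'H]; exact inf_le_left
  have h1 : finrank F A ≤ finrank F C + 1 := by
    have h2 := Submodule.finrank_sup_add_finrank_inf_eq A D
    rw [hAH] at h2
    have h3 : finrank F (A ⊔ D : Submodule F V) ≤ m := by
      rw [← hWd]
      apply Submodule.finrank_mono
      exact sup_le inf_le_right inf_le_left
    omega
  have h1' : finrank F A' ≤ finrank F C + 1 := by
    have h2 := Submodule.finrank_sup_add_finrank_inf_eq A' D
    rw [hA'H] at h2
    have h3 : finrank F (A' ⊔ D : Submodule F V) ≤ m := by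
      rw [← hW'd]
      apply Submodule.finrank_mono
      exact sup_le inf_le_right inf_le_right
    omega
  have h2 : finrank F C ≤ finrank F A := Submodule.finrank_mono hCA
  have h2' : finrank F C ≤ finrank F A' := Submodule.finrank_mono hCA'
  have hWo := H.orth_eq hW hWd
  have hW'o := H.orth_eq hW' hW'd
  -- not both large
  have hnotboth : ¬ (finrank F A = finrank F C + 1 ∧ finrank F A' = finrank F C + 1) := by
    rintro ⟨h3, h3'⟩
    obtain ⟨u, huA, huC⟩ : ∃ u ∈ A, u ∉ C := by
      by_contra hcon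
      push Not at hcon
      have : A ≤ C := hcon
      have := Submodule.finrank_mono this
      omega
    obtain ⟨u', huA', huC'⟩ : ∃ u ∈ A', u ∉ C := by
      by_contra hcon
      push Not at hcon
      have : A' ≤ C := hcon
      have := Submodule.finrank_mono this
      omega
    have hu'W : u' ∉ W := by
      intro h
      apply huC'
      rw [hC, hD]
      exact ⟨huA'.1, h, huA'.2⟩
    have huD : u ∉ D := by
      intro h
      apply huC
      rw [hC]
      exact ⟨huA.1, h⟩
    have hWs : D ⊔ Submodule.span F {u} = W := sup_span_eq inf_le_left (by omega) huA.2 huD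
    apply hu'W
    rw [← hWo, H.mem_orth]
    intro w hw
    rw [← hWs, mem_sup_span] at hw
    obtain ⟨a, ha, c, rfl⟩ := hw
    have e1 : B a u' = 0 := H.ts_bil hW' ha.2 huA'.2
    have e2 : B u u' = 0 := H.ts_bil hU huA.1 huA'.1
    simp [e1, e2]
  -- not both small
  have hnotboth2 : ¬ (finrank F A = finrank F C ∧ finrank F A' = finrank F C) := by
    rintro ⟨h3, h3'⟩
    have hAC : A = C := (Submodule.eq_of_le_of_finrank_eq hCA h3.symm).symm
    have hA'C : A' = C := (Submodule.eq_of_le_of_finrank_eq hCA' h3'.symm).symm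
    obtain ⟨w, hw, hwD⟩ : ∃ w ∈ W, w ∉ D := by
      by_contra hcon
      push Not at hcon
      have : W ≤ D := hcon
      have := Submodule.finrank_mono this
      omega
    obtain ⟨w', hw', hwD'⟩ : ∃ w ∈ W', w ∉ D := by
      by_contra hcon
      push Not at hcon
      have : W' ≤ D := hcon
      have := Submodule.finrank_mono this
      omega
    have hCW : ∀ x ∈ C, x ∈ W ∧ x ∈ W' ∧ x ∈ U := fun x hx => ⟨hx.2.1, hx.2.2, hx.1⟩
    have hT : finrank F (U ⊔ D : Submodule F V) + finrank F C = m + (m - 1) := by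
      have := Submodule.finrank_sup_add_finrank_inf_eq U D
      rw [hUd] at this
      have h5 : finrank F D = m - 1 := by omega
      rw [h5] at this
      exact this
    set T := U ⊔ D with hTdef
    have hwT : w ∉ T := by
      intro h
      obtain ⟨u, hu, d, hd, rfl⟩ := Submodule.mem_sup.1 h
      have hu2 : u ∈ W := by
        have := W.sub_mem hw hd.1
        simpa using this
      have hu3 : u ∈ A := ⟨hu, hu2⟩
      rw [hAC] at hu3
      exact hwD (D.add_mem hu3.2 hd)
    have hw'T : w' ∉ T := by
      intro h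
      obtain ⟨u, hu, d, hd, rfl⟩ := Submodule.mem_sup.1 h
      have hu2 : u ∈ W' := by
        have := W'.sub_mem hw' hd.2
        simpa using this
      have hu3 : u ∈ A' := ⟨hu, hu2⟩
      rw [hA'C] at hu3
      exact hwD' (D.add_mem hu3.2 hd)
    have hO := H.finrank_orth C
    have hTO : T ≤ B.orthogonal C := by
      apply sup_le
      · intro x hx
        rw [H.mem_orth]
        intro c hc
        exact H.ts_bil hU hc.1 hx
      · intro x hx
        rw [H.mem_orth]
        intro c hc
        exact H.ts_bil hW hc.2.1 hx.1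
    have hwO : w ∈ B.orthogonal C := by
      rw [H.mem_orth]
      intro c hc
      exact H.ts_bil hW hc.2.1 hw
    have hw'O : w' ∈ B.orthogonal C := by
      rw [H.mem_orth]
      intro c hc
      exact H.ts_bil hW' hc.2.2 hw'
    have hS : T ⊔ Submodule.span F {w} = B.orthogonal C := by
      apply sup_span_eq hTO _ hwO hwT
      have hm1 : 1 ≤ m := by omega
      omega
    rw [← hS, mem_sup_span] at hw'O
    obtain ⟨t, ht, c, hc⟩ := hw'O
    have hc0 : c ≠ 0 := by
      rintro rfl
      rw [zero_smul, add_zero] at hc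
      rw [hc] at hw'T
      exact hw'T ht
    obtain ⟨u, hu, d, hd, rfl⟩ := Submodule.mem_sup.1 ht
    set z := d + c • w with hz
    have hzW : z ∈ W := W.add_mem hd.1 (W.smul_mem _ hw)
    have hue : u = w' + -z := by
      rw [hc, hz]
      abel
    have h5 : Q u = 0 := hU u hu
    rw [hue, H.add, hW' _ hw', H.q_neg, hW z hzW, zero_add, zero_add, map_neg] at h5
    have h6 : B w' z = 0 := by simpa using h5
    have hzW' : z ∈ W' := by
      rw [← hW'o, H.mem_orth]
      intro y hy
      have hWs' : D ⊔ Submodule.span F {w'} = W' := sup_span_eq inf_le_right (by omega) hw' hwD'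
      rw [← hWs', mem_sup_span] at hy
      obtain ⟨a, ha, e, rfl⟩ := hy
      have e1 : B a z = 0 := H.ts_bil hW ha.1 hzW
      simp [e1, h6]
    have hzD : z ∈ D := ⟨hzW, hzW'⟩
    have : c • w ∈ D := by
      have := D.sub_mem hzD hd
      rw [hz] at this
      simpa using this
    exact hwD ((Submodule.smul_mem_iff D hc0).1 this)
  omega

/-- The neighbour construction. -/
theorem exists_neighbour {W X : Submodule F V} (hW : ∀ x ∈ W, Q x = 0) (hWd : finrank F W = m)
    (hX : ∀ x ∈ X, Q x = 0) (hXd : finrank F X = m) (hne : finrank F (W ⊓ X : Submodule F V) < m) :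
    ∃ W' : Submodule F V, (∀ x ∈ W', Q x = 0) ∧ finrank F W' = m ∧ finrank F (W ⊓ W' : Submodule F V) + 1 = m ∧
      finrank F (W' ⊓ X : Submodule F V) = finrank F (W ⊓ X : Submodule F V) + 1 := by
  classical
  have hWo := H.orth_eq hW hWd
  obtain ⟨x, hxX, hxW⟩ : ∃ x ∈ X, x ∉ W := by
    by_contra hcon
    push Not at hcon
    have : X ≤ W := hcon
    have h1 : X ⊓ W = X := inf_eq_left.2 this
    rw [inf_comm, h1] at hne
    omega
  have hxX0 : Q x = 0 := hX x hxX
  -- the hyperplane
  let E : Submodule F V := W ⊓ LinearMap.ker (B x)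
  have hEW : E ≤ W := inf_le_left
  have hE : finrank F E + 1 = m := by
    -- restriction of the functional to `W`
    have hnz : ∃ w ∈ W, B x w ≠ 0 := by
      by_contra hcon
      push Not at hcon
      apply hxW
      rw [← hWo, H.mem_orth]
      intro w hw
      rw [H.symm]
      exact hcon w hw
    obtain ⟨w0, hw0, hw0x⟩ := hnz
    have hw0E : w0 ∉ E := fun h => hw0x h.2
    -- `E` plus `w0` is `W`
    have hsup : finrank F (E ⊔ Submodule.span F {w0} : Submodule F V) = m := by
      have : E ⊔ Submodule.span F {w0} = W := by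
        apply le_antisymm
        · exact sup_le hEW (by rwa [Submodule.span_singleton_le_iff_mem])
        · intro y hy
          rw [mem_sup_span]
          refine ⟨y - (B x y / B x w0) • w0, ⟨W.sub_mem hy (W.smul_mem _ hw0), ?_⟩, B x y / B x w0, by abel⟩
          change B x (y - (B x y / B x w0) • w0) = 0
          simp only [map_sub, map_smul, smul_eq_mul]
          field_simp
          ring
      rw [this, hWd]
    have h3 := Submodule.finrank_sup_add_finrank_inf_eq E (Submodule.span F {w0})
    have h4 : E ⊓ Submodule.span F {w0} = ⊥ := by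
      rw [Submodule.eq_bot_iff]
      rintro y ⟨hy1, hy2⟩
      obtain ⟨c, rfl⟩ := Submodule.mem_span_singleton.1 hy2
      by_cases hc : c = 0
      · simp [hc]
      · exact absurd ((Submodule.smul_mem_iff E hc).1 hy1) hw0E
    have hw00 : w0 ≠ 0 := by
      rintro rfl
      exact hw0x (by simp)
    rw [h4, hsup, finrank_bot, finrank_span_singleton hw00] at h3
    omega
  let W' : Submodule F V := E ⊔ Submodule.span F {x}
  have hxE : x ∉ E := fun h => hxW (hEW h)
  have hW'd : finrank F W' = m := by
    have h3 := Submodule.finrank_sup_add_finrank_inf_eq E (Submodule.span F {x})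
    have h4 : E ⊓ Submodule.span F {x} = ⊥ := by
      rw [Submodule.eq_bot_iff]
      rintro y ⟨hy1, hy2⟩
      obtain ⟨c, rfl⟩ := Submodule.mem_span_singleton.1 hy2
      by_cases hc : c = 0
      · simp [hc]
      · exact absurd ((Submodule.smul_mem_iff E hc).1 hy1) hxE
    have hx0 : x ≠ 0 := by
      rintro rfl
      exact hxW (zero_mem _)
    rw [h4, finrank_bot, finrank_span_singleton hx0] at h3
    change finrank F (E ⊔ Submodule.span F {x} : Submodule F V) = m
    omega
  have hW'ts : ∀ y ∈ W', Q y = 0 := by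
    intro y hy
    obtain ⟨a, ha, c, rfl⟩ := mem_sup_span.1 hy
    rw [H.add, hW a ha.1, H.smul, hxX0, map_smul, smul_eq_mul]
    have e1 : B a x = 0 := by
      rw [H.symm]
      exact ha.2
    rw [e1]
    ring
  have hinter : W ⊓ W' = E := by
    apply le_antisymm
    · rintro y ⟨hy1, hy2⟩
      obtain ⟨a, ha, c, rfl⟩ := mem_sup_span.1 hy2
      have h5 : c • x ∈ W := by
        have := W.sub_mem hy1 ha.1
        simpa using this
      by_cases hc : c = 0
      · simpa [hc] using ha
      · exact absurd ((Submodule.smul_mem_iff W hc).1 h5) hxW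
    · exact le_inf hEW le_sup_left
  have hinter2 : W' ⊓ X = (W ⊓ X) ⊔ Submodule.span F {x} := by
    apply le_antisymm
    · rintro y ⟨hy1, hy2⟩
      obtain ⟨a, ha, c, rfl⟩ := mem_sup_span.1 hy1
      rw [mem_sup_span]
      refine ⟨a, ⟨ha.1, ?_⟩, c, rfl⟩
      have := X.sub_mem hy2 (X.smul_mem c hxX)
      simpa using this
    · apply sup_le
      · intro y hy
        refine ⟨Submodule.mem_sup_left ⟨hy.1, ?_⟩, hy.2⟩
        exact H.ts_bil hX hxX hy.2
      · rw [Submodule.span_singleton_le_iff_mem]
        exact ⟨Submodule.mem_sup_right (Submodule.mem_span_singleton_self x), hxX⟩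
  refine ⟨W', hW'ts, hW'd, by rw [hinter]; exact hE, ?_⟩
  rw [hinter2]
  have h3 := Submodule.finrank_sup_add_finrank_inf_eq (W ⊓ X) (Submodule.span F {x})
  have h4 : (W ⊓ X) ⊓ Submodule.span F {x} = ⊥ := by
    rw [Submodule.eq_bot_iff]
    rintro y ⟨hy1, hy2⟩
    obtain ⟨c, rfl⟩ := Submodule.mem_span_singleton.1 hy2
    by_cases hc : c = 0
    · simp [hc]
    · exact absurd ((Submodule.smul_mem_iff _ hc).1 hy1).1 hxW
  have hx0 : x ≠ 0 := by
    rintro rfl
    exact hxW (zero_mem _)
  rw [h4, finrank_bot, finrank_span_singleton hx0] at h3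
  omega

/-- Parity. -/
theorem parity (d : ℕ) : ∀ {U W X : Submodule F V}, (∀ x ∈ U, Q x = 0) → finrank F U = m →
    (∀ x ∈ W, Q x = 0) → finrank F W = m → (∀ x ∈ X, Q x = 0) → finrank F X = m →
    finrank F (W ⊓ X : Submodule F V) + d = m →
    (finrank F (U ⊓ W : Submodule F V) + finrank F (U ⊓ X : Submodule F V) + d) % 2 = 0 := by
  induction d with
  | zero =>
    intro U W X hU hUd hW hWd hX hXd h
    have h1 : W ⊓ X = W := Submodule.eq_of_le_of_finrank_eq inf_le_left (by omega)
    have h2 : W ⊓ X = X := Submodule.eq_of_le_of_finrank_eq inf_le_right (by omega)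
    have h3 : W = X := h1.symm.trans h2
    subst h3
    omega
  | succ d ih =>
    intro U W X hU hUd hW hWd hX hXd h
    obtain ⟨W', h1, h2, h3, h4⟩ := H.exists_neighbour hW hWd hX hXd (by omega)
    have h5 := ih hU hUd h1 h2 hX hXd (by omega)
    have h6 := H.neighbour hU hUd hW hWd h1 h2 h3
    omega

/-- The final parity statement. -/
theorem parity_three {U W X : Submodule F V} (hU : ∀ x ∈ U, Q x = 0) (hUd : finrank F U = m)
    (hW : ∀ x ∈ W, Q x = 0) (hWd : finrank F W = m) (hX : ∀ x ∈ X, Q x = 0) (hXd : finrank F X = m) :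
    Even ((m - finrank F (U ⊓ W : Submodule F V)) + (m - finrank F (W ⊓ X : Submodule F V)) + (m - finrank F (U ⊓ X : Submodule F V))) := by
  have h1 : finrank F (U ⊓ W : Submodule F V) ≤ m := by
    rw [← hUd]
    exact Submodule.finrank_mono inf_le_left
  have h2 : finrank F (U ⊓ X : Submodule F V) ≤ m := by
    rw [← hUd]
    exact Submodule.finrank_mono inf_le_left
  have h3 : finrank F (W ⊓ X : Submodule F V) ≤ m := by
    rw [← hWd]
    exact Submodule.finrank_mono inf_le_left
  have := H.parity (m - finrank F (W ⊓ X : Submodule F V)) hU hUd hW hWd hX hXd (by omega)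
  rw [Nat.even_iff]
  omega

/-- The two subspaces above a subspace of codimension one. -/
theorem exactly_two {U X : Submodule F V} (hU : ∀ x ∈ U, Q x = 0) (hUd : finrank F U + 1 = m)
    (hX : ∀ x ∈ X, Q x = 0) (hXd : finrank F X = m) :
    ∃ W₀ W₁ : Submodule F V, W₀ ≠ W₁ ∧ (∀ x ∈ W₀, Q x = 0) ∧ finrank F W₀ = m ∧ U ≤ W₀ ∧
      (∀ x ∈ W₁, Q x = 0) ∧ finrank F W₁ = m ∧ U ≤ W₁ ∧ finrank F (W₀ ⊓ W₁ : Submodule F V) + 1 = m ∧
      ∀ W : Submodule F V, (∀ x ∈ W, Q x = 0) → finrank F W = m → U ≤ W → W = W₀ ∨ W = W₁ := by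
  classical
  have hOU : finrank F (B.orthogonal U) = m + 1 := by
    have := H.finrank_orth U
    omega
  -- a singular vector in `U^⊥` outside `U`
  obtain ⟨x, hxX, hxO, hxU⟩ : ∃ x ∈ X, x ∈ B.orthogonal U ∧ x ∉ U := by
    by_contra hcon
    push Not at hcon
    have hle : X ⊓ B.orthogonal U ≤ X ⊓ U := fun y hy => ⟨hy.1, hcon y hy.1 hy.2⟩
    have h1 := Submodule.finrank_mono hle
    have h2 := Submodule.finrank_sup_add_finrank_inf_eq X (B.orthogonal U)
    have h3 : X ⊔ B.orthogonal U ≤ B.orthogonal (X ⊓ U) := by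
      apply sup_le
      · intro y hy
        rw [H.mem_orth]
        intro z hz
        exact H.ts_bil hX hz.1 hy
      · intro y hy
        rw [H.mem_orth]
        intro z hz
        exact (H.mem_orth.1 hy) z hz.2
    have h4 := Submodule.finrank_mono h3
    have h5 := H.finrank_orth (X ⊓ U)
    omega
  have hx0 : x ≠ 0 := by
    rintro rfl
    exact hxU (zero_mem _)
  have hxQ : Q x = 0 := hX x hxX
  have hsupd : ∀ z, z ≠ 0 → z ∉ U → finrank F (U ⊔ Submodule.span F {z} : Submodule F V) = m := by
    intro z hz0 hzU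
    have h3 := Submodule.finrank_sup_add_finrank_inf_eq U (Submodule.span F {z})
    have h4 : U ⊓ Submodule.span F {z} = ⊥ := by
      rw [Submodule.eq_bot_iff]
      rintro y ⟨hy1, hy2⟩
      obtain ⟨c, rfl⟩ := Submodule.mem_span_singleton.1 hy2
      by_cases hc : c = 0
      · simp [hc]
      · exact absurd ((Submodule.smul_mem_iff U hc).1 hy1) hzU
    rw [h4, finrank_bot, finrank_span_singleton hz0] at h3
    omega
  have hsupts : ∀ z, z ∈ B.orthogonal U → Q z = 0 → ∀ y ∈ U ⊔ Submodule.span F {z}, Q y = 0 := by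
    intro z hz hQz y hy
    obtain ⟨a, ha, c, rfl⟩ := mem_sup_span.1 hy
    rw [H.add, hU a ha, H.smul, hQz, map_smul, smul_eq_mul, H.mem_orth.1 hz a ha]
    ring
  let W₀ := U ⊔ Submodule.span F {x}
  have hW₀ : ∀ y ∈ W₀, Q y = 0 := hsupts x hxO hxQ
  have hW₀d : finrank F W₀ = m := hsupd x hx0 hxU
  have hW₀o := H.orth_eq hW₀ hW₀d
  -- a vector outside `W₀`
  obtain ⟨z, hzO, hzW⟩ : ∃ z ∈ B.orthogonal U, z ∉ W₀ := by
    by_contra hcon
    push Not at hcon
    have : B.orthogonal U ≤ W₀ := hcon
    have := Submodule.finrank_mono this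
    omega
  have hxz : B x z ≠ 0 := by
    intro h0
    apply hzW
    rw [← hW₀o, H.mem_orth]
    intro w hw
    obtain ⟨a, ha, c, rfl⟩ := mem_sup_span.1 hw
    simp only [map_add, LinearMap.add_apply, map_smul, LinearMap.smul_apply, smul_eq_mul, H.mem_orth.1 hzO a ha, h0]
    simp
  -- normalise
  obtain ⟨z', hz'O, hxz'⟩ : ∃ z' ∈ B.orthogonal U, B x z' = 1 :=
    ⟨(B x z)⁻¹ • z, (B.orthogonal U).smul_mem _ hzO, by
      rw [map_smul, smul_eq_mul, inv_mul_cancel₀ hxz]⟩
  have hxx : B x x = 0 := H.ts_bil hW₀ (Submodule.mem_sup_right (Submodule.mem_span_singleton_self x)) (Submodule.mem_sup_right (Submodule.mem_span_singleton_self x))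
  obtain ⟨y, hy⟩ : ∃ y, y = z' - Q z' • x := ⟨_, rfl⟩
  have hxy : B x y = 1 := by
    rw [hy, map_sub, map_smul, smul_eq_mul, hxz', hxx]
    ring
  have hyO : y ∈ B.orthogonal U := by
    rw [hy]
    exact (B.orthogonal U).sub_mem hz'O ((B.orthogonal U).smul_mem _ hxO)
  have hyQ : Q y = 0 := by
    rw [hy, sub_eq_add_neg, H.add, H.q_neg, H.smul, hxQ, map_neg, map_smul, smul_eq_mul, H.symm z' x, hxz']
    ring
  have hyU : y ∉ U := by
    intro h
    have := H.mem_orth.1 hxO y h
    rw [H.symm, hxy] at this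
    exact one_ne_zero this
  have hy0 : y ≠ 0 := by
    rintro rfl
    exact hyU (zero_mem _)
  let W₁ := U ⊔ Submodule.span F {y}
  have hW₁ : ∀ v ∈ W₁, Q v = 0 := hsupts y hyO hyQ
  have hW₁d : finrank F W₁ = m := hsupd y hy0 hyU
  have hUW₀ : U ≤ W₀ := le_sup_left
  have hUW₁ : U ≤ W₁ := le_sup_left
  have hxW₀ : x ∈ W₀ := Submodule.mem_sup_right (Submodule.mem_span_singleton_self x)
  have hyW₁ : y ∈ W₁ := Submodule.mem_sup_right (Submodule.mem_span_singleton_self y)
  have hne : W₀ ≠ W₁ := by
    intro h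
    have h1 : y ∈ W₀ := by rw [h]; exact hyW₁
    have := H.ts_bil hW₀ hxW₀ h1
    rw [hxy] at this
    exact one_ne_zero this
  have hinter : W₀ ⊓ W₁ = U := by
    apply le_antisymm
    · rintro v ⟨h1, h2⟩
      obtain ⟨a, ha, c, rfl⟩ := mem_sup_span.1 h1
      obtain ⟨a', ha', c', hv⟩ := mem_sup_span.1 h2
      -- pairing with `x` and `y`
      have h3 := congrArg (B x) hv
      have hxa : B x a = 0 := by rw [H.symm]; exact H.mem_orth.1 hxO a ha
      have hxa' : B x a' = 0 := by rw [H.symm]; exact H.mem_orth.1 hxO a' ha'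
      simp only [map_add, map_smul, smul_eq_mul, hxa, hxa', hxx, hxy, zero_add, mul_zero, mul_one, add_zero] at h3
      have hc' : c' = 0 := h3.symm
      rw [hc', zero_smul, add_zero] at hv
      rw [hv]
      exact ha'
    · exact le_inf hUW₀ hUW₁
  refine ⟨W₀, W₁, hne, hW₀, hW₀d, hUW₀, hW₁, hW₁d, hUW₁, by rw [hinter]; exact hUd, ?_⟩
  intro W hW hWd hUW
  -- a vector of `W` outside `U`
  obtain ⟨w, hwW, hwU⟩ : ∃ w ∈ W, w ∉ U := by
    by_contra hcon
    push Not at hcon
    have : W ≤ U := hcon
    have := Submodule.finrank_mono this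
    omega
  have hWs : U ⊔ Submodule.span F {w} = W := sup_span_eq hUW (by omega) hwW hwU
  have hwO : w ∈ B.orthogonal U := by
    rw [H.mem_orth]
    intro u hu
    exact H.ts_bil hW (hUW hu) hwW
  -- `U^⊥ = W₀ + ⟨y⟩`
  have hOs : W₀ ⊔ Submodule.span F {y} = B.orthogonal U := by
    apply sup_span_eq _ (by omega) hyO
    · intro h
      have := H.ts_bil hW₀ hxW₀ h
      rw [hxy] at this
      exact one_ne_zero this
    · apply sup_le _ _
      · intro u hu
        rw [H.mem_orth]
        intro v hv
        exact H.ts_bil hU hv hu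
      · rwa [Submodule.span_singleton_le_iff_mem]
  rw [← hOs, mem_sup_span] at hwO
  obtain ⟨t, ht, b, hb⟩ := hwO
  obtain ⟨u, hu, a, rfl⟩ := mem_sup_span.1 ht
  -- the value of the form
  have hQw : a * b = 0 := by
    have h1 : Q w = 0 := hW w hwW
    rw [hb, H.add, H.add, hU u hu, H.smul, H.smul, hxQ, hyQ] at h1
    simp only [map_add, map_smul, LinearMap.add_apply, LinearMap.smul_apply, smul_eq_mul] at h1
    rw [H.mem_orth.1 hxO u hu, H.mem_orth.1 hyO u hu, hxy] at h1
    linear_combination h1
  have hsub : ∀ z, w = u + z → U ⊔ Submodule.span F {w} ≤ U ⊔ Submodule.span F {z} := by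
    intro z hz
    apply sup_le le_sup_left
    rw [Submodule.span_singleton_le_iff_mem, hz]
    exact Submodule.add_mem_sup hu (Submodule.mem_span_singleton_self z) |> fun h => by simpa using h
  rcases mul_eq_zero.1 hQw with ha | hb0
  · right
    -- `w = u + b y`
    have hb0 : b ≠ 0 := by
      rintro rfl
      apply hwU
      rw [hb, ha]
      simpa using hu
    have hwe : w = u + b • y := by rw [hb, ha]; simp
    rw [← hWs]
    apply le_antisymm
    · apply sup_le le_sup_left
      rw [Submodule.span_singleton_le_iff_mem, mem_sup_span]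
      exact ⟨u, hu, b, hwe⟩
    · apply sup_le le_sup_left
      rw [Submodule.span_singleton_le_iff_mem, mem_sup_span]
      refine ⟨-(b⁻¹ • u), U.neg_mem (U.smul_mem _ hu), b⁻¹, ?_⟩
      rw [hwe, smul_add, smul_smul, inv_mul_cancel₀ hb0, one_smul]
      abel
  · left
    have ha0 : a ≠ 0 := by
      rintro rfl
      apply hwU
      rw [hb, hb0]
      simpa using hu
    have hwe : w = u + a • x := by rw [hb, hb0]; simp
    rw [← hWs]
    apply le_antisymm
    · apply sup_le le_sup_left
      rw [Submodule.span_singleton_le_iff_mem, mem_sup_span]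
      exact ⟨u, hu, a, hwe⟩
    · apply sup_le le_sup_left
      rw [Submodule.span_singleton_le_iff_mem, mem_sup_span]
      refine ⟨-(a⁻¹ • u), U.neg_mem (U.smul_mem _ hu), a⁻¹, ?_⟩
      rw [hwe, smul_add, smul_smul, inv_mul_cancel₀ ha0, one_smul]
      abel

end QSp

end Cfsg.Agent.Lib.Classical
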