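import Mathlib
import Cfsg.Prelude.Def_Classical
import Cfsg.Agent.Lib.Classical.MaxTS
import Cfsg.Agent.Lib.Quad.Witt

/-! The plus-type form `Σ x_i y_i`: maximal totally singular subspaces. -/

set_option autoImplicit false
set_option linter.unusedSimpArgs false
set_option linter.unusedVariables false
set_option linter.unusedSectionVars false

namespace Cfsg.Agent.Lib.Classical

open Module

variable {F : Type*} [Field F]

/-- The polar form of `Σ x_i y_i`. -/
noncomputable def plusPol (m : ℕ) (F : Type*) [Field F] : LinearMap.BilinForm F (Fin m ⊕ Fin m → F) :=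
  LinearMap.mk₂ F (fun u v => ∑ i, (u (Sum.inl i) * v (Sum.inr i) + u (Sum.inr i) * v (Sum.inl i)))
    (by intro a b c; rw [← Finset.sum_add_distrib]; apply Finset.sum_congr rfl; intro i _; simp only [Pi.add_apply]; ring)
    (by intro a b c; rw [smul_eq_mul, Finset.mul_sum]; apply Finset.sum_congr rfl; intro i _; simp only [Pi.smul_apply, smul_eq_mul]; ring)
    (by intro a b c; rw [← Finset.sum_add_distrib]; apply Finset.sum_congr rfl; intro i _; simp only [Pi.add_apply]; ring)
    (by intro a b c; rw [smul_eq_mul, Finset.mul_sum]; apply Finset.sum_congr rfl; intro i _; simp only [Pi.smul_apply, smul_eq_mul]; ring)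

theorem plusPol_apply (m : ℕ) (u v : Fin m ⊕ Fin m → F) :
    plusPol m F u v = ∑ i, (u (Sum.inl i) * v (Sum.inr i) + u (Sum.inr i) * v (Sum.inl i)) := rfl

theorem plusPol_qsp (m : ℕ) : QSp (plusPol m F) (Cfsg.quadFormPlus m F) m where
  symm x y := by
    rw [plusPol_apply, plusPol_apply]
    apply Finset.sum_congr rfl
    intro i _
    ring
  nondeg := by
    classical
    constructor
    · intro u hu
      funext j
      rcases j with j | j
      · have := hu (Pi.single (Sum.inr j) 1)
        rw [plusPol_apply] at this
        simpa [Pi.single_apply, Finset.sum_ite_eq] using this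
      · have := hu (Pi.single (Sum.inl j) 1)
        rw [plusPol_apply] at this
        simpa [Pi.single_apply, Finset.sum_ite_eq] using this
    · intro u hu
      funext j
      rcases j with j | j
      · have := hu (Pi.single (Sum.inr j) 1)
        rw [plusPol_apply] at this
        simpa [Pi.single_apply, Finset.sum_ite_eq] using this
      · have := hu (Pi.single (Sum.inl j) 1)
        rw [plusPol_apply] at this
        simpa [Pi.single_apply, Finset.sum_ite_eq] using this
  add x y := by
    rw [plusPol_apply]
    simp only [Cfsg.quadFormPlus, Pi.add_apply]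
    rw [← Finset.sum_add_distrib, ← Finset.sum_add_distrib]
    apply Finset.sum_congr rfl
    intro i _
    ring
  smul c x := by
    simp only [Cfsg.quadFormPlus, Pi.smul_apply, smul_eq_mul]
    rw [Finset.mul_sum]
    apply Finset.sum_congr rfl
    intro i _
    ring
  dim := by
    simp
    ring

/-- The subspace `y = 0`. -/
noncomputable def plusX (m : ℕ) (F : Type*) [Field F] : Submodule F (Fin m ⊕ Fin m → F) :=
  LinearMap.range (Cfsg.Agent.Lib.Quad.plusIncl m F)

theorem plusX_singular (m : ℕ) : ∀ x ∈ plusX m F, Cfsg.quadFormPlus m F x = 0 := by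
  rintro _ ⟨x, rfl⟩
  exact Cfsg.Agent.Lib.Quad.quadFormPlus_plusIncl m x

theorem plusX_finrank (m : ℕ) : finrank F (plusX m F) = m := by
  unfold plusX
  rw [LinearMap.finrank_range_of_inj (Cfsg.Agent.Lib.Quad.plusIncl_injective m)]
  simp

/-- A hyperplane of `plusX`. -/
theorem exists_hyperplane (m : ℕ) (hm : 1 ≤ m) :
    ∃ U : Submodule F (Fin m ⊕ Fin m → F), finrank F U + 1 = m ∧ ∀ x ∈ U, Cfsg.quadFormPlus m F x = 0 := by
  classical
  let i0 : Fin m := ⟨0, hm⟩
  let p : (Fin m → F) →ₗ[F] F := LinearMap.proj i0
  have hp : Function.Surjective p := LinearMap.proj_surjective i0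
  have h1 := LinearMap.finrank_range_add_finrank_ker p
  rw [LinearMap.range_eq_top.2 hp] at h1
  simp only [finrank_top, Module.finrank_self, Module.finrank_fin_fun] at h1
  refine ⟨(LinearMap.ker p).map (Cfsg.Agent.Lib.Quad.plusIncl m F), ?_, ?_⟩
  · rw [← (Submodule.equivMapOfInjective _ (Cfsg.Agent.Lib.Quad.plusIncl_injective m) (LinearMap.ker p)).finrank_eq]
    omega
  · rintro _ ⟨x, _, rfl⟩
    exact Cfsg.Agent.Lib.Quad.quadFormPlus_plusIncl m x

end Cfsg.Agent.Lib.Classical
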