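import Mathlib
import Cfsg.Agent.Lib.Classical.OrthIso
import Cfsg.Agent.Lib.Classical.SylowSL2

/-! `PΩ₃(q) ≅ PSL₂(q)`, `PΩ⁺₄(q) ≅ PSL₂(q) × PSL₂(q)`. -/

set_option autoImplicit false
set_option linter.unusedSimpArgs false
set_option linter.unusedVariables false
set_option linter.unusedSectionVars false
set_option linter.style.haveILetI false

namespace Cfsg.Agent.Lib.Classical

open Matrix Module
open scoped MatrixGroups

variable {F : Type*} [Field F]

/-- Elements commuting with the two standard transvections are central. -/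
theorem sl2_center_of_comm (x : SL(2, F))
    (hu' : (x : Matrix (Fin 2) (Fin 2) F) * !![1, 1; 0, 1] = !![1, 1; 0, 1] * (x : Matrix (Fin 2) (Fin 2) F))
    (hl' : (x : Matrix (Fin 2) (Fin 2) F) * !![1, 0; 1, 1] = !![1, 0; 1, 1] * (x : Matrix (Fin 2) (Fin 2) F)) :
    x = 1 ∨ (x : Matrix (Fin 2) (Fin 2) F) = -1 := by
  have e1 := congrFun (congrFun hu' 0) 0
  have e2 := congrFun (congrFun hu' 1) 0
  have e3 := congrFun (congrFun hl' 0) 0
  have e4 := congrFun (congrFun hu' 0) 1
  simp [Matrix.mul_apply, Fin.sum_univ_two] at e1 e2 e3 e4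
  have hdet := x.2
  rw [Matrix.det_fin_two] at hdet
  have hc0 : (x : Matrix (Fin 2) (Fin 2) F) 1 0 = 0 := e1
  have hb0 : (x : Matrix (Fin 2) (Fin 2) F) 0 1 = 0 := e3
  have had : (x : Matrix (Fin 2) (Fin 2) F) 0 0 = (x : Matrix (Fin 2) (Fin 2) F) 1 1 := by linear_combination e4
  have ha2 : (x : Matrix (Fin 2) (Fin 2) F) 1 1 * (x : Matrix (Fin 2) (Fin 2) F) 1 1 = 1 := by
    rw [hc0, hb0, had] at hdet
    linear_combination hdet
  rcases mul_self_eq_one_iff.1 ha2 with h1 | h1
  · left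
    apply Subtype.ext
    ext i j
    fin_cases i <;> fin_cases j <;> simp [had, h1, hb0, hc0]
  · right
    ext i j
    fin_cases i <;> fin_cases j <;> simp [had, h1, hb0, hc0]

/-- `PSL₂` has trivial centre. -/
theorem sl2_centerless (x : SL(2, F)) (h : ∀ g : SL(2, F), x * g * x⁻¹ * g⁻¹ ∈ Subgroup.center SL(2, F)) :
    x ∈ Subgroup.center SL(2, F) := by
  have hcomm : ∀ g : SL(2, F), (g : Matrix (Fin 2) (Fin 2) F).trace = 2 → x * g = g * x := by
    intro g hg
    have h1 := h g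
    rw [sl2_center_iff] at h1
    rcases h1 with h1 | h1
    · have : x * g * x⁻¹ * g⁻¹ = (x * g) * (g * x)⁻¹ := by group
      rw [this] at h1
      exact mul_inv_eq_one.1 h1
    · have h3 : x * g * x⁻¹ = slNeg F * g := by
        have : x * g * x⁻¹ = (x * g * x⁻¹ * g⁻¹) * g := by group
        rw [this]
        congr 1
        exact Subtype.ext h1
      have h4 : ((x * g * x⁻¹ : SL(2, F)) : Matrix (Fin 2) (Fin 2) F).trace = (g : Matrix (Fin 2) (Fin 2) F).trace := by
        rw [Matrix.SpecialLinearGroup.coe_mul, Matrix.SpecialLinearGroup.coe_mul, Matrix.trace_mul_comm,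
          ← Matrix.mul_assoc, ← Matrix.SpecialLinearGroup.coe_mul, inv_mul_cancel, Matrix.SpecialLinearGroup.coe_one, Matrix.one_mul]
      rw [h3, Matrix.SpecialLinearGroup.coe_mul, slNeg_coe, neg_mul, one_mul, Matrix.trace_neg, hg] at h4
      have h5 : (2 : F) = 0 := by
        have h6 : (2 : F) * 2 = 0 := by linear_combination -h4
        exact (mul_self_eq_zero.1 h6)
      have h7 : (-1 : F) = 1 := by linear_combination -h5
      have h8 : slNeg F = 1 := by
        apply Subtype.ext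
        ext i j
        fin_cases i <;> fin_cases j <;> simp [h7]
      rw [h8, one_mul] at h3
      have := mul_inv_eq_iff_eq_mul.1 h3
      exact this
  let u : SL(2, F) := ⟨!![1, 1; 0, 1], by simp [Matrix.det_fin_two]⟩
  let l : SL(2, F) := ⟨!![1, 0; 1, 1], by simp [Matrix.det_fin_two]⟩
  have hu := hcomm u (by simp [u, Matrix.trace_fin_two]; norm_num)
  have hl := hcomm l (by simp [l, Matrix.trace_fin_two]; norm_num)
  have hu' : (x : Matrix (Fin 2) (Fin 2) F) * u = u * x := congrArg Subtype.val hu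
  have hl' : (x : Matrix (Fin 2) (Fin 2) F) * l = l * x := congrArg Subtype.val hl
  rw [sl2_center_iff]
  exact sl2_center_of_comm x hu' hl'

/-! ### The orthogonal representation on trace zero matrices -/

/-- The action of `[a b; c d]` on `(x, y, z)`, which stands for `[x y; z -x]`, by `X ↦ g X adj g`. -/
def l3 (a b c d : F) : (Unit ⊕ (Fin 1 ⊕ Fin 1) → F) →ₗ[F] (Unit ⊕ (Fin 1 ⊕ Fin 1) → F) where
  toFun v := Sum.elim (fun _ => (a * d + b * c) * v (Sum.inl ()) - a * c * v (Sum.inr (Sum.inl 0)) + b * d * v (Sum.inr (Sum.inr 0)))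
    (Sum.elim (fun _ => -2 * a * b * v (Sum.inl ()) + a ^ 2 * v (Sum.inr (Sum.inl 0)) - b ^ 2 * v (Sum.inr (Sum.inr 0)))
      (fun _ => 2 * c * d * v (Sum.inl ()) - c ^ 2 * v (Sum.inr (Sum.inl 0)) + d ^ 2 * v (Sum.inr (Sum.inr 0))))
  map_add' u v := by
    ext i
    rcases i with i | i | i <;> simp <;> ring
  map_smul' r v := by
    ext i
    rcases i with i | i | i <;> simp <;> ring

/-- The orthogonal representation of `SL₂` on trace zero matrices. -/
def sl3Hom : SL(2, F) →* ((Unit ⊕ (Fin 1 ⊕ Fin 1) → F) →ₗ[F] (Unit ⊕ (Fin 1 ⊕ Fin 1) → F)) where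
  toFun g := l3 (g.1 0 0) (g.1 0 1) (g.1 1 0) (g.1 1 1)
  map_one' := by
    apply LinearMap.ext
    intro v
    ext i
    rcases i with i | i | i
    · simp [l3]
    · obtain rfl : i = 0 := Subsingleton.elim _ _
      simp [l3]
    · obtain rfl : i = 0 := Subsingleton.elim _ _
      simp [l3]
  map_mul' g h := by
    apply LinearMap.ext
    intro v
    ext i
    rcases i with i | i | i <;> simp [l3, Matrix.mul_apply, Fin.sum_univ_two] <;> ring

theorem sl3_form (g : SL(2, F)) (v : Unit ⊕ (Fin 1 ⊕ Fin 1) → F) :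
    Cfsg.quadFormOdd 1 F (sl3Hom g v) = Cfsg.quadFormOdd 1 F v := by
  have hdet := g.2
  rw [Matrix.det_fin_two] at hdet
  change (g.1 0 0 * g.1 1 1 - g.1 0 1 * g.1 1 0 = 1) at hdet
  have h1 : ∀ w : Unit ⊕ (Fin 1 ⊕ Fin 1) → F, Cfsg.quadFormOdd 1 F w = w (Sum.inl ()) ^ 2 + w (Sum.inr (Sum.inl 0)) * w (Sum.inr (Sum.inr 0)) := by
    intro w
    simp [Cfsg.quadFormOdd]
  rw [h1, h1]
  simp only [sl3Hom, MonoidHom.coe_mk, OneHom.coe_mk, l3, LinearMap.coe_mk, AddHom.coe_mk, Sum.elim_inl, Sum.elim_inr]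
  set a := g.1 0 0
  set b := g.1 0 1
  set c := g.1 1 0
  set d := g.1 1 1
  set x := v (Sum.inl ())
  set y := v (Sum.inr (Sum.inl 0))
  set z := v (Sum.inr (Sum.inr 0))
  have e : ((a * d + b * c) * x - a * c * y + b * d * z) ^ 2 + (-2 * a * b * x + a ^ 2 * y - b ^ 2 * z) * (2 * c * d * x - c ^ 2 * y + d ^ 2 * z)
      = (a * d - b * c) ^ 2 * (x ^ 2 + y * z) := by ring
  rw [e, hdet]
  ring

variable [Fintype F]

theorem pomega3_equiv (hodd : Odd (Fintype.card F)) :
    Nonempty (Cfsg.POmega F (Cfsg.quadFormOdd 1 F) ≃* Matrix.ProjectiveSpecialLinearGroup (Fin 2) F) := by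
  have h2 : (2 : F) ≠ 0 := two_ne_zero_of_odd hodd
  obtain ⟨Q', hQ', hnd⟩ := ndq_odd h2 1
  have hO := card_isometry_odd (F := F) rfl h2 1
  have hQv : ∀ v, Q' v = Cfsg.quadFormOdd 1 F v := fun v => congrFun hQ' v
  rw [← hQ'] at hO ⊢
  have hf : ∀ g v, Q' (sl3Hom g v) = Q' v := by
    intro g v
    rw [hQv, hQv, sl3_form]
  have hcard : 2 ≤ Fintype.card (Unit ⊕ (Fin 1 ⊕ Fin 1)) := by
    simp [Fintype.card_sum]
  refine pomega_equiv_of_rep (ogRep sl3Hom hf) hnd hcard ?_ ?_ (z₀ := slNeg F) ?_ ?_ ?_ sl2_centerless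
  · rw [hO, card_SL2_eq]
    simp
    ring
  · rintro _ ⟨g, rfl⟩
    exact sl_map_mem_commutator_odd h2 hnd hcard _ g
  · intro g hg
    have h1 := ogRep_eq_one hg
    have hy := h1 (Pi.single (Sum.inr (Sum.inl 0)) 1)
    have hz := h1 (Pi.single (Sum.inr (Sum.inr 0)) 1)
    have e1 := congrFun hy (Sum.inr (Sum.inl 0))
    have e2 := congrFun hy (Sum.inr (Sum.inr 0))
    have e3 := congrFun hz (Sum.inr (Sum.inl 0))
    simp [sl3Hom, l3] at e1 e2 e3
    have hdet := g.2
    rw [Matrix.det_fin_two, e2, e3] at hdet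
    simp at hdet
    rcases e1 with e1 | e1
    · left
      have hd : g.1 1 1 = 1 := by
        rw [e1, one_mul] at hdet
        exact hdet
      apply Subtype.ext
      ext i j
      fin_cases i <;> fin_cases j <;> simp [e1, e2, e3, hd]
    · right
      have hd : g.1 1 1 = -1 := by
        rw [e1] at hdet
        linear_combination -hdet
      apply Subtype.ext
      ext i j
      fin_cases i <;> fin_cases j <;> simp [slNeg, e1, e2, e3, hd]
  · exact sl2_neg_one_mem_center (by simp)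
  · intro h
    apply Subtype.ext
    ext i j
    have h7 : (-1 : F) = 1 := by linear_combination -h
    fin_cases i <;> fin_cases j <;> simp [h7]

/-! ### The orthogonal representation of `SL₂ × SL₂` on `2 × 2` matrices -/

omit [Fintype F] in
/-- Coordinates to matrices. -/
def mX (v : Fin 2 ⊕ Fin 2 → F) : Matrix (Fin 2) (Fin 2) F := !![v (Sum.inl 0), v (Sum.inl 1); - v (Sum.inr 1), v (Sum.inr 0)]

/-- Matrices to coordinates. -/
def cX (Y : Matrix (Fin 2) (Fin 2) F) : Fin 2 ⊕ Fin 2 → F := Sum.elim ![Y 0 0, Y 0 1] ![Y 1 1, - Y 1 0]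

omit [Fintype F] in
theorem mX_cX (Y : Matrix (Fin 2) (Fin 2) F) : mX (cX Y) = Y := by
  ext i j
  fin_cases i <;> fin_cases j <;> simp [mX, cX]

omit [Fintype F] in
theorem cX_mX (v : Fin 2 ⊕ Fin 2 → F) : cX (mX v) = v := by
  ext i
  rcases i with i | i <;> fin_cases i <;> simp [mX, cX]

omit [Fintype F] in
theorem mX_add (u v : Fin 2 ⊕ Fin 2 → F) : mX (u + v) = mX u + mX v := by
  ext i j
  fin_cases i <;> fin_cases j <;> simp [mX]
  ring

omit [Fintype F] in
theorem mX_smul (r : F) (v : Fin 2 ⊕ Fin 2 → F) : mX (r • v) = r • mX v := by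
  ext i j
  fin_cases i <;> fin_cases j <;> simp [mX]

omit [Fintype F] in
theorem cX_add (u v : Matrix (Fin 2) (Fin 2) F) : cX (u + v) = cX u + cX v := by
  ext i
  rcases i with i | i <;> fin_cases i <;> simp [cX]
  ring

omit [Fintype F] in
theorem cX_smul (r : F) (v : Matrix (Fin 2) (Fin 2) F) : cX (r • v) = r • cX v := by
  ext i
  rcases i with i | i <;> fin_cases i <;> simp [cX]

omit [Fintype F] in
theorem q_mX (v : Fin 2 ⊕ Fin 2 → F) : Cfsg.quadFormPlus 2 F v = (mX v).det := by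
  simp [Cfsg.quadFormPlus, mX, Matrix.det_fin_two, Fin.sum_univ_two]

/-- The linear action. -/
def l4 (A B : Matrix (Fin 2) (Fin 2) F) : (Fin 2 ⊕ Fin 2 → F) →ₗ[F] (Fin 2 ⊕ Fin 2 → F) where
  toFun v := cX (A * mX v * B.adjugate)
  map_add' u v := by
    rw [mX_add, Matrix.mul_add, Matrix.add_mul, cX_add]
  map_smul' r v := by
    rw [mX_smul, Matrix.mul_smul, Matrix.smul_mul, cX_smul]
    rfl

/-- The representation. -/
def sl4Hom : (SL(2, F) × SL(2, F)) →* ((Fin 2 ⊕ Fin 2 → F) →ₗ[F] (Fin 2 ⊕ Fin 2 → F)) where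
  toFun g := l4 g.1.1 g.2.1
  map_one' := by
    apply LinearMap.ext
    intro v
    change cX ((1 : Matrix (Fin 2) (Fin 2) F) * mX v * (1 : Matrix (Fin 2) (Fin 2) F).adjugate) = v
    rw [Matrix.adjugate_one, Matrix.one_mul, Matrix.mul_one, cX_mX]
  map_mul' g h := by
    apply LinearMap.ext
    intro v
    change cX ((g.1.1 * h.1.1) * mX v * (g.2.1 * h.2.1).adjugate) = cX (g.1.1 * mX (cX (h.1.1 * mX v * h.2.1.adjugate)) * g.2.1.adjugate)
    rw [mX_cX, Matrix.adjugate_mul_distrib]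
    simp only [Matrix.mul_assoc]

omit [Fintype F] in
theorem sl4_form (g : SL(2, F) × SL(2, F)) (v : Fin 2 ⊕ Fin 2 → F) :
    Cfsg.quadFormPlus 2 F (sl4Hom g v) = Cfsg.quadFormPlus 2 F v := by
  rw [q_mX, q_mX]
  change (mX (cX (g.1.1 * mX v * g.2.1.adjugate))).det = _
  rw [mX_cX, Matrix.det_mul, Matrix.det_mul, Matrix.det_adjugate, g.1.2, g.2.2]
  simp

omit [Fintype F] in
theorem sl4_kernel (g : SL(2, F) × SL(2, F)) (h : ∀ v, sl4Hom g v = v) :
    g = 1 ∨ g = (slNeg F, slNeg F) := by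
  have h1 : ∀ Y : Matrix (Fin 2) (Fin 2) F, g.1.1 * Y * g.2.1.adjugate = Y := by
    intro Y
    have := h (cX Y)
    change cX (g.1.1 * mX (cX Y) * g.2.1.adjugate) = cX Y at this
    rw [mX_cX] at this
    have h3 := congrArg mX this
    rwa [mX_cX, mX_cX] at h3
  have hadj : g.2.1.adjugate * g.2.1 = 1 := by
    rw [Matrix.adjugate_mul, g.2.2, one_smul]
  have h3 := h1 1
  rw [Matrix.mul_one] at h3
  have hAB : g.1.1 = g.2.1 := by
    calc g.1.1 = g.1.1 * (g.2.1.adjugate * g.2.1) := by rw [hadj, Matrix.mul_one]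
      _ = (g.1.1 * g.2.1.adjugate) * g.2.1 := by rw [Matrix.mul_assoc]
      _ = g.2.1 := by rw [h3, Matrix.one_mul]
  have hcomm : ∀ Y : Matrix (Fin 2) (Fin 2) F, g.2.1 * Y = Y * g.2.1 := by
    intro Y
    have h4 := h1 Y
    rw [hAB] at h4
    calc g.2.1 * Y = g.2.1 * Y * (g.2.1.adjugate * g.2.1) := by rw [hadj, Matrix.mul_one]
      _ = (g.2.1 * Y * g.2.1.adjugate) * g.2.1 := by simp only [Matrix.mul_assoc]
      _ = Y * g.2.1 := by rw [h4]
  have hb : g.2 = 1 ∨ (g.2 : Matrix (Fin 2) (Fin 2) F) = -1 := sl2_center_of_comm g.2 (hcomm _) (hcomm _)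
  rcases hb with hb | hb
  · left
    apply Prod.ext
    · apply Subtype.ext
      rw [hAB, hb]
      rfl
    · exact hb
  · right
    apply Prod.ext
    · apply Subtype.ext
      rw [hAB, hb]
      rfl
    · apply Subtype.ext
      rw [hb]
      rfl

omit [Fintype F] in
/-- Central quotient of a product. -/
theorem prod_center_quotient (G H : Type*) [Group G] [Group H] :
    Nonempty ((G × H) ⧸ Subgroup.center (G × H) ≃* (G ⧸ Subgroup.center G) × (H ⧸ Subgroup.center H)) := by
  let π : G × H →* (G ⧸ Subgroup.center G) × (H ⧸ Subgroup.center H) :=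
    MonoidHom.prodMap (QuotientGroup.mk' _) (QuotientGroup.mk' _)
  have hs : Function.Surjective π := by
    rintro ⟨a, b⟩
    obtain ⟨a', rfl⟩ := QuotientGroup.mk_surjective a
    obtain ⟨b', rfl⟩ := QuotientGroup.mk_surjective b
    exact ⟨(a', b'), rfl⟩
  have hk : π.ker = Subgroup.center (G × H) := by
    ext ⟨a, b⟩
    rw [Subgroup.center_prod, Subgroup.mem_prod, MonoidHom.mem_ker]
    constructor
    · intro h
      have h1 := congrArg Prod.fst h
      have h2 := congrArg Prod.snd h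
      exact ⟨(QuotientGroup.eq_one_iff _).1 h1, (QuotientGroup.eq_one_iff _).1 h2⟩
    · rintro ⟨h1, h2⟩
      apply Prod.ext
      · exact (QuotientGroup.eq_one_iff _).2 h1
      · exact (QuotientGroup.eq_one_iff _).2 h2
  exact ⟨(QuotientGroup.quotientMulEquivOfEq hk.symm).trans (QuotientGroup.quotientKerEquivOfSurjective π hs)⟩

theorem pomega4plus_equiv (hF : 3 ≤ Fintype.card F) :
    Nonempty (Cfsg.POmega F (Cfsg.quadFormPlus 2 F) ≃*
      Matrix.ProjectiveSpecialLinearGroup (Fin 2) F × Matrix.ProjectiveSpecialLinearGroup (Fin 2) F) := by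
  obtain ⟨Q', hQ', hnd⟩ := ndq_plus (F := F) 2
  have hO := card_isometry_plus (F := F) rfl 2 (by omega)
  have hQv : ∀ v, Q' v = Cfsg.quadFormPlus 2 F v := fun v => congrFun hQ' v
  rw [← hQ'] at hO ⊢
  have hf : ∀ g v, Q' (sl4Hom g v) = Q' v := by
    intro g v
    rw [hQv, hQv, sl4_form]
  have hcard : 2 ≤ Fintype.card (Fin 2 ⊕ Fin 2) := by
    simp [Fintype.card_sum]
  have hmain : Nonempty (↥(commutator (OG Q')) ⧸ Subgroup.center ↥(commutator (OG Q')) ≃*
      (SL(2, F) × SL(2, F)) ⧸ Subgroup.center (SL(2, F) × SL(2, F))) := by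
    refine pomega_equiv_of_rep (ogRep sl4Hom hf) hnd hcard ?_ ?_ (z₀ := (slNeg F, slNeg F)) ?_ ?_ ?_ ?_
    · rw [hO, Nat.card_prod, card_SL2_eq]
      simp
      ring
    · have hmem : ∀ (ρ : SL(2, F) →* OG Q') (M : SL(2, F)), ρ M ∈ commutator (OG Q') := by
        intro ρ M
        by_cases h2 : (2 : F) = 0
        · obtain ⟨a, ha, ha1⟩ : ∃ a : F, a ≠ 0 ∧ a ^ 2 ≠ 1 := by
            apply exists_sq_ne_one
            rw [Nat.card_eq_fintype_card]
            have h3 := (FiniteField.even_card_iff_char_two (F := F)).1 (by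
              have : CharP F 2 := CharTwo.of_one_ne_zero_of_two_eq_zero one_ne_zero h2
              exact ringChar.eq F 2)
            omega
          have := range_le_commutator_of_perfect (commutator_sl_eq_top_of_sq_ne_one a ha ha1) ρ
          exact this ⟨M, rfl⟩
        · exact sl_map_mem_commutator_odd h2 hnd hcard ρ M
      rintro _ ⟨⟨A, B⟩, rfl⟩
      have e : ((A, B) : SL(2, F) × SL(2, F)) = (A, 1) * (1, B) := by simp
      rw [e, map_mul]
      exact mul_mem (hmem ((ogRep sl4Hom hf).comp (MonoidHom.inl _ _)) A)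
        (hmem ((ogRep sl4Hom hf).comp (MonoidHom.inr _ _)) B)
    · intro g hg
      exact sl4_kernel g (ogRep_eq_one hg)
    · rw [Subgroup.center_prod]
      exact ⟨sl2_neg_one_mem_center (by simp), sl2_neg_one_mem_center (by simp)⟩
    · intro h
      have h7 : (-1 : F) = 1 := by linear_combination -h
      have : slNeg F = 1 := by
        apply Subtype.ext
        ext i j
        fin_cases i <;> fin_cases j <;> simp [h7]
      rw [this]
      rfl
    · rintro ⟨a, b⟩ h
      rw [Subgroup.center_prod]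
      constructor
      · apply sl2_centerless
        intro g
        have := h (g, 1)
        rw [Subgroup.center_prod] at this
        exact this.1
      · apply sl2_centerless
        intro g
        have := h (1, g)
        rw [Subgroup.center_prod] at this
        exact this.2
  obtain ⟨e₁⟩ := hmain
  obtain ⟨e₂⟩ := prod_center_quotient (SL(2, F)) (SL(2, F))
  exact ⟨e₁.trans e₂⟩

end Cfsg.Agent.Lib.Classical
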