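import Mathlib
import Cfsg.Agent.Lib.Classical.OrthSL2
import Cfsg.Agent.Lib.Classical.QuadExt

/-! `PΩ⁻₄(q) ≅ PSL₂(q²)`: the action of `SL₂(q²)` on `2 × 2` Hermitian matrices. -/

set_option autoImplicit false
set_option linter.unusedSimpArgs false
set_option linter.unusedVariables false
set_option linter.unusedSectionVars false
set_option linter.style.haveILetI false

namespace Cfsg.Agent.Lib.Classical

open Matrix Module
open scoped MatrixGroups

variable {F K : Type*} [Field F] [Field K] [Algebra F K] {a b : F} (D : QExt F K a b)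

namespace QExt

/-- The conjugate transpose. -/
def st (A : Matrix (Fin 2) (Fin 2) K) : Matrix (Fin 2) (Fin 2) K := (A.map D.σ)ᵀ

theorem st_apply (A : Matrix (Fin 2) (Fin 2) K) (i j : Fin 2) : D.st A i j = D.σ (A j i) := rfl

theorem st_mul (A B : Matrix (Fin 2) (Fin 2) K) : D.st (A * B) = D.st B * D.st A := by
  ext i j
  simp [st_apply, Matrix.mul_apply, Fin.sum_univ_two]
  ring

theorem st_one : D.st (1 : Matrix (Fin 2) (Fin 2) K) = 1 := by
  ext i j
  fin_cases i <;> fin_cases j <;> simp [st_apply]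

theorem st_st (A : Matrix (Fin 2) (Fin 2) K) : D.st (D.st A) = A := by
  ext i j
  rw [st_apply, st_apply, D.σ_σ]

theorem det_st (A : Matrix (Fin 2) (Fin 2) K) : (D.st A).det = D.σ A.det := by
  simp [Matrix.det_fin_two, st_apply]
  ring

theorem re_map (z : F) : D.re (algebraMap F K z) = z := by
  have := D.hre z 0
  simpa using this

theorem im_map (z : F) : D.im (algebraMap F K z) = 0 := by
  have := D.him z 0
  simpa using this

theorem re_vec (z₁ z₂ : F) : D.re (D.vec z₁ z₂) = z₁ := D.hre z₁ z₂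

theorem im_vec (z₁ z₂ : F) : D.im (D.vec z₁ z₂) = z₂ := D.him z₁ z₂

/-- Hermitian matrices from coordinates. -/
def hX (v : (Fin 1 ⊕ Fin 1) ⊕ Fin 2 → F) : Matrix (Fin 2) (Fin 2) K :=
  !![algebraMap F K (v (Sum.inl (Sum.inl 0))), D.vec (v (Sum.inr 0)) (v (Sum.inr 1));
     D.σ (D.vec (v (Sum.inr 0)) (v (Sum.inr 1))), - algebraMap F K (v (Sum.inl (Sum.inr 0)))]

/-- Coordinates of a matrix. -/
def hC (Y : Matrix (Fin 2) (Fin 2) K) : (Fin 1 ⊕ Fin 1) ⊕ Fin 2 → F :=
  Sum.elim (Sum.elim (fun _ => D.re (Y 0 0)) (fun _ => - D.re (Y 1 1))) ![D.re (Y 0 1), D.im (Y 0 1)]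

theorem hC_hX (v : (Fin 1 ⊕ Fin 1) ⊕ Fin 2 → F) : D.hC (D.hX v) = v := by
  ext i
  rcases i with (i | i) | i
  · obtain rfl : i = 0 := Subsingleton.elim _ _
    simp [hC, hX, re_map]
  · obtain rfl : i = 0 := Subsingleton.elim _ _
    simp [hC, hX, re_map]
  · fin_cases i <;> simp [hC, hX, re_vec, im_vec]

theorem hX_hC {Y : Matrix (Fin 2) (Fin 2) K} (hY : D.st Y = Y) : D.hX (D.hC Y) = Y := by
  have h00 : D.σ (Y 0 0) = Y 0 0 := by
    conv_rhs => rw [← hY]
    rfl
  have h11 : D.σ (Y 1 1) = Y 1 1 := by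
    conv_rhs => rw [← hY]
    rfl
  have h01 : D.σ (Y 0 1) = Y 1 0 := by
    conv_rhs => rw [← hY]
    rfl
  ext i j
  fin_cases i <;> fin_cases j
  · simp [hC, hX, D.of_fixed h00]
  · simp [hC, hX, D.vec_re_im]
  · simp [hC, hX, D.vec_re_im, h01]
  · simp [hC, hX, D.of_fixed h11]

theorem st_hX (v : (Fin 1 ⊕ Fin 1) ⊕ Fin 2 → F) : D.st (D.hX v) = D.hX v := by
  ext i j
  rw [st_apply]
  fin_cases i <;> fin_cases j <;> simp [hX, D.σ_σ]

theorem hX_add (u v : (Fin 1 ⊕ Fin 1) ⊕ Fin 2 → F) : D.hX (u + v) = D.hX u + D.hX v := by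
  have hvec : ∀ x y x' y' : F, D.vec (x + x') (y + y') = D.vec x y + D.vec x' y' := by
    intro x y x' y'
    simp only [vec, map_add]
    ring
  ext i j
  fin_cases i <;> fin_cases j <;> simp [hX, hvec]
  ring

theorem hX_smul (c : F) (v : (Fin 1 ⊕ Fin 1) ⊕ Fin 2 → F) : D.hX (c • v) = algebraMap F K c • D.hX v := by
  have hvec : ∀ x y : F, D.vec (c * x) (c * y) = algebraMap F K c * D.vec x y := by
    intro x y
    simp only [vec, map_mul]
    ring
  ext i j
  fin_cases i <;> fin_cases j <;> simp [hX, hvec]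

theorem hC_add (u v : Matrix (Fin 2) (Fin 2) K) : D.hC (u + v) = D.hC u + D.hC v := by
  ext i
  rcases i with (i | i) | i
  · simp [hC]
  · simp [hC]
    ring
  · fin_cases i <;> simp [hC]

theorem hC_smul (c : F) (u : Matrix (Fin 2) (Fin 2) K) : D.hC (algebraMap F K c • u) = c • D.hC u := by
  have h1 : ∀ x : K, D.re (algebraMap F K c * x) = c * D.re x := by
    intro x
    rw [← Algebra.smul_def, map_smul, smul_eq_mul]
  have h2 : ∀ x : K, D.im (algebraMap F K c * x) = c * D.im x := by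
    intro x
    rw [← Algebra.smul_def, map_smul, smul_eq_mul]
  ext i
  rcases i with (i | i) | i
  · simp [hC, h1]
  · simp [hC, h1]
  · fin_cases i <;> simp [hC, h1, h2]

theorem q_hX (v : (Fin 1 ⊕ Fin 1) ⊕ Fin 2 → F) :
    algebraMap F K (Cfsg.quadFormMinus 1 F a b v) = - (D.hX v).det := by
  have h := D.norm_vec (v (Sum.inr 0)) (v (Sum.inr 1))
  rw [Matrix.det_fin_two]
  simp only [hX, Cfsg.quadFormMinus, Fin.sum_univ_one, Matrix.of_apply, Matrix.cons_val', Matrix.cons_val_zero, Matrix.cons_val_one, Matrix.cons_val_fin_one]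
  rw [map_add, map_mul, ← h]
  ring

theorem st_sandwich (A : Matrix (Fin 2) (Fin 2) K) {Y : Matrix (Fin 2) (Fin 2) K} (hY : D.st Y = Y) :
    D.st (A * Y * D.st A) = A * Y * D.st A := by
  rw [st_mul, st_mul, st_st, hY, Matrix.mul_assoc]

/-- The linear action. -/
def lH (A : Matrix (Fin 2) (Fin 2) K) : ((Fin 1 ⊕ Fin 1) ⊕ Fin 2 → F) →ₗ[F] ((Fin 1 ⊕ Fin 1) ⊕ Fin 2 → F) where
  toFun v := D.hC (A * D.hX v * D.st A)
  map_add' u v := by
    rw [hX_add, Matrix.mul_add, Matrix.add_mul, hC_add]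
  map_smul' c v := by
    rw [hX_smul, Matrix.mul_smul, Matrix.smul_mul, hC_smul]
    rfl

/-- The representation. -/
def herHom : SL(2, K) →* (((Fin 1 ⊕ Fin 1) ⊕ Fin 2 → F) →ₗ[F] ((Fin 1 ⊕ Fin 1) ⊕ Fin 2 → F)) where
  toFun A := D.lH A.1
  map_one' := by
    apply LinearMap.ext
    intro v
    change D.hC ((1 : Matrix (Fin 2) (Fin 2) K) * D.hX v * D.st 1) = v
    rw [st_one, Matrix.one_mul, Matrix.mul_one, hC_hX]
  map_mul' A B := by
    apply LinearMap.ext
    intro v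
    change D.hC ((A.1 * B.1) * D.hX v * D.st (A.1 * B.1)) = D.hC (A.1 * D.hX (D.hC (B.1 * D.hX v * D.st B.1)) * D.st A.1)
    rw [hX_hC D (D.st_sandwich _ (D.st_hX v)), st_mul]
    simp only [Matrix.mul_assoc]

theorem her_form (A : SL(2, K)) (v : (Fin 1 ⊕ Fin 1) ⊕ Fin 2 → F) :
    Cfsg.quadFormMinus 1 F a b (D.herHom A v) = Cfsg.quadFormMinus 1 F a b v := by
  apply (algebraMap F K).injective
  rw [D.q_hX, D.q_hX]
  change - (D.hX (D.hC (A.1 * D.hX v * D.st A.1))).det = _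
  rw [hX_hC D (D.st_sandwich _ (D.st_hX v)), Matrix.det_mul, Matrix.det_mul, det_st, A.2, map_one]
  ring

theorem her_kernel (A : SL(2, K)) (h : ∀ v, D.herHom A v = v) : A = 1 ∨ A = slNeg K := by
  have h1 : ∀ Y : Matrix (Fin 2) (Fin 2) K, D.st Y = Y → A.1 * Y * D.st A.1 = Y := by
    intro Y hY
    have h3 := h (D.hC Y)
    change D.hC (A.1 * D.hX (D.hC Y) * D.st A.1) = D.hC Y at h3
    rw [hX_hC D hY] at h3
    have h4 := congrArg D.hX h3
    rwa [hX_hC D (D.st_sandwich _ hY), hX_hC D hY] at h4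
  have h3 : A.1 * D.st A.1 = 1 := by
    have := h1 1 D.st_one
    rwa [Matrix.mul_one] at this
  have h4 : D.st A.1 * A.1 = 1 := mul_eq_one_comm.1 h3
  have hcomm : ∀ Y : Matrix (Fin 2) (Fin 2) K, D.st Y = Y → A.1 * Y = Y * A.1 := by
    intro Y hY
    calc A.1 * Y = A.1 * Y * (D.st A.1 * A.1) := by rw [h4, Matrix.mul_one]
      _ = (A.1 * Y * D.st A.1) * A.1 := by simp only [Matrix.mul_assoc]
      _ = Y * A.1 := by rw [h1 Y hY]
  have hE := hcomm !![1, 0; 0, 0] (by
    ext i j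
    rw [st_apply]
    fin_cases i <;> fin_cases j <;> simp)
  have hW := hcomm !![0, 1; 1, 0] (by
    ext i j
    rw [st_apply]
    fin_cases i <;> fin_cases j <;> simp)
  have e1 := congrFun (congrFun hE 1) 0
  have e2 := congrFun (congrFun hE 0) 1
  have e3 := congrFun (congrFun hW 0) 1
  simp [Matrix.mul_apply, Fin.sum_univ_two] at e1 e2 e3
  have e2' : A.1 0 1 = 0 := e2.symm
  have hdet := A.2
  rw [Matrix.det_fin_two, e1, e2'] at hdet
  have hs : A.1 1 1 * A.1 1 1 = 1 := by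
    rw [e3] at hdet
    linear_combination hdet
  rcases mul_self_eq_one_iff.1 hs with h5 | h5
  · left
    apply Subtype.ext
    ext i j
    fin_cases i <;> fin_cases j <;> simp [e1, e2', e3, h5]
  · right
    apply Subtype.ext
    ext i j
    fin_cases i <;> fin_cases j <;> simp [slNeg, e1, e2', e3, h5]

end QExt

variable [Fintype F] [Fintype K]

omit [Algebra F K] in
theorem pomega4minus_equiv {a b : F} (hK : Fintype.card K = Fintype.card F ^ 2)
    (hab : ∀ z₁ z₂ : F, z₁ ^ 2 + a * z₁ * z₂ + b * z₂ ^ 2 = 0 → z₁ = 0 ∧ z₂ = 0) :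
    Nonempty (Cfsg.POmega F (Cfsg.quadFormMinus 1 F a b) ≃* Matrix.ProjectiveSpecialLinearGroup (Fin 2) K) := by
  classical
  obtain ⟨inst, ⟨D⟩⟩ := exists_algebra_qext hab hK
  obtain ⟨Q', hQ', hnd⟩ := ndq_minus a b hab 1
  have hO := card_isometry_minus_aux (F := F) rfl a b hab 1
  have hQv : ∀ v, Q' v = Cfsg.quadFormMinus 1 F a b v := fun v => congrFun hQ' v
  rw [← hQ'] at hO ⊢
  have hf : ∀ g v, Q' (D.herHom g v) = Q' v := by
    intro g v
    rw [hQv, hQv, D.her_form]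
  have hcard : 2 ≤ Fintype.card ((Fin 1 ⊕ Fin 1) ⊕ Fin 2) := by
    simp [Fintype.card_sum]
  have hq : 2 ≤ Fintype.card F := Fintype.one_lt_card
  have h4 : 4 ≤ Nat.card K := by
    rw [Nat.card_eq_fintype_card, hK]
    nlinarith
  obtain ⟨c, hc, hc1⟩ := exists_sq_ne_one h4
  have hperf : commutator SL(2, K) = ⊤ := commutator_sl_eq_top_of_sq_ne_one c hc hc1
  refine pomega_equiv_of_rep (ogRep D.herHom hf) hnd hcard ?_ ?_ (z₀ := slNeg K) ?_ ?_ ?_ sl2_centerless
  · rw [hO, card_SL2_eq, hK]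
    simp
    have h1 : 1 ≤ Fintype.card F ^ 2 := Nat.one_le_pow _ _ (by omega)
    have h2 : 1 ≤ (Fintype.card F ^ 2) ^ 2 := Nat.one_le_pow _ _ (by omega)
    zify [h1, h2]
    ring
  · exact range_le_commutator_of_perfect hperf _
  · intro g hg
    exact D.her_kernel g (ogRep_eq_one hg)
  · exact sl2_neg_one_mem_center (by simp)
  · intro h
    have h7 : (2 : K) = 0 := by
      have := congrArg (algebraMap F K) h
      rwa [map_ofNat, map_zero] at this
    have h8 : (-1 : K) = 1 := by linear_combination -h7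
    apply Subtype.ext
    ext i j
    fin_cases i <;> fin_cases j <;> simp [h8]

end Cfsg.Agent.Lib.Classical
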