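import Mathlib
import Cfsg.Prelude.Def_Classical

/-! The second exterior power of `4 × 4` matrices and the Klein quadric. -/

set_option autoImplicit false
set_option linter.unusedSimpArgs false
set_option linter.unusedVariables false
set_option linter.unusedSectionVars false

namespace Cfsg.Agent.Lib.Classical

open Matrix

/-- First index of the oriented pair. -/
def pairA : Fin 3 ⊕ Fin 3 → Fin 4 := Sum.elim ![0, 0, 0] ![2, 3, 1]

/-- Second index of the oriented pair. -/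
def pairB : Fin 3 ⊕ Fin 3 → Fin 4 := Sum.elim ![1, 2, 3] ![3, 1, 2]

theorem pA0 : pairA (Sum.inl 0) = 0 := rfl
theorem pA1 : pairA (Sum.inl 1) = 0 := rfl
theorem pA2 : pairA (Sum.inl 2) = 0 := rfl
theorem pA3 : pairA (Sum.inr 0) = 2 := rfl
theorem pA4 : pairA (Sum.inr 1) = 3 := rfl
theorem pA5 : pairA (Sum.inr 2) = 1 := rfl
theorem pB0 : pairB (Sum.inl 0) = 1 := rfl
theorem pB1 : pairB (Sum.inl 1) = 2 := rfl
theorem pB2 : pairB (Sum.inl 2) = 3 := rfl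
theorem pB3 : pairB (Sum.inr 0) = 3 := rfl
theorem pB4 : pairB (Sum.inr 1) = 1 := rfl
theorem pB5 : pairB (Sum.inr 2) = 2 := rfl

variable {R : Type*} [CommRing R]

/-- The second exterior power. -/
def wedge (g : Matrix (Fin 4) (Fin 4) R) : Matrix (Fin 3 ⊕ Fin 3) (Fin 3 ⊕ Fin 3) R :=
  Matrix.of fun I J => g (pairA I) (pairA J) * g (pairB I) (pairB J) - g (pairA I) (pairB J) * g (pairB I) (pairA J)

theorem wedge_apply (g : Matrix (Fin 4) (Fin 4) R) (I J : Fin 3 ⊕ Fin 3) :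
    wedge g I J = g (pairA I) (pairA J) * g (pairB I) (pairB J) - g (pairA I) (pairB J) * g (pairB I) (pairA J) := rfl

theorem wedge_mul (g h : Matrix (Fin 4) (Fin 4) R) : wedge (g * h) = wedge g * wedge h := by
  ext I J
  rw [wedge_apply, Matrix.mul_apply, Matrix.mul_apply, Matrix.mul_apply, Matrix.mul_apply, Matrix.mul_apply]
  simp only [Fin.sum_univ_four, Fintype.sum_sum_type, Fin.sum_univ_three, wedge_apply, pA0, pA1, pA2, pA3, pA4, pA5, pB0, pB1, pB2, pB3, pB4, pB5]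
  ring

theorem wedge_one : wedge (1 : Matrix (Fin 4) (Fin 4) R) = 1 := by
  ext I J
  rcases I with i | i <;> rcases J with j | j <;> fin_cases i <;> fin_cases j <;>
    simp [wedge_apply, pairA, pairB, Matrix.one_apply]

theorem det_four (g : Matrix (Fin 4) (Fin 4) R) : g.det =
    g 0 0 * (g 1 1 * g 2 2 * g 3 3 - g 1 1 * g 2 3 * g 3 2 - g 1 2 * g 2 1 * g 3 3 + g 1 2 * g 2 3 * g 3 1 + g 1 3 * g 2 1 * g 3 2 - g 1 3 * g 2 2 * g 3 1)
    - g 0 1 * (g 1 0 * g 2 2 * g 3 3 - g 1 0 * g 2 3 * g 3 2 - g 1 2 * g 2 0 * g 3 3 + g 1 2 * g 2 3 * g 3 0 + g 1 3 * g 2 0 * g 3 2 - g 1 3 * g 2 2 * g 3 0)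
    + g 0 2 * (g 1 0 * g 2 1 * g 3 3 - g 1 0 * g 2 3 * g 3 1 - g 1 1 * g 2 0 * g 3 3 + g 1 1 * g 2 3 * g 3 0 + g 1 3 * g 2 0 * g 3 1 - g 1 3 * g 2 1 * g 3 0)
    - g 0 3 * (g 1 0 * g 2 1 * g 3 2 - g 1 0 * g 2 2 * g 3 1 - g 1 1 * g 2 0 * g 3 2 + g 1 1 * g 2 2 * g 3 0 + g 1 2 * g 2 0 * g 3 1 - g 1 2 * g 2 1 * g 3 0) := by
  rw [Matrix.det_succ_row_zero]
  simp only [Fin.sum_univ_four, Matrix.det_fin_three, Matrix.submatrix_apply]
  have e1 : Fin.succAbove (1 : Fin 4) (2 : Fin 3) = 3 := rfl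
  have e2 : Fin.succAbove (2 : Fin 4) (1 : Fin 3) = 1 := rfl
  have e3 : Fin.succAbove (2 : Fin 4) (2 : Fin 3) = 3 := rfl
  have e4 : Fin.succAbove (3 : Fin 4) (1 : Fin 3) = 1 := rfl
  have e5 : Fin.succAbove (3 : Fin 4) (2 : Fin 3) = 2 := rfl
  simp [e1, e2, e3, e4, e5]
  ring

theorem wedge_form {F : Type*} [Field F] (g : Matrix (Fin 4) (Fin 4) F) (v : Fin 3 ⊕ Fin 3 → F) :
    Cfsg.quadFormPlus 3 F (wedge g *ᵥ v) = g.det * Cfsg.quadFormPlus 3 F v := by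
  simp only [Cfsg.quadFormPlus, Fin.sum_univ_three, Matrix.mulVec, dotProduct, Fintype.sum_sum_type, wedge_apply, pA0, pA1, pA2, pA3, pA4, pA5, pB0, pB1, pB2, pB3, pB4, pB5]
  rw [det_four]
  ring

end Cfsg.Agent.Lib.Classical
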