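import Mathlib
import Cfsg.Prelude.Def_Classical
import Cfsg.Agent.Lib.Classical.Wedge
import Cfsg.Agent.Lib.Classical.PermModel2
import Cfsg.Agent.Lib.Classical.SmallIso
import Cfsg.Agent.Lib.Classical.PSL
import Cfsg.Agent.S0243

/-! The homomorphism from `SL₄` to the orthogonal group of the Klein quadric, and `PSL₄(2) ≅ A₈`. -/

set_option autoImplicit false
set_option linter.unusedSimpArgs false
set_option linter.unusedVariables false
set_option linter.unusedSectionVars false

namespace Cfsg.Agent.Lib.Classical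

open Matrix

variable {F : Type*} [Field F]

/-- The wedge of an element of `SL₄` as a unit. -/
def wedgeGL : Matrix.SpecialLinearGroup (Fin 4) F →* Matrix.GeneralLinearGroup (Fin 3 ⊕ Fin 3) F where
  toFun g :=
    { val := wedge (g : Matrix (Fin 4) (Fin 4) F)
      inv := wedge ((g⁻¹ : Matrix.SpecialLinearGroup (Fin 4) F) : Matrix (Fin 4) (Fin 4) F)
      val_inv := by
        rw [← wedge_mul, ← Matrix.SpecialLinearGroup.coe_mul, mul_inv_cancel, Matrix.SpecialLinearGroup.coe_one, wedge_one]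
      inv_val := by
        rw [← wedge_mul, ← Matrix.SpecialLinearGroup.coe_mul, inv_mul_cancel, Matrix.SpecialLinearGroup.coe_one, wedge_one] }
  map_one' := by
    apply Units.ext
    exact wedge_one
  map_mul' g h := by
    apply Units.ext
    exact wedge_mul _ _

theorem wedgeGL_coe (g : Matrix.SpecialLinearGroup (Fin 4) F) :
    ((wedgeGL g : Matrix.GeneralLinearGroup (Fin 3 ⊕ Fin 3) F) : Matrix (Fin 3 ⊕ Fin 3) (Fin 3 ⊕ Fin 3) F) =
      wedge (g : Matrix (Fin 4) (Fin 4) F) := rfl

theorem wedgeGL_mem (g : Matrix.SpecialLinearGroup (Fin 4) F) :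
    wedgeGL g ∈ Cfsg.isometryGroup F (Cfsg.quadFormPlus 3 F) := by
  intro u _
  change Cfsg.quadFormPlus 3 F (((wedgeGL g : Matrix.GeneralLinearGroup (Fin 3 ⊕ Fin 3) F) : Matrix (Fin 3 ⊕ Fin 3) (Fin 3 ⊕ Fin 3) F) *ᵥ u) = Cfsg.quadFormPlus 3 F u
  rw [wedgeGL_coe, wedge_form, g.2, one_mul]

/-- The homomorphism `SL₄ → O⁺₆`. -/
def wedgeHom : Matrix.SpecialLinearGroup (Fin 4) F →* Cfsg.isometryGroup F (Cfsg.quadFormPlus 3 F) :=
  wedgeGL.codRestrict _ wedgeGL_mem

theorem wedgeHom_coe (g : Matrix.SpecialLinearGroup (Fin 4) F) :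
    (((wedgeHom g).1 : Matrix.GeneralLinearGroup (Fin 3 ⊕ Fin 3) F) : Matrix (Fin 3 ⊕ Fin 3) (Fin 3 ⊕ Fin 3) F) =
      wedge (g : Matrix (Fin 4) (Fin 4) F) := rfl

/-- `wedgeHom` is nontrivial. -/
theorem wedgeHom_ne_one : ∃ g : Matrix.SpecialLinearGroup (Fin 4) F, wedgeHom g ≠ 1 := by
  refine ⟨Matrix.SpecialLinearGroup.transvection (i := 0) (j := 2) (by decide) 1, ?_⟩
  intro h
  have h1 := congrArg (fun A => (((A : Cfsg.isometryGroup F (Cfsg.quadFormPlus 3 F)).1 : Matrix.GeneralLinearGroup (Fin 3 ⊕ Fin 3) F) : Matrix (Fin 3 ⊕ Fin 3) (Fin 3 ⊕ Fin 3) F) (Sum.inl 0) (Sum.inr 2)) h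
  simp only [wedgeHom_coe] at h1
  rw [wedge_apply] at h1
  simp [pA0, pB0, pA5, pB5, Matrix.SpecialLinearGroup.transvection_coe, Matrix.one_apply, Matrix.single_apply] at h1

/-- `PSL₄(2) ≅ A₈`. -/
theorem psl_four_two {F : Type*} [Field F] [Fintype F] (hF : Fintype.card F = 2) :
    Nonempty (Matrix.ProjectiveSpecialLinearGroup (Fin 4) F ≃* alternatingGroup (Fin 8)) := by
  classical
  obtain ⟨e⟩ := isometry_plus_six hF
  have hs : IsSimpleGroup (Matrix.ProjectiveSpecialLinearGroup (Fin 4) F) :=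
    psl_isSimpleGroup_of_three_le (by simp)
  have h01 : ∀ x : F, x = 0 ∨ x = 1 := by
    intro x
    by_contra hcon
    push Not at hcon
    have : ({0, 1, x} : Finset F).card = 3 := by
      rw [Finset.card_insert_of_notMem, Finset.card_insert_of_notMem]
      · simp
      · simpa using hcon.2.symm
      · simp [hcon.1.symm]
    have h2 := Finset.card_le_univ ({0, 1, x} : Finset F)
    omega
  -- the map on `SL₄`
  let φ₀ : Matrix.SpecialLinearGroup (Fin 4) F →* Equiv.Perm (Fin 8) := e.toMonoidHom.comp wedgeHom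
  have hc : Subgroup.center (Matrix.SpecialLinearGroup (Fin 4) F) ≤ φ₀.ker := by
    intro z hz
    rw [Matrix.SpecialLinearGroup.mem_center_iff] at hz
    obtain ⟨r, hr, hrz⟩ := hz
    have hr1 : r = 1 := by
      rcases h01 r with rfl | rfl
      · simp at hr
      · rfl
    have : z = 1 := by
      apply Subtype.ext
      rw [← hrz, hr1]
      simp
    rw [this]
    exact one_mem _
  let φ : Matrix.ProjectiveSpecialLinearGroup (Fin 4) F →* Equiv.Perm (Fin 8) :=
    QuotientGroup.lift (Subgroup.center (Matrix.SpecialLinearGroup (Fin 4) F)) φ₀ hc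
  have hinj : Function.Injective φ := by
    rw [injective_iff_map_eq_one]
    intro x hx
    have hk : φ.ker = ⊥ ∨ φ.ker = ⊤ := hs.eq_bot_or_eq_top_of_normal _ (MonoidHom.normal_ker φ)
    rcases hk with hk | hk
    · have : x ∈ φ.ker := hx
      rw [hk] at this
      exact this
    · exfalso
      obtain ⟨g, hg⟩ := wedgeHom_ne_one (F := F)
      have h1 : ((g : Matrix.SpecialLinearGroup (Fin 4) F) : Matrix.ProjectiveSpecialLinearGroup (Fin 4) F) ∈ φ.ker := by
        rw [hk]
        exact Subgroup.mem_top _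
      have h2 : φ₀ g = 1 := h1
      apply hg
      apply e.injective
      rw [map_one]
      exact h2
  have hcard : 2 * Nat.card (Matrix.ProjectiveSpecialLinearGroup (Fin 4) F) = Nat.factorial 8 := by
    have h := Cfsg.Agent.S0243.result (F := F) hF 4 (by norm_num)
    simp only [Fin.prod_univ_four] at h
    norm_num at h
    have h8 : Nat.factorial 8 = 40320 := rfl
    rw [h8, Nat.card_eq_fintype_card, h]
  exact nonempty_mulEquiv_alt_of_injective 8 φ hinj (by simp) hcard

end Cfsg.Agent.Lib.Classical
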