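import Mathlib
import Cfsg.Agent.Lib.Classical.OrthIso
import Cfsg.Agent.Lib.Classical.WedgeHom
import Cfsg.Agent.Lib.Classical.Card

/-! `PΩ⁺₆(q) ≅ PSL₄(q)`. -/

set_option autoImplicit false
set_option linter.unusedSimpArgs false
set_option linter.unusedVariables false
set_option linter.unusedSectionVars false
set_option linter.style.haveILetI false

namespace Cfsg.Agent.Lib.Classical

open Matrix Module

variable {F : Type*} [Field F]

/-- Centerless central quotient from simplicity. -/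
theorem centerless_of_simple {G : Type*} [Group G] (hp : commutator G = ⊤) (hs : IsSimpleGroup (G ⧸ Subgroup.center G))
    (x : G) (h : ∀ g : G, x * g * x⁻¹ * g⁻¹ ∈ Subgroup.center G) : x ∈ Subgroup.center G := by
  have hmem : (QuotientGroup.mk x : G ⧸ Subgroup.center G) ∈ Subgroup.center (G ⧸ Subgroup.center G) := by
    rw [Subgroup.mem_center_iff]
    intro y
    obtain ⟨g, rfl⟩ := QuotientGroup.mk_surjective y
    have h1 := (QuotientGroup.eq_one_iff _).2 (h g)
    rw [QuotientGroup.mk_mul, QuotientGroup.mk_mul, QuotientGroup.mk_mul, QuotientGroup.mk_inv, QuotientGroup.mk_inv] at h1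
    have h2 : (QuotientGroup.mk x : G ⧸ Subgroup.center G) * (QuotientGroup.mk g) * (QuotientGroup.mk x)⁻¹ = QuotientGroup.mk g := mul_inv_eq_one.1 h1
    have h3 := mul_inv_eq_iff_eq_mul.1 h2
    exact h3.symm
  rcases hs.eq_bot_or_eq_top_of_normal _ (inferInstance : (Subgroup.center (G ⧸ Subgroup.center G)).Normal) with h0 | h0
  · rw [h0, Subgroup.mem_bot] at hmem
    exact (QuotientGroup.eq_one_iff _).1 hmem
  · exfalso
    have hcomm : ∀ a b : G ⧸ Subgroup.center G, a * b = b * a := by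
      intro a b
      have : b ∈ Subgroup.center (G ⧸ Subgroup.center G) := by
        rw [h0]
        exact Subgroup.mem_top _
      exact (Subgroup.mem_center_iff.1 this a)
    have hall : ∀ a : G, (QuotientGroup.mk a : G ⧸ Subgroup.center G) = 1 := by
      intro a
      have ha : a ∈ commutator G := by
        rw [hp]
        exact Subgroup.mem_top a
      induction ha using Subgroup.closure_induction with
      | mem y hy =>
        obtain ⟨p, -, q, -, rfl⟩ := hy
        rw [commutatorElement_def, QuotientGroup.mk_mul, QuotientGroup.mk_mul, QuotientGroup.mk_mul, QuotientGroup.mk_inv, QuotientGroup.mk_inv,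
          hcomm (QuotientGroup.mk p) (QuotientGroup.mk q)]
        group
      | one => rfl
      | mul p q _ _ hp' hq' =>
        rw [QuotientGroup.mk_mul, hp', hq', one_mul]
      | inv p _ hp' =>
        rw [QuotientGroup.mk_inv, hp', inv_one]
    obtain ⟨a, b, hab⟩ := hs.toNontrivial
    obtain ⟨a', rfl⟩ := QuotientGroup.mk_surjective a
    obtain ⟨b', rfl⟩ := QuotientGroup.mk_surjective b
    exact hab (by rw [hall, hall])

/-- The central element `-1` of `SL₄`. -/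
def sl4Neg (F : Type*) [Field F] : Matrix.SpecialLinearGroup (Fin 4) F := ⟨-1, by
  rw [Matrix.det_neg]
  simp
  norm_num⟩

theorem wedge_kernel (G : Matrix.SpecialLinearGroup (Fin 4) F) (hw : wedge (G : Matrix (Fin 4) (Fin 4) F) = 1) :
    G = 1 ∨ G = sl4Neg F := by
  set g : Matrix (Fin 4) (Fin 4) F := (G : Matrix (Fin 4) (Fin 4) F) with hg
  have e00 : g 0 0 * g 1 1 - g 0 1 * g 1 0 = 1 := by
    have := congrFun (congrFun hw (Sum.inl 0)) (Sum.inl 0)
    simpa [wedge_apply, pA0, pA1, pA2, pA3, pA4, pA5, pB0, pB1, pB2, pB3, pB4, pB5, Matrix.one_apply] using this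
  have e01 : g 0 0 * g 1 2 - g 0 2 * g 1 0 = 0 := by
    have := congrFun (congrFun hw (Sum.inl 0)) (Sum.inl 1)
    simpa [wedge_apply, pA0, pA1, pA2, pA3, pA4, pA5, pB0, pB1, pB2, pB3, pB4, pB5, Matrix.one_apply] using this
  have e02 : g 0 0 * g 1 3 - g 0 3 * g 1 0 = 0 := by
    have := congrFun (congrFun hw (Sum.inl 0)) (Sum.inl 2)
    simpa [wedge_apply, pA0, pA1, pA2, pA3, pA4, pA5, pB0, pB1, pB2, pB3, pB4, pB5, Matrix.one_apply] using this
  have e03 : g 0 2 * g 1 3 - g 0 3 * g 1 2 = 0 := by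
    have := congrFun (congrFun hw (Sum.inl 0)) (Sum.inr 0)
    simpa [wedge_apply, pA0, pA1, pA2, pA3, pA4, pA5, pB0, pB1, pB2, pB3, pB4, pB5, Matrix.one_apply] using this
  have e04 : g 0 3 * g 1 1 - g 0 1 * g 1 3 = 0 := by
    have := congrFun (congrFun hw (Sum.inl 0)) (Sum.inr 1)
    simpa [wedge_apply, pA0, pA1, pA2, pA3, pA4, pA5, pB0, pB1, pB2, pB3, pB4, pB5, Matrix.one_apply] using this
  have e05 : g 0 1 * g 1 2 - g 0 2 * g 1 1 = 0 := by
    have := congrFun (congrFun hw (Sum.inl 0)) (Sum.inr 2)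
    simpa [wedge_apply, pA0, pA1, pA2, pA3, pA4, pA5, pB0, pB1, pB2, pB3, pB4, pB5, Matrix.one_apply] using this
  have e10 : g 0 0 * g 2 1 - g 0 1 * g 2 0 = 0 := by
    have := congrFun (congrFun hw (Sum.inl 1)) (Sum.inl 0)
    simpa [wedge_apply, pA0, pA1, pA2, pA3, pA4, pA5, pB0, pB1, pB2, pB3, pB4, pB5, Matrix.one_apply] using this
  have e11 : g 0 0 * g 2 2 - g 0 2 * g 2 0 = 1 := by
    have := congrFun (congrFun hw (Sum.inl 1)) (Sum.inl 1)
    simpa [wedge_apply, pA0, pA1, pA2, pA3, pA4, pA5, pB0, pB1, pB2, pB3, pB4, pB5, Matrix.one_apply] using this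
  have e12 : g 0 0 * g 2 3 - g 0 3 * g 2 0 = 0 := by
    have := congrFun (congrFun hw (Sum.inl 1)) (Sum.inl 2)
    simpa [wedge_apply, pA0, pA1, pA2, pA3, pA4, pA5, pB0, pB1, pB2, pB3, pB4, pB5, Matrix.one_apply] using this
  have e13 : g 0 2 * g 2 3 - g 0 3 * g 2 2 = 0 := by
    have := congrFun (congrFun hw (Sum.inl 1)) (Sum.inr 0)
    simpa [wedge_apply, pA0, pA1, pA2, pA3, pA4, pA5, pB0, pB1, pB2, pB3, pB4, pB5, Matrix.one_apply] using this
  have e14 : g 0 3 * g 2 1 - g 0 1 * g 2 3 = 0 := by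
    have := congrFun (congrFun hw (Sum.inl 1)) (Sum.inr 1)
    simpa [wedge_apply, pA0, pA1, pA2, pA3, pA4, pA5, pB0, pB1, pB2, pB3, pB4, pB5, Matrix.one_apply] using this
  have e15 : g 0 1 * g 2 2 - g 0 2 * g 2 1 = 0 := by
    have := congrFun (congrFun hw (Sum.inl 1)) (Sum.inr 2)
    simpa [wedge_apply, pA0, pA1, pA2, pA3, pA4, pA5, pB0, pB1, pB2, pB3, pB4, pB5, Matrix.one_apply] using this
  have e20 : g 0 0 * g 3 1 - g 0 1 * g 3 0 = 0 := by
    have := congrFun (congrFun hw (Sum.inl 2)) (Sum.inl 0)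
    simpa [wedge_apply, pA0, pA1, pA2, pA3, pA4, pA5, pB0, pB1, pB2, pB3, pB4, pB5, Matrix.one_apply] using this
  have e21 : g 0 0 * g 3 2 - g 0 2 * g 3 0 = 0 := by
    have := congrFun (congrFun hw (Sum.inl 2)) (Sum.inl 1)
    simpa [wedge_apply, pA0, pA1, pA2, pA3, pA4, pA5, pB0, pB1, pB2, pB3, pB4, pB5, Matrix.one_apply] using this
  have e22 : g 0 0 * g 3 3 - g 0 3 * g 3 0 = 1 := by
    have := congrFun (congrFun hw (Sum.inl 2)) (Sum.inl 2)
    simpa [wedge_apply, pA0, pA1, pA2, pA3, pA4, pA5, pB0, pB1, pB2, pB3, pB4, pB5, Matrix.one_apply] using this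
  have e23 : g 0 2 * g 3 3 - g 0 3 * g 3 2 = 0 := by
    have := congrFun (congrFun hw (Sum.inl 2)) (Sum.inr 0)
    simpa [wedge_apply, pA0, pA1, pA2, pA3, pA4, pA5, pB0, pB1, pB2, pB3, pB4, pB5, Matrix.one_apply] using this
  have e24 : g 0 3 * g 3 1 - g 0 1 * g 3 3 = 0 := by
    have := congrFun (congrFun hw (Sum.inl 2)) (Sum.inr 1)
    simpa [wedge_apply, pA0, pA1, pA2, pA3, pA4, pA5, pB0, pB1, pB2, pB3, pB4, pB5, Matrix.one_apply] using this
  have e25 : g 0 1 * g 3 2 - g 0 2 * g 3 1 = 0 := by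
    have := congrFun (congrFun hw (Sum.inl 2)) (Sum.inr 2)
    simpa [wedge_apply, pA0, pA1, pA2, pA3, pA4, pA5, pB0, pB1, pB2, pB3, pB4, pB5, Matrix.one_apply] using this
  have e30 : g 2 0 * g 3 1 - g 2 1 * g 3 0 = 0 := by
    have := congrFun (congrFun hw (Sum.inr 0)) (Sum.inl 0)
    simpa [wedge_apply, pA0, pA1, pA2, pA3, pA4, pA5, pB0, pB1, pB2, pB3, pB4, pB5, Matrix.one_apply] using this
  have e31 : g 2 0 * g 3 2 - g 2 2 * g 3 0 = 0 := by
    have := congrFun (congrFun hw (Sum.inr 0)) (Sum.inl 1)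
    simpa [wedge_apply, pA0, pA1, pA2, pA3, pA4, pA5, pB0, pB1, pB2, pB3, pB4, pB5, Matrix.one_apply] using this
  have e32 : g 2 0 * g 3 3 - g 2 3 * g 3 0 = 0 := by
    have := congrFun (congrFun hw (Sum.inr 0)) (Sum.inl 2)
    simpa [wedge_apply, pA0, pA1, pA2, pA3, pA4, pA5, pB0, pB1, pB2, pB3, pB4, pB5, Matrix.one_apply] using this
  have e33 : g 2 2 * g 3 3 - g 2 3 * g 3 2 = 1 := by
    have := congrFun (congrFun hw (Sum.inr 0)) (Sum.inr 0)
    simpa [wedge_apply, pA0, pA1, pA2, pA3, pA4, pA5, pB0, pB1, pB2, pB3, pB4, pB5, Matrix.one_apply] using this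
  have e34 : g 2 3 * g 3 1 - g 2 1 * g 3 3 = 0 := by
    have := congrFun (congrFun hw (Sum.inr 0)) (Sum.inr 1)
    simpa [wedge_apply, pA0, pA1, pA2, pA3, pA4, pA5, pB0, pB1, pB2, pB3, pB4, pB5, Matrix.one_apply] using this
  have e35 : g 2 1 * g 3 2 - g 2 2 * g 3 1 = 0 := by
    have := congrFun (congrFun hw (Sum.inr 0)) (Sum.inr 2)
    simpa [wedge_apply, pA0, pA1, pA2, pA3, pA4, pA5, pB0, pB1, pB2, pB3, pB4, pB5, Matrix.one_apply] using this
  have e40 : g 3 0 * g 1 1 - g 3 1 * g 1 0 = 0 := by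
    have := congrFun (congrFun hw (Sum.inr 1)) (Sum.inl 0)
    simpa [wedge_apply, pA0, pA1, pA2, pA3, pA4, pA5, pB0, pB1, pB2, pB3, pB4, pB5, Matrix.one_apply] using this
  have e41 : g 3 0 * g 1 2 - g 3 2 * g 1 0 = 0 := by
    have := congrFun (congrFun hw (Sum.inr 1)) (Sum.inl 1)
    simpa [wedge_apply, pA0, pA1, pA2, pA3, pA4, pA5, pB0, pB1, pB2, pB3, pB4, pB5, Matrix.one_apply] using this
  have e42 : g 3 0 * g 1 3 - g 3 3 * g 1 0 = 0 := by
    have := congrFun (congrFun hw (Sum.inr 1)) (Sum.inl 2)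
    simpa [wedge_apply, pA0, pA1, pA2, pA3, pA4, pA5, pB0, pB1, pB2, pB3, pB4, pB5, Matrix.one_apply] using this
  have e43 : g 3 2 * g 1 3 - g 3 3 * g 1 2 = 0 := by
    have := congrFun (congrFun hw (Sum.inr 1)) (Sum.inr 0)
    simpa [wedge_apply, pA0, pA1, pA2, pA3, pA4, pA5, pB0, pB1, pB2, pB3, pB4, pB5, Matrix.one_apply] using this
  have e44 : g 3 3 * g 1 1 - g 3 1 * g 1 3 = 1 := by
    have := congrFun (congrFun hw (Sum.inr 1)) (Sum.inr 1)
    simpa [wedge_apply, pA0, pA1, pA2, pA3, pA4, pA5, pB0, pB1, pB2, pB3, pB4, pB5, Matrix.one_apply] using this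
  have e45 : g 3 1 * g 1 2 - g 3 2 * g 1 1 = 0 := by
    have := congrFun (congrFun hw (Sum.inr 1)) (Sum.inr 2)
    simpa [wedge_apply, pA0, pA1, pA2, pA3, pA4, pA5, pB0, pB1, pB2, pB3, pB4, pB5, Matrix.one_apply] using this
  have e50 : g 1 0 * g 2 1 - g 1 1 * g 2 0 = 0 := by
    have := congrFun (congrFun hw (Sum.inr 2)) (Sum.inl 0)
    simpa [wedge_apply, pA0, pA1, pA2, pA3, pA4, pA5, pB0, pB1, pB2, pB3, pB4, pB5, Matrix.one_apply] using this
  have e51 : g 1 0 * g 2 2 - g 1 2 * g 2 0 = 0 := by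
    have := congrFun (congrFun hw (Sum.inr 2)) (Sum.inl 1)
    simpa [wedge_apply, pA0, pA1, pA2, pA3, pA4, pA5, pB0, pB1, pB2, pB3, pB4, pB5, Matrix.one_apply] using this
  have e52 : g 1 0 * g 2 3 - g 1 3 * g 2 0 = 0 := by
    have := congrFun (congrFun hw (Sum.inr 2)) (Sum.inl 2)
    simpa [wedge_apply, pA0, pA1, pA2, pA3, pA4, pA5, pB0, pB1, pB2, pB3, pB4, pB5, Matrix.one_apply] using this
  have e53 : g 1 2 * g 2 3 - g 1 3 * g 2 2 = 0 := by
    have := congrFun (congrFun hw (Sum.inr 2)) (Sum.inr 0)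
    simpa [wedge_apply, pA0, pA1, pA2, pA3, pA4, pA5, pB0, pB1, pB2, pB3, pB4, pB5, Matrix.one_apply] using this
  have e54 : g 1 3 * g 2 1 - g 1 1 * g 2 3 = 0 := by
    have := congrFun (congrFun hw (Sum.inr 2)) (Sum.inr 1)
    simpa [wedge_apply, pA0, pA1, pA2, pA3, pA4, pA5, pB0, pB1, pB2, pB3, pB4, pB5, Matrix.one_apply] using this
  have e55 : g 1 1 * g 2 2 - g 1 2 * g 2 1 = 1 := by
    have := congrFun (congrFun hw (Sum.inr 2)) (Sum.inr 2)
    simpa [wedge_apply, pA0, pA1, pA2, pA3, pA4, pA5, pB0, pB1, pB2, pB3, pB4, pB5, Matrix.one_apply] using this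
  have o01 : g 0 1 = 0 := by
    linear_combination g 0 0 * (e15) - g 0 2 * (-e10) - g 0 1 * (e11)
  have o02 : g 0 2 = 0 := by
    linear_combination g 0 0 * (-e05) - g 0 1 * (-e01) - g 0 2 * (e00)
  have o03 : g 0 3 = 0 := by
    linear_combination g 0 0 * (e04) - g 0 1 * (-e02) - g 0 3 * (e00)
  have o10 : g 1 0 = 0 := by
    linear_combination g 1 1 * (e51) - g 1 2 * (e50) - g 1 0 * (e55)
  have o12 : g 1 2 = 0 := by
    linear_combination g 1 1 * (e01) - g 1 0 * (e05) - g 1 2 * (e00)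
  have o13 : g 1 3 = 0 := by
    linear_combination g 1 1 * (e02) - g 1 0 * (-e04) - g 1 3 * (e00)
  have o20 : g 2 0 = 0 := by
    linear_combination g 2 2 * (-e50) - g 2 1 * (-e51) - g 2 0 * (e55)
  have o21 : g 2 1 = 0 := by
    linear_combination g 2 2 * (e10) - g 2 0 * (-e15) - g 2 1 * (e11)
  have o23 : g 2 3 = 0 := by
    linear_combination g 2 2 * (e12) - g 2 0 * (e13) - g 2 3 * (e11)
  have o30 : g 3 0 = 0 := by
    linear_combination g 3 3 * (e40) - g 3 1 * (e42) - g 3 0 * (e44)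
  have o31 : g 3 1 = 0 := by
    linear_combination g 3 3 * (e20) - g 3 0 * (e24) - g 3 1 * (e22)
  have o32 : g 3 2 = 0 := by
    linear_combination g 3 3 * (e21) - g 3 0 * (-e23) - g 3 2 * (e22)

  -- the diagonal
  rw [o01, o10] at e00
  rw [o02, o20] at e11
  rw [o12, o21] at e55
  simp only [mul_zero, sub_zero, zero_mul] at e00 e11 e55
  rw [o03, o30] at e22
  simp only [mul_zero, sub_zero, zero_mul] at e22
  have h0 : g 0 0 ≠ 0 := by
    intro h
    rw [h, zero_mul] at e00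
    exact zero_ne_one e00
  have h12 : g 1 1 = g 2 2 := mul_left_cancel₀ h0 (by rw [e00, e11])
  have h13 : g 1 1 = g 3 3 := mul_left_cancel₀ h0 (by rw [e00, e22])
  have h01 : g 0 0 = g 1 1 := by
    have h1 : g 2 2 ≠ 0 := by
      intro h
      rw [h, mul_zero] at e11
      exact zero_ne_one e11
    exact mul_right_cancel₀ h1 (e11.trans e55.symm)
  rcases mul_self_eq_one_iff.1 (by rw [← h01] at e00; exact e00 : g 0 0 * g 0 0 = 1) with h | h
  · left
    apply Subtype.ext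
    change g = 1
    ext i j
    fin_cases i <;> fin_cases j <;> simp [o01, o02, o03, o10, o12, o13, o20, o21, o23, o30, o31, o32, h, ← h01, ← h12, ← h13]
  · right
    apply Subtype.ext
    change g = -1
    ext i j
    fin_cases i <;> fin_cases j <;> simp [o01, o02, o03, o10, o12, o13, o20, o21, o23, o30, o31, o32, h, ← h01, ← h12, ← h13]

variable [Fintype F]

theorem card_SL4_eq : Nat.card (Matrix.SpecialLinearGroup (Fin 4) F) =
    Fintype.card F ^ 6 * ((Fintype.card F ^ 4 - 1) * (Fintype.card F ^ 3 - 1) * (Fintype.card F ^ 2 - 1)) := by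
  classical
  have h := card_GL_eq_mul_card_SL (F := F) (Fin 4)
  rw [Matrix.card_GL_field, Fin.prod_univ_four, Nat.card_eq_fintype_card (α := F)] at h
  simp only [Fin.val_zero, Fin.val_one, Fin.val_two, pow_zero, pow_one] at h
  set q := Fintype.card F with hq
  have hq2 : 1 < q := Fintype.one_lt_card
  obtain ⟨r, hr⟩ : ∃ r, q = r + 1 := ⟨q - 1, by omega⟩
  have hr0 : 0 < r := by omega
  have e1 : (q - 1) = r := by omega
  rw [e1] at h
  apply Nat.eq_of_mul_eq_mul_left hr0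
  rw [← h]
  have h1 : 1 ≤ q := by omega
  have h2 : q ≤ q ^ 4 := Nat.le_self_pow (by omega) q
  have h3 : q ^ 2 ≤ q ^ 4 := Nat.pow_le_pow_right h1 (by omega)
  have h4 : q ^ 3 ≤ q ^ 4 := Nat.pow_le_pow_right h1 (by omega)
  have h5 : 1 ≤ q ^ 4 := Nat.one_le_pow _ _ h1
  have h6 : 1 ≤ q ^ 3 := Nat.one_le_pow _ _ h1
  have h7 : 1 ≤ q ^ 2 := Nat.one_le_pow _ _ h1
  have e3 : ((3 : Fin 4) : ℕ) = 3 := rfl
  rw [e3]
  zify [h2, h3, h4, h5, h6, h7]
  rw [show (r : ℤ) = (q : ℤ) - 1 by rw [hr]; push_cast; ring]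
  ring

/-- The representation of `SL₄`. -/
def sl6Hom : Matrix.SpecialLinearGroup (Fin 4) F →* ((Fin 3 ⊕ Fin 3 → F) →ₗ[F] (Fin 3 ⊕ Fin 3 → F)) where
  toFun g := (wedge (g : Matrix (Fin 4) (Fin 4) F)).mulVecLin
  map_one' := by
    rw [Matrix.SpecialLinearGroup.coe_one, wedge_one, Matrix.mulVecLin_one]
    rfl
  map_mul' g h := by
    rw [Matrix.SpecialLinearGroup.coe_mul, wedge_mul, Matrix.mulVecLin_mul]
    rfl

omit [Fintype F] in
theorem sl6_apply (g : Matrix.SpecialLinearGroup (Fin 4) F) (v : Fin 3 ⊕ Fin 3 → F) :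
    sl6Hom g v = wedge (g : Matrix (Fin 4) (Fin 4) F) *ᵥ v := rfl

theorem pomega6plus_equiv :
    Nonempty (Cfsg.POmega F (Cfsg.quadFormPlus 3 F) ≃* Matrix.ProjectiveSpecialLinearGroup (Fin 4) F) := by
  obtain ⟨Q', hQ', hnd⟩ := ndq_plus (F := F) 3
  have hO := card_isometry_plus (F := F) rfl 3 (by omega)
  have hQv : ∀ v, Q' v = Cfsg.quadFormPlus 3 F v := fun v => congrFun hQ' v
  rw [← hQ'] at hO ⊢
  have hf : ∀ g v, Q' (sl6Hom g v) = Q' v := by
    intro g v
    rw [hQv, hQv, sl6_apply, wedge_form, g.2, one_mul]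
  have hcard : 2 ≤ Fintype.card (Fin 3 ⊕ Fin 3) := by
    simp [Fintype.card_sum]
  have hperf : commutator (Matrix.SpecialLinearGroup (Fin 4) F) = ⊤ :=
    commutator_sl_eq_top_of_three_le (by simp)
  refine pomega_equiv_of_rep (ogRep sl6Hom hf) hnd hcard ?_ ?_ (z₀ := sl4Neg F) ?_ ?_ ?_ ?_
  · rw [hO, card_SL4_eq]
    simp [Finset.prod_range_succ]
    ring
  · exact range_le_commutator_of_perfect hperf _
  · intro g hg
    apply wedge_kernel
    apply mat_ext_mulVec
    intro x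
    rw [one_mulVec, ← sl6_apply]
    exact ogRep_eq_one hg x
  · rw [Matrix.SpecialLinearGroup.mem_center_iff]
    refine ⟨-1, by norm_num, ?_⟩
    ext i j
    by_cases hij : i = j <;> simp [sl4Neg, Matrix.one_apply, Matrix.scalar_apply, Matrix.diagonal_apply, hij]
  · intro h
    have h7 : (-1 : F) = 1 := by linear_combination -h
    apply Subtype.ext
    change (-1 : Matrix (Fin 4) (Fin 4) F) = 1
    ext i j
    by_cases hij : i = j <;> simp [Matrix.one_apply, hij, h7]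
  · exact centerless_of_simple hperf (psl_isSimpleGroup_of_three_le (by simp))

end Cfsg.Agent.Lib.Classical
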