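import Mathlib
import Cfsg.Agent.Lib.Classical.OrthSL4
import Cfsg.Agent.Lib.Classical.QuadExt
import Cfsg.Agent.Lib.Classical.OrthHerm
import Cfsg.Agent.Lib.Classical.PSUSimple
import Cfsg.Agent.Lib.Classical.SUOrder

/-! `PΩ⁻₆(q) ≅ PSU₄(q)`. -/

set_option autoImplicit false
set_option linter.unusedSimpArgs false
set_option linter.unusedVariables false
set_option linter.unusedSectionVars false
set_option linter.style.haveILetI false

namespace Cfsg.Agent.Lib.Classical

open Matrix Module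

section wedgeFacts

variable {R : Type*} [CommRing R]

theorem wedge_transpose (g : Matrix (Fin 4) (Fin 4) R) : wedge gᵀ = (wedge g)ᵀ := by
  ext I J
  simp only [wedge_apply, Matrix.transpose_apply]
  ring

theorem wedge_map {S : Type*} [CommRing S] (φ : R →+* S) (g : Matrix (Fin 4) (Fin 4) R) :
    wedge (g.map φ) = (wedge g).map φ := by
  ext I J
  simp only [wedge_apply, Matrix.map_apply, map_sub, map_mul]

/-- The invariant pairing. -/
theorem wedge_pairing (g : Matrix (Fin 4) (Fin 4) R) (I J : Fin 3 ⊕ Fin 3) :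
    ∑ L : Fin 3 ⊕ Fin 3, wedge g L I * wedge g L.swap J = g.det * (if I = J.swap then 1 else 0) := by
  rw [det_four]
  rcases I with i | i <;> rcases J with j | j <;> fin_cases i <;> fin_cases j <;>
    simp [Fintype.sum_sum_type, Fin.sum_univ_three, wedge_apply, pA0, pA1, pA2, pA3, pA4, pA5, pB0, pB1, pB2, pB3, pB4, pB5] <;> ring

end wedgeFacts

variable {F K : Type*} [Field F] [Field K] [Algebra F K] {a b : F} (D : QExt F K a b)

namespace QExt

/-- The Frobenius is the conjugation. -/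
theorem σ_eq_pow [Fintype F] [Fintype K] {q : ℕ} (hF : Fintype.card F = q) (hK : Fintype.card K = q ^ 2) (x : K) :
    D.σ x = x ^ q := by
  have hq : 2 ≤ q := by
    rw [← hF]
    exact Fintype.one_lt_card
  have hmap : ∀ c : F, (algebraMap F K c) ^ q = algebraMap F K c := by
    intro c
    rw [← map_pow, ← hF, FiniteField.pow_card]
  have hom : D.ω ^ q = D.σ D.ω := by
    have h1 : (D.ω ^ q - D.ω) * (D.ω ^ q - D.σ D.ω) = 0 := by
      have h3 : (D.ω ^ q) * (D.ω ^ q) = algebraMap F K a * D.ω ^ q - algebraMap F K b := by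
        rw [← mul_pow, D.hω, ← frobQ_apply hK, map_sub, map_mul, frobQ_apply hK, frobQ_apply hK, frobQ_apply hK, hmap, hmap]
      rw [D.hσ]
      have h4 := D.hω
      linear_combination h3 - h4
    rcases mul_eq_zero.1 h1 with h | h
    · exfalso
      have hall : ∀ y : K, y ^ q = y := by
        intro y
        rw [D.hdec y, ← frobQ_apply hK, map_add, map_mul, frobQ_apply hK, frobQ_apply hK, frobQ_apply hK, hmap, hmap,
          sub_eq_zero.1 h]
      apply frobQ_ne_id hK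
      ext y
      rw [frobQ_apply, hall]
      rfl
    · exact sub_eq_zero.1 h
  have e2 : ∀ r i : F, (algebraMap F K r + algebraMap F K i * D.ω) ^ q = algebraMap F K r + algebraMap F K i * D.σ D.ω := by
    intro r i
    rw [← frobQ_apply hK, map_add, map_mul, frobQ_apply hK, frobQ_apply hK, frobQ_apply hK, hmap, hmap, hom]
  conv_lhs => rw [D.hdec x]
  conv_rhs => rw [D.hdec x, e2]
  simp only [map_add, map_mul, AlgHom.commutes]

theorem ω_ne_σ : D.σ D.ω ≠ D.ω := by
  intro h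
  have h1 := D.hfix _ h
  have h2 := D.him 0 1
  simp only [map_zero, map_one, zero_add, one_mul] at h2
  rw [h1] at h2
  exact zero_ne_one h2

/-- The first dual element. -/
def e₁ : K := - D.σ D.ω / (D.ω - D.σ D.ω)

/-- The second dual element. -/
def e₂ : K := 1 / (D.ω - D.σ D.ω)

theorem d_ne : D.ω - D.σ D.ω ≠ 0 := sub_ne_zero.2 (Ne.symm D.ω_ne_σ)

theorem σ_d : D.σ (D.ω - D.σ D.ω) = - (D.ω - D.σ D.ω) := by
  rw [map_sub, σ_σ]
  ring

theorem ωσω : D.ω * D.σ D.ω = algebraMap F K b := by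
  rw [D.hσ]
  have := D.hω
  linear_combination -this

theorem tr_e₁ : D.e₁ + D.σ D.e₁ = 1 := by
  have hd := D.d_ne
  have h : D.σ D.e₁ = D.ω / (D.ω - D.σ D.ω) := by
    rw [e₁, map_div₀, map_neg, σ_σ, σ_d, neg_div_neg_eq]
  rw [h, e₁]
  field_simp
  ring

theorem tr_e₁ω : D.e₁ * D.ω + D.σ (D.e₁ * D.ω) = 0 := by
  have hd := D.d_ne
  have hd' : D.σ (D.ω - D.σ D.ω) ≠ 0 := by
    rw [σ_d]
    exact neg_ne_zero.2 hd
  have h : D.σ (D.e₁ * D.ω) = D.ω * D.σ D.ω / (D.ω - D.σ D.ω) := by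
    rw [e₁, map_mul, map_div₀, map_neg, σ_σ, σ_d]
    field_simp
  rw [h, e₁]
  field_simp
  ring

theorem tr_e₂ : D.e₂ + D.σ D.e₂ = 0 := by
  have hd := D.d_ne
  have h : D.σ D.e₂ = - (1 / (D.ω - D.σ D.ω)) := by
    rw [e₂, map_div₀, map_one, σ_d]
    field_simp
  rw [h, e₂]
  ring

theorem tr_e₂ω : D.e₂ * D.ω + D.σ (D.e₂ * D.ω) = 1 := by
  have hd := D.d_ne
  have h : D.σ (D.e₂ * D.ω) = - (D.σ D.ω / (D.ω - D.σ D.ω)) := by
    rw [e₂, map_mul, map_div₀, map_one, σ_d]
    field_simp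
  rw [h, e₂]
  field_simp
  ring

/-- The embedding of the `F`-form of `Λ²`. -/
def iota (p : Fin 3 → K) : Fin 3 ⊕ Fin 3 → K := Sum.elim p (fun i => D.σ (p i))

theorem iota_inl (p : Fin 3 → K) (i : Fin 3) : D.iota p (Sum.inl i) = p i := rfl

theorem iota_inr (p : Fin 3 → K) (i : Fin 3) : D.iota p (Sum.inr i) = D.σ (p i) := rfl

theorem iota_swap (p : Fin 3 → K) (I : Fin 3 ⊕ Fin 3) : D.iota p I.swap = D.σ (D.iota p I) := by
  rcases I with i | i
  · rfl
  · change p i = D.σ (D.σ (p i))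
    rw [D.σ_σ]

theorem iota_add (p p' : Fin 3 → K) : D.iota (p + p') = D.iota p + D.iota p' := by
  ext I
  rcases I with i | i <;> simp [iota]

theorem iota_smul (c : F) (p : Fin 3 → K) : D.iota (c • p) = algebraMap F K c • D.iota p := by
  ext I
  rcases I with i | i <;> simp [iota, Algebra.smul_def]

theorem q_iota (p : Fin 3 → K) : Cfsg.quadFormPlus 3 K (D.iota p) = ∑ i, p i * D.σ (p i) := rfl

/-- Vectors satisfying the reality condition come from `K³`. -/
theorem iota_pi {v : Fin 3 ⊕ Fin 3 → K} (h : ∀ I, v I.swap = D.σ (v I)) : D.iota (fun i => v (Sum.inl i)) = v := by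
  ext I
  rcases I with i | i
  · rfl
  · exact (h (Sum.inl i)).symm

section SU

variable [Fintype F] [Fintype K] {q : ℕ} (hF : Fintype.card F = q) (hK : Fintype.card K = q ^ 2)

include hF hK in
theorem wedge_conj (A : Cfsg.SU 4 K q) (I J : Fin 3 ⊕ Fin 3) :
    D.σ (wedge (A.1 : Matrix (Fin 4) (Fin 4) K) I J) = wedge (A.1 : Matrix (Fin 4) (Fin 4) K) I.swap J.swap := by
  have hq := two_le_q hK
  set g : Matrix (Fin 4) (Fin 4) K := (A.1 : Matrix (Fin 4) (Fin 4) K) with hg
  have hdet : g.det = 1 := A.1.2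
  have hpres : ∀ u v, Cfsg.hermForm 4 K q (g *ᵥ u) (g *ᵥ v) = Cfsg.hermForm 4 K q u v := fun u v => A.2 u v
  have h1 := gu_matrix g hpres (by omega)
  set W := wedge g with hW
  have h3 : g.map (fun x => x ^ q) = g.map (D.σ : K →+* K) := by
    ext i j
    simp only [Matrix.map_apply]
    exact (D.σ_eq_pow hF hK _).symm
  have h2 : Wᵀ * W.map (D.σ : K →+* K) = 1 := by
    rw [hW, ← wedge_transpose, ← wedge_map, ← h3, ← wedge_mul, h1, wedge_one]
  have h4 : Wᵀ * W.submatrix Sum.swap Sum.swap = 1 := by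
    ext I' J'
    rw [Matrix.mul_apply]
    have := wedge_pairing g I' J'.swap
    rw [hdet, one_mul, Sum.swap_swap] at this
    simpa [Matrix.one_apply, hW] using this
  have h5 : W.map (D.σ : K →+* K) = W.submatrix Sum.swap Sum.swap := by
    have h6 : W.submatrix Sum.swap Sum.swap * Wᵀ = 1 := mul_eq_one_comm.1 h4
    calc W.map (D.σ : K →+* K) = (W.submatrix Sum.swap Sum.swap * Wᵀ) * W.map (D.σ : K →+* K) := by rw [h6, Matrix.one_mul]
      _ = W.submatrix Sum.swap Sum.swap * (Wᵀ * W.map (D.σ : K →+* K)) := by rw [Matrix.mul_assoc]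
      _ = W.submatrix Sum.swap Sum.swap := by rw [h2, Matrix.mul_one]
  exact congrFun (congrFun h5 I) J

include hF hK in
theorem wedge_iota_real (A : Cfsg.SU 4 K q) (p : Fin 3 → K) (I : Fin 3 ⊕ Fin 3) :
    (wedge (A.1 : Matrix (Fin 4) (Fin 4) K) *ᵥ D.iota p) I.swap = D.σ ((wedge (A.1 : Matrix (Fin 4) (Fin 4) K) *ᵥ D.iota p) I) := by
  simp only [Matrix.mulVec, dotProduct, map_sum, map_mul]
  rw [← Equiv.sum_comp (Equiv.sumComm (Fin 3) (Fin 3))]
  apply Finset.sum_congr rfl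
  intro J _
  rw [D.wedge_conj hF hK A I J, ← D.iota_swap p J]
  rfl

/-- The linear action on `K³`. -/
def lU (A : Cfsg.SU 4 K q) : (Fin 3 → K) →ₗ[F] (Fin 3 → K) where
  toFun p := fun i => (wedge (A.1 : Matrix (Fin 4) (Fin 4) K) *ᵥ D.iota p) (Sum.inl i)
  map_add' u v := by
    ext i
    rw [iota_add, mulVec_add]
    rfl
  map_smul' c v := by
    ext i
    rw [iota_smul, mulVec_smul]
    simp [Algebra.smul_def]

include hF hK in
theorem iota_lU (A : Cfsg.SU 4 K q) (p : Fin 3 → K) :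
    D.iota (D.lU A p) = wedge (A.1 : Matrix (Fin 4) (Fin 4) K) *ᵥ D.iota p :=
  D.iota_pi (D.wedge_iota_real hF hK A p)

include hF hK in
/-- The representation on `K³`. -/
def suHom : Cfsg.SU 4 K q →* ((Fin 3 → K) →ₗ[F] (Fin 3 → K)) where
  toFun A := D.lU A
  map_one' := by
    apply LinearMap.ext
    intro p
    ext i
    change (wedge (1 : Matrix (Fin 4) (Fin 4) K) *ᵥ D.iota p) (Sum.inl i) = p i
    rw [wedge_one, one_mulVec]
    rfl
  map_mul' A B := by
    apply LinearMap.ext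
    intro p
    ext i
    change (wedge ((A.1 : Matrix (Fin 4) (Fin 4) K) * (B.1 : Matrix (Fin 4) (Fin 4) K)) *ᵥ D.iota p) (Sum.inl i) =
      (wedge (A.1 : Matrix (Fin 4) (Fin 4) K) *ᵥ D.iota (D.lU B p)) (Sum.inl i)
    rw [D.iota_lU hF hK, wedge_mul, mulVec_mulVec]

theorem suHom_form (A : Cfsg.SU 4 K q) (p : Fin 3 → K) :
    ∑ i, (D.suHom hF hK A p) i * D.σ ((D.suHom hF hK A p) i) = ∑ i, p i * D.σ (p i) := by
  rw [← q_iota, ← q_iota]
  change Cfsg.quadFormPlus 3 K (D.iota (D.lU A p)) = _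
  rw [D.iota_lU hF hK, wedge_form]
  have : (A.1 : Matrix (Fin 4) (Fin 4) K).det = 1 := A.1.2
  rw [this, one_mul]

end SU

end QExt

end Cfsg.Agent.Lib.Classical
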