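import Mathlib
import Cfsg.Agent.Lib.Classical.OrthSU4
import Cfsg.Agent.Lib.Classical.OrthMinus
import Cfsg.Agent.Lib.Quad.Split

/-! `PΩ⁻₆(q) ≅ PSU₄(q)`: the final assembly. -/

set_option autoImplicit false
set_option linter.unusedSimpArgs false
set_option linter.unusedVariables false
set_option linter.unusedSectionVars false
set_option linter.style.haveILetI false

namespace Cfsg.Agent.Lib.Classical

open Matrix Module

variable {F K : Type*} [Field F] [Field K] [Algebra F K] {a b : F} (D : QExt F K a b)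

namespace QExt

/-- The isotropic part of the coordinates. -/
def psiX (v : (Fin 2 ⊕ Fin 2) ⊕ Fin 2 → F) : K :=
  D.σ (algebraMap F K (v (.inl (.inr 0)) - v (.inl (.inl 0)) - a * v (.inl (.inl 1))) * D.e₁ +
    algebraMap F K (v (.inl (.inr 1)) - b * v (.inl (.inl 1))) * D.e₂)

theorem psiX_add (u v : (Fin 2 ⊕ Fin 2) ⊕ Fin 2 → F) : D.psiX (u + v) = D.psiX u + D.psiX v := by
  simp only [psiX, Pi.add_apply, map_add, map_sub, map_mul, AlgHom.commutes]
  ring

theorem psiX_smul (c : F) (v : (Fin 2 ⊕ Fin 2) ⊕ Fin 2 → F) : D.psiX (c • v) = algebraMap F K c * D.psiX v := by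
  simp only [psiX, Pi.smul_apply, smul_eq_mul, map_add, map_sub, map_mul, AlgHom.commutes]
  ring

theorem vec_add' (x y x' y' : F) : D.vec (x + x') (y + y') = D.vec x y + D.vec x' y' := by
  simp only [vec, map_add]
  ring

theorem vec_smul' (c x y : F) : D.vec (c * x) (c * y) = algebraMap F K c * D.vec x y := by
  simp only [vec, map_mul]
  ring

/-- The coordinates. -/
def psi (w : K) : ((Fin 2 ⊕ Fin 2) ⊕ Fin 2 → F) →ₗ[F] (Fin 3 → K) where
  toFun v := ![D.psiX v + D.vec (v (.inl (.inl 0))) (v (.inl (.inl 1))), w * D.psiX v, D.vec (v (.inr 0)) (v (.inr 1))]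
  map_add' u v := by
    ext i
    fin_cases i
    · simp only [Fin.zero_eta, Matrix.cons_val_zero, Pi.add_apply, psiX_add, vec_add']
      ring
    · simp only [Fin.mk_one, Matrix.cons_val_one, Matrix.cons_val_zero, Pi.add_apply, psiX_add]
      ring
    · simp [Pi.add_apply, vec_add']
  map_smul' c v := by
    ext i
    fin_cases i
    · change D.psiX (c • v) + D.vec (c * v (.inl (.inl 0))) (c * v (.inl (.inl 1))) = c • (D.psiX v + D.vec (v (.inl (.inl 0))) (v (.inl (.inl 1))))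
      rw [psiX_smul, vec_smul', Algebra.smul_def]
      ring
    · change w * D.psiX (c • v) = c • (w * D.psiX v)
      rw [psiX_smul, Algebra.smul_def]
      ring
    · change D.vec (c * v (.inr 0)) (c * v (.inr 1)) = c • D.vec (v (.inr 0)) (v (.inr 1))
      rw [vec_smul', Algebra.smul_def]

theorem psi_form {w : K} (hw : w * D.σ w = -1) (v : (Fin 2 ⊕ Fin 2) ⊕ Fin 2 → F) :
    ∑ i, (D.psi w v) i * D.σ ((D.psi w v) i) = algebraMap F K (Cfsg.quadFormMinus 2 F a b v) := by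
  rw [Fin.sum_univ_three]
  change (D.psiX v + D.vec (v (.inl (.inl 0))) (v (.inl (.inl 1)))) * D.σ (D.psiX v + D.vec (v (.inl (.inl 0))) (v (.inl (.inl 1)))) +
    (w * D.psiX v) * D.σ (w * D.psiX v) + D.vec (v (.inr 0)) (v (.inr 1)) * D.σ (D.vec (v (.inr 0)) (v (.inr 1))) = _
  rw [D.norm_vec]
  set x₁ := v (.inl (.inl 0))
  set x₂ := v (.inl (.inl 1))
  set y₁ := v (.inl (.inr 0))
  set y₂ := v (.inl (.inr 1))
  set z₁ := v (.inr 0)
  set z₂ := v (.inr 1)
  have hX : D.σ (D.psiX v) = algebraMap F K (y₁ - x₁ - a * x₂) * D.e₁ + algebraMap F K (y₂ - b * x₂) * D.e₂ := by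
    rw [psiX, D.σ_σ]
  set X := D.psiX v
  set α := y₁ - x₁ - a * x₂ with hα
  set β := y₂ - b * x₂ with hβ
  set R := D.vec x₁ x₂ with hR
  have h1 := D.tr_e₁
  have h2 := D.tr_e₁ω
  have h3 := D.tr_e₂
  have h4 := D.tr_e₂ω
  have hN := D.norm_vec x₁ x₂
  rw [← hR] at hN
  have key : R * D.σ X + X * D.σ R = algebraMap F K (x₁ * α + x₂ * β) := by
    have hX' : X = D.σ (algebraMap F K α * D.e₁ + algebraMap F K β * D.e₂) := by
      rw [← hX, D.σ_σ]
    rw [hX', D.σ_σ, hR]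
    simp only [vec, map_add, map_mul, AlgHom.commutes] at h2 h4 ⊢
    linear_combination (algebraMap F K x₁ * algebraMap F K α) * h1 + (algebraMap F K x₂ * algebraMap F K α) * h2 +
      (algebraMap F K x₁ * algebraMap F K β) * h3 + (algebraMap F K x₂ * algebraMap F K β) * h4
  have hQ : Cfsg.quadFormMinus 2 F a b v = x₁ * y₁ + x₂ * y₂ + (z₁ ^ 2 + a * z₁ * z₂ + b * z₂ ^ 2) := by
    simp only [Cfsg.quadFormMinus, Fin.sum_univ_two]
    rfl
  have e1 : x₁ * y₁ + x₂ * y₂ = x₁ * α + x₂ * β + (x₁ ^ 2 + a * x₁ * x₂ + b * x₂ ^ 2) := by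
    rw [hα, hβ]
    ring
  have e2 : algebraMap F K (x₁ * y₁ + x₂ * y₂ + (z₁ ^ 2 + a * z₁ * z₂ + b * z₂ ^ 2)) =
      algebraMap F K (x₁ * α + x₂ * β) + algebraMap F K (x₁ ^ 2 + a * x₁ * x₂ + b * x₂ ^ 2) + algebraMap F K (z₁ ^ 2 + a * z₁ * z₂ + b * z₂ ^ 2) := by
    rw [e1, map_add, map_add]
  rw [hQ, e2, ← key, ← hN, map_add D.σ, map_mul D.σ]
  linear_combination (X * D.σ X) * hw


theorem exists_norm_neg_one [Fintype F] (hab : ∀ z₁ z₂ : F, z₁ ^ 2 + a * z₁ * z₂ + b * z₂ ^ 2 = 0 → z₁ = 0 ∧ z₂ = 0) :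
    ∃ w : K, w * D.σ w = -1 := by
  classical
  obtain ⟨Q', hQ', hnd⟩ := ndq_minus_zero a b hab
  have hc : (-1 : F) ≠ 0 := neg_ne_zero.2 one_ne_zero
  have hfr : 2 ≤ finrank F ((Fin 0 ⊕ Fin 0) ⊕ Fin 2 → F) := by
    simp [Module.finrank_pi, Module.finrank_fintype_fun_eq_card, Fintype.card_sum]
  obtain ⟨x, hx⟩ := Cfsg.Agent.Lib.Quad.exists_value_of_nondeg (Cfsg.Agent.Lib.Quad.NondegQ.of_polarBilin hnd) hfr hc
  have h1 : Cfsg.quadFormMinus 0 F a b x = -1 := by
    rw [← hQ']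
    exact hx
  simp only [Cfsg.quadFormMinus, Fin.sum_univ_zero, zero_add] at h1
  refine ⟨D.vec (x (.inr 0)) (x (.inr 1)), ?_⟩
  rw [D.norm_vec, h1, map_neg, map_one]

section main

variable [Fintype F] [Fintype K] {q : ℕ} (hF : Fintype.card F = q) (hK : Fintype.card K = q ^ 2)

include hF hK in
theorem psi_bijective {w : K} (hw : w * D.σ w = -1) (hab : ∀ z₁ z₂ : F, z₁ ^ 2 + a * z₁ * z₂ + b * z₂ ^ 2 = 0 → z₁ = 0 ∧ z₂ = 0) :
    Function.Bijective (D.psi w) := by
  classical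
  obtain ⟨Q', hQ', hnd⟩ := ndq_minus a b hab 2
  have hQv : ∀ v, Q' v = Cfsg.quadFormMinus 2 F a b v := fun v => congrFun hQ' v
  rw [Fintype.bijective_iff_injective_and_card]
  constructor
  · rw [injective_iff_map_eq_zero]
    intro v hv
    have hQ0 : ∀ u, Q' (v + u) = Q' u := by
      intro u
      apply (algebraMap F K).injective
      rw [hQv, hQv, ← D.psi_form hw, ← D.psi_form hw, map_add, hv, zero_add]
    apply hnd.1
    intro u
    have h1 := hQ0 u
    have h2 := hQ0 0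
    rw [add_zero, map_zero] at h2
    rw [QuadraticMap.polarBilin_apply_apply, QuadraticMap.polar, h1, h2]
    ring
  · simp [Fintype.card_sum, hF, hK]
    ring


include hF hK in
theorem wedge_eq_one_of_lU (A : Cfsg.SU 4 K q) (h : ∀ p, D.lU A p = p) :
    wedge (A.1 : Matrix (Fin 4) (Fin 4) K) = 1 := by
  apply mat_ext_mulVec
  intro x
  rw [one_mulVec]
  have hd := D.d_ne
  have hσd := D.σ_d
  let p₂ : Fin 3 → K := fun i => (x (.inl i) - D.σ (x (.inr i))) / (D.ω - D.σ D.ω)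
  let p₁ : Fin 3 → K := fun i => x (.inl i) - D.ω * p₂ i
  have hx : x = D.iota p₁ + D.ω • D.iota p₂ := by
    ext I
    rcases I with i | i
    · simp only [Pi.add_apply, Pi.smul_apply, smul_eq_mul, iota_inl, p₁]
      ring
    · simp only [Pi.add_apply, Pi.smul_apply, smul_eq_mul, iota_inr, p₁, p₂, map_sub, map_mul, map_div₀, hσd, D.σ_σ]
      field_simp
      ring
  rw [hx, mulVec_add, mulVec_smul, ← D.iota_lU hF hK, ← D.iota_lU hF hK, h, h]

include D hF hK in
theorem neg_mem_SU : sl4Neg K ∈ Cfsg.SU 4 K q := by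
  intro u v
  have h1 : ∀ w : Fin 4 → K, Cfsg.slToMat 4 K (sl4Neg K) *ᵥ w = - w := by
    intro w
    change (-1 : Matrix (Fin 4) (Fin 4) K) *ᵥ w = - w
    rw [neg_mulVec, one_mulVec]
  rw [h1, h1]
  simp only [Cfsg.hermForm, Pi.neg_apply]
  apply Finset.sum_congr rfl
  intro i _
  rw [← D.σ_eq_pow hF hK, ← D.σ_eq_pow hF hK, map_neg]
  ring

end main

end QExt

variable [Fintype F] [Fintype K] {q : ℕ}

omit [Algebra F K] in
theorem pomega6minus_equiv (hF : Fintype.card F = q) (hK : Fintype.card K = q ^ 2)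
    (hab : ∀ z₁ z₂ : F, z₁ ^ 2 + a * z₁ * z₂ + b * z₂ ^ 2 = 0 → z₁ = 0 ∧ z₂ = 0) :
    Nonempty (Cfsg.POmega F (Cfsg.quadFormMinus 2 F a b) ≃* Cfsg.PSU 4 K q) := by
  classical
  have hK' : Fintype.card K = Fintype.card F ^ 2 := by rw [hK, hF]
  obtain ⟨inst, ⟨D⟩⟩ := exists_algebra_qext hab hK'
  obtain ⟨w, hw⟩ := D.exists_norm_neg_one hab
  have hbij := D.psi_bijective hF hK hw hab
  let e : ((Fin 2 ⊕ Fin 2) ⊕ Fin 2 → F) ≃ₗ[F] (Fin 3 → K) := LinearEquiv.ofBijective (D.psi w) hbij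
  have he : ∀ v, e v = D.psi w v := fun v => rfl
  let f : Cfsg.SU 4 K q →* (((Fin 2 ⊕ Fin 2) ⊕ Fin 2 → F) →ₗ[F] ((Fin 2 ⊕ Fin 2) ⊕ Fin 2 → F)) :=
    { toFun := fun A => (e.symm : (Fin 3 → K) →ₗ[F] _) ∘ₗ D.suHom hF hK A ∘ₗ (e : _ →ₗ[F] (Fin 3 → K))
      map_one' := by
        apply LinearMap.ext
        intro v
        simp
      map_mul' := by
        intro A B
        apply LinearMap.ext
        intro v
        simp }
  have hfa : ∀ A v, e (f A v) = D.suHom hF hK A (e v) := by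
    intro A v
    change e (e.symm _) = _
    rw [e.apply_symm_apply]
    rfl
  obtain ⟨Q', hQ', hnd⟩ := ndq_minus a b hab 2
  have hO := card_isometry_minus_aux hF a b hab 2
  have hQv : ∀ v, Q' v = Cfsg.quadFormMinus 2 F a b v := fun v => congrFun hQ' v
  rw [← hQ'] at hO ⊢
  have hf : ∀ g v, Q' (f g v) = Q' v := by
    intro g v
    apply (algebraMap F K).injective
    rw [hQv, hQv, ← D.psi_form hw, ← D.psi_form hw, ← he, ← he, hfa, D.suHom_form]
  have hcard : 2 ≤ Fintype.card ((Fin 2 ⊕ Fin 2) ⊕ Fin 2) := by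
    simp [Fintype.card_sum]
  have hq : 2 ≤ q := two_le_q hK
  haveI : Finite (Cfsg.SU 4 K q) := inferInstance
  have hperf : commutator (Cfsg.SU 4 K q) = ⊤ := su_perfect hK (by norm_num) (by simp)
  have h32 : ¬ ((4 : ℕ) = 3 ∧ q = 2) := by simp
  refine pomega_equiv_of_rep (ogRep f hf) hnd hcard ?_ ?_ (z₀ := ⟨sl4Neg K, D.neg_mem_SU hF hK⟩) ?_ ?_ ?_ ?_
  · have h1 := card_su_mul hK (n := 4) (by norm_num)
    have h2 := card_gu hK 4
    rw [h2] at h1
    have h3 : (q + 1) * Nat.card (Cfsg.SU 4 K q) = (q + 1) * (q ^ 6 * (q ^ 2 - 1) * (q ^ 3 + 1) * (q ^ 4 - 1)) := by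
      rw [h1]
      simp [Finset.prod_range_succ, show Even 2 by decide, show ¬ Even 1 by decide, show ¬ Even 3 by decide]
      ring
    have h4 := Nat.eq_of_mul_eq_mul_left (by omega) h3
    rw [hO, h4]
    simp [Finset.prod_range_succ]
    ring
  · exact range_le_commutator_of_perfect hperf _
  · intro g hg
    have h1 : ∀ p, D.lU g p = p := by
      intro p
      obtain ⟨v, rfl⟩ := e.surjective p
      have := hfa g v
      rw [ogRep_eq_one hg v] at this
      exact this.symm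
    have h2 := D.wedge_eq_one_of_lU hF hK g h1
    rcases wedge_kernel g.1 h2 with h3 | h3
    · left
      exact Subtype.ext h3
    · right
      exact Subtype.ext h3
  · rw [Subgroup.mem_center_iff]
    intro g
    apply Subtype.ext
    apply Subtype.ext
    change (g.1 : Matrix (Fin 4) (Fin 4) K) * (-1) = (-1) * (g.1 : Matrix (Fin 4) (Fin 4) K)
    simp
  · intro h
    have h7 : (2 : K) = 0 := by
      have := congrArg (algebraMap F K) h
      rwa [map_ofNat, map_zero] at this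
    have h8 : (-1 : K) = 1 := by linear_combination -h7
    apply Subtype.ext
    apply Subtype.ext
    change (-1 : Matrix (Fin 4) (Fin 4) K) = 1
    ext i j
    by_cases hij : i = j <;> simp [Matrix.one_apply, hij, h8]
  · exact centerless_of_simple hperf (psu_simple hK (by norm_num) h32)

end Cfsg.Agent.Lib.Classical
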