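import Mathlib
import Cfsg.Agent.Lib.Classical.SpInvol

/-! Elements of the symplectic group squaring to `-1` are conjugate; involution classes of `PSp`. -/

set_option autoImplicit false
set_option linter.unusedSimpArgs false
set_option linter.unusedVariables false
set_option linter.unusedSectionVars false
set_option linter.style.haveILetI false

namespace Cfsg.Agent.Lib.Classical

open Matrix Module Cfsg.Agent.Lib.KnownSimple

variable {F : Type*} [Field F] {m : ℕ}

local notation "ff" => Cfsg.sympForm m F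
local notation "VV" => (Fin m ⊕ Fin m → F)
local notation "Sp" => Matrix.symplecticGroup (Fin m) F

theorem neg_apply {t : Sp} (ht : t.1 * t.1 = -1) (x : VV) : t.1 *ᵥ (t.1 *ᵥ x) = -x := by
  rw [mulVec_mulVec, ht, neg_mulVec, one_mulVec]

theorem sympForm_neg_right (u v : VV) : ff u (-v) = - ff u v := by
  have := sympForm_smul_right (-1) u v
  rwa [neg_one_smul, neg_one_mul] at this

theorem sympForm_neg_left (u v : VV) : ff (-u) v = - ff u v := by
  have := sympForm_smul_left (-1) u v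
  rwa [neg_one_smul, neg_one_mul] at this

theorem neg_symm {t : Sp} (ht : t.1 * t.1 = -1) (x y : VV) : ff x (t.1 *ᵥ y) = ff y (t.1 *ᵥ x) := by
  have h1 := sp_form t y (t.1 *ᵥ x)
  rw [neg_apply ht, sympForm_neg_right, sympForm_swap, neg_neg] at h1
  exact h1

/-- The perpendicular step. -/
theorem exists_perp_step [Finite F] (h2 : (2 : F) ≠ 0) {t : Sp} (ht : t.1 * t.1 = -1) (W : Submodule F VV)
    (hinv : ∀ x ∈ W, t.1 *ᵥ x ∈ W) (hnd : ∀ u ∈ W, (∀ v ∈ W, ff u v = 0) → u = 0) {r : ℕ}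
    (hr : finrank F W = 2 * (r + 1)) :
    ∃ x₀ ∈ W, ∃ W₁ : Submodule F VV, W₁ ≤ W ∧ (∀ x ∈ W₁, t.1 *ᵥ x ∈ W₁) ∧
      (∀ u ∈ W₁, (∀ v ∈ W₁, ff u v = 0) → u = 0) ∧ finrank F W₁ = 2 * r ∧ ff x₀ (t.1 *ᵥ x₀) = 1 ∧
      ∀ y ∈ W₁, ff x₀ y = 0 ∧ ff (t.1 *ᵥ x₀) y = 0 := by
  classical
  let S : LinearMap.BilinForm F VV := (sympBil m F).compl₂ t.1.mulVecLin
  have hS : ∀ x y, S x y = ff x (t.1 *ᵥ y) := fun x y => rfl
  let QQ : QuadraticForm F VV := LinearMap.BilinMap.toQuadraticMap S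
  have hQQ : ∀ x, QQ x = ff x (t.1 *ᵥ x) := fun x => rfl
  let QW : QuadraticForm F W := QQ.comp W.subtype
  have hQW : ∀ x : W, QW x = ff (x : VV) (t.1 *ᵥ (x : VV)) := fun x => rfl
  have hpolar : ∀ v w : W, QuadraticMap.polar QW v w = 2 * ff (v : VV) (t.1 *ᵥ (w : VV)) := by
    intro v w
    rw [QuadraticMap.polar, hQW, hQW, hQW, Submodule.coe_add, mulVec_add, sympForm_add_left,
      sympForm_add_right, sympForm_add_right, neg_symm ht (w : VV) (v : VV)]
    ring
  have hN : Cfsg.Agent.Lib.Quad.NondegQ QW := by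
    intro v hv
    apply Subtype.ext
    apply hnd v.1 v.2
    intro y hy
    have hw : t.1 *ᵥ (-y) ∈ W := hinv _ (W.neg_mem hy)
    have h3 := hv ⟨_, hw⟩
    rw [hpolar] at h3
    have h4 : t.1 *ᵥ (t.1 *ᵥ (-y)) = y := by
      rw [neg_apply ht, neg_neg]
    simp only [h4] at h3
    exact (mul_eq_zero.1 h3).resolve_left h2
  obtain ⟨⟨x₀, hx₀⟩, hx⟩ := Cfsg.Agent.Lib.Quad.exists_value_of_nondeg hN (by omega) (one_ne_zero (α := F))
  rw [hQW] at hx
  simp only at hx
  refine ⟨x₀, hx₀, ?_⟩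
  let φ : W →ₗ[F] F × F := LinearMap.prod ((sympBil m F x₀).comp W.subtype) ((sympBil m F (t.1 *ᵥ x₀)).comp W.subtype)
  have hφ : ∀ y : W, φ y = (ff x₀ y, ff (t.1 *ᵥ x₀) y) := fun y => rfl
  have hsurj : Function.Surjective φ := by
    rintro ⟨a, b⟩
    refine ⟨⟨(-b) • x₀ + a • (t.1 *ᵥ x₀), W.add_mem (W.smul_mem _ hx₀) (W.smul_mem _ (hinv _ hx₀))⟩, ?_⟩
    rw [hφ]
    ext
    · simp only [sympForm_add_right, sympForm_smul_right, sympForm_self, hx]
      ring
    · simp only [sympForm_add_right, sympForm_smul_right, sympForm_self]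
      rw [sympForm_swap, hx]
      ring
  let W₁ : Submodule F VV := (LinearMap.ker φ).map W.subtype
  have hmem : ∀ y, y ∈ W₁ ↔ y ∈ W ∧ ff x₀ y = 0 ∧ ff (t.1 *ᵥ x₀) y = 0 := by
    intro y
    constructor
    · rintro ⟨z, hz, rfl⟩
      have h3 : φ z = 0 := hz
      rw [hφ] at h3
      exact ⟨z.2, congrArg Prod.fst h3, congrArg Prod.snd h3⟩
    · rintro ⟨hy, h3, h4⟩
      refine ⟨⟨y, hy⟩, ?_, rfl⟩
      change φ _ = 0
      rw [hφ]
      ext
      · exact h3
      · exact h4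
  refine ⟨W₁, fun y hy => ((hmem y).1 hy).1, ?_, ?_, ?_, hx, fun y hy => ((hmem y).1 hy).2⟩
  · intro y hy
    obtain ⟨h3, h4, h5⟩ := (hmem y).1 hy
    refine (hmem _).2 ⟨hinv _ h3, ?_, ?_⟩
    · rw [neg_symm ht, sympForm_swap, h5, neg_zero]
    · rw [sp_form, h4]
  · intro u hu hv
    obtain ⟨h3, h4, h5⟩ := (hmem u).1 hu
    apply hnd u h3
    intro y hy
    let y' : VV := y - ((-ff (t.1 *ᵥ x₀) y) • x₀ + (ff x₀ y) • (t.1 *ᵥ x₀))
    have hy' : y' ∈ W₁ := by
      refine (hmem _).2 ⟨W.sub_mem hy (W.add_mem (W.smul_mem _ hx₀) (W.smul_mem _ (hinv _ hx₀))), ?_, ?_⟩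
      · simp only [y', sub_eq_add_neg, sympForm_add_right, sympForm_neg_right, sympForm_smul_right, sympForm_self, hx]
        ring
      · simp only [y', sub_eq_add_neg, sympForm_add_right, sympForm_neg_right, sympForm_smul_right, sympForm_self]
        rw [sympForm_swap (t.1 *ᵥ x₀) x₀, hx]
        ring
    have h6 := hv y' hy'
    simp only [y', sub_eq_add_neg, sympForm_add_right, sympForm_neg_right, sympForm_smul_right] at h6
    rw [sympForm_swap u x₀, sympForm_swap u (t.1 *ᵥ x₀), h4, h5] at h6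
    linear_combination h6
  · have h1 := LinearMap.finrank_range_add_finrank_ker φ
    rw [LinearMap.range_eq_top.2 hsurj, finrank_top, Module.finrank_prod, Module.finrank_self, hr] at h1
    have h3 : finrank F W₁ = finrank F (LinearMap.ker φ) := Submodule.finrank_map_subtype_eq W _
    omega

/-- The frame adapted to `t`. -/
theorem exists_frame_sp [Finite F] (h2 : (2 : F) ≠ 0) {t : Sp} (ht : t.1 * t.1 = -1) (r : ℕ) :
    ∀ W : Submodule F VV, (∀ x ∈ W, t.1 *ᵥ x ∈ W) → (∀ u ∈ W, (∀ v ∈ W, ff u v = 0) → u = 0) →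
      finrank F W = 2 * r → ∃ x : Fin r → VV, (∀ i, x i ∈ W) ∧ (∀ i j, ff (x i) (x j) = 0) ∧
        (∀ i j, ff (x i) (t.1 *ᵥ x j) = if i = j then 1 else 0) := by
  induction r with
  | zero =>
    intro W _ _ _
    exact ⟨Fin.elim0, fun i => i.elim0, fun i => i.elim0, fun i => i.elim0⟩
  | succ r ih =>
    intro W hinv hnd hr
    obtain ⟨x₀, hx₀, W₁, hle, hinv₁, hnd₁, hr₁, h1, h3⟩ := exists_perp_step h2 ht W hinv hnd hr
    obtain ⟨x, hx, hx1, hx2⟩ := ih W₁ hinv₁ hnd₁ hr₁
    refine ⟨Fin.cons x₀ x, ?_, ?_, ?_⟩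
    · intro i
      refine Fin.cases ?_ (fun j => ?_) i
      · exact hx₀
      · exact hle (hx j)
    · intro i j
      refine Fin.cases ?_ (fun i' => ?_) i <;> refine Fin.cases ?_ (fun j' => ?_) j
      · simpa using sympForm_self x₀
      · simpa using (h3 _ (hx j')).1
      · simp only [Fin.cons_zero, Fin.cons_succ]
        rw [sympForm_swap, (h3 _ (hx i')).1, neg_zero]
      · simpa using hx1 i' j'
    · intro i j
      refine Fin.cases ?_ (fun i' => ?_) i <;> refine Fin.cases ?_ (fun j' => ?_) j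
      · simpa using h1
      · simpa [(Fin.succ_ne_zero j').symm] using (h3 _ (hinv₁ _ (hx j'))).1
      · simp only [Fin.cons_zero, Fin.cons_succ, Fin.succ_ne_zero, if_false]
        rw [sympForm_swap, (h3 _ (hx i')).2, neg_zero]
      · simpa using hx2 i' j'

/-- The common normal form of a square root of `-1`. -/
def stdT (c : VV) : VV := Sum.elim (fun i => c (Sum.inr i)) (fun i => - c (Sum.inl i))

theorem exists_conj_std [Finite F] (h2 : (2 : F) ≠ 0) {t : Sp} (ht : t.1 * t.1 = -1) :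
    ∃ E : Sp, ∀ c : VV, E.1 *ᵥ (stdT c) = t.1 *ᵥ (E.1 *ᵥ c) := by
  classical
  have hnd : ∀ u ∈ (⊤ : Submodule F VV), (∀ v ∈ (⊤ : Submodule F VV), ff u v = 0) → u = 0 :=
    fun u _ h => sym_nondeg (fun y => h y Submodule.mem_top)
  obtain ⟨x, -, hx1, hx2⟩ := exists_frame_sp h2 ht m ⊤ (fun _ _ => Submodule.mem_top) hnd (by
    rw [finrank_top, Module.finrank_fintype_fun_eq_card]
    simp [two_mul])
  let b : Fin m ⊕ Fin m → VV := Sum.elim (fun i => t.1 *ᵥ x i) x
  let L : VV →ₗ[F] VV := Fintype.linearCombination F b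
  have hL : ∀ c, L c = ∑ i, c (Sum.inl i) • (t.1 *ᵥ x i) + ∑ i, c (Sum.inr i) • x i := by
    intro c
    rw [Fintype.linearCombination_apply, Fintype.sum_sum_type]
    rfl
  have hLb : ∀ a, L (Pi.single a 1) = b a := by
    intro a
    rw [Fintype.linearCombination_apply]
    simp [Pi.single_apply, Finset.sum_ite_eq, ite_smul]
  have hpres : ∀ u v, ff (L u) (L v) = ff u v := by
    have h1 : (sympBil m F).compl₁₂ L L = sympBil m F := by
      apply LinearMap.BilinForm.ext_basis (Pi.basisFun F (Fin m ⊕ Fin m))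
      intro a a'
      simp only [Pi.basisFun_apply, LinearMap.compl₁₂_apply, sympBil_apply, hLb]
      rcases a with i | i <;> rcases a' with j | j
      · simp only [b, Sum.elim_inl]
        rw [sp_form, hx1, sympForm_left_single_inl]
        simp
      · simp only [b, Sum.elim_inl, Sum.elim_inr]
        rw [sympForm_swap, hx2, sympForm_left_single_inl]
        by_cases hij : i = j
        · subst hij
          simp
        · simp [hij, Ne.symm hij]
      · simp only [b, Sum.elim_inl, Sum.elim_inr]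
        rw [hx2, sympForm_left_single_inr]
        by_cases hij : i = j
        · subst hij
          simp
        · simp [hij, Ne.symm hij]
      · simp only [b, Sum.elim_inr]
        rw [hx1, sympForm_left_single_inr]
        simp
    intro u v
    have := LinearMap.congr_fun₂ h1 u v
    exact this
  refine ⟨spOfLin L hpres, ?_⟩
  intro c
  rw [spOfLin_mulVec, spOfLin_mulVec, hL, hL, mulVec_add, mulVec_sum, mulVec_sum]
  simp only [mulVec_smul, neg_apply ht, stdT, Sum.elim_inl, Sum.elim_inr, smul_neg, neg_smul]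
  rw [add_comm, Finset.sum_neg_distrib]

theorem sp_conj_of_neg [Finite F] (h2 : (2 : F) ≠ 0) {t t' : Sp} (ht : t.1 * t.1 = -1) (ht' : t'.1 * t'.1 = -1) :
    IsConj t t' := by
  obtain ⟨E, hE⟩ := exists_conj_std h2 ht
  obtain ⟨E', hE'⟩ := exists_conj_std h2 ht'
  apply isConj_of_intertwine (g := E' * E⁻¹)
  intro x
  have h1 : ∀ y : VV, E⁻¹.1 *ᵥ (E.1 *ᵥ y) = y := by
    intro y
    rw [mulVec_mulVec]
    change (E⁻¹ * E).1 *ᵥ y = y
    rw [inv_mul_cancel]
    exact one_mulVec y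
  have h3 : ∀ y : VV, E.1 *ᵥ (E⁻¹.1 *ᵥ y) = y := by
    intro y
    rw [mulVec_mulVec]
    change (E * E⁻¹).1 *ᵥ y = y
    rw [mul_inv_cancel]
    exact one_mulVec y
  obtain ⟨c, rfl⟩ : ∃ c, x = E.1 *ᵥ c := ⟨E⁻¹.1 *ᵥ x, (h3 x).symm⟩
  change (E'.1 * E⁻¹.1) *ᵥ (t.1 *ᵥ (E.1 *ᵥ c)) = t'.1 *ᵥ ((E'.1 * E⁻¹.1) *ᵥ (E.1 *ᵥ c))
  rw [← hE, ← mulVec_mulVec, ← mulVec_mulVec, h1, h1, hE']

/-- The central element `-1`. -/
noncomputable def spNegOne : Sp := ⟨-1, SymplecticGroup.neg_mem (one_mem _)⟩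

theorem spNegOne_mem_center : (spNegOne : Sp) ∈ Subgroup.center Sp := by
  rw [Subgroup.mem_center_iff]
  intro g
  apply Subtype.ext
  change g.1 * (-1) = (-1) * g.1
  simp

theorem spNegOne_mul_val (t : Sp) : ((spNegOne : Sp) * t).1 = - t.1 := by
  change (-1) * t.1 = - t.1
  simp

theorem vPlus_neg (t : Sp) : vPlus ((spNegOne : Sp) * t) = vMinus t := by
  ext x
  rw [mem_vPlus, mem_vMinus, spNegOne_mul_val, neg_mulVec, neg_eq_iff_eq_neg]

/-- The invariant of an involution of `PSp`. -/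
def InvolData (x : Cfsg.PSp m F) (j : ℕ) : Prop :=
  ∃ t : Sp, (QuotientGroup.mk t : Cfsg.PSp m F) = x ∧
    ((j = 0 ∧ t.1 * t.1 = -1) ∨ (1 ≤ j ∧ t.1 * t.1 = 1 ∧ finrank F (vPlus t) = 2 * j))

theorem invol_data_conj [Finite F] (h2 : (2 : F) ≠ 0) {x y : Cfsg.PSp m F} {j : ℕ} (h : InvolData x j)
    (h' : InvolData y j) : IsConj x y := by
  obtain ⟨t, rfl, ht⟩ := h
  obtain ⟨t', rfl, ht'⟩ := h'
  have hc : IsConj t t' := by
    rcases ht with ⟨h1, h3⟩ | ⟨h1, h3, h4⟩ <;> rcases ht' with ⟨h1', h3'⟩ | ⟨h1', h3', h4'⟩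
    · exact sp_conj_of_neg h2 h3 h3'
    · omega
    · omega
    · exact sp_conj_of_invol h2 h3 h3' (by rw [h4, h4'])
  exact (QuotientGroup.mk' (Subgroup.center Sp)).map_isConj hc

theorem invol_data_exists [Finite F] (hm : 1 ≤ m) (h2 : (2 : F) ≠ 0) {x : Cfsg.PSp m F} (hx : x * x = 1)
    (hx1 : x ≠ 1) : ∃ j, j ≤ m / 2 ∧ InvolData x j := by
  obtain ⟨t, rfl⟩ := QuotientGroup.mk_surjective x
  have hc : t * t ∈ Subgroup.center Sp := by
    rw [← QuotientGroup.eq_one_iff]
    exact hx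
  have hnc : t ∉ Subgroup.center Sp := by
    intro h
    exact hx1 ((QuotientGroup.eq_one_iff t).2 h)
  rcases sp_central_one_or_neg hm _ hc with h | h
  · have ht : t.1 * t.1 = 1 := h
    obtain ⟨a, ha⟩ := exists_finrank_even (vPlus t) (vPlus_nondeg h2 ht)
    obtain ⟨b, hb⟩ := exists_finrank_even (vMinus t) (vMinus_nondeg h2 ht)
    have hab := finrank_plus_add_minus h2 ht
    have ha0 : a ≠ 0 := by
      intro h0
      apply hnc
      have h3 : vPlus t = ⊥ := by
        apply Submodule.finrank_eq_zero.1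
        rw [ha, h0]
      have h4 : t = spNegOne := by
        apply Subtype.ext
        apply mat_ext_mulVec
        intro y
        have h5 := half_plus_mem h2 ht y
        rw [h3, Submodule.mem_bot, smul_eq_zero] at h5
        have h6 := h5.resolve_left (inv_ne_zero h2)
        change _ = (-1 : Matrix _ _ F) *ᵥ y
        rw [neg_mulVec, one_mulVec]
        exact (eq_neg_of_add_eq_zero_right h6)
      rw [h4]
      exact spNegOne_mem_center
    have hb0 : b ≠ 0 := by
      intro h0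
      apply hnc
      have h3 : vMinus t = ⊥ := by
        apply Submodule.finrank_eq_zero.1
        rw [hb, h0]
      have h4 : t = 1 := by
        apply Subtype.ext
        apply mat_ext_mulVec
        intro y
        have h5 := half_minus_mem h2 ht y
        rw [h3, Submodule.mem_bot, smul_eq_zero] at h5
        have h6 := h5.resolve_left (inv_ne_zero h2)
        change _ = (1 : Matrix _ _ F) *ᵥ y
        rw [one_mulVec]
        exact (sub_eq_zero.1 h6).symm
      rw [h4]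
      exact one_mem _
    by_cases hle : a ≤ m / 2
    · exact ⟨a, hle, t, rfl, Or.inr ⟨by omega, ht, ha⟩⟩
    · refine ⟨b, by omega, (spNegOne : Sp) * t, ?_, Or.inr ⟨by omega, ?_, ?_⟩⟩
      · rw [QuotientGroup.mk_mul, (QuotientGroup.eq_one_iff _).2 spNegOne_mem_center, one_mul]
      · rw [spNegOne_mul_val, neg_mul_neg, ht]
      · rw [vPlus_neg, hb]
  · exact ⟨0, by omega, t, rfl, Or.inl ⟨rfl, h⟩⟩

end Cfsg.Agent.Lib.Classical
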