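import Mathlib
import Cfsg.Agent.Lib.Classical.OrthSL4
import Cfsg.Agent.Lib.Classical.SpInvol2
import Cfsg.Agent.Lib.Classical.SpPerfect
import Cfsg.Agent.Lib.Classical.PSpSimple
import Cfsg.Agent.Lib.Classical.SpOrder

/-! `PΩ₅(q) ≅ PSp₄(q)`, `q` odd. -/

set_option autoImplicit false
set_option linter.unusedSimpArgs false
set_option linter.unusedVariables false
set_option linter.unusedSectionVars false
set_option linter.style.haveILetI false

namespace Cfsg.Agent.Lib.Classical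

open Matrix Module

variable {F : Type*} [Field F]

/-- The index equivalence. -/
def e4 : Fin 2 ⊕ Fin 2 ≃ Fin 4 where
  toFun := Sum.elim ![0, 1] ![2, 3]
  invFun := ![Sum.inl 0, Sum.inl 1, Sum.inr 0, Sum.inr 1]
  left_inv := by decide
  right_inv := by decide

/-- A matrix indexed by `Fin 4`. -/
def g4 (A : Matrix (Fin 2 ⊕ Fin 2) (Fin 2 ⊕ Fin 2) F) : Matrix (Fin 4) (Fin 4) F :=
  Matrix.reindex e4 e4 A

theorem g4_mul (A B : Matrix (Fin 2 ⊕ Fin 2) (Fin 2 ⊕ Fin 2) F) : g4 (A * B) = g4 A * g4 B := by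
  simp [g4, Matrix.reindex_apply, Matrix.submatrix_mul_equiv]

theorem g4_one : g4 (1 : Matrix (Fin 2 ⊕ Fin 2) (Fin 2 ⊕ Fin 2) F) = 1 := by
  simp [g4, Matrix.reindex_apply]

/-- The fixed bivector. -/
def u0 : Fin 3 ⊕ Fin 3 → F := Sum.elim ![0, -1, 0] ![0, 1, 0]

theorem wedge_mulVec_u0 (g : Matrix (Fin 4) (Fin 4) F) (I : Fin 3 ⊕ Fin 3) :
    (wedge g *ᵥ u0) I = g (pairA I) 2 * g (pairB I) 0 + g (pairA I) 3 * g (pairB I) 1 - g (pairA I) 0 * g (pairB I) 2 -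
      g (pairA I) 1 * g (pairB I) 3 := by
  simp [Matrix.mulVec, dotProduct, Fintype.sum_sum_type, Fin.sum_univ_three, u0, wedge_apply, pA0, pA1, pA2, pA3, pA4, pA5, pB0, pB1, pB2, pB3, pB4, pB5]
  ring

/-- The relation satisfied by a symplectic matrix. -/
theorem g4_relation (A : Matrix.symplecticGroup (Fin 2) F) (a b : Fin 4) :
    g4 A.1 a 2 * g4 A.1 b 0 + g4 A.1 a 3 * g4 A.1 b 1 - g4 A.1 a 0 * g4 A.1 b 2 - g4 A.1 a 1 * g4 A.1 b 3 =
      Matrix.J (Fin 2) F (e4.symm a) (e4.symm b) := by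
  have hA := SymplecticGroup.mem_iff.1 A.2
  have h : (A.1 * Matrix.J (Fin 2) F * A.1ᵀ) (e4.symm a) (e4.symm b) = Matrix.J (Fin 2) F (e4.symm a) (e4.symm b) := by
    rw [hA]
  rw [← h]
  have e0 : e4.symm (0 : Fin 4) = Sum.inl 0 := rfl
  have e1 : e4.symm (1 : Fin 4) = Sum.inl 1 := rfl
  have e2 : e4.symm (2 : Fin 4) = Sum.inr 0 := rfl
  have e3 : e4.symm (3 : Fin 4) = Sum.inr 1 := rfl
  simp only [g4, Matrix.reindex_apply, Matrix.submatrix_apply, e0, e1, e2, e3]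
  simp [Matrix.J, Matrix.mul_apply, Fintype.sum_sum_type, Fin.sum_univ_two, Matrix.one_apply]
  ring

theorem wedge_u0 (A : Matrix.symplecticGroup (Fin 2) F) : wedge (g4 A.1) *ᵥ u0 = u0 := by
  ext I
  rw [wedge_mulVec_u0, g4_relation]
  rcases I with i | i <;> fin_cases i <;> simp [u0, pairA, pairB, e4, Matrix.J]

/-- The embedding of the `5`-dimensional space. -/
def emb5 (w : Unit ⊕ (Fin 2 ⊕ Fin 2) → F) : Fin 3 ⊕ Fin 3 → F :=
  Sum.elim ![w (Sum.inr (Sum.inl 0)), w (Sum.inl ()), w (Sum.inr (Sum.inl 1))]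
    ![w (Sum.inr (Sum.inr 0)), w (Sum.inl ()), w (Sum.inr (Sum.inr 1))]

/-- The coordinates on the hyperplane. -/
def cd5 (v : Fin 3 ⊕ Fin 3 → F) : Unit ⊕ (Fin 2 ⊕ Fin 2) → F :=
  Sum.elim (fun _ => v (Sum.inl 1)) (Sum.elim ![v (Sum.inl 0), v (Sum.inl 2)] ![v (Sum.inr 0), v (Sum.inr 2)])

theorem cd5_emb5 (w : Unit ⊕ (Fin 2 ⊕ Fin 2) → F) : cd5 (emb5 w) = w := by
  ext i
  rcases i with i | i | i
  · simp [cd5, emb5]
  · fin_cases i <;> simp [cd5, emb5]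
  · fin_cases i <;> simp [cd5, emb5]

theorem emb5_cd5 {v : Fin 3 ⊕ Fin 3 → F} (h : v (Sum.inl 1) = v (Sum.inr 1)) : emb5 (cd5 v) = v := by
  ext i
  rcases i with i | i <;> fin_cases i <;> simp [cd5, emb5, h]

theorem emb5_add (u v : Unit ⊕ (Fin 2 ⊕ Fin 2) → F) : emb5 (u + v) = emb5 u + emb5 v := by
  ext i
  rcases i with i | i <;> fin_cases i <;> simp [emb5]

theorem emb5_smul (r : F) (v : Unit ⊕ (Fin 2 ⊕ Fin 2) → F) : emb5 (r • v) = r • emb5 v := by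
  ext i
  rcases i with i | i <;> fin_cases i <;> simp [emb5]

theorem cd5_add (u v : Fin 3 ⊕ Fin 3 → F) : cd5 (u + v) = cd5 u + cd5 v := by
  ext i
  rcases i with i | i | i
  · simp [cd5]
  · fin_cases i <;> simp [cd5]
  · fin_cases i <;> simp [cd5]

theorem cd5_smul (r : F) (v : Fin 3 ⊕ Fin 3 → F) : cd5 (r • v) = r • cd5 v := by
  ext i
  rcases i with i | i | i
  · simp [cd5]
  · fin_cases i <;> simp [cd5]
  · fin_cases i <;> simp [cd5]

theorem q_emb5 (w : Unit ⊕ (Fin 2 ⊕ Fin 2) → F) : Cfsg.quadFormPlus 3 F (emb5 w) = Cfsg.quadFormOdd 2 F w := by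
  simp [Cfsg.quadFormPlus, Cfsg.quadFormOdd, emb5, Fin.sum_univ_three, Fin.sum_univ_two]
  ring

theorem emb5_hyper (w : Unit ⊕ (Fin 2 ⊕ Fin 2) → F) : emb5 w (Sum.inl 1) = emb5 w (Sum.inr 1) := by
  simp [emb5]

theorem q_u0_add (y : Fin 3 ⊕ Fin 3 → F) : Cfsg.quadFormPlus 3 F (u0 + y) =
    Cfsg.quadFormPlus 3 F y + (y (Sum.inl 1) - y (Sum.inr 1)) - 1 := by
  simp [Cfsg.quadFormPlus, u0, Fin.sum_univ_three]
  ring

theorem q_u0 : Cfsg.quadFormPlus 3 F (u0 : Fin 3 ⊕ Fin 3 → F) = -1 := by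
  simp [Cfsg.quadFormPlus, u0, Fin.sum_univ_three]

theorem g4_det (A : Matrix.symplecticGroup (Fin 2) F) : (g4 A.1).det = 1 := by
  have h := wedge_form (g4 A.1) u0
  rw [wedge_u0, q_u0] at h
  linear_combination h

theorem hyper_invariant (A : Matrix.symplecticGroup (Fin 2) F) (v : Fin 3 ⊕ Fin 3 → F) :
    (wedge (g4 A.1) *ᵥ v) (Sum.inl 1) - (wedge (g4 A.1) *ᵥ v) (Sum.inr 1) = v (Sum.inl 1) - v (Sum.inr 1) := by
  have h1 := wedge_form (g4 A.1) (u0 + v)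
  rw [mulVec_add, wedge_u0, g4_det, one_mul, q_u0_add, q_u0_add, wedge_form, g4_det, one_mul] at h1
  linear_combination h1

/-- The hyperplane is stable. -/
theorem hyper_stable (A : Matrix.symplecticGroup (Fin 2) F) (w : Unit ⊕ (Fin 2 ⊕ Fin 2) → F) :
    (wedge (g4 A.1) *ᵥ emb5 w) (Sum.inl 1) = (wedge (g4 A.1) *ᵥ emb5 w) (Sum.inr 1) := by
  have h := hyper_invariant A (emb5 w)
  rw [emb5_hyper, sub_self] at h
  exact sub_eq_zero.1 h

/-- The linear action. -/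
def l5 (A : Matrix.symplecticGroup (Fin 2) F) : (Unit ⊕ (Fin 2 ⊕ Fin 2) → F) →ₗ[F] (Unit ⊕ (Fin 2 ⊕ Fin 2) → F) where
  toFun w := cd5 (wedge (g4 A.1) *ᵥ emb5 w)
  map_add' u v := by
    rw [emb5_add, mulVec_add, cd5_add]
  map_smul' r v := by
    rw [emb5_smul, mulVec_smul, cd5_smul]
    rfl

/-- The representation. -/
def sp5Hom : Matrix.symplecticGroup (Fin 2) F →* ((Unit ⊕ (Fin 2 ⊕ Fin 2) → F) →ₗ[F] (Unit ⊕ (Fin 2 ⊕ Fin 2) → F)) where
  toFun A := l5 A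
  map_one' := by
    apply LinearMap.ext
    intro w
    change cd5 (wedge (g4 (1 : Matrix _ _ F)) *ᵥ emb5 w) = w
    rw [g4_one, wedge_one, one_mulVec, cd5_emb5]
  map_mul' A B := by
    apply LinearMap.ext
    intro w
    change cd5 (wedge (g4 (A.1 * B.1)) *ᵥ emb5 w) = cd5 (wedge (g4 A.1) *ᵥ emb5 (cd5 (wedge (g4 B.1) *ᵥ emb5 w)))
    rw [emb5_cd5 (hyper_stable B w), g4_mul, wedge_mul, mulVec_mulVec]

theorem sp5_form (A : Matrix.symplecticGroup (Fin 2) F) (w : Unit ⊕ (Fin 2 ⊕ Fin 2) → F) :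
    Cfsg.quadFormOdd 2 F (sp5Hom A w) = Cfsg.quadFormOdd 2 F w := by
  change Cfsg.quadFormOdd 2 F (cd5 (wedge (g4 A.1) *ᵥ emb5 w)) = _
  rw [← q_emb5, emb5_cd5 (hyper_stable A w), wedge_form, g4_det, one_mul, q_emb5]

theorem sp5_kernel (h2 : (2 : F) ≠ 0) (A : Matrix.symplecticGroup (Fin 2) F) (h : ∀ w, sp5Hom A w = w) :
    A = 1 ∨ A = spNegOne := by
  have hfix : ∀ w, wedge (g4 A.1) *ᵥ emb5 w = emb5 w := by
    intro w
    have h1 : cd5 (wedge (g4 A.1) *ᵥ emb5 w) = w := h w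
    conv_rhs => rw [← h1]
    rw [emb5_cd5 (hyper_stable A w)]
  have hw : wedge (g4 A.1) = 1 := by
    apply mat_ext_mulVec
    intro v
    rw [one_mulVec]
    -- decompose `v`
    set c : F := - (v (Sum.inl 1) - v (Sum.inr 1)) / 2 with hc
    have hv : v = emb5 (cd5 (v - c • u0)) + c • u0 := by
      rw [emb5_cd5]
      · simp
      · simp [u0, hc]
        field_simp
        ring
    rw [hv, mulVec_add, hfix, mulVec_smul, wedge_u0]
  let G : Matrix.SpecialLinearGroup (Fin 4) F := ⟨g4 A.1, g4_det A⟩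
  have hinj : ∀ B C : Matrix (Fin 2 ⊕ Fin 2) (Fin 2 ⊕ Fin 2) F, g4 B = g4 C → B = C := by
    intro B C hBC
    exact (Matrix.reindex e4 e4).injective hBC
  rcases wedge_kernel G hw with h1 | h1
  · left
    apply Subtype.ext
    apply hinj
    change g4 A.1 = g4 1
    rw [g4_one]
    exact congrArg Subtype.val h1
  · right
    apply Subtype.ext
    apply hinj
    have : g4 A.1 = -1 := congrArg Subtype.val h1
    rw [this]
    change _ = g4 (-1)
    ext i j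
    simp [g4, Matrix.reindex_apply, Matrix.one_apply]

variable [Fintype F]

theorem pomega5_equiv (hodd : Odd (Fintype.card F)) :
    Nonempty (Cfsg.POmega F (Cfsg.quadFormOdd 2 F) ≃* Cfsg.PSp 2 F) := by
  have h2 : (2 : F) ≠ 0 := two_ne_zero_of_odd hodd
  obtain ⟨Q', hQ', hnd⟩ := ndq_odd h2 2
  have hO := card_isometry_odd (F := F) rfl h2 2
  have hQv : ∀ v, Q' v = Cfsg.quadFormOdd 2 F v := fun v => congrFun hQ' v
  rw [← hQ'] at hO ⊢
  have hf : ∀ g v, Q' (sp5Hom g v) = Q' v := by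
    intro g v
    rw [hQv, hQv, sp5_form]
  have hcard : 2 ≤ Fintype.card (Unit ⊕ (Fin 2 ⊕ Fin 2)) := by
    simp [Fintype.card_sum]
  have hq3 : 3 ≤ Fintype.card F := by
    have h3 := Fintype.one_lt_card (α := F)
    obtain ⟨r, hr⟩ := hodd
    omega
  have hperf : commutator (Matrix.symplecticGroup (Fin 2) F) = ⊤ := sp_perfect (Or.inr (Or.inl ⟨rfl, hq3⟩))
  refine pomega_equiv_of_rep (ogRep sp5Hom hf) hnd hcard ?_ ?_ (z₀ := spNegOne) ?_ ?_ ?_ ?_
  · rw [hO, card_sp rfl 2]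
    ring
  · exact range_le_commutator_of_perfect hperf _
  · intro g hg
    exact sp5_kernel h2 g (ogRep_eq_one hg)
  · exact spNegOne_mem_center
  · intro h
    exact absurd h h2
  · exact centerless_of_simple hperf (psp_simple (by omega) (fun _ => hq3))

end Cfsg.Agent.Lib.Classical
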