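import Mathlib
import Cfsg.Agent.Lib.Classical.AutSp4
import Cfsg.Agent.Lib.Classical.FrobInvol
import Cfsg.Agent.Lib.ClassMax.SymSix
import Cfsg.Agent.Lib.KnownSimple.MathieuOut
import Cfsg.Agent.Lib.Suzuki.Aut
import Cfsg.Agent.S0247
import Cfsg.Agent.S0814

/-! The square of the exceptional automorphism of `Sp₄` in characteristic two. -/

set_option autoImplicit false
set_option linter.unusedSimpArgs false
set_option linter.unusedVariables false
set_option linter.unusedSectionVars false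

namespace Cfsg.Agent.Lib.Classical

open Matrix MulAction Cfsg.Agent.Lib.AutPSp Cfsg.Agent.Lib.KnownSimple
open scoped MatrixGroups LinearAlgebra.Projectivization

variable {F : Type*} [Field F]

local notation "II" => (Fin 2 ⊕ Fin 2)
local notation "VV" => (Fin 2 ⊕ Fin 2 → F)
local notation "MM" => Matrix (Fin 2 ⊕ Fin 2) (Fin 2 ⊕ Fin 2) F

/-- The entries of a transvection. -/
theorem tr_entries (w : VV) (c : F) :
    (Cfsg.sympTransvection 2 w c : MM) =
      fun i j => (1 : MM) i j + c * w i * (Sum.elim (fun k => - w (Sum.inr k)) (fun k => w (Sum.inl k)) j) := by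
  ext i j
  rw [Cfsg.sympTransvection]
  rcases j with j | j <;>
    simp [Matrix.vecMulVec_apply, Matrix.J, Matrix.mulVec, dotProduct, Fintype.sum_sum_type, Matrix.fromBlocks_apply₁₂, Matrix.one_apply, mul_assoc]

theorem psi_psi_tr (h2 : (2 : F) = 0) (w : VV) (c : F) (i j : II) :
    psiM (psiM (Cfsg.sympTransvection 2 w c : MM)) i j = ((Cfsg.sympTransvection 2 w c : MM) i j) ^ 2 := by
  rw [tr_entries]
  rcases i with i | i <;> rcases j with j | j <;> fin_cases i <;> fin_cases j <;>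
    simp [psiM, mnr, pa1, pa2, Matrix.one_apply] <;> grind

/-- The square of the exceptional automorphism on `Sp₄`. -/
theorem psi_psi (h2 : (2 : F) = 0) (σ : F ≃+* F) (hσ : ∀ x, σ x = x ^ 2) (A : Sp 2 F) :
    (psiHom h2 (psiHom h2 A)).1 = A.1.map σ := by
  let f₁ : Sp 2 F →* Sp 2 F := (psiHom h2).comp (psiHom h2)
  let f₂ : Sp 2 F →* Sp 2 F := (spSemi 1 σ one_mem_GSp).toMonoidHom
  have hcl : Subgroup.closure {A : Sp 2 F | ∃ w ∈ (⊤ : Submodule F (Fin 2 ⊕ Fin 2 → F)), ∃ c : F,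
      (A : Matrix (Fin 2 ⊕ Fin 2) (Fin 2 ⊕ Fin 2) F) = Cfsg.sympTransvection 2 w c} = ⊤ := trSubgroup_top
  have hEq : f₁ = f₂ := by
    apply MonoidHom.eq_of_eqOn_dense hcl
    rintro B ⟨w, -, c, hB⟩
    apply Subtype.ext
    show psiM (psiM B.1) = (spSemi 1 σ one_mem_GSp B).1
    rw [spSemi_coe, hB]
    ext i j
    rw [psi_psi_tr h2]
    simp [hσ]
  have h3 := congrArg (fun X : Sp 2 F →* Sp 2 F => (X A).1) hEq
  show psiM (psiM A.1) = _
  have h4 : (f₂ A).1 = A.1.map σ := by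
    show (spSemi 1 σ one_mem_GSp A).1 = _
    rw [spSemi_coe]
    simp
  rw [← h4]
  exact h3

section finite

variable [Fintype F]

theorem tau_sq (h2 : (2 : F) = 0) (h3 : 3 ≤ Fintype.card F) (σ : F ≃+* F) (hσ : ∀ x, σ x = x ^ 2) :
    tauE h2 h3 * tauE h2 h3 = psemi 1 σ one_mem_GSp := by
  ext x
  obtain ⟨A, rfl⟩ := pr_surj x
  show tauE h2 h3 (tauE h2 h3 (pr A)) = _
  rw [tauE_pr, tauE_pr, psemi_pr]
  congr 1
  apply Subtype.ext
  rw [psi_psi h2 σ hσ, spSemi_coe]
  simp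

theorem pow_sigma (σ : F ≃+* F) (hσ : ∀ x, σ x = x ^ 2) (j : ℕ) (x : F) : (σ ^ j) x = x ^ (2 ^ j) := by
  induction j with
  | zero => simp
  | succ j ih =>
    rw [pow_succ']
    show σ ((σ ^ j) x) = _
    rw [ih, hσ, ← pow_mul, pow_succ]

/-- The outer automorphism group for `q ≥ 4`. -/
theorem out_large {f : ℕ} (hf : 2 ≤ f) (hF : Fintype.card F = 2 ^ f) (h2 : (2 : F) = 0) :
    IsCyclic (Cfsg.Out (Cfsg.PSp 2 F)) ∧ Nat.card (Cfsg.Out (Cfsg.PSp 2 F)) = 2 * f := by
  classical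
  have h3 : 3 ≤ Fintype.card F := by
    rw [hF]
    calc 3 ≤ 2 ^ 2 := by norm_num
      _ ≤ 2 ^ f := Nat.pow_le_pow_right (by norm_num) hf
  haveI : Fact (Nat.Prime 2) := ⟨Nat.prime_two⟩
  haveI : CharP F 2 := Cfsg.Agent.Lib.AutPSL.charP_of_card (by omega) hF
  haveI := psp_simple (F := F) (m := 2) le_rfl (fun _ => h3)
  let σ : F ≃+* F := RingEquiv.ofBijective (frobenius F 2) (Finite.injective_iff_bijective.1 (frobenius F 2).injective)
  have hσ : ∀ x, σ x = x ^ 2 := fun x => frobenius_def 2 x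
  set τ := tauE h2 h3 with hτ
  set s : MulAut (Cfsg.PSp 2 F) := psemi 1 σ one_mem_GSp with hs
  have hτ2 : τ ^ 2 = s := by
    rw [pow_two]
    exact tau_sq h2 h3 σ hσ
  have hspow : ∀ j, s ^ j = psemi 1 (σ ^ j) one_mem_GSp := by
    intro j
    exact (map_pow (stdAut (m := 2) (F := F)) σ j).symm
  have hinn : ∀ y ∈ Cfsg.Inn (Cfsg.PSp 2 F), y ∈ semiSet 2 F := by
    rintro _ ⟨y, rfl⟩
    obtain ⟨A, rfl⟩ := pr_surj y
    exact ⟨spG A, RingEquiv.refl F, spG_mem A, conj_eq_psemi A⟩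
  have hσf : σ ^ f = 1 := by
    ext x
    rw [pow_sigma σ hσ]
    show x ^ 2 ^ f = x
    rw [← hF, FiniteField.pow_card]
  have hlow : ∀ j, 0 < j → j < f → s ^ j ∉ Cfsg.Inn (Cfsg.PSp 2 F) := by
    rintro j hj0 hjf ⟨y, hy⟩
    obtain ⟨A, rfl⟩ := pr_surj y
    rw [conj_eq_psemi, hspow] at hy
    obtain ⟨h4, -⟩ := psemi_inj hy
    apply no_low_frob (F := F) Nat.prime_two hF hj0 hjf
    intro x
    rw [← pow_sigma σ hσ, ← h4]
    rfl
  have hcard : Nat.card (Cfsg.Out (Cfsg.PSp 2 F)) = 2 * f := by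
    have h5 := Cfsg.Agent.S0814.result (F := F) 2 f (by omega) hF 2 le_rfl (fun _ => by
      rw [← hF]
      exact h3)
    rw [if_pos ⟨rfl, rfl⟩] at h5
    have hg : Nat.gcd 2 (2 ^ f - 1) = 1 := by
      have h6 : 2 ^ f = 2 * 2 ^ (f - 1) := by
        rw [← pow_succ']
        congr 1
        omega
      have h7 : 1 ≤ 2 ^ (f - 1) := Nat.one_le_two_pow
      have h8 : 2 ^ f - 1 = 2 * (2 ^ (f - 1) - 1) + 1 := by omega
      rw [h8]
      simp
    rw [hg, mul_one] at h5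
    have hinj : Function.Injective (MulAut.conj : Cfsg.PSp 2 F →* MulAut (Cfsg.PSp 2 F)) := by
      rw [injective_iff_map_eq_one]
      intro x hx
      obtain ⟨A, rfl⟩ := pr_surj x
      rw [conj_eq_psemi] at hx
      obtain ⟨-, c, hc0, hc⟩ := psemi_eq_one hx
      have hA : A ∈ Subgroup.center (Sp 2 F) := by
        rw [Subgroup.mem_center_iff]
        intro B
        apply Subtype.ext
        show B.1 * A.1 = A.1 * B.1
        have hA' : A.1 = c • (1 : MM) := hc
        rw [hA', Matrix.mul_smul, Matrix.smul_mul, mul_one, one_mul]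
      exact (QuotientGroup.eq_one_iff A).2 hA
    have hI : Nat.card (Cfsg.Inn (Cfsg.PSp 2 F)) = Nat.card (Cfsg.PSp 2 F) :=
      Nat.card_congr (MonoidHom.ofInjective hinj).toEquiv.symm
    have h6 := Subgroup.card_eq_card_quotient_mul_card_subgroup (Cfsg.Inn (Cfsg.PSp 2 F))
    rw [hI, h5] at h6
    have hp : 0 < Nat.card (Cfsg.PSp 2 F) := Nat.card_pos
    have h7 : 2 * f * Nat.card (Cfsg.PSp 2 F) = Nat.card (MulAut (Cfsg.PSp 2 F) ⧸ Cfsg.Inn (Cfsg.PSp 2 F)) * Nat.card (Cfsg.PSp 2 F) := by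
      rw [← h6]
    exact (Nat.eq_of_mul_eq_mul_right hp h7).symm
  have hord : orderOf ((τ : MulAut (Cfsg.PSp 2 F)) : Cfsg.Out (Cfsg.PSp 2 F)) = 2 * f := by
    rw [orderOf_eq_iff (by omega)]
    constructor
    · rw [← QuotientGroup.mk_pow, pow_mul, hτ2, hspow, hσf]
      have : psemi (1 : GL (Fin 2 ⊕ Fin 2) F) 1 one_mem_GSp = 1 := psemi_one_refl
      rw [this]
      rfl
    · intro m hm hm0 he
      rw [← QuotientGroup.mk_pow, QuotientGroup.eq_one_iff] at he
      obtain ⟨j, rfl | rfl⟩ := Nat.even_or_odd' m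
      · rw [pow_mul, hτ2] at he
        exact hlow j (by omega) (by omega) he
      · apply tau_not_semi h2 h3
        have h8 := hinn _ he
        rw [pow_succ, pow_mul, hτ2] at h8
        have h9 : s ^ j ∈ semiSet 2 F := by
          rw [hspow]
          exact ⟨_, _, _, rfl⟩
        have h10 := semiSet_mul (semiSet_inv h9) h8
        rwa [inv_mul_cancel_left] at h10
  refine ⟨?_, hcard⟩
  have : Finite (Cfsg.Out (Cfsg.PSp 2 F)) := inferInstance
  exact isCyclic_of_orderOf_eq_card _ (by rw [hord, hcard])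

end finite

section six

open Equiv Equiv.Perm Cfsg.Agent.Lib.ClassMax.SymAut Cfsg.Agent.Lib.ClassMax.SymSix

/-- `Out(S₆)` has order two. -/
theorem card_out_S6 : Nat.card (Cfsg.Out (Perm (Fin 6))) = 2 := by
  classical
  haveI : Fintype (Perm (Fin 6) ⧸ K0) := Fintype.ofFinite _
  have hi : K0.index = Fintype.card (Fin 6) := by
    rw [index_K0]
    simp
  obtain ⟨θ, hθ⟩ := exists_coset_iso K0 hi (by simp)
  have hc : Fintype.card (Perm (Fin 6) ⧸ K0) = 6 := by
    rw [← Nat.card_eq_fintype_card]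
    exact index_K0
  let e : (Perm (Fin 6) ⧸ K0) ≃ Fin 6 := Fintype.equivFinOfCardEq hc
  let ν : MulAut (Perm (Fin 6)) := θ.trans (Equiv.permCongrHom e)
  have hν : ∀ g x, ν g (e x) = e (g • x) := by
    intro g x
    show e (θ g (e.symm (e x))) = _
    rw [e.symm_apply_apply, hθ]
  have hmem : ∀ g, g ∈ K0 ↔ ν g (e (QuotientGroup.mk 1)) = e (QuotientGroup.mk 1) := by
    intro g
    rw [hν, e.injective.eq_iff, MulAction.Quotient.smul_mk, smul_eq_mul, mul_one, QuotientGroup.eq, mul_one, inv_mem_iff]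
  have hinner : ν ∉ Cfsg.Inn (Perm (Fin 6)) := by
    rintro ⟨h, hh⟩
    apply K0_ne (h⁻¹ (e (QuotientGroup.mk 1)))
    ext g
    rw [hmem, MulAction.mem_stabilizer_iff, ← hh, MulAut.conj_apply]
    show h (g (h⁻¹ _)) = _ ↔ g (h⁻¹ _) = _
    constructor
    · intro h5
      apply h.injective
      rw [h5]
      simp
    · intro h5
      rw [h5]
      simp
  have hcases : ∀ φ : MulAut (Perm (Fin 6)), φ ∉ Cfsg.Inn (Perm (Fin 6)) →
      ∀ a b : Fin 6, a ≠ b → (φ (swap a b)).cycleType = Multiset.replicate 3 2 := by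
    intro φ hφ
    rcases swap_dichotomy φ rfl (by simp) with h1 | ⟨-, h1⟩
    · exfalso
      apply hφ
      obtain ⟨f, hf⟩ := exists_equiv φ rfl (by simp) h1
      refine ⟨f, ?_⟩
      ext g : 1
      ext a : 1
      obtain ⟨b, rfl⟩ := f.surjective a
      show (f * g * f⁻¹) (f b) = φ g (f b)
      rw [← hf]
      simp
    · exact h1
  apply Cfsg.Agent.Lib.KnownSimple.MathieuOut.card_out_eq_two ν⁻¹ (fun h => hinner (by simpa using Subgroup.inv_mem _ h))
  intro φ
  by_cases hφ : φ ∈ Cfsg.Inn (Perm (Fin 6))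
  · exact Or.inl hφ
  · right
    obtain ⟨f, hf⟩ := exists_equiv_of_exotic ν φ rfl rfl rfl (hcases ν hinner) (hcases φ hφ)
    have e1 : φ * ν⁻¹ ∈ Cfsg.Inn (Perm (Fin 6)) := by
      refine ⟨f, ?_⟩
      ext g : 1
      ext a : 1
      obtain ⟨b, rfl⟩ := f.surjective a
      obtain ⟨g', rfl⟩ := ν.surjective g
      show (f * ν g' * f⁻¹) (f b) = φ (ν⁻¹ (ν g')) (f b)
      have e2 : ν⁻¹ (ν g') = g' := ν.symm_apply_apply g'
      rw [e2, ← hf]
      simp
    exact (Cfsg.innNormal _).mem_comm e1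

end six

/-- `S2600`. -/
theorem out_psp4_even [Fintype F] {f : ℕ} (hf : 1 ≤ f) (hF : Fintype.card F = 2 ^ f) :
    IsCyclic (Cfsg.Out (Cfsg.PSp 2 F)) ∧ Nat.card (Cfsg.Out (Cfsg.PSp 2 F)) = 2 * f := by
  have h2 : (2 : F) = 0 := by
    have := FiniteField.cast_card_eq_zero F
    rw [hF] at this
    have h3 : ((2 : ℕ) : F) ^ f = 0 := by exact_mod_cast this
    have h4 := pow_eq_zero_iff (by omega) |>.1 h3
    exact_mod_cast h4
  by_cases hf1 : f = 1
  · subst hf1
    have hc : Fintype.card F = 2 := by simpa using hF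
    obtain ⟨e⟩ := Cfsg.Agent.S0247.result hc
    have e2 : Cfsg.PSp 2 F ≃* Equiv.Perm (Fin 6) := (prE h2).symm.trans e
    have h5 : Nat.card (Cfsg.Out (Cfsg.PSp 2 F)) = 2 := by
      rw [Cfsg.Agent.Lib.Suzuki.card_out_congr e2, card_out_S6]
    have : Fact (Nat.Prime 2) := ⟨Nat.prime_two⟩
    exact ⟨isCyclic_of_prime_card h5, by simpa using h5⟩
  · exact out_large (by omega) hF h2

end Cfsg.Agent.Lib.Classical
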