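import Mathlib
import Cfsg.Agent.Lib.TwoGroups.Present

/-! The structure of a group of order `72` generated by `3²` and `Q₈`. -/

set_option autoImplicit false
set_option linter.unusedSimpArgs false
set_option linter.unusedVariables false
set_option linter.unusedSectionVars false
set_option linter.style.haveILetI false

namespace Cfsg.Agent.Lib.Classical

variable {G : Type*} [Group G]

/-- A quaternion homomorphism. -/
theorem exists_quat_hom (ρ σ : G) (h1 : orderOf ρ = 4) (h2 : σ * σ = ρ ^ 2) (h3 : σ * ρ * σ⁻¹ = ρ⁻¹)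
    (h4 : σ ∉ Subgroup.zpowers ρ) :
    ∃ f : QuaternionGroup 2 →* G, Function.Injective f ∧
      (∀ x, f x ∈ Subgroup.closure ({ρ, σ} : Set G)) := by
  classical
  let P : ZMod (2 * 2) → G := fun i => ρ ^ i.val
  have hadd : ∀ i j : ZMod (2 * 2), P (i + j) = P i * P j := by
    intro i j
    simp only [P]
    rw [ZMod.val_add, ← pow_add]
    have e : (i.val + j.val) % orderOf ρ = (i.val + j.val) % (2 * 2) := by rw [h1]
    rw [← e, pow_mod_orderOf]
  have hzero : P 0 = 1 := by simp [P]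
  have hneg : ∀ i : ZMod (2 * 2), P (-i) = (P i)⁻¹ := by
    intro i
    have := hadd (-i) i
    rw [neg_add_cancel, hzero] at this
    exact eq_inv_of_mul_eq_one_left this.symm
  have hsub : ∀ i j : ZMod (2 * 2), P (j - i) = (P i)⁻¹ * P j := by
    intro i j
    rw [sub_eq_add_neg, add_comm, hadd, hneg]
  have hconj : ∀ i : ZMod (2 * 2), P i * σ = σ * (P i)⁻¹ := by
    intro i
    have h5 : σ * P i * σ⁻¹ = (P i)⁻¹ := by
      simp only [P]
      rw [← conj_pow, h3, inv_pow]
    have h6 : σ * (P i)⁻¹ * σ⁻¹ = P i := by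
      have h7 := congrArg (fun t => t⁻¹) h5
      simp only [mul_inv_rev, inv_inv] at h7
      rw [mul_assoc]
      exact h7
    calc P i * σ = (σ * (P i)⁻¹ * σ⁻¹) * σ := by rw [h6]
      _ = σ * (P i)⁻¹ := by group
  have hPm : P ((2 : ℕ) : ZMod (2 * 2)) = ρ ^ 2 := by
    show ρ ^ ((2 : ℕ) : ZMod (2 * 2)).val = ρ ^ 2
    rw [ZMod.val_natCast, Nat.mod_eq_of_lt (by omega)]
  let f : QuaternionGroup 2 →* G :=
    { toFun := fun x => match x with
        | QuaternionGroup.a i => P i
        | QuaternionGroup.xa i => σ * P i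
      map_one' := by
        show P 0 = 1
        exact hzero
      map_mul' := by
        rintro (i | i) (j | j)
        · show P (i + j) = P i * P j
          exact hadd i j
        · show σ * P (j - i) = P i * (σ * P j)
          rw [hsub, ← mul_assoc (P i), hconj, mul_assoc]
        · show σ * P (i + j) = σ * P i * P j
          rw [hadd, mul_assoc]
        · show P (((2 : ℕ) : ZMod (2 * 2)) + j - i) = σ * P i * (σ * P j)
          rw [add_sub_assoc, hadd, hPm, hsub, ← h2]
          calc σ * σ * ((P i)⁻¹ * P j) = σ * (σ * (P i)⁻¹) * P j := by group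
            _ = σ * (P i * σ) * P j := by rw [hconj]
            _ = σ * P i * (σ * P j) := by group }
  refine ⟨f, ?_, ?_⟩
  · rw [injective_iff_map_eq_one]
    rintro (i | i) hi
    · have h5 : ρ ^ i.val = 1 := hi
      have h6 : (2 * 2) ∣ i.val := by
        have := orderOf_dvd_of_pow_eq_one h5
        rwa [h1] at this
      have h7 : i.val = 0 := Nat.eq_zero_of_dvd_of_lt h6 (ZMod.val_lt i)
      have h8 : i = 0 := (ZMod.val_eq_zero i).mp h7
      rw [h8]
      rfl
    · exfalso
      have h5 : σ * ρ ^ i.val = 1 := hi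
      apply h4
      have h6 : σ = (ρ ^ i.val)⁻¹ := eq_inv_of_mul_eq_one_left h5
      rw [h6]
      exact Subgroup.inv_mem _ (Subgroup.pow_mem _ (Subgroup.mem_zpowers ρ) _)
  · have hρ : ρ ∈ Subgroup.closure ({ρ, σ} : Set G) := Subgroup.subset_closure (by simp)
    have hσ : σ ∈ Subgroup.closure ({ρ, σ} : Set G) := Subgroup.subset_closure (by simp)
    rintro (i | i)
    · exact Subgroup.pow_mem _ hρ _
    · exact Subgroup.mul_mem _ hσ (Subgroup.pow_mem _ hρ _)

/-- The abstract recognition. -/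
theorem psu32_abstract [Finite G] (hG : Nat.card G = 72) (d c i j : G)
    (hd3 : d ^ 3 = 1) (hc3 : c ^ 3 = 1) (hdc : d * c = c * d) (hd1 : d ≠ 1) (hcd : c ∉ Subgroup.zpowers d)
    (hi4 : orderOf i = 4) (hj2 : j * j = i ^ 2) (hji : j * i * j⁻¹ = i⁻¹)
    (h1 : i * d * i⁻¹ = c) (h2 : i * c * i⁻¹ = d ^ 2) (h3 : j * d * j⁻¹ = d ^ 2 * c) (h4 : j * c * j⁻¹ = d * c) :
    ∃ (N : Subgroup G) (_ : N.Normal), Nat.card N = 9 ∧ (∀ x ∈ N, x ^ 3 = 1) ∧ Nonempty (G ⧸ N ≃* QuaternionGroup 2) := by
  classical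
  have hcomm : Commute d c := hdc
  have hmul : ∀ a b a' b' : ℕ, d ^ a * c ^ b * (d ^ a' * c ^ b') = d ^ (a + a') * c ^ (b + b') := by
    intro a b a' b'
    have h5 : c ^ b * d ^ a' = d ^ a' * c ^ b := ((hcomm.pow_pow a' b)).symm.eq
    calc d ^ a * c ^ b * (d ^ a' * c ^ b') = d ^ a * (c ^ b * d ^ a') * c ^ b' := by group
      _ = d ^ a * (d ^ a' * c ^ b) * c ^ b' := by rw [h5]
      _ = _ := by rw [pow_add, pow_add]; group
  have hd3k : ∀ a : ℕ, d ^ (3 * a) = 1 := fun a => by rw [pow_mul, hd3, one_pow]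
  have hc3k : ∀ a : ℕ, c ^ (3 * a) = 1 := fun a => by rw [pow_mul, hc3, one_pow]
  let N : Subgroup G :=
    { carrier := {x | ∃ a b : ℕ, x = d ^ a * c ^ b}
      mul_mem' := by
        rintro _ _ ⟨a, b, rfl⟩ ⟨a', b', rfl⟩
        exact ⟨a + a', b + b', hmul _ _ _ _⟩
      one_mem' := ⟨0, 0, by simp⟩
      inv_mem' := by
        rintro _ ⟨a, b, rfl⟩
        refine ⟨2 * a, 2 * b, ?_⟩
        rw [inv_eq_iff_mul_eq_one, hmul, show a + 2 * a = 3 * a by ring, show b + 2 * b = 3 * b by ring, hd3k, hc3k, one_mul] }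
  have hN : ∀ x, x ∈ N ↔ ∃ a b : ℕ, x = d ^ a * c ^ b := fun x => Iff.rfl
  have hNmem : ∀ a b : ℕ, d ^ a * c ^ b ∈ N := fun a b => ⟨a, b, rfl⟩
  have hcube : ∀ x ∈ N, x ^ 3 = 1 := by
    rintro _ ⟨a, b, rfl⟩
    rw [hcomm.pow_pow a b |>.mul_pow, ← pow_mul, ← pow_mul, mul_comm a, mul_comm b, hd3k, hc3k, one_mul]
  have hordd : orderOf d = 3 := orderOf_eq_prime hd3 hd1
  have hzero : ∀ a b : ℕ, d ^ a * c ^ b = 1 → 3 ∣ a ∧ 3 ∣ b := by
    intro a b h
    have hb : 3 ∣ b := by
      by_contra hb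
      have h5 : c ^ b = (d ^ a)⁻¹ := eq_inv_of_mul_eq_one_right h
      have h6 : c ^ b ∈ Subgroup.zpowers d := by
        rw [h5]
        exact Subgroup.inv_mem _ (Subgroup.pow_mem _ (Subgroup.mem_zpowers d) _)
      have h7 : c ^ (b * b) ∈ Subgroup.zpowers d := by
        rw [pow_mul]
        exact Subgroup.pow_mem _ h6 _
      have h8 : b * b % 3 = 1 := by
        have : b % 3 = 1 ∨ b % 3 = 2 := by omega
        rcases this with h | h <;> simp [Nat.mul_mod, h]
      have h9 : c ^ (b * b) = c := by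
        conv_lhs => rw [← Nat.div_add_mod (b * b) 3, h8, pow_add, pow_mul, hc3, one_pow, one_mul, pow_one]
      rw [h9] at h7
      exact hcd h7
    refine ⟨?_, hb⟩
    obtain ⟨k, rfl⟩ := hb
    rw [hc3k, mul_one] at h
    rw [← hordd]
    exact orderOf_dvd_of_pow_eq_one h
  have hcardN : Nat.card N = 9 := by
    let φ : Fin 3 × Fin 3 → N := fun x => ⟨d ^ x.1.val * c ^ x.2.val, hNmem _ _⟩
    have hφ : Function.Bijective φ := by
      constructor
      · rintro ⟨a, b⟩ ⟨a', b'⟩ h
        have h5 : d ^ a.val * c ^ b.val = d ^ a'.val * c ^ b'.val := congrArg Subtype.val h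
        have h6 : d ^ (a.val + (3 - a'.val)) * c ^ (b.val + (3 - b'.val)) = 1 := by
          rw [← hmul, h5, hmul]
          have e1 : a'.val + (3 - a'.val) = 3 := by omega
          have e2 : b'.val + (3 - b'.val) = 3 := by omega
          rw [e1, e2, hd3, hc3, one_mul]
        obtain ⟨h7, h8⟩ := hzero _ _ h6
        have e3 : a = a' := by
          apply Fin.ext
          omega
        have e4 : b = b' := by
          apply Fin.ext
          omega
        rw [e3, e4]
      · rintro ⟨_, a, b, rfl⟩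
        refine ⟨(⟨a % 3, Nat.mod_lt _ (by norm_num)⟩, ⟨b % 3, Nat.mod_lt _ (by norm_num)⟩), ?_⟩
        apply Subtype.ext
        change d ^ (a % 3) * c ^ (b % 3) = d ^ a * c ^ b
        conv_rhs => rw [← Nat.div_add_mod a 3, ← Nat.div_add_mod b 3, pow_add, pow_add, hd3k, hc3k, one_mul, one_mul]
    rw [← Nat.card_congr (Equiv.ofBijective φ hφ)]
    simp
  have hnorm : ∀ g : G, g ^ 4 = 1 → (∀ x ∈ N, g * x * g⁻¹ ∈ N) → g ∈ Subgroup.normalizer (N : Set G) := by
    intro g hg hx
    rw [Subgroup.mem_normalizer_iff]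
    intro h
    refine ⟨hx h, ?_⟩
    intro h5
    have h6 := hx _ (hx _ (hx _ h5))
    have h7 : g * (g * (g * (g * h * g⁻¹) * g⁻¹) * g⁻¹) * g⁻¹ = h := by
      have e : g⁻¹ = g ^ 3 := by
        rw [inv_eq_iff_mul_eq_one, ← pow_succ']
        exact hg
      calc g * (g * (g * (g * h * g⁻¹) * g⁻¹) * g⁻¹) * g⁻¹ = (g * g * g * g) * h * (g * g * g * g)⁻¹ := by group
        _ = h := by
          have : g * g * g * g = 1 := by
            rw [← hg]
            simp [pow_succ]
          rw [this]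
          group
    rwa [h7] at h6
  have hi4' : i ^ 4 = 1 := by
    rw [← hi4]
    exact pow_orderOf_eq_one i
  have hj4 : j ^ 4 = 1 := by
    have e : j ^ 4 = (j * j) * (j * j) := by simp [pow_succ, mul_assoc]
    rw [e, hj2, ← pow_add]
    exact hi4'
  have hiK : i ∈ Subgroup.normalizer (N : Set G) := by
    apply hnorm i hi4'
    rintro _ ⟨a, b, rfl⟩
    have e : i * (d ^ a * c ^ b) * i⁻¹ = (i * d * i⁻¹) ^ a * (i * c * i⁻¹) ^ b := by
      rw [conj_pow, conj_pow]
      group
    rw [e, h1, h2, ← pow_mul]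
    exact ⟨2 * b, a, (hcomm.pow_pow _ _).symm.eq⟩
  have hjK : j ∈ Subgroup.normalizer (N : Set G) := by
    apply hnorm j hj4
    rintro _ ⟨a, b, rfl⟩
    have e : j * (d ^ a * c ^ b) * j⁻¹ = (j * d * j⁻¹) ^ a * (j * c * j⁻¹) ^ b := by
      rw [conj_pow, conj_pow]
      group
    rw [e, h3, h4]
    have h5 : Commute (d ^ 2) c := hcomm.pow_left 2
    rw [h5.mul_pow, hcomm.mul_pow, ← pow_mul, hmul]
    exact hNmem _ _
  have hi2 : i ^ 2 ≠ 1 := by
    intro h
    have := orderOf_dvd_of_pow_eq_one h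
    rw [hi4] at this
    omega
  have hjz : j ∉ Subgroup.zpowers i := by
    intro h
    obtain ⟨k, hk⟩ := Subgroup.mem_zpowers_iff.1 h
    apply hi2
    have h5 : j * i * j⁻¹ = i := by
      rw [← hk, (Commute.zpow_left (Commute.refl i) k).eq]
      group
    rw [hji] at h5
    have h6 : i * i = 1 := by
      calc i * i = i⁻¹ * i := by rw [h5]
        _ = 1 := inv_mul_cancel i
    rw [pow_two, h6]
  obtain ⟨f, hfinj, hfcl⟩ := exists_quat_hom i j hi4 hj2 hji hjz
  have hcl : Subgroup.closure ({i, j} : Set G) ≤ Subgroup.normalizer (N : Set G) := by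
    rw [Subgroup.closure_le]
    rintro x (rfl | rfl)
    · exact hiK
    · exact hjK
  have hNK : N ≤ Subgroup.normalizer (N : Set G) := Subgroup.le_normalizer
  have hK : Subgroup.normalizer (N : Set G) = ⊤ := by
    set K := Subgroup.normalizer (N : Set G)
    have h9 : 9 ∣ Nat.card K := by
      rw [← hcardN]
      exact Subgroup.card_dvd_of_le hNK
    have h8 : 8 ∣ Nat.card K := by
      have e : f.range ≤ K := by
        rintro _ ⟨x, rfl⟩
        exact hcl (hfcl x)
      have e2 : Nat.card f.range = 8 := by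
        rw [Nat.card_congr (MonoidHom.ofInjective hfinj).toEquiv.symm, Nat.card_eq_fintype_card, QuaternionGroup.card]
      rw [← e2]
      exact Subgroup.card_dvd_of_le e
    have h72 : 72 ∣ Nat.card K := by
      have := Nat.Coprime.mul_dvd_of_dvd_of_dvd (by norm_num : Nat.Coprime 9 8) h9 h8
      simpa using this
    have hle : Nat.card K ∣ 72 := by
      rw [← hG]
      exact Subgroup.card_subgroup_dvd_card K
    have heq : Nat.card K = Nat.card G := by
      rw [hG]
      exact Nat.dvd_antisymm hle h72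
    exact Subgroup.eq_top_of_card_eq K heq
  haveI hnormal : N.Normal := Subgroup.normalizer_eq_top_iff.1 hK
  refine ⟨N, hnormal, hcardN, hcube, ?_⟩
  have hq : Nat.card (G ⧸ N) = 8 := by
    have := Subgroup.card_eq_card_quotient_mul_card_subgroup N
    rw [hG, hcardN] at this
    omega
  let π := QuotientGroup.mk' N
  have hρ2 : (π i) ^ 2 ≠ 1 := by
    intro h
    rw [← map_pow, QuotientGroup.mk'_apply, QuotientGroup.eq_one_iff] at h
    have h5 := hcube _ h
    apply hi2
    have h6 : (i ^ 2) ^ 2 = 1 := by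
      rw [← pow_mul]
      exact hi4'
    calc i ^ 2 = (i ^ 2) ^ 3 * ((i ^ 2) ^ 2)⁻¹ := by group
      _ = 1 := by rw [h5, h6]; group
  have hρ : orderOf (π i) = 2 * 2 := by
    have := orderOf_eq_prime_pow (p := 2) (n := 1) (x := π i) (by simpa using hρ2) (by
      rw [show 2 ^ (1 + 1) = 4 by norm_num, ← map_pow, hi4', map_one])
    simpa using this
  have hπinv : π j * π i * (π j)⁻¹ = (π i)⁻¹ := by
    rw [← map_mul, ← map_inv, ← map_mul, hji, map_inv]
  refine Cfsg.Agent.Lib.TwoGroups.nonempty_mulEquiv_quaternion_of (π i) (π j) hρ ?_ hπinv ?_ (by rw [hq])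
  · rw [← map_mul, hj2, map_pow]
  · intro h
    obtain ⟨k, hk⟩ := Subgroup.mem_zpowers_iff.1 h
    apply hρ2
    have h5 : π j * π i * (π j)⁻¹ = π i := by
      rw [← hk, (Commute.zpow_left (Commute.refl (π i)) k).eq]
      group
    rw [hπinv] at h5
    have h6 : π i * π i = 1 := by
      calc π i * π i = (π i)⁻¹ * π i := by rw [h5]
        _ = 1 := inv_mul_cancel _
    rw [pow_two, h6]

end Cfsg.Agent.Lib.Classical
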