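import Mathlib
import Cfsg.Prelude.Def_ClassicalGeometry

/-! The stabiliser in `GL_n` of a coordinate subspace. -/

set_option autoImplicit false
set_option linter.unusedSimpArgs false
set_option linter.unusedVariables false
set_option linter.unusedSectionVars false

namespace Cfsg.Agent.Lib.Classical

open Matrix

variable {F : Type*} [Field F]

section Blocks

variable {X Y : Type} [Fintype X] [Fintype Y] [DecidableEq X] [DecidableEq Y]

theorem fromBlocks_of_zero (M : Matrix (X ⊕ Y) (X ⊕ Y) F) (h : M.toBlocks₂₁ = 0) :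
    M = fromBlocks M.toBlocks₁₁ M.toBlocks₁₂ 0 M.toBlocks₂₂ := by
  conv_lhs => rw [← fromBlocks_toBlocks M, h]

/-- Block upper triangular invertible matrices. -/
def blockEquiv : {g : GeneralLinearGroup (X ⊕ Y) F // (g : Matrix (X ⊕ Y) (X ⊕ Y) F).toBlocks₂₁ = 0} ≃
    GeneralLinearGroup X F × GeneralLinearGroup Y F × Matrix X Y F where
  toFun g :=
    have hg := fromBlocks_of_zero (g.1 : Matrix (X ⊕ Y) (X ⊕ Y) F) g.2
    have hdet : (g.1 : Matrix (X ⊕ Y) (X ⊕ Y) F).det = (g.1 : Matrix (X ⊕ Y) (X ⊕ Y) F).toBlocks₁₁.det * (g.1 : Matrix (X ⊕ Y) (X ⊕ Y) F).toBlocks₂₂.det := by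
      conv_lhs => rw [hg]
      rw [det_fromBlocks_zero₂₁]
    have hu : (g.1 : Matrix (X ⊕ Y) (X ⊕ Y) F).det ≠ 0 :=
      ((Matrix.isUnit_iff_isUnit_det _).1 g.1.isUnit).ne_zero
    (GeneralLinearGroup.mkOfDetNeZero (g.1 : Matrix (X ⊕ Y) (X ⊕ Y) F).toBlocks₁₁ (left_ne_zero_of_mul (hdet ▸ hu)),
     GeneralLinearGroup.mkOfDetNeZero (g.1 : Matrix (X ⊕ Y) (X ⊕ Y) F).toBlocks₂₂ (right_ne_zero_of_mul (hdet ▸ hu)),
     (g.1 : Matrix (X ⊕ Y) (X ⊕ Y) F).toBlocks₁₂)
  invFun p :=
    ⟨GeneralLinearGroup.mkOfDetNeZero (fromBlocks (p.1 : Matrix X X F) p.2.2 0 (p.2.1 : Matrix Y Y F)) (by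
        rw [det_fromBlocks_zero₂₁]
        exact mul_ne_zero ((Matrix.isUnit_iff_isUnit_det _).1 p.1.isUnit).ne_zero
          ((Matrix.isUnit_iff_isUnit_det _).1 p.2.1.isUnit).ne_zero),
      by rfl⟩
  left_inv g := by
    apply Subtype.ext
    apply Units.ext
    change fromBlocks _ _ 0 _ = _
    exact (fromBlocks_of_zero (g.1 : Matrix (X ⊕ Y) (X ⊕ Y) F) g.2).symm
  right_inv p := by
    rcases p with ⟨A, D, B⟩
    apply Prod.ext
    · apply Units.ext
      rfl
    · apply Prod.ext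
      · apply Units.ext
        rfl
      · rfl

theorem card_block (hq : True) :
    Nat.card {g : GeneralLinearGroup (X ⊕ Y) F // (g : Matrix (X ⊕ Y) (X ⊕ Y) F).toBlocks₂₁ = 0} =
      Nat.card (GeneralLinearGroup X F) * (Nat.card (GeneralLinearGroup Y F) * Nat.card (Matrix X Y F)) := by
  rw [Nat.card_congr blockEquiv, Nat.card_prod, Nat.card_prod]

end Blocks

/-- The index equivalence for a splitting of `Fin n`. -/
def splitIdx (n k : ℕ) (hk : k ≤ n) : Fin k ⊕ Fin (n - k) ≃ Fin n :=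
  finSumFinEquiv.trans (finCongr (by omega))

@[simp] theorem splitIdx_inl (n k : ℕ) (hk : k ≤ n) (i : Fin k) : ((splitIdx n k hk (Sum.inl i)) : ℕ) = i := by
  simp [splitIdx]

@[simp] theorem splitIdx_inr (n k : ℕ) (hk : k ≤ n) (i : Fin (n - k)) : ((splitIdx n k hk (Sum.inr i)) : ℕ) = k + i := by
  simp [splitIdx]

/-- Coordinate description of the subspace. -/
theorem mem_coordW_iff {n k : ℕ} (hk : k ≤ n) (v : Fin n → F) :
    v ∈ {v : Fin n → F | ∀ i : Fin n, k ≤ (i : ℕ) → v i = 0} ↔ ∀ y, v (splitIdx n k hk (Sum.inr y)) = 0 := by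
  constructor
  · intro hv y
    exact hv _ (by simp)
  · intro hv i hi
    have hz := (splitIdx n k hk).apply_symm_apply i
    rcases hs : (splitIdx n k hk).symm i with x | y
    · rw [hs] at hz
      have h1 := splitIdx_inl n k hk x
      rw [hz] at h1
      omega
    · rw [hs] at hz
      rw [← hz]
      exact hv y

/-- Matrix-vector multiplication in block coordinates. -/
theorem mulVec_split {n k : ℕ} (hk : k ≤ n) (g : Matrix (Fin n) (Fin n) F) (v : Fin n → F) (r : Fin k ⊕ Fin (n - k)) :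
    (g *ᵥ v) (splitIdx n k hk r) =
      ∑ x, g (splitIdx n k hk r) (splitIdx n k hk (Sum.inl x)) * v (splitIdx n k hk (Sum.inl x)) +
      ∑ y, g (splitIdx n k hk r) (splitIdx n k hk (Sum.inr y)) * v (splitIdx n k hk (Sum.inr y)) := by
  simp only [mulVec, dotProduct]
  rw [← Equiv.sum_comp (splitIdx n k hk), Fintype.sum_sum_type]

/-- The reindexing isomorphism of general linear groups. -/
noncomputable def glSplit (n k : ℕ) (hk : k ≤ n) : GeneralLinearGroup (Fin n) F ≃* GeneralLinearGroup (Fin k ⊕ Fin (n - k)) F :=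
  Units.mapEquiv (Matrix.reindexAlgEquiv F F (splitIdx n k hk).symm).toMulEquiv

theorem glSplit_coe (n k : ℕ) (hk : k ≤ n) (g : GeneralLinearGroup (Fin n) F) :
    (glSplit n k hk g : Matrix _ _ F) = (g : Matrix (Fin n) (Fin n) F).submatrix (splitIdx n k hk) (splitIdx n k hk) := rfl

/-- Membership in the parabolic in block terms. -/
theorem mem_stab_iff_block (n k : ℕ) (hk : k ≤ n) (g : GeneralLinearGroup (Fin n) F) :
    g ∈ Cfsg.stabilizing (Cfsg.glToMat (Fin n) F) {v : Fin n → F | ∀ i : Fin n, k ≤ (i : ℕ) → v i = 0} ↔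
      (glSplit n k hk g : Matrix (Fin k ⊕ Fin (n - k)) (Fin k ⊕ Fin (n - k)) F).toBlocks₂₁ = 0 := by
  classical
  set e := splitIdx n k hk with he
  constructor
  · intro hg
    ext y x
    have h1 : (Pi.single (e (Sum.inl x)) 1 : Fin n → F) ∈ {v : Fin n → F | ∀ i : Fin n, k ≤ (i : ℕ) → v i = 0} := by
      intro i hi
      have : i ≠ e (Sum.inl x) := by
        rintro rfl
        simp [he] at hi
        omega
      simp [Pi.single_apply, this]
    have h2 := (hg _).1 h1
    rw [mem_coordW_iff hk] at h2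
    have h3 := h2 y
    simp only [Cfsg.glToMat, Units.coeHom_apply, mulVec_single_one, col_apply] at h3
    exact h3
  · intro hg v
    have hC : ∀ (y : Fin (n - k)) (x : Fin k), (g : Matrix (Fin n) (Fin n) F) (e (Sum.inr y)) (e (Sum.inl x)) = 0 := by
      intro y x
      exact congrFun (congrFun hg y) x
    -- the block D is invertible
    have hfb := fromBlocks_of_zero (glSplit n k hk g : Matrix (Fin k ⊕ Fin (n - k)) (Fin k ⊕ Fin (n - k)) F) hg
    have hdet : (glSplit n k hk g : Matrix (Fin k ⊕ Fin (n - k)) (Fin k ⊕ Fin (n - k)) F).det = (glSplit n k hk g : Matrix (Fin k ⊕ Fin (n - k)) (Fin k ⊕ Fin (n - k)) F).toBlocks₁₁.det * (glSplit n k hk g : Matrix (Fin k ⊕ Fin (n - k)) (Fin k ⊕ Fin (n - k)) F).toBlocks₂₂.det := by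
      conv_lhs => rw [hfb]
      rw [det_fromBlocks_zero₂₁]
    have hu : (glSplit n k hk g : Matrix (Fin k ⊕ Fin (n - k)) (Fin k ⊕ Fin (n - k)) F).det ≠ 0 :=
      ((Matrix.isUnit_iff_isUnit_det _).1 (glSplit n k hk g).isUnit).ne_zero
    have hD := right_ne_zero_of_mul (hdet ▸ hu)
    set D := (glSplit n k hk g : Matrix (Fin k ⊕ Fin (n - k)) (Fin k ⊕ Fin (n - k)) F).toBlocks₂₂ with hDdef
    have hcoord : ∀ y, ((g : Matrix (Fin n) (Fin n) F) *ᵥ v) (e (Sum.inr y)) = (D *ᵥ (fun y' => v (e (Sum.inr y')))) y := by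
      intro y
      rw [he, mulVec_split hk]
      have : ∑ x, (g : Matrix (Fin n) (Fin n) F) (splitIdx n k hk (Sum.inr y)) (splitIdx n k hk (Sum.inl x)) * v (splitIdx n k hk (Sum.inl x)) = 0 := by
        apply Finset.sum_eq_zero
        intro x _
        rw [hC y x, zero_mul]
      rw [this, zero_add]
      rfl
    simp only [Cfsg.glToMat, Units.coeHom_apply]
    rw [mem_coordW_iff hk, mem_coordW_iff hk]
    constructor
    · intro hv y
      rw [← he, hcoord]
      have : (fun y' => v (e (Sum.inr y'))) = 0 := funext hv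
      rw [this, mulVec_zero]
      rfl
    · intro hv y
      have h1 : D *ᵥ (fun y' => v (e (Sum.inr y'))) = 0 := by
        funext y'
        rw [← hcoord]
        exact hv y'
      have h2 := Matrix.eq_zero_of_mulVec_eq_zero hD h1
      exact congrFun h2 y

/-- The order of the parabolic subgroup. -/
theorem card_parabolic [Fintype F] {q : ℕ} (hF : Fintype.card F = q) (n k : ℕ) (hk : k ≤ n) :
    Nat.card ↥(Cfsg.stabilizing (Cfsg.glToMat (Fin n) F) {v : Fin n → F | ∀ i : Fin n, k ≤ (i : ℕ) → v i = 0}) =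
      q ^ (k * (n - k)) * (∏ i : Fin k, (q ^ k - q ^ (i : ℕ))) * ∏ i : Fin (n - k), (q ^ (n - k) - q ^ (i : ℕ)) := by
  classical
  have e1 : ↥(Cfsg.stabilizing (Cfsg.glToMat (Fin n) F) {v : Fin n → F | ∀ i : Fin n, k ≤ (i : ℕ) → v i = 0}) ≃
      {g : GeneralLinearGroup (Fin k ⊕ Fin (n - k)) F // (g : Matrix (Fin k ⊕ Fin (n - k)) (Fin k ⊕ Fin (n - k)) F).toBlocks₂₁ = 0} :=
    (glSplit n k hk).toEquiv.subtypeEquiv (fun g => mem_stab_iff_block n k hk g)
  rw [Nat.card_congr e1, card_block trivial, Matrix.card_GL_field, Matrix.card_GL_field, hF]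
  have hm : Nat.card (Matrix (Fin k) (Fin (n - k)) F) = q ^ (k * (n - k)) := by
    change Nat.card (Fin k → Fin (n - k) → F) = _
    rw [Nat.card_fun, Nat.card_fun, Nat.card_eq_fintype_card, hF]
    simp only [Nat.card_fin]
    rw [← pow_mul, mul_comm]
  rw [hm]
  ring

end Cfsg.Agent.Lib.Classical
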