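import Mathlib
import Cfsg.Agent.Lib.Classical.Parabolic
import Cfsg.Agent.Lib.Classical.OrthStep

/-! Maximal parabolic subgroups of `GL_n`. -/

set_option autoImplicit false
set_option linter.unusedSimpArgs false
set_option linter.unusedVariables false
set_option linter.unusedSectionVars false
set_option linter.style.haveILetI false

namespace Cfsg.Agent.Lib.Classical

open Matrix

section Vec

variable {ι : Type} [Fintype ι] [DecidableEq ι] {F : Type*} [Field F]

/-- `GL` is transitive on non-zero vectors. -/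
theorem exists_gl_vec {r r' : ι → F} (hr : r ≠ 0) (hr' : r' ≠ 0) :
    ∃ D : Matrix.GeneralLinearGroup ι F, (D : Matrix ι ι F) *ᵥ r = r' := by
  let f := (LinearEquiv.toSpanNonzeroSingleton F (ι → F) r hr).symm.trans
    (LinearEquiv.toSpanNonzeroSingleton F (ι → F) r' hr')
  obtain ⟨g, hg⟩ := Submodule.exists_linearEquiv_restrict_eq f
  refine ⟨glOfEquiv g, ?_⟩
  rw [glOfEquiv_mulVec]
  have h1 := hg ⟨r, Submodule.mem_span_singleton_self r⟩
  rw [← h1]
  have h2 : (⟨r, Submodule.mem_span_singleton_self r⟩ : Submodule.span F {r}) =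
      LinearEquiv.toSpanNonzeroSingleton F (ι → F) r hr 1 := by
    apply Subtype.ext
    simp
  have h3 : f ⟨r, Submodule.mem_span_singleton_self r⟩ = LinearEquiv.toSpanNonzeroSingleton F (ι → F) r' hr' 1 := by
    rw [h2]
    simp only [f, LinearEquiv.trans_apply, LinearEquiv.symm_apply_apply]
  rw [h3]
  simp

/-- The rank one update as a unit. -/
def rkGL (u φ : ι → F) (h : φ ⬝ᵥ u = 0) : Matrix.GeneralLinearGroup ι F where
  val := 1 + vecMulVec u φ
  inv := 1 - vecMulVec u φ
  val_inv := by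
    have hM : vecMulVec u φ * vecMulVec u φ = 0 := by
      rw [vecMulVec_mul_vecMulVec, h]
      simp
    simp only [add_mul, mul_sub, one_mul, mul_one, hM]
    abel
  inv_val := by
    have hM : vecMulVec u φ * vecMulVec u φ = 0 := by
      rw [vecMulVec_mul_vecMulVec, h]
      simp
    simp only [sub_mul, mul_add, one_mul, mul_one, hM]
    abel

@[simp] theorem rkGL_val (u φ : ι → F) (h : φ ⬝ᵥ u = 0) : ((rkGL u φ h : Matrix.GeneralLinearGroup ι F) : Matrix ι ι F) = 1 + vecMulVec u φ := rfl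

theorem rkGL_conj_val (g : Matrix.GeneralLinearGroup ι F) (u φ : ι → F) (h : φ ⬝ᵥ u = 0) :
    ((g * rkGL u φ h * g⁻¹ : Matrix.GeneralLinearGroup ι F) : Matrix ι ι F) =
      1 + vecMulVec ((g : Matrix ι ι F) *ᵥ u) (φ ᵥ* ((g⁻¹ : Matrix.GeneralLinearGroup ι F) : Matrix ι ι F)) := by
  rw [Units.val_mul, Units.val_mul, rkGL_val, mul_add, add_mul, mul_one, mul_vecMulVec, vecMulVec_mul, ← Units.val_mul]
  simp

end Vec

section Block

variable {X Y : Type} [Fintype X] [Fintype Y] [DecidableEq X] [DecidableEq Y] {F : Type*} [Field F]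

/-- Lower unitriangular elements. -/
def lowerGL (Z : Matrix Y X F) : Matrix.GeneralLinearGroup (X ⊕ Y) F where
  val := fromBlocks 1 0 Z 1
  inv := fromBlocks 1 0 (-Z) 1
  val_inv := by
    rw [fromBlocks_multiply]
    simp [fromBlocks_one]
  inv_val := by
    rw [fromBlocks_multiply]
    simp [fromBlocks_one]

/-- Upper unitriangular elements. -/
def upperGL (T : Matrix X Y F) : Matrix.GeneralLinearGroup (X ⊕ Y) F where
  val := fromBlocks 1 T 0 1
  inv := fromBlocks 1 (-T) 0 1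
  val_inv := by
    rw [fromBlocks_multiply]
    simp [fromBlocks_one]
  inv_val := by
    rw [fromBlocks_multiply]
    simp [fromBlocks_one]

/-- Block diagonal elements. -/
def diagGL (A : Matrix.GeneralLinearGroup X F) (D : Matrix.GeneralLinearGroup Y F) : Matrix.GeneralLinearGroup (X ⊕ Y) F where
  val := fromBlocks (A : Matrix X X F) 0 0 (D : Matrix Y Y F)
  inv := fromBlocks ((A⁻¹ : Matrix.GeneralLinearGroup X F) : Matrix X X F) 0 0 ((D⁻¹ : Matrix.GeneralLinearGroup Y F) : Matrix Y Y F)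
  val_inv := by
    rw [fromBlocks_multiply]
    simp [fromBlocks_one, ← Units.val_mul]
  inv_val := by
    rw [fromBlocks_multiply]
    simp [fromBlocks_one, ← Units.val_mul]

theorem diag_lower_conj (A : Matrix.GeneralLinearGroup X F) (D : Matrix.GeneralLinearGroup Y F) (Z : Matrix Y X F) :
    diagGL A D * lowerGL Z * (diagGL A D)⁻¹ = lowerGL ((D : Matrix Y Y F) * Z * ((A⁻¹ : Matrix.GeneralLinearGroup X F) : Matrix X X F)) := by
  apply Units.ext
  rw [Units.val_mul, Units.val_mul]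
  change fromBlocks (A : Matrix X X F) 0 0 (D : Matrix Y Y F) * fromBlocks 1 0 Z 1 *
    fromBlocks ((A⁻¹ : Matrix.GeneralLinearGroup X F) : Matrix X X F) 0 0 ((D⁻¹ : Matrix.GeneralLinearGroup Y F) : Matrix Y Y F) = fromBlocks 1 0 _ 1
  rw [fromBlocks_multiply, fromBlocks_multiply]
  simp [← Units.val_mul]

theorem lower_mul (Z Z' : Matrix Y X F) : lowerGL Z * lowerGL Z' = lowerGL (Z + Z') := by
  apply Units.ext
  rw [Units.val_mul]
  change fromBlocks 1 0 Z 1 * fromBlocks 1 0 Z' 1 = fromBlocks 1 0 (Z + Z') 1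
  rw [fromBlocks_multiply]
  simp [add_comm]

variable (P H : Subgroup (Matrix.GeneralLinearGroup (X ⊕ Y) F))

/-- All of the lower unitriangular elements lie in `H` once one rank one element does. -/
theorem lower_all (hP : ∀ g : Matrix.GeneralLinearGroup (X ⊕ Y) F, g ∈ P ↔ (g : Matrix (X ⊕ Y) (X ⊕ Y) F).toBlocks₂₁ = 0)
    (hPH : P ≤ H) {r : Y → F} {l : X → F} (hr : r ≠ 0) (hl : l ≠ 0) (h : lowerGL (vecMulVec r l) ∈ H) (Z : Matrix Y X F) :
    lowerGL Z ∈ H := by
  classical
  have hone : ∀ (r' : Y → F) (l' : X → F), r' ≠ 0 → l' ≠ 0 → lowerGL (vecMulVec r' l') ∈ H := by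
    intro r' l' hr' hl'
    obtain ⟨D, hD⟩ := exists_gl_vec hr hr'
    obtain ⟨B, hB⟩ := exists_gl_vec hl' hl
    -- transpose of `B`
    let A : Matrix.GeneralLinearGroup X F := ⟨(B : Matrix X X F)ᵀ, ((B⁻¹ : Matrix.GeneralLinearGroup X F) : Matrix X X F)ᵀ, by
      rw [← transpose_mul, ← Units.val_mul]
      simp, by
      rw [← transpose_mul, ← Units.val_mul]
      simp⟩
    have hA : ((A⁻¹ : Matrix.GeneralLinearGroup X F) : Matrix X X F) = ((B⁻¹ : Matrix.GeneralLinearGroup X F) : Matrix X X F)ᵀ := rfl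
    have hmem : diagGL A D ∈ H := by
      apply hPH
      rw [hP]
      rfl
    have h1 := H.mul_mem (H.mul_mem hmem h) (H.inv_mem hmem)
    rw [diag_lower_conj, mul_vecMulVec, vecMulVec_mul, hD, hA, vecMul_transpose] at h1
    have h2 : ((B⁻¹ : Matrix.GeneralLinearGroup X F) : Matrix X X F) *ᵥ l = l' := by
      rw [← hB, mulVec_mulVec, ← Units.val_mul]
      simp
    rwa [h2] at h1
  have hsingle : ∀ (y : Y) (x : X) (c : F), lowerGL (vecMulVec (c • (Pi.single y 1 : Y → F)) (Pi.single x 1 : X → F)) ∈ H := by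
    intro y x c
    by_cases hc : c = 0
    · subst hc
      have : lowerGL (vecMulVec ((0 : F) • (Pi.single y 1 : Y → F)) (Pi.single x 1 : X → F)) = 1 := by
        apply Units.ext
        change fromBlocks 1 0 _ 1 = _
        simp [fromBlocks_one]
      rw [this]
      exact one_mem _
    · apply hone
      · exact smul_ne_zero hc (Pi.single_ne_zero_iff.2 one_ne_zero)
      · exact Pi.single_ne_zero_iff.2 one_ne_zero
  -- additivity
  have hZ : Z = ∑ p : Y × X, vecMulVec (Z p.1 p.2 • (Pi.single p.1 1 : Y → F)) (Pi.single p.2 1 : X → F) := by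
    ext a b
    rw [Matrix.sum_apply, Finset.sum_eq_single (a, b)]
    · simp [vecMulVec_apply]
    · rintro ⟨y, x⟩ _ hne
      simp only [vecMulVec_apply, Pi.smul_apply, smul_eq_mul, Pi.single_apply]
      by_cases h1 : a = y
      · by_cases h2 : b = x
        · subst h1
          subst h2
          exact absurd rfl hne
        · simp [h2]
      · simp [h1]
    · simp
  have hsum : ∀ (S : Finset (Y × X)), lowerGL (∑ p ∈ S, vecMulVec (Z p.1 p.2 • (Pi.single p.1 1 : Y → F)) (Pi.single p.2 1 : X → F)) ∈ H := by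
    intro S
    induction S using Finset.induction_on with
    | empty =>
      have : lowerGL (0 : Matrix Y X F) = 1 := by
        apply Units.ext
        change fromBlocks 1 0 0 1 = _
        simp [fromBlocks_one]
      simp [this, one_mem]
    | insert a s ha ih =>
      rw [Finset.sum_insert ha, ← lower_mul]
      exact H.mul_mem (hsingle _ _ _) ih
  have := hsum Finset.univ
  rw [← hZ] at this
  exact this

/-- Producing a lower element out of an element outside the parabolic. -/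
theorem exists_lower_rank_one (hP : ∀ g : Matrix.GeneralLinearGroup (X ⊕ Y) F, g ∈ P ↔ (g : Matrix (X ⊕ Y) (X ⊕ Y) F).toBlocks₂₁ = 0)
    (hPH : P ≤ H) {g : Matrix.GeneralLinearGroup (X ⊕ Y) F} (hgH : g ∈ H) (hgP : g ∉ P) :
    ∃ (r : Y → F) (l : X → F), r ≠ 0 ∧ l ≠ 0 ∧ lowerGL (vecMulVec r l) ∈ H := by
  classical
  -- entries outside of the parabolic
  have hent : ∀ k : Matrix.GeneralLinearGroup (X ⊕ Y) F, k ∉ P → ∃ (a : Y) (b : X), (k : Matrix (X ⊕ Y) (X ⊕ Y) F) (Sum.inr a) (Sum.inl b) ≠ 0 := by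
    intro k hk
    rw [hP] at hk
    by_contra hcon
    push Not at hcon
    apply hk
    ext a b
    exact hcon a b
  obtain ⟨a, b, hab⟩ := hent g hgP
  obtain ⟨a', b', hab'⟩ := hent g⁻¹ (fun h => hgP (by simpa using P.inv_mem h))
  let u0 : X ⊕ Y → F := Pi.single (Sum.inl b) 1
  let φ0 : X ⊕ Y → F := Pi.single (Sum.inr a') 1
  have h00 : φ0 ⬝ᵥ u0 = 0 := by
    simp [φ0, u0]
  have htP : rkGL u0 φ0 h00 ∈ P := by
    rw [hP]
    ext y x
    simp [u0, φ0, toBlocks₂₁, vecMulVec_apply]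
  have hτ := H.mul_mem (H.mul_mem hgH (hPH htP)) (H.inv_mem hgH)
  set Mg : Matrix (X ⊕ Y) (X ⊕ Y) F := (g : Matrix (X ⊕ Y) (X ⊕ Y) F) with hMg
  set Mi : Matrix (X ⊕ Y) (X ⊕ Y) F := ((g⁻¹ : Matrix.GeneralLinearGroup (X ⊕ Y) F) : Matrix (X ⊕ Y) (X ⊕ Y) F) with hMi
  have hMiMg : Mi * Mg = 1 := by
    rw [hMi, hMg, ← Units.val_mul]
    simp
  set u := Mg *ᵥ u0 with hu
  set φ := φ0 ᵥ* Mi with hφ
  have hτval := rkGL_conj_val g u0 φ0 h00
  have hφu : φ ⬝ᵥ u = 0 := by
    rw [hφ, hu, dotProduct_mulVec, vecMul_vecMul, hMiMg, vecMul_one, h00]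
  have hτeq : g * rkGL u0 φ0 h00 * g⁻¹ = rkGL u φ hφu := Units.ext hτval
  rw [hτeq] at hτ
  -- notation for the four pieces
  let r : Y → F := fun y => u (Sum.inr y)
  let s : X → F := fun x => - u (Sum.inl x)
  let l : X → F := fun x => φ (Sum.inl x)
  let m : Y → F := fun y => φ (Sum.inr y)
  have hr : r ≠ 0 := by
    intro h0
    have := congrFun h0 a
    apply hab
    simpa [r, hu, u0] using this
  have hl : l ≠ 0 := by
    intro h0
    have := congrFun h0 b'
    apply hab'
    simpa [l, hφ, φ0] using this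
  have hrel : l ⬝ᵥ s = m ⬝ᵥ r := by
    have h1 := hφu
    simp only [dotProduct, Fintype.sum_sum_type] at h1
    simp only [dotProduct, l, s, m, r, mul_neg, Finset.sum_neg_distrib]
    linear_combination -h1
  -- the solution of the linear equations
  obtain ⟨y0, hy0⟩ : ∃ y, r y ≠ 0 := by
    by_contra hcon
    push Not at hcon
    exact hr (funext hcon)
  obtain ⟨x0, hx0⟩ : ∃ x, l x ≠ 0 := by
    by_contra hcon
    push Not at hcon
    exact hl (funext hcon)
  let ρ : Y → F := Pi.single y0 (r y0)⁻¹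
  let σ : X → F := Pi.single x0 (l x0)⁻¹
  have hρ : ρ ⬝ᵥ r = 1 := by
    simp [ρ, hy0]
  have hσ : l ⬝ᵥ σ = 1 := by
    simp [σ, hx0]
  let T : Matrix X Y F := vecMulVec s ρ + vecMulVec σ (m - (m ⬝ᵥ r) • ρ)
  have hT1 : T *ᵥ r = s := by
    simp only [T, add_mulVec, vecMulVec_mulVec, hρ, sub_dotProduct, smul_dotProduct, smul_eq_mul, mul_one, sub_self]
    simp
  have hT2 : l ᵥ* T = m := by
    simp only [T, vecMul_add, vecMul_vecMulVec, hσ, hrel]
    simp only [← hrel, one_smul]
    funext y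
    simp
  have hp : upperGL T ∈ H := by
    apply hPH
    rw [hP]
    rfl
  have hfinal := H.mul_mem (H.mul_mem hp hτ) (H.inv_mem hp)
  have h2 : rkGL u φ hφu = rkGL u φ hφu := rfl
  have hconj := rkGL_conj_val (upperGL T) u φ hφu
  have e1 : ((upperGL T : Matrix.GeneralLinearGroup (X ⊕ Y) F) : Matrix (X ⊕ Y) (X ⊕ Y) F) *ᵥ u = Sum.elim (0 : X → F) r := by
    change fromBlocks 1 T 0 1 *ᵥ u = _
    have hT1' : T *ᵥ (u ∘ Sum.inr) = s := hT1
    rw [fromBlocks_mulVec, hT1', one_mulVec, one_mulVec, zero_mulVec, zero_add]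
    congr 1
    funext x
    simp [s]
  have e2 : φ ᵥ* (((upperGL T)⁻¹ : Matrix.GeneralLinearGroup (X ⊕ Y) F) : Matrix (X ⊕ Y) (X ⊕ Y) F) = Sum.elim l (0 : Y → F) := by
    change φ ᵥ* (fromBlocks 1 (-T) 0 1) = _
    have hT2' : (φ ∘ Sum.inl) ᵥ* T = m := hT2
    rw [vecMul_fromBlocks, vecMul_neg, hT2', vecMul_one, vecMul_one, vecMul_zero, add_zero]
    congr 1
    funext y
    simp [m]
  rw [e1, e2] at hconj
  have hfinal2 : upperGL T * rkGL u φ hφu * (upperGL T)⁻¹ = lowerGL (vecMulVec r l) := by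
    apply Units.ext
    rw [hconj]
    change _ = fromBlocks 1 0 (vecMulVec r l) 1
    ext i j
    rcases i with i | i <;> rcases j with j | j <;> simp [one_apply, vecMulVec_apply]
  rw [hfinal2] at hfinal
  exact ⟨r, l, hr, hl, hfinal⟩

/-- Maximality of the block parabolic. -/
theorem block_parabolic_max (hP : ∀ g : Matrix.GeneralLinearGroup (X ⊕ Y) F, g ∈ P ↔ (g : Matrix (X ⊕ Y) (X ⊕ Y) F).toBlocks₂₁ = 0)
    (hPH : P < H) : H = ⊤ := by
  classical
  obtain ⟨g, hgH, hgP⟩ := SetLike.exists_of_lt hPH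
  obtain ⟨r, l, hr, hl, hlow⟩ := exists_lower_rank_one P H hP hPH.le hgH hgP
  have hall := lower_all P H hP hPH.le hr hl hlow
  rw [eq_top_iff]
  intro M _
  have hPmem : ∀ N : Matrix (X ⊕ Y) (X ⊕ Y) F, N.det ≠ 0 → N.toBlocks₂₁ = 0 → ∃ h ∈ H, (h : Matrix (X ⊕ Y) (X ⊕ Y) F) = N := by
    intro N hdet h0
    refine ⟨Matrix.GeneralLinearGroup.mkOfDetNeZero N hdet, hPH.le ?_, rfl⟩
    rw [hP]
    exact h0
  have key : ∃ h ∈ H, (h : Matrix (X ⊕ Y) (X ⊕ Y) F) = (M : Matrix (X ⊕ Y) (X ⊕ Y) F) := by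
    apply diagonal_transvection_induction_of_det_ne_zero (fun N => ∃ h ∈ H, (h : Matrix (X ⊕ Y) (X ⊕ Y) F) = N)
    · exact ((Matrix.isUnit_iff_isUnit_det _).1 M.isUnit).ne_zero
    · intro D hD
      apply hPmem _ hD
      ext y x
      simp [toBlocks₂₁]
    · intro t
      by_cases hlow2 : ∃ (y : Y) (x : X), t.i = Sum.inr y ∧ t.j = Sum.inl x
      · obtain ⟨y, x, hi, hj⟩ := hlow2
        refine ⟨lowerGL (Matrix.single y x t.c), hall _, ?_⟩
        change fromBlocks 1 0 (Matrix.single y x t.c) 1 = t.toMatrix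
        rw [TransvectionStruct.toMatrix, transvection, hi, hj]
        ext a b
        rcases a with a | a <;> rcases b with b | b <;> simp [one_apply, Matrix.single_apply]
      · apply hPmem
        · simp
        · ext y x
          rw [TransvectionStruct.toMatrix, transvection]
          change (1 + Matrix.single t.i t.j t.c : Matrix (X ⊕ Y) (X ⊕ Y) F) (Sum.inr y) (Sum.inl x) = 0
          rw [Matrix.add_apply, Matrix.one_apply, if_neg (by simp), zero_add, Matrix.single_apply, if_neg]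
          rintro ⟨h1, h2⟩
          exact hlow2 ⟨y, x, h1, h2⟩
    · rintro A B - - ⟨a, ha, rfl⟩ ⟨b, hb, rfl⟩
      exact ⟨a * b, H.mul_mem ha hb, rfl⟩
  obtain ⟨h, hh, hh2⟩ := key
  have : h = M := Units.ext hh2
  rwa [← this]

end Block

/-- The stabilisers in `GL_n`, as maximal subgroups. -/
theorem parabolic_isCoatom {F : Type*} [Field F] (n k : ℕ) (hk0 : 0 < k) (hkn : k < n) :
    IsCoatom (Cfsg.stabilizing (Cfsg.glToMat (Fin n) F) {v : Fin n → F | ∀ i : Fin n, k ≤ (i : ℕ) → v i = 0}) := by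
  classical
  have hk : k ≤ n := by omega
  let e := glSplit (F := F) n k hk
  set Q := Cfsg.stabilizing (Cfsg.glToMat (Fin n) F) {v : Fin n → F | ∀ i : Fin n, k ≤ (i : ℕ) → v i = 0} with hQ
  let P : Subgroup (Matrix.GeneralLinearGroup (Fin k ⊕ Fin (n - k)) F) := Q.map e.toMonoidHom
  have hP : ∀ g : Matrix.GeneralLinearGroup (Fin k ⊕ Fin (n - k)) F, g ∈ P ↔ (g : Matrix (Fin k ⊕ Fin (n - k)) (Fin k ⊕ Fin (n - k)) F).toBlocks₂₁ = 0 := by
    intro g
    constructor
    · rintro ⟨a, ha, rfl⟩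
      exact (mem_stab_iff_block n k hk a).1 ha
    · intro h
      refine ⟨e.symm g, ?_, by simp⟩
      rw [SetLike.mem_coe, hQ, mem_stab_iff_block n k hk]
      have : glSplit n k hk (e.symm g) = g := e.apply_symm_apply g
      rw [this]
      exact h
  constructor
  · intro htop
    have hX : Nonempty (Fin k) := ⟨⟨0, hk0⟩⟩
    have hY : Nonempty (Fin (n - k)) := ⟨⟨0, by omega⟩⟩
    obtain ⟨x⟩ := hX
    obtain ⟨y⟩ := hY
    have h1 : lowerGL (vecMulVec (Pi.single y 1 : Fin (n - k) → F) (Pi.single x 1 : Fin k → F)) ∈ P := by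
      refine ⟨e.symm (lowerGL (vecMulVec (Pi.single y 1 : Fin (n - k) → F) (Pi.single x 1 : Fin k → F))), ?_, e.apply_symm_apply _⟩
      rw [SetLike.mem_coe, htop]
      exact Subgroup.mem_top _
    have h2 := (hP _).1 h1
    have h3 := congrFun (congrFun h2 y) x
    simp [lowerGL, toBlocks₂₁, vecMulVec_apply] at h3
  · intro H hH
    have hPH : P < H.map e.toMonoidHom := by
      refine lt_of_le_of_ne (Subgroup.map_mono hH.le) ?_
      intro h
      apply hH.ne
      exact Subgroup.map_injective e.injective h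
    have h1 := block_parabolic_max P _ hP hPH
    rw [eq_top_iff]
    intro g _
    have h2 : e g ∈ H.map e.toMonoidHom := by
      rw [h1]
      exact Subgroup.mem_top _
    obtain ⟨a, ha, hae⟩ := h2
    have : a = g := e.injective hae
    rwa [← this]

end Cfsg.Agent.Lib.Classical
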