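import Mathlib
import Cfsg.Agent.Lib.Classical.ParabolicMax
import Cfsg.Agent.Lib.Classical.HermStab

/-! The parabolic subgroups of dimensions `k` and `n - k`. -/

set_option autoImplicit false
set_option linter.unusedSimpArgs false
set_option linter.unusedVariables false
set_option linter.unusedSectionVars false
set_option linter.style.haveILetI false

namespace Cfsg.Agent.Lib.Classical

open Matrix

variable {F : Type*} [Field F] {n : ℕ}

/-- The coordinate subspace. -/
def coordW (n : ℕ) (F : Type*) [Field F] (m : ℕ) : Submodule F (Fin n → F) where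
  carrier := {v | ∀ i : Fin n, m ≤ (i : ℕ) → v i = 0}
  add_mem' := by
    intro a b ha hb i hi
    simp [ha i hi, hb i hi]
  zero_mem' := fun i _ => rfl
  smul_mem' := by
    intro c a ha i hi
    simp [ha i hi]

theorem mem_coordW {m : ℕ} {v : Fin n → F} : v ∈ coordW n F m ↔ ∀ i : Fin n, m ≤ (i : ℕ) → v i = 0 := Iff.rfl

theorem finrank_coordW {m : ℕ} (hm : m ≤ n) : Module.finrank F (coordW n F m) = m := by
  classical
  let f : (Fin m → F) →ₗ[F] (Fin n → F) :=
    { toFun := fun c i => if h : (i : ℕ) < m then c ⟨i, h⟩ else 0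
      map_add' := by
        intro a b
        funext i
        by_cases h : (i : ℕ) < m <;> simp [h]
      map_smul' := by
        intro c a
        funext i
        by_cases h : (i : ℕ) < m <;> simp [h] }
  have hinj : Function.Injective f := by
    rw [injective_iff_map_eq_zero]
    intro a ha
    funext j
    have := congrFun ha ⟨j, by have := j.2; omega⟩
    simpa [f] using this
  have hrange : LinearMap.range f = coordW n F m := by
    ext v
    constructor
    · rintro ⟨c, rfl⟩ i hi
      have : ¬ (i : ℕ) < m := by omega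
      simp [f, this]
    · intro hv
      refine ⟨fun j => v ⟨j, by have := j.2; omega⟩, ?_⟩
      funext i
      by_cases h : (i : ℕ) < m
      · simp [f, h]
      · have : m ≤ (i : ℕ) := by omega
        simp [f, h, hv i this]
  rw [← hrange, LinearMap.finrank_range_of_inj hinj]
  simp

/-- The parabolic as the stabiliser of a set. -/
abbrev parab (n : ℕ) (F : Type*) [Field F] (m : ℕ) : Subgroup (Matrix.GeneralLinearGroup (Fin n) F) :=
  Cfsg.stabilizing (Cfsg.glToMat (Fin n) F) {v : Fin n → F | ∀ i : Fin n, m ≤ (i : ℕ) → v i = 0}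

/-- Elements of the parabolic in terms of entries. -/
theorem mem_parab_iff {m : ℕ} (hm : m ≤ n) (g : Matrix.GeneralLinearGroup (Fin n) F) :
    g ∈ parab n F m ↔ ∀ i j : Fin n, m ≤ (i : ℕ) → (j : ℕ) < m → (g : Matrix (Fin n) (Fin n) F) i j = 0 := by
  rw [mem_stab_iff_block n m hm]
  constructor
  · intro h i j hi hj
    have hy := congrFun (congrFun h (⟨i - m, by have := i.2; omega⟩ : Fin (n - m))) (⟨j, hj⟩ : Fin m)
    have e1 : splitIdx n m hm (Sum.inr ⟨i - m, by have := i.2; omega⟩) = i := by
      apply Fin.ext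
      simp
      omega
    have e2 : splitIdx n m hm (Sum.inl ⟨j, hj⟩) = j := by
      apply Fin.ext
      simp
    simp only [toBlocks₂₁, of_apply, Matrix.zero_apply] at hy
    rw [glSplit_coe, submatrix_apply, e1, e2] at hy
    exact hy
  · intro h
    ext y x
    simp only [toBlocks₂₁, of_apply, Matrix.zero_apply]
    rw [glSplit_coe, submatrix_apply]
    apply h
    · simp
    · simp

/-- The inverse transpose twisted by the reversal. -/
noncomputable def revTr (n : ℕ) (F : Type*) [Field F] : Matrix.GeneralLinearGroup (Fin n) F →* Matrix.GeneralLinearGroup (Fin n) F where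
  toFun g := ⟨(((g⁻¹ : Matrix.GeneralLinearGroup (Fin n) F) : Matrix (Fin n) (Fin n) F)ᵀ).submatrix Fin.revPerm Fin.revPerm,
      ((g : Matrix (Fin n) (Fin n) F)ᵀ).submatrix Fin.revPerm Fin.revPerm, by
      rw [submatrix_mul_equiv, ← transpose_mul, ← Units.val_mul]
      simp, by
      rw [submatrix_mul_equiv, ← transpose_mul, ← Units.val_mul]
      simp⟩
  map_one' := by
    apply Units.ext
    simp [submatrix_one_equiv]
  map_mul' a b := by
    apply Units.ext
    change (((a * b)⁻¹ : Matrix.GeneralLinearGroup (Fin n) F) : Matrix (Fin n) (Fin n) F)ᵀ.submatrix Fin.revPerm Fin.revPerm =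
      ((a⁻¹ : Matrix.GeneralLinearGroup (Fin n) F) : Matrix (Fin n) (Fin n) F)ᵀ.submatrix Fin.revPerm Fin.revPerm *
      ((b⁻¹ : Matrix.GeneralLinearGroup (Fin n) F) : Matrix (Fin n) (Fin n) F)ᵀ.submatrix Fin.revPerm Fin.revPerm
    rw [submatrix_mul_equiv, ← transpose_mul, ← Units.val_mul, _root_.mul_inv_rev]

theorem revTr_apply (g : Matrix.GeneralLinearGroup (Fin n) F) (i j : Fin n) :
    ((revTr n F g : Matrix.GeneralLinearGroup (Fin n) F) : Matrix (Fin n) (Fin n) F) i j =
      ((g⁻¹ : Matrix.GeneralLinearGroup (Fin n) F) : Matrix (Fin n) (Fin n) F) (Fin.rev j) (Fin.rev i) := rfl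

theorem revTr_revTr (g : Matrix.GeneralLinearGroup (Fin n) F) : revTr n F (revTr n F g) = g := by
  apply Units.ext
  ext i j
  rw [revTr_apply, ← map_inv, revTr_apply]
  simp

/-- The automorphism. -/
noncomputable def revTrEquiv (n : ℕ) (F : Type*) [Field F] : Matrix.GeneralLinearGroup (Fin n) F ≃* Matrix.GeneralLinearGroup (Fin n) F :=
  { revTr n F with
    invFun := revTr n F
    left_inv := revTr_revTr
    right_inv := revTr_revTr }

theorem revTr_mem {k : ℕ} (hk : k ≤ n) (g : Matrix.GeneralLinearGroup (Fin n) F) :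
    g ∈ parab n F k ↔ revTr n F g ∈ parab n F (n - k) := by
  rw [mem_parab_iff (by omega) (g := revTr n F g)]
  constructor
  · intro hg i j hi hj
    rw [revTr_apply]
    have hginv : g⁻¹ ∈ parab n F k := inv_mem hg
    rw [mem_parab_iff hk] at hginv
    apply hginv
    · simp only [Fin.val_rev]
      omega
    · simp only [Fin.val_rev]
      have := i.2
      omega
  · intro h
    have hginv : g⁻¹ ∈ parab n F k := by
      rw [mem_parab_iff hk]
      intro i j hi hj
      have := h (Fin.rev j) (Fin.rev i) (by simp only [Fin.val_rev]; have := j.2; omega) (by simp only [Fin.val_rev]; have := i.2; omega)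
      rw [revTr_apply] at this
      simpa using this
    simpa using inv_mem hginv

/-- Invariant subspaces of the parabolic. -/
theorem parab_invariant {m : ℕ} (hm : m ≤ n) (U : Submodule F (Fin n → F))
    (hU : ∀ p ∈ parab n F m, ∀ x ∈ U, (p : Matrix (Fin n) (Fin n) F) *ᵥ x ∈ U) :
    U = ⊥ ∨ U = coordW n F m ∨ U = ⊤ := by
  classical
  by_cases hbot : U = ⊥
  · exact Or.inl hbot
  right
  have hsum : ∀ x : Fin n → F, x = ∑ i, x i • (Pi.single i 1 : Fin n → F) := by
    intro x
    funext a
    simp [Finset.sum_apply, Pi.single_apply]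
  -- transvection step
  have hstep : ∀ (x : Fin n → F) (i j : Fin n), x ∈ U → x j ≠ 0 → i ≠ j → ¬ (m ≤ (i : ℕ) ∧ (j : ℕ) < m) →
      (Pi.single i 1 : Fin n → F) ∈ U := by
    intro x i j hx hxj hij hnot
    have hdet : (transvection i j (1 : F)).det = 1 := det_transvection_of_ne i j hij 1
    let T : Matrix.GeneralLinearGroup (Fin n) F := Matrix.GeneralLinearGroup.mkOfDetNeZero _ (by rw [hdet]; exact one_ne_zero)
    have hT : T ∈ parab n F m := by
      rw [mem_parab_iff hm]
      intro a b ha hb
      change transvection i j (1 : F) a b = 0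
      rw [transvection, Matrix.add_apply, Matrix.one_apply, Matrix.single_apply, if_neg, if_neg]
      · simp
      · rintro ⟨rfl, rfl⟩
        exact hnot ⟨ha, hb⟩
      · rintro rfl
        omega
    have h1 := hU T hT x hx
    have h2 : (T : Matrix (Fin n) (Fin n) F) *ᵥ x = x + x j • (Pi.single i 1 : Fin n → F) := by
      change transvection i j (1 : F) *ᵥ x = _
      rw [transvection, add_mulVec, one_mulVec]
      congr 1
      funext a
      simp [Matrix.single_mulVec, Pi.single_apply, Function.update_apply]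
    rw [h2] at h1
    have h3 : x j • (Pi.single i 1 : Fin n → F) ∈ U := (Submodule.add_mem_iff_right U hx).1 h1
    exact (Submodule.smul_mem_iff U hxj).1 h3
  -- the remaining basis vector
  have hlast : ∀ (x : Fin n → F) (j : Fin n), x ∈ U → x j ≠ 0 →
      (∀ i, i ≠ j → x i ≠ 0 → (Pi.single i 1 : Fin n → F) ∈ U) → (Pi.single j 1 : Fin n → F) ∈ U := by
    intro x j hx hxj h
    have h1 : x - ∑ i ∈ Finset.univ.erase j, x i • (Pi.single i 1 : Fin n → F) = x j • (Pi.single j 1 : Fin n → F) := by
      have := Finset.add_sum_erase Finset.univ (fun i => x i • (Pi.single i 1 : Fin n → F)) (Finset.mem_univ j)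
      rw [← hsum x] at this
      exact sub_eq_iff_eq_add.2 this.symm
    have h2 : x j • (Pi.single j 1 : Fin n → F) ∈ U := by
      rw [← h1]
      apply sub_mem hx
      apply Submodule.sum_mem
      intro i hi
      by_cases h0 : x i = 0
      · rw [h0, zero_smul]
        exact zero_mem _
      · exact U.smul_mem _ (h i (Finset.ne_of_mem_erase hi) h0)
    exact (Submodule.smul_mem_iff U hxj).1 h2
  by_cases hsub : ∀ x ∈ U, x ∈ coordW n F m
  · left
    apply le_antisymm hsub
    obtain ⟨x, hx, hx0⟩ := Submodule.exists_mem_ne_zero_of_ne_bot hbot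
    obtain ⟨j, hj⟩ : ∃ j, x j ≠ 0 := by
      by_contra hcon
      push Not at hcon
      exact hx0 (funext hcon)
    have hjm : (j : ℕ) < m := by
      by_contra h
      exact hj (hsub x hx j (by omega))
    have hall : ∀ i : Fin n, (i : ℕ) < m → (Pi.single i 1 : Fin n → F) ∈ U := by
      intro i hi
      by_cases hij : i = j
      · subst hij
        apply hlast x i hx hj
        intro a ha ha0
        apply hstep x a i hx hj ha
        rintro ⟨h1, h2⟩
        exact ha0 (hsub x hx a h1)
      · apply hstep x i j hx hj hij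
        rintro ⟨h1, h2⟩
        omega
    intro v hv
    rw [hsum v]
    apply Submodule.sum_mem
    intro i _
    by_cases hi : (i : ℕ) < m
    · exact U.smul_mem _ (hall i hi)
    · rw [hv i (by omega), zero_smul]
      exact zero_mem _
  · right
    push Not at hsub
    obtain ⟨x, hx, hxW⟩ := hsub
    obtain ⟨j, hjm, hj⟩ : ∃ j : Fin n, m ≤ (j : ℕ) ∧ x j ≠ 0 := by
      by_contra hcon
      push Not at hcon
      exact hxW hcon
    have hothers : ∀ i, i ≠ j → (Pi.single i 1 : Fin n → F) ∈ U := by
      intro i hij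
      apply hstep x i j hx hj hij
      rintro ⟨h1, h2⟩
      omega
    have hjj : (Pi.single j 1 : Fin n → F) ∈ U :=
      hlast x j hx hj (fun i hi _ => hothers i hi)
    rw [eq_top_iff]
    intro v _
    rw [hsum v]
    apply Submodule.sum_mem
    intro i _
    apply U.smul_mem
    by_cases hij : i = j
    · rw [hij]
      exact hjj
    · exact hothers i hij

/-- The non-conjugacy. -/
theorem parab_not_conj {k : ℕ} (hk0 : 0 < k) (hkn : k < n) (h2 : 2 * k ≠ n) (g : Matrix.GeneralLinearGroup (Fin n) F) :
    (parab n F k).map (MulAut.conj g).toMonoidHom ≠ parab n F (n - k) := by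
  classical
  intro heq
  let L : (Fin n → F) ≃ₗ[F] (Fin n → F) := equivOfGL g
  let U : Submodule F (Fin n → F) := (coordW n F k).map (L : (Fin n → F) →ₗ[F] (Fin n → F))
  have hU : Module.finrank F U = k := by
    rw [LinearEquiv.finrank_map_eq, finrank_coordW (by omega)]
  have hinv : ∀ p ∈ parab n F (n - k), ∀ x ∈ U, (p : Matrix (Fin n) (Fin n) F) *ᵥ x ∈ U := by
    intro p hp x hx
    rw [← heq] at hp
    obtain ⟨a, ha, rfl⟩ := hp
    obtain ⟨w, hw, rfl⟩ := hx
    refine ⟨(a : Matrix (Fin n) (Fin n) F) *ᵥ w, (ha w).1 hw, ?_⟩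
    change (g : Matrix (Fin n) (Fin n) F) *ᵥ ((a : Matrix (Fin n) (Fin n) F) *ᵥ w) =
      ((g * a * g⁻¹ : Matrix.GeneralLinearGroup (Fin n) F) : Matrix (Fin n) (Fin n) F) *ᵥ ((g : Matrix (Fin n) (Fin n) F) *ᵥ w)
    rw [mulVec_mulVec, mulVec_mulVec, ← Units.val_mul, ← Units.val_mul]
    simp
  rcases parab_invariant (by omega) U hinv with h | h | h
  · rw [h] at hU
    simp at hU
    omega
  · rw [h, finrank_coordW (by omega)] at hU
    omega
  · rw [h] at hU
    simp at hU
    omega

theorem parab_iso {k : ℕ} (hk : k ≤ n) : Nonempty (parab n F k ≃* parab n F (n - k)) :=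
  ⟨subEquiv (revTrEquiv n F) _ _ (fun g => revTr_mem hk g)⟩

end Cfsg.Agent.Lib.Classical
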