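import Mathlib
import Cfsg.Prelude.Def_ClassicalGeometry
import Cfsg.Agent.Lib.Classical.PermModel2

/-! `SO₃(3) ≅ S₄`. -/

set_option autoImplicit false
set_option linter.unusedSimpArgs false
set_option linter.unusedVariables false
set_option linter.unusedSectionVars false

namespace Cfsg.Agent.Lib.Classical

open Matrix

/-- Special isometry groups along a ring isomorphism. -/
def specialTransfer {ι : Type} [Fintype ι] [DecidableEq ι] {F K : Type*} [Field F] [Field K]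
    (e : F ≃+* K) (QF : (ι → F) → F) (QK : (ι → K) → K)
    (h : ∀ v, QK (e ∘ v) = e (QF v)) : Cfsg.specialIsometryGroup F QF ≃* Cfsg.specialIsometryGroup K QK :=
  MulEquiv.subgroupMap (isometryTransfer e QF QK h) (Cfsg.specialIsometryGroup F QF) |>.trans
    (MulEquiv.subgroupCongr (by
      ext B
      constructor
      · rintro ⟨A, hA, rfl⟩
        have hA' : (A : Matrix.GeneralLinearGroup ι F).1.det = 1 := by
          have := congrArg Units.val (MonoidHom.mem_ker.1 hA)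
          exact this
        rw [Cfsg.specialIsometryGroup, MonoidHom.mem_ker]
        apply Units.ext
        change (((isometryTransfer e QF QK h A).1 : Matrix.GeneralLinearGroup ι K) : Matrix ι ι K).det = 1
        change ((A.1 : Matrix ι ι F).map e).det = 1
        have h2 := RingHom.map_det (e : F →+* K) (A.1 : Matrix ι ι F)
        simp only [RingEquiv.coe_toRingHom, RingHom.mapMatrix_apply] at h2
        rw [← h2, hA', map_one]
      · intro hB
        have hB' : (B : Matrix.GeneralLinearGroup ι K).1.det = 1 := by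
          have := congrArg Units.val (MonoidHom.mem_ker.1 hB)
          exact this
        refine ⟨(isometryTransfer e QF QK h).symm B, MonoidHom.mem_ker.2 ?_, by simp⟩
        apply Units.ext
        change ((B.1 : Matrix ι ι K).map e.symm).det = 1
        have h2 := RingHom.map_det (e.symm : K →+* F) (B.1 : Matrix ι ι K)
        simp only [RingEquiv.coe_toRingHom, RingHom.mapMatrix_apply] at h2
        rw [← h2, hB', map_one]))

abbrev Idx3 := Unit ⊕ (Fin 1 ⊕ Fin 1)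

/-- The basis of the sum-zero vectors of `F₃⁴`. -/
def b3 : Idx3 → Fin 4 → ZMod 3 :=
  Sum.elim (fun _ => ![1, 2, 0, 0]) (Sum.elim ![![1, 1, 1, 0]] ![![2, 2, 0, 2]])

/-- The dual basis. -/
def d3 : Idx3 → Fin 4 → ZMod 3 :=
  Sum.elim (fun _ => ![2, 1, 0, 0]) (Sum.elim ![![2, 2, 0, 2]] ![![1, 1, 1, 0]])

/-- Minus the sum of squares. -/
def negSq {Ω : Type} [Fintype Ω] (x : Ω → ZMod 3) : ZMod 3 := - ∑ i, x i ^ 2

theorem negSq_perm {Ω : Type} [Fintype Ω] [DecidableEq Ω] (σ : Equiv.Perm Ω) (x : Ω → ZMod 3) :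
    negSq (permL σ x) = negSq x := by
  unfold negSq
  congr 1
  exact Equiv.sum_comp σ⁻¹ (fun i => x i ^ 2)

set_option maxRecDepth 100000 in
theorem c3_left : ∀ v : Idx3 → ZMod 3, gπ d3 (gψ b3 v) = v := by
  decide +kernel

set_option maxRecDepth 100000 in
theorem c3_mem : ∀ v : Idx3 → ZMod 3, ∑ i, gψ b3 v i = 0 := by
  decide +kernel

set_option maxRecDepth 100000 in
theorem c3_adj : ∀ x : Fin 4 → ZMod 3, ∑ i, x i = 0 → gψ b3 (gπ d3 x) = x := by
  decide +kernel

set_option maxRecDepth 100000 in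
theorem c3_q1 : ∀ v : Idx3 → ZMod 3, negSq (gψ b3 v) = Cfsg.quadFormOdd 1 (ZMod 3) v := by
  decide +kernel

set_option maxRecDepth 100000 in
theorem c3_q2 : ∀ x : Fin 4 → ZMod 3, ∑ i, x i = 0 → Cfsg.quadFormOdd 1 (ZMod 3) (gπ d3 x) = negSq x := by
  decide +kernel

theorem pm3 : PM (gψ b3) (gπ d3) where
  left := c3_left
  mem := c3_mem
  adj x hx := ⟨0, by rw [c3_adj x hx]; simp, by simp⟩

set_option maxRecDepth 100000 in
theorem c3_inj : ∀ (σ : Equiv.Perm (Fin 4)) (d : (ZMod 3)ˣ), (∀ x : Fin 4 → ZMod 3, ∑ i, x i = 0 → (d : ZMod 3) • permL σ x = x) → σ = 1 := by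
  decide +kernel

theorem zmod3_units_sq (u : (ZMod 3)ˣ) : u * u = 1 := by
  revert u
  decide

/-- Scaling by the determinant. -/
noncomputable def scaleHom : Matrix.GeneralLinearGroup Idx3 (ZMod 3) →* Matrix.GeneralLinearGroup Idx3 (ZMod 3) where
  toFun g := Matrix.GeneralLinearGroup.det g • g
  map_one' := by simp
  map_mul' g h := by
    apply Units.ext
    change ((Matrix.GeneralLinearGroup.det (g * h) : (ZMod 3)ˣ) : ZMod 3) • ((g * h : Matrix.GeneralLinearGroup Idx3 (ZMod 3)) : Matrix Idx3 Idx3 (ZMod 3)) =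
      (((Matrix.GeneralLinearGroup.det g : (ZMod 3)ˣ) : ZMod 3) • (g : Matrix Idx3 Idx3 (ZMod 3))) * (((Matrix.GeneralLinearGroup.det h : (ZMod 3)ˣ) : ZMod 3) • (h : Matrix Idx3 Idx3 (ZMod 3)))
    rw [map_mul, Units.val_mul, Units.val_mul, smul_mul_smul_comm]

theorem scaleHom_coe (g : Matrix.GeneralLinearGroup Idx3 (ZMod 3)) :
    ((scaleHom g : Matrix.GeneralLinearGroup Idx3 (ZMod 3)) : Matrix Idx3 Idx3 (ZMod 3)) =
      ((Matrix.GeneralLinearGroup.det g : (ZMod 3)ˣ) : ZMod 3) • (g : Matrix Idx3 Idx3 (ZMod 3)) := rfl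

theorem scaleHom_mem (g : Matrix.GeneralLinearGroup Idx3 (ZMod 3)) (hg : g ∈ Cfsg.isometryGroup (ZMod 3) (Cfsg.quadFormOdd 1 (ZMod 3))) :
    scaleHom g ∈ Cfsg.isometryGroup (ZMod 3) (Cfsg.quadFormOdd 1 (ZMod 3)) := by
  intro u _
  change Cfsg.quadFormOdd 1 (ZMod 3) (((scaleHom g : Matrix.GeneralLinearGroup Idx3 (ZMod 3)) : Matrix Idx3 Idx3 (ZMod 3)) *ᵥ u) = Cfsg.quadFormOdd 1 (ZMod 3) u
  rw [scaleHom_coe, Matrix.smul_mulVec]
  have h1 : Cfsg.quadFormOdd 1 (ZMod 3) ((g : Matrix Idx3 Idx3 (ZMod 3)) *ᵥ u) = Cfsg.quadFormOdd 1 (ZMod 3) u := hg u u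
  rw [← h1]
  generalize (g : Matrix Idx3 Idx3 (ZMod 3)) *ᵥ u = w
  obtain ⟨d, hd⟩ : ∃ d : (ZMod 3)ˣ, d = Matrix.GeneralLinearGroup.det g := ⟨_, rfl⟩
  rw [← hd]
  have h3 := congrArg Units.val (zmod3_units_sq d)
  simp only [Units.val_mul, Units.val_one] at h3
  simp only [Cfsg.quadFormOdd, Fin.sum_univ_one, Pi.smul_apply, smul_eq_mul]
  linear_combination (w (Sum.inl ()) ^ 2 + w (Sum.inr (Sum.inl 0)) * w (Sum.inr (Sum.inr 0))) * h3

theorem scaleHom_det (g : Matrix.GeneralLinearGroup Idx3 (ZMod 3)) :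
    Matrix.GeneralLinearGroup.det (scaleHom g) = 1 := by
  apply Units.ext
  change ((scaleHom g : Matrix.GeneralLinearGroup Idx3 (ZMod 3)) : Matrix Idx3 Idx3 (ZMod 3)).det = 1
  rw [scaleHom_coe, Matrix.det_smul]
  obtain ⟨d, hd⟩ : ∃ d : (ZMod 3)ˣ, d = Matrix.GeneralLinearGroup.det g := ⟨_, rfl⟩
  rw [← hd]
  have h4 : (g : Matrix Idx3 Idx3 (ZMod 3)).det = (d : ZMod 3) := by
    rw [hd]
    rfl
  rw [h4]
  have h3 := congrArg Units.val (zmod3_units_sq d)
  simp only [Units.val_mul, Units.val_one] at h3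
  have hc : Fintype.card Idx3 = 3 := by decide
  rw [hc]
  linear_combination ((d : ZMod 3) * d + 1) * h3

/-- The homomorphism `S₄ → SO₃(3)`. -/
noncomputable def s4Hom : Equiv.Perm (Fin 4) →* Cfsg.specialIsometryGroup (ZMod 3) (Cfsg.quadFormOdd 1 (ZMod 3)) :=
  ((scaleHom.comp pm3.hom).codRestrict (Cfsg.isometryGroup (ZMod 3) (Cfsg.quadFormOdd 1 (ZMod 3)))
    (fun σ => scaleHom_mem _ (pm3.hom_mem_isometry _ negSq negSq_perm c3_q1 c3_q2 σ))).codRestrict _ (fun σ => by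
      rw [Cfsg.specialIsometryGroup, MonoidHom.mem_ker]
      exact scaleHom_det _)

theorem s4Hom_coe (σ : Equiv.Perm (Fin 4)) :
    (((s4Hom σ).1 : Matrix.GeneralLinearGroup Idx3 (ZMod 3)) : Matrix Idx3 Idx3 (ZMod 3)) =
      ((Matrix.GeneralLinearGroup.det (pm3.hom σ) : (ZMod 3)ˣ) : ZMod 3) • ((pm3.hom σ : Matrix.GeneralLinearGroup Idx3 (ZMod 3)) : Matrix Idx3 Idx3 (ZMod 3)) := rfl

theorem s4Hom_injective : Function.Injective s4Hom := by
  classical
  rw [injective_iff_map_eq_one]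
  intro σ hσ
  have h1 : (((s4Hom σ).1 : Matrix.GeneralLinearGroup Idx3 (ZMod 3)) : Matrix Idx3 Idx3 (ZMod 3)) = 1 := by
    rw [hσ]
    rfl
  rw [s4Hom_coe] at h1
  obtain ⟨d, hd⟩ : ∃ d : (ZMod 3)ˣ, d = Matrix.GeneralLinearGroup.det (pm3.hom σ) := ⟨_, rfl⟩
  rw [← hd] at h1
  -- on the sum-zero vectors `σ` is multiplication by `d`
  have h2 : ∀ x : Fin 4 → ZMod 3, ∑ i, x i = 0 → (d : ZMod 3) • permL σ x = x := by
    intro x hx
    have h3 : ((d : ZMod 3) • ((pm3.hom σ : Matrix.GeneralLinearGroup Idx3 (ZMod 3)) : Matrix Idx3 Idx3 (ZMod 3))) *ᵥ (gπ d3 x) = gπ d3 x := by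
      rw [h1, Matrix.one_mulVec]
    rw [Matrix.smul_mulVec, pm3.hom_mulVec, c3_adj x hx] at h3
    have h5 := congrArg (gψ b3) h3
    rw [map_smul, c3_adj _ (by rw [sum_permL]; exact hx), c3_adj x hx] at h5
    exact h5
  exact c3_inj σ d h2

theorem card_so3 : Nat.card (Cfsg.specialIsometryGroup (ZMod 3) (Cfsg.quadFormOdd 1 (ZMod 3))) = Nat.factorial 4 := by
  have h1 := Subgroup.card_mul_index (Cfsg.specialIsometryGroup (ZMod 3) (Cfsg.quadFormOdd 1 (ZMod 3)))
  rw [card_isometry_odd (q := 3) (by simp) (by decide) 1] at h1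
  have h2 : (Cfsg.specialIsometryGroup (ZMod 3) (Cfsg.quadFormOdd 1 (ZMod 3))).index = 2 := by
    rw [Cfsg.specialIsometryGroup, Subgroup.index_ker]
    have : (Matrix.GeneralLinearGroup.det.comp (Cfsg.isometryGroup (ZMod 3) (Cfsg.quadFormOdd 1 (ZMod 3))).subtype).range = ⊤ := by
      rw [eq_top_iff]
      intro u _
      have hu : u = 1 ∨ u = -1 := by
        have : ∀ u : (ZMod 3)ˣ, u = 1 ∨ u = -1 := by decide
        exact this u
      have hm : (-1 : Matrix.GeneralLinearGroup Idx3 (ZMod 3)) ∈ Cfsg.isometryGroup (ZMod 3) (Cfsg.quadFormOdd 1 (ZMod 3)) := by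
        intro a _
        change Cfsg.quadFormOdd 1 (ZMod 3) (((-1 : Matrix.GeneralLinearGroup Idx3 (ZMod 3)) : Matrix Idx3 Idx3 (ZMod 3)) *ᵥ a) = Cfsg.quadFormOdd 1 (ZMod 3) a
        simp [Cfsg.quadFormOdd, Matrix.neg_mulVec]
      rcases hu with rfl | rfl
      · exact one_mem _
      · refine ⟨⟨-1, hm⟩, ?_⟩
        apply Units.ext
        change ((-1 : Matrix Idx3 Idx3 (ZMod 3))).det = _
        rw [Matrix.det_neg]
        have hc : Fintype.card Idx3 = 3 := by decide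
        rw [hc]
        simp
    rw [this]
    simp only [Subgroup.card_top]
    rw [Nat.card_eq_fintype_card]
    decide
  rw [h2] at h1
  norm_num [Finset.prod_range_succ] at h1
  have h4 : Nat.factorial 4 = 24 := rfl
  rw [h4]
  omega

theorem so3_zmod : Nonempty (Cfsg.specialIsometryGroup (ZMod 3) (Cfsg.quadFormOdd 1 (ZMod 3)) ≃* Equiv.Perm (Fin 4)) :=
  nonempty_mulEquiv_of_injective_perm 4 s4Hom s4Hom_injective card_so3

theorem so3_equiv {F : Type*} [Field F] [Fintype F] (hF : Fintype.card F = 3) :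
    Nonempty (Cfsg.specialIsometryGroup F (Cfsg.quadFormOdd 1 F) ≃* Equiv.Perm (Fin 4)) := by
  obtain ⟨e⟩ := so3_zmod
  have : Fact (Nat.Prime 3) := ⟨Nat.prime_three⟩
  have e0 : F ≃+* ZMod 3 := FiniteField.ringEquivOfCardEq (by simp [hF])
  refine ⟨(specialTransfer e0 _ _ ?_).trans e⟩
  intro v
  simp [Cfsg.quadFormOdd, map_sum, map_mul, map_pow, map_add]

end Cfsg.Agent.Lib.Classical
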