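import Mathlib
import Cfsg.Agent.Lib.Classical.ProjLine

set_option autoImplicit false
set_option linter.unusedSimpArgs false
set_option linter.unusedVariables false

namespace Cfsg.Agent.Lib.Classical

open Matrix Matrix.SpecialLinearGroup MulAction Projectivization
open scoped MatrixGroups commutatorElement LinearAlgebra.Projectivization

variable {F : Type*} [Field F]

/-- Embedding of `Fin 3` from three distinct elements. -/
def emb3 {α : Type*} (a b c : α) (hab : a ≠ b) (hac : a ≠ c) (hbc : b ≠ c) : Fin 3 ↪ α :=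
  ⟨![a, b, c], by
    intro i j hij
    fin_cases i <;> fin_cases j <;> first
      | rfl
      | exact absurd hij hab
      | exact absurd hij hac
      | exact absurd hij hbc
      | exact absurd hij.symm hab
      | exact absurd hij.symm hac
      | exact absurd hij.symm hbc⟩

theorem sl_two_is_three_pretransitive_iff [Fintype F] :
    MulAction.IsMultiplyPretransitive (Matrix.SpecialLinearGroup (Fin 2) F) (Projectivization F (Fin 2 → F)) 3 ↔ ringChar F = 2 := by
  classical
  constructor
  · intro h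
    by_contra hc
    obtain ⟨a, ha⟩ := FiniteField.exists_nonsquare (F := F) hc
    have ha0 : a ≠ 0 := by
      rintro rfl
      exact ha (IsSquare.zero)
    have hv : (![1, a] : Fin 2 → F) ≠ 0 := by
      rw [vec_ne_zero_iff]; simp
    obtain ⟨h01, h02, h12⟩ := std_ne (F := F)
    have h0' : Projectivization.mk F (![1, 0] : Fin 2 → F) e0_ne ≠ Projectivization.mk F (![1, a] : Fin 2 → F) hv := by
      rw [Ne, mk_eq_mk_iff_dt]; simp [dt, ha0]
    have h1' : Projectivization.mk F (![0, 1] : Fin 2 → F) e1_ne ≠ Projectivization.mk F (![1, a] : Fin 2 → F) hv := by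
      rw [Ne, mk_eq_mk_iff_dt]; simp [dt]
    obtain ⟨g, hg⟩ := MulAction.isMultiplyPretransitive_iff.1 h (emb3 _ _ _ h01 h02 h12) (emb3 _ _ _ h01 h0' h1')
    have e0 := congrArg (fun z : Fin 3 ↪ ℙ F (Fin 2 → F) => z 0) hg
    have e1 := congrArg (fun z : Fin 3 ↪ ℙ F (Fin 2 → F) => z 1) hg
    have e2 := congrArg (fun z : Fin 3 ↪ ℙ F (Fin 2 → F) => z 2) hg
    change g • Projectivization.mk F (![1, 0] : Fin 2 → F) e0_ne = Projectivization.mk F (![1, 0] : Fin 2 → F) e0_ne at e0
    change g • Projectivization.mk F (![0, 1] : Fin 2 → F) e1_ne = Projectivization.mk F (![0, 1] : Fin 2 → F) e1_ne at e1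
    change g • Projectivization.mk F (![1, 1] : Fin 2 → F) e2_ne = Projectivization.mk F (![1, a] : Fin 2 → F) hv at e2
    rw [Projectivization.smul_mk, mk_eq_mk_iff'] at e0 e1 e2
    obtain ⟨l, hl⟩ := e0
    obtain ⟨m, hm⟩ := e1
    obtain ⟨n, hn⟩ := e2
    have hg' : g • (![1, 0] : Fin 2 → F) = (g : Matrix (Fin 2) (Fin 2) F) *ᵥ ![1, 0] := rfl
    have hg'' : g • (![0, 1] : Fin 2 → F) = (g : Matrix (Fin 2) (Fin 2) F) *ᵥ ![0, 1] := rfl
    have hg''' : g • (![1, 1] : Fin 2 → F) = (g : Matrix (Fin 2) (Fin 2) F) *ᵥ ![1, 1] := rfl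
    rw [hg'] at hl
    rw [hg''] at hm
    rw [hg'''] at hn
    have hdet := g.2
    rw [Matrix.det_fin_two] at hdet
    have l0 := congrFun hl 0
    have l1 := congrFun hl 1
    have m0 := congrFun hm 0
    have m1 := congrFun hm 1
    have n0 := congrFun hn 0
    have n1 := congrFun hn 1
    simp [Matrix.mulVec, dotProduct, Fin.sum_univ_two] at l0 l1 m0 m1 n0 n1
    rw [← l1, ← m0] at hdet
    simp only [zero_mul, mul_zero, sub_zero] at hdet
    rw [← l0, ← m1] at hdet
    rw [← m0, add_zero, ← l0] at n0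
    rw [← l1, zero_add, ← m1] at n1
    apply ha
    exact ⟨m, by linear_combination (-a) * hdet + m * (-(a) * n0 + n1)⟩
  · intro h
    have hsq := FiniteField.isSquare_of_char_two (F := F) h
    rw [MulAction.isMultiplyPretransitive_iff]
    have key : ∀ x : Fin 3 ↪ ℙ F (Fin 2 → F), ∃ g : Matrix.SpecialLinearGroup (Fin 2) F, ∀ i, g • (stdTriple (F := F) i) = x i := by
      intro x
      have h01 : x 0 ≠ x 1 := fun h => by simpa using x.injective h
      have h02 : x 0 ≠ x 2 := fun h => by simpa using x.injective h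
      have h12 : x 1 ≠ x 2 := fun h => by simpa using x.injective h
      obtain ⟨g, h0, h1, h2⟩ := exists_GL_smul_stdTriple (x 0) (x 1) (x 2) h01 h02 h12
      obtain ⟨μ, hμ⟩ := hsq (g.det : Fˣ).val
      have hμ0 : μ ≠ 0 := by
        rintro rfl
        exact (g.det).ne_zero (by simpa using hμ)
      have hd : ((μ⁻¹) • (g : Matrix (Fin 2) (Fin 2) F)).det = 1 := by
        rw [Matrix.det_smul]
        simp at hμ ⊢
        rw [hμ]
        field_simp
      let s : Matrix.SpecialLinearGroup (Fin 2) F := ⟨_, hd⟩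
      have hs : ∀ p : ℙ F (Fin 2 → F), s • p = g • p := by
        intro p
        induction p using Projectivization.ind with | _ v hv =>
        rw [Projectivization.smul_mk, Projectivization.smul_mk, mk_eq_mk_iff']
        refine ⟨μ⁻¹, ?_⟩
        change μ⁻¹ • ((g : Matrix (Fin 2) (Fin 2) F) *ᵥ v) = ((μ⁻¹) • (g : Matrix (Fin 2) (Fin 2) F)) *ᵥ v
        rw [Matrix.smul_mulVec]
      refine ⟨s, ?_⟩
      intro i
      rw [hs]
      fin_cases i
      · exact h0
      · exact h1
      · exact h2
    intro x y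
    obtain ⟨g, hg⟩ := key x
    obtain ⟨h, hh⟩ := key y
    refine ⟨h * g⁻¹, ?_⟩
    ext i
    change (h * g⁻¹) • x i = y i
    rw [← hg i, mul_smul, inv_smul_smul, hh i]

end Cfsg.Agent.Lib.Classical
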