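import Mathlib
import Cfsg.Agent.Lib.Classical.SL2Four

/-! Subgroups of order four in `SL₂(q)`, `q` odd. -/

set_option autoImplicit false
set_option linter.unusedSimpArgs false
set_option linter.unusedVariables false
set_option linter.unusedSectionVars false
set_option linter.style.haveILetI false

namespace Cfsg.Agent.Lib.Classical

open Matrix
open scoped MatrixGroups

variable {F : Type*} [Field F] [Fintype F]

theorem slNeg_sq : (slNeg F : SL(2, F)) ^ 2 = 1 := by
  apply Subtype.ext
  simp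

theorem slN_eq_of {x y : SL(2, F)} (h : (y : Matrix (Fin 2) (Fin 2) F) = - (x : Matrix (Fin 2) (Fin 2) F)) : y = slN x := by
  apply Subtype.ext
  rw [slN_coe]
  exact h

theorem slNeg_ne_one (hodd : Odd (Fintype.card F)) : (slNeg F : SL(2, F)) ≠ 1 := by
  intro h
  have h1 := congrFun (congrFun (congrArg Subtype.val h) 0) 0
  simp at h1
  apply two_ne_zero_of_odd hodd
  linear_combination -h1

theorem sl_sq_neg_coe {a : SL(2, F)} (h : slTr a = 0) : a ^ 2 = slNeg F := by
  apply Subtype.ext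
  rw [Matrix.SpecialLinearGroup.coe_pow, sq_eq_neg_one_of_tr h]
  rfl

theorem slN_eq_inv {a : SL(2, F)} (h : slTr a = 0) : a⁻¹ = slN a := by
  rw [inv_eq_iff_mul_eq_one]
  apply Subtype.ext
  have h2 := sq_eq_neg_one_of_tr h
  rw [Matrix.SpecialLinearGroup.coe_mul, slN_coe, mul_neg, ← pow_two, h2, neg_neg]
  rfl

theorem orderOf_trZero (hodd : Odd (Fintype.card F)) {a : SL(2, F)} (h : slTr a = 0) : orderOf a = 4 := by
  have h2 := sl_sq_neg_coe h
  have h4 : a ^ 2 ^ (1 + 1) = 1 := by
    rw [pow_succ, pow_mul, pow_one, h2, slNeg_sq]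
  have h3 : a ^ 2 ^ 1 ≠ 1 := by
    rw [pow_one, h2]
    exact slNeg_ne_one hodd
  have := orderOf_eq_prime_pow h3 h4
  simpa using this

/-- Elements of `zpowers a`. -/
theorem mem_zpowers_trZero (hodd : Odd (Fintype.card F)) {a y : SL(2, F)} (h : slTr a = 0) (hy : y ∈ Subgroup.zpowers a) :
    y = 1 ∨ y = a ∨ y = slNeg F ∨ y = slN a := by
  obtain ⟨k, rfl⟩ := hy
  have hord := orderOf_trZero hodd h
  have e : a ^ k = a ^ (k % (orderOf a : ℤ)) := (zpow_mod_orderOf a k).symm
  change a ^ k = 1 ∨ a ^ k = a ∨ a ^ k = slNeg F ∨ a ^ k = slN a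
  rw [e, hord]
  have h4 : k % ((4 : ℕ) : ℤ) = 0 ∨ k % ((4 : ℕ) : ℤ) = 1 ∨ k % ((4 : ℕ) : ℤ) = 2 ∨ k % ((4 : ℕ) : ℤ) = 3 := by
    push_cast
    omega
  rcases h4 with h5 | h5 | h5 | h5 <;> rw [h5]
  · left
    simp
  · right; left
    simp
  · right; right; left
    rw [show (2 : ℤ) = ((2 : ℕ) : ℤ) from rfl, zpow_natCast, sl_sq_neg_coe h]
  · right; right; right
    rw [show (3 : ℤ) = ((3 : ℕ) : ℤ) from rfl, zpow_natCast, pow_succ, sl_sq_neg_coe h]
    rfl

/-- A subgroup of order four is generated by an element of trace zero. -/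
theorem exists_gen_of_card_four (hodd : Odd (Fintype.card F)) (A : Subgroup SL(2, F)) (hA : Nat.card A = 4) :
    ∃ a : SL(2, F), slTr a = 0 ∧ A = Subgroup.zpowers a := by
  classical
  have hex : ∃ a ∈ A, a ≠ 1 ∧ a ≠ slNeg F := by
    by_contra hcon
    push Not at hcon
    have hsub : ((A : Set SL(2, F))).ncard ≤ ({1, slNeg F} : Set SL(2, F)).ncard := by
      apply Set.ncard_le_ncard
      · intro x hx
        by_cases hx1 : x = 1
        · simp [hx1]
        · simp [hcon x hx hx1]
      · exact Set.toFinite _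
    have h2 : ({1, slNeg F} : Set SL(2, F)).ncard ≤ 2 :=
      (Set.ncard_insert_le _ _).trans (by rw [Set.ncard_singleton])
    have h3 : ((A : Set SL(2, F))).ncard = 4 := by
      rw [← Nat.card_coe_set_eq]
      exact hA
    omega
  obtain ⟨a, haA, ha1, ha2⟩ := hex
  have h4 : a ^ 4 = 1 := by
    have := pow_card_eq_one' (x := (⟨a, haA⟩ : A))
    rw [hA] at this
    exact congrArg Subtype.val this
  have h5 : (a ^ 2) ^ 2 = 1 := by
    rw [← pow_mul]
    exact h4
  have hsq : (a : Matrix (Fin 2) (Fin 2) F) ^ 2 = -1 := by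
    rcases sq_eq_one_center hodd h5 with h6 | h6
    · exfalso
      rcases sq_eq_one_center hodd h6 with h7 | h7
      · exact ha1 h7
      · apply ha2
        apply Subtype.ext
        exact h7
    · rw [Matrix.SpecialLinearGroup.coe_pow] at h6
      exact h6
  have htr := tr_of_sq_eq_neg_one hsq
  refine ⟨a, htr, ?_⟩
  have hle : Subgroup.zpowers a ≤ A := by
    rw [Subgroup.zpowers_le]
    exact haA
  symm
  apply Subgroup.eq_of_le_of_card_ge hle
  rw [hA, Nat.card_zpowers, orderOf_trZero hodd htr]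

/-- Conjugation of zpowers. -/
theorem map_conj_zpowers (g a : SL(2, F)) :
    (Subgroup.zpowers a).map (MulAut.conj g).toMonoidHom = Subgroup.zpowers (g * a * g⁻¹) := by
  rw [MonoidHom.map_zpowers]
  rfl

/-- Order four subgroups are conjugate. -/
theorem card_four_conj (hodd : Odd (Fintype.card F)) (A B : Subgroup SL(2, F)) (hA : Nat.card A = 4) (hB : Nat.card B = 4) :
    ∃ g : SL(2, F), B = A.map (MulAut.conj g).toMonoidHom := by
  obtain ⟨a, ha, rfl⟩ := exists_gen_of_card_four hodd A hA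
  obtain ⟨b, hb, rfl⟩ := exists_gen_of_card_four hodd B hB
  obtain ⟨g, hg⟩ := trZero_conj hodd ha hb
  refine ⟨g, ?_⟩
  rw [map_conj_zpowers, hg]

theorem conj_trZero (g : SL(2, F)) {a : SL(2, F)} (h : slTr a = 0) : slTr (g * a * g⁻¹) = 0 := by
  simp only [slTr, Matrix.SpecialLinearGroup.coe_mul]
  rw [Matrix.trace_mul_comm, ← mul_assoc]
  have : (((g⁻¹ : SL(2, F)) : Matrix (Fin 2) (Fin 2) F) * (g : Matrix (Fin 2) (Fin 2) F)) = 1 := by
    rw [← Matrix.SpecialLinearGroup.coe_mul, inv_mul_cancel]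
    rfl
  rw [this, one_mul]
  exact h

theorem conj_slNeg (g : SL(2, F)) : g * slNeg F * g⁻¹ = slNeg F := by
  apply Subtype.ext
  simp only [Matrix.SpecialLinearGroup.coe_mul, slNeg_coe, mul_neg, mul_one, neg_mul]
  rw [← Matrix.SpecialLinearGroup.coe_mul, mul_inv_cancel]
  rfl

theorem conj_slN (g a : SL(2, F)) : g * slN a * g⁻¹ = slN (g * a * g⁻¹) := by
  simp only [slN]
  have := conj_slNeg g
  calc g * (slNeg F * a) * g⁻¹ = (g * slNeg F * g⁻¹) * (g * a * g⁻¹) := by group
    _ = _ := by rw [this]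

theorem slN_ne_self (hodd : Odd (Fintype.card F)) (a : SL(2, F)) : slN a ≠ a := by
  intro h
  have h1 := congrArg (fun x : SL(2, F) => (x : Matrix (Fin 2) (Fin 2) F)) h
  simp only [slN_coe] at h1
  have h2 : (2 : F) • (a : Matrix (Fin 2) (Fin 2) F) = 0 := by
    rw [two_smul]
    nth_rewrite 1 [← h1]
    simp
  exact slMat_ne_zero a ((smul_eq_zero.1 h2).resolve_left (two_ne_zero_of_odd hodd))

theorem slN_slN (a : SL(2, F)) : slN (slN a) = a := by
  apply Subtype.ext
  rw [slN_coe, slN_coe, neg_neg]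

/-- Membership in the normaliser. -/
theorem mem_normalizer_zpowers_iff (hodd : Odd (Fintype.card F)) {a : SL(2, F)} (h : slTr a = 0) (g : SL(2, F)) :
    g ∈ Subgroup.normalizer ((Subgroup.zpowers a : Subgroup SL(2, F)) : Set SL(2, F)) ↔ g * a * g⁻¹ = a ∨ g * a * g⁻¹ = slN a := by
  have hN := slNeg_ne_one hodd
  rw [Subgroup.mem_normalizer_iff]
  constructor
  · intro hg
    have h1 : g * a * g⁻¹ ∈ Subgroup.zpowers a := (hg a).1 (Subgroup.mem_zpowers a)
    have h2 := sl_sq_neg_coe (conj_trZero g h)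
    rcases mem_zpowers_trZero hodd h h1 with h3 | h3 | h3 | h3
    · rw [h3, one_pow] at h2
      exact absurd h2.symm hN
    · exact Or.inl h3
    · rw [h3, slNeg_sq] at h2
      exact absurd h2.symm hN
    · exact Or.inr h3
  · intro hg
    have hinv : a⁻¹ = slN a := slN_eq_inv h
    have h1 : g * a * g⁻¹ ∈ Subgroup.zpowers a := by
      rcases hg with h2 | h2
      · rw [h2]
        exact Subgroup.mem_zpowers a
      · rw [h2, ← hinv]
        exact inv_mem (Subgroup.mem_zpowers a)
    have h3 : g⁻¹ * a * g ∈ Subgroup.zpowers a := by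
      rcases hg with h2 | h2
      · have : g⁻¹ * a * g = a := by
          nth_rewrite 1 [← h2]
          group
        rw [this]
        exact Subgroup.mem_zpowers a
      · have : g⁻¹ * a * g = a⁻¹ := by
          have e : a = g⁻¹ * (g * a * g⁻¹) * g := by group
          rw [h2, ← hinv] at e
          have e2 := congrArg (fun z => z⁻¹) e
          simp only [_root_.mul_inv_rev, inv_inv, mul_assoc] at e2
          rw [e2]
          group
        rw [this]
        exact inv_mem (Subgroup.mem_zpowers a)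
    have conj1 : ∀ y ∈ Subgroup.zpowers a, g * y * g⁻¹ ∈ Subgroup.zpowers a := by
      rintro _ ⟨k, rfl⟩
      have : g * (fun x : ℤ => a ^ x) k * g⁻¹ = (g * a * g⁻¹) ^ k := (conj_zpow).symm
      rw [this]
      exact zpow_mem h1 k
    have conj2 : ∀ y ∈ Subgroup.zpowers a, g⁻¹ * y * g ∈ Subgroup.zpowers a := by
      rintro _ ⟨k, rfl⟩
      have : g⁻¹ * (fun x : ℤ => a ^ x) k * g = (g⁻¹ * a * g) ^ k := by
        have := (conj_zpow (a := g⁻¹) (b := a) (i := k)).symm
        rwa [inv_inv] at this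
      rw [this]
      exact zpow_mem h3 k
    intro y
    constructor
    · exact conj1 y
    · intro hy
      have := conj2 _ hy
      simpa [mul_assoc] using this

/-- The normaliser has twice the order of the centraliser. -/
theorem card_normalizer_zpowers (hodd : Odd (Fintype.card F)) {a : SL(2, F)} (h : slTr a = 0) :
    Nat.card (Subgroup.normalizer ((Subgroup.zpowers a : Subgroup SL(2, F)) : Set SL(2, F))) =
      2 * Nat.card (Subgroup.centralizer ({a} : Set SL(2, F))) := by
  classical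
  have hC : ∀ g : SL(2, F), g ∈ Subgroup.centralizer ({a} : Set SL(2, F)) ↔ g * a * g⁻¹ = a := by
    intro g
    rw [Subgroup.mem_centralizer_iff]
    constructor
    · intro hg
      have := hg a rfl
      rw [← this]
      group
    · rintro hg _ rfl
      rw [mul_inv_eq_iff_eq_mul] at hg
      exact hg.symm
  have hle : Subgroup.centralizer ({a} : Set SL(2, F)) ≤ Subgroup.normalizer ((Subgroup.zpowers a : Subgroup SL(2, F)) : Set SL(2, F)) := by
    intro g hg
    rw [mem_normalizer_zpowers_iff hodd h]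
    exact Or.inl ((hC g).1 hg)
  obtain ⟨w, hw⟩ := trZero_conj hodd h (slN_tr h)
  have hwN : w ∈ Subgroup.normalizer ((Subgroup.zpowers a : Subgroup SL(2, F)) : Set SL(2, F)) := by
    rw [mem_normalizer_zpowers_iff hodd h]
    exact Or.inr hw.symm
  have hidx : ((Subgroup.centralizer ({a} : Set SL(2, F))).subgroupOf
      (Subgroup.normalizer ((Subgroup.zpowers a : Subgroup SL(2, F)) : Set SL(2, F)))).index = 2 := by
    rw [Subgroup.index_eq_two_iff]
    refine ⟨⟨w, hwN⟩, ?_⟩
    rintro ⟨b, hb⟩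
    rw [Subgroup.mem_subgroupOf, Subgroup.mem_subgroupOf]
    have hmul : b * w * a * (b * w)⁻¹ = b * slN a * b⁻¹ := by
      rw [hw]
      group
    change Xor (b * w ∈ _) (b ∈ _)
    rw [hC, hC, hmul, conj_slN]
    rw [mem_normalizer_zpowers_iff hodd h] at hb
    rcases hb with h1 | h1
    · right
      rw [h1]
      exact ⟨rfl, slN_ne_self hodd a⟩
    · left
      rw [h1, slN_slN]
      exact ⟨rfl, (slN_ne_self hodd a)⟩
  have hcard := Subgroup.card_mul_index ((Subgroup.centralizer ({a} : Set SL(2, F))).subgroupOf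
      (Subgroup.normalizer ((Subgroup.zpowers a : Subgroup SL(2, F)) : Set SL(2, F))))
  rw [hidx, Nat.card_congr (Subgroup.subgroupOfEquivOfLe hle).toEquiv] at hcard
  rw [← hcard, mul_comm]

/-- Lifting involutions of `PSL₂`. -/
theorem psl2_involution_lift (hodd : Odd (Fintype.card F)) (x : Matrix.ProjectiveSpecialLinearGroup (Fin 2) F)
    (hx : orderOf x = 2) : ∃ g : SL(2, F), slTr g = 0 ∧ (QuotientGroup.mk g : Matrix.ProjectiveSpecialLinearGroup (Fin 2) F) = x := by
  obtain ⟨g, rfl⟩ := QuotientGroup.mk_surjective x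
  refine ⟨g, ?_, rfl⟩
  have h1 : (QuotientGroup.mk g : Matrix.ProjectiveSpecialLinearGroup (Fin 2) F) ^ 2 = 1 := by
    have := pow_orderOf_eq_one (QuotientGroup.mk g : Matrix.ProjectiveSpecialLinearGroup (Fin 2) F)
    rwa [hx] at this
  rw [← QuotientGroup.mk_pow, QuotientGroup.eq_one_iff] at h1
  have h2 : g ∉ Subgroup.center SL(2, F) := by
    intro h3
    have h4 : (QuotientGroup.mk g : Matrix.ProjectiveSpecialLinearGroup (Fin 2) F) = 1 := (QuotientGroup.eq_one_iff g).2 h3
    rw [h4, orderOf_one] at hx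
    omega
  rcases (sq_mem_center_iff hodd g).1 h1 with h3 | h3
  · exact absurd h3 h2
  · exact tr_of_sq_eq_neg_one h3

/-- All involutions of `PSL₂(q)`, `q` odd, are conjugate. -/
theorem psl2_involutions_conj (hodd : Odd (Fintype.card F)) (x y : Matrix.ProjectiveSpecialLinearGroup (Fin 2) F)
    (hx : orderOf x = 2) (hy : orderOf y = 2) : IsConj x y := by
  obtain ⟨a, ha, rfl⟩ := psl2_involution_lift hodd x hx
  obtain ⟨b, hb, rfl⟩ := psl2_involution_lift hodd y hy
  obtain ⟨g, hg⟩ := trZero_conj hodd ha hb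
  rw [isConj_iff]
  refine ⟨QuotientGroup.mk g, ?_⟩
  rw [hg]
  rfl

end Cfsg.Agent.Lib.Classical
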