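import Mathlib
import Cfsg.Agent.Lib.Classical.SL2Four2
import Cfsg.Agent.Lib.Classical.KleinCount

/-! Klein four-subgroups of `PSL₂(q)`, `q` odd. -/

set_option autoImplicit false
set_option linter.unusedSimpArgs false
set_option linter.unusedVariables false
set_option linter.unusedSectionVars false
set_option linter.style.haveILetI false

namespace Cfsg.Agent.Lib.Classical

open Matrix
open scoped MatrixGroups

variable {F : Type*} [Field F] [Fintype F]

/-- The projection to `PSL₂`. -/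
abbrev pi2 (g : SL(2, F)) : Matrix.ProjectiveSpecialLinearGroup (Fin 2) F := QuotientGroup.mk g

theorem pi2_mul (g h : SL(2, F)) : pi2 (g * h) = pi2 g * pi2 h := rfl

theorem pi2_eq_one_iff (g : SL(2, F)) : pi2 g = 1 ↔ g = 1 ∨ (g : Matrix (Fin 2) (Fin 2) F) = -1 := by
  rw [pi2, QuotientGroup.eq_one_iff, sl2_center_iff]

theorem pi2_eq_iff (g h : SL(2, F)) : pi2 g = pi2 h ↔ h = g ∨ h = slN g := by
  rw [pi2, pi2, QuotientGroup.eq, sl2_center_iff]
  constructor
  · rintro (h1 | h1)
    · left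
      rw [inv_mul_eq_one] at h1
      exact h1.symm
    · right
      have : h = g * (g⁻¹ * h) := by group
      apply Subtype.ext
      rw [this, Matrix.SpecialLinearGroup.coe_mul, h1, slN_coe]
      simp
  · rintro (h1 | h1)
    · left
      rw [h1]
      group
    · right
      rw [h1]
      have : g⁻¹ * slN g = slNeg F := by
        simp only [slN]
        apply Subtype.ext
        rw [Matrix.SpecialLinearGroup.coe_mul, Matrix.SpecialLinearGroup.coe_mul, slNeg_coe, neg_mul, one_mul, mul_neg,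
          ← Matrix.SpecialLinearGroup.coe_mul, inv_mul_cancel]
        rfl
      rw [this]
      rfl

theorem slNeg_comm (g : SL(2, F)) : slNeg F * g = g * slNeg F := by
  apply Subtype.ext
  simp

theorem slN_mul (g h : SL(2, F)) : slN g * h = slN (g * h) := by
  simp only [slN, mul_assoc]

theorem mul_slN (g h : SL(2, F)) : g * slN h = slN (g * h) := by
  simp only [slN, ← mul_assoc, slNeg_comm g]

theorem slNeg_mul_self : slNeg F * slNeg F = (1 : SL(2, F)) := by
  rw [← pow_two, slNeg_sq]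

theorem slN_inv (g : SL(2, F)) : (slN g)⁻¹ = slN g⁻¹ := by
  rw [inv_eq_iff_mul_eq_one, mul_slN, slN_mul, slN_slN, mul_inv_cancel]

theorem conj_slN_left (y x : SL(2, F)) : slN y * x * (slN y)⁻¹ = y * x * y⁻¹ := by
  rw [slN_inv, mul_slN, slN_mul, slN_mul, slN_slN]

/-- The anti-commuting pairs. -/
def AntiP (p : SL(2, F) × SL(2, F)) : Prop := slTr p.1 = 0 ∧ p.2 * p.1 * p.2⁻¹ = slN p.1

theorem anti_tr_right (hodd : Odd (Fintype.card F)) {x y : SL(2, F)} (h : y * x * y⁻¹ = slN x) : slTr y = 0 := by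
  have h2 := two_ne_zero_of_odd hodd
  have h1 : y * x = slN x * y := by
    rw [← h]
    group
  have h3 : x⁻¹ * y * x = slN y := by
    have : x⁻¹ * y * x = x⁻¹ * (y * x) := by group
    rw [this, h1, slN_mul, mul_slN]
    group
  have h4 : slTr (x⁻¹ * y * x⁻¹⁻¹) = slTr y := by
    simp only [slTr, Matrix.SpecialLinearGroup.coe_mul]
    rw [Matrix.trace_mul_comm, ← mul_assoc, ← Matrix.SpecialLinearGroup.coe_mul, ← Matrix.SpecialLinearGroup.coe_mul]
    simp
  rw [inv_inv, h3] at h4
  simp only [slTr, slN_coe, Matrix.trace_neg] at h4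
  have h5 : (2 : F) * (y : Matrix (Fin 2) (Fin 2) F).trace = 0 := by
    linear_combination -h4
  exact (mul_eq_zero.1 h5).resolve_left h2

theorem trZero_not_central (hodd : Odd (Fintype.card F)) {x : SL(2, F)} (h : slTr x = 0) : pi2 x ≠ 1 := by
  have h2 := two_ne_zero_of_odd hodd
  rw [Ne, pi2_eq_one_iff]
  rintro (h1 | h1)
  · rw [h1, sl2_tr_apply] at h
    apply h2
    simpa [one_add_one_eq_two] using h
  · rw [sl2_tr_apply, h1] at h
    apply h2
    simp at h
    linear_combination -h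

theorem trZero_pi2_sq {x : SL(2, F)} (h : slTr x = 0) : pi2 x ^ 2 = 1 := by
  rw [← QuotientGroup.mk_pow, QuotientGroup.eq_one_iff, sl2_center_iff]
  right
  rw [Matrix.SpecialLinearGroup.coe_pow]
  exact sq_eq_neg_one_of_tr h

/-- Commutation in `PSL₂` from anti-commutation. -/
theorem anti_commInv (hodd : Odd (Fintype.card F)) {x y : SL(2, F)} (hx : slTr x = 0) (h : y * x * y⁻¹ = slN x) :
    CommInv (pi2 x) (pi2 y) := by
  have hy := anti_tr_right hodd h
  refine ⟨trZero_pi2_sq hx, trZero_pi2_sq hy, trZero_not_central hodd hx, trZero_not_central hodd hy, ?_, ?_⟩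
  · intro h1
    rw [pi2_eq_iff] at h1
    have hne := slN_ne_self hodd x
    apply hne
    rw [← h]
    rcases h1 with h2 | h2
    · rw [h2]
      group
    · rw [h2, conj_slN_left]
      group
  · change pi2 (x * y) = pi2 (y * x)
    rw [pi2_eq_iff]
    right
    rw [← mul_slN] 
    have h1 : y * x = slN x * y := by
      rw [← h]
      group
    rw [h1, slN_mul, mul_slN]

/-- Elements of trace zero commuting with `x` of trace zero are `±x`. -/
theorem comm_trZero (hodd : Odd (Fintype.card F)) {x y : SL(2, F)} (hx : slTr x = 0) (hy : slTr y = 0)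
    (h : y * x = x * y) : y = x ∨ y = slN x := by
  have h2 := two_ne_zero_of_odd hodd
  have h4 : (4 : F) ≠ 0 := by
    have : (4 : F) = 2 * 2 := by norm_num
    rw [this]
    exact mul_ne_zero h2 h2
  have hsc : ¬ ∃ c : F, (x : Matrix (Fin 2) (Fin 2) F) = c • 1 := by
    apply not_scalar_of_tr
    rw [hx]
    intro h5
    apply h4
    rw [← h5]
    simp
  obtain ⟨s, t, hst⟩ := exists_linear_of_comm (x : Matrix (Fin 2) (Fin 2) F) (y : Matrix (Fin 2) (Fin 2) F) hsc (congrArg Subtype.val h)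
  have e1 := hy
  rw [sl2_tr_apply, hst, lin_apply00, lin_apply11] at e1
  have e2 := hx
  rw [sl2_tr_apply] at e2
  have hs : s = 0 := by
    have : 2 * s = 0 := by linear_combination e1 - t * e2
    exact (mul_eq_zero.1 this).resolve_left h2
  have hdet := y.2
  rw [hst, det_a_b, hs, hx] at hdet
  have ht : (t - 1) * (t + 1) = 0 := by linear_combination hdet
  rcases mul_eq_zero.1 ht with h5 | h5
  · left
    apply Subtype.ext
    rw [hst, hs, sub_eq_zero.1 h5]
    simp
  · right
    apply Subtype.ext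
    rw [hst, hs, slN_coe, eq_neg_of_add_eq_zero_left h5]
    simp

/-- Lifting commuting involutions. -/
theorem commInv_lift (hodd : Odd (Fintype.card F)) {u v : Matrix.ProjectiveSpecialLinearGroup (Fin 2) F} (h : CommInv u v) :
    ∃ x y : SL(2, F), slTr x = 0 ∧ y * x * y⁻¹ = slN x ∧ pi2 x = u ∧ pi2 y = v := by
  obtain ⟨hu, hv, hu1, hv1, hne, huv⟩ := h
  obtain ⟨x, hx, rfl⟩ := psl2_involution_lift hodd u (orderOf_eq_prime hu hu1)
  obtain ⟨y, hy, rfl⟩ := psl2_involution_lift hodd v (orderOf_eq_prime hv hv1)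
  refine ⟨x, y, hx, ?_, rfl, rfl⟩
  have h1 : pi2 (y * x) = pi2 (x * y) := huv.symm
  rw [pi2_eq_iff] at h1
  rcases h1 with h2 | h2
  · exfalso
    apply hne
    have h3 := comm_trZero hodd hx hy h2.symm
    change pi2 x = pi2 y
    rw [pi2_eq_iff]
    exact h3
  · have e : y * x = slN (x * y) := by rw [h2, slN_slN]
    rw [e, slN_mul]
    group

/-- The cardinality of the commuting pairs. -/
theorem card_commInv_psl2 (hodd : Odd (Fintype.card F)) :
    Nat.card {p : SL(2, F) × SL(2, F) // AntiP p} =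
      Nat.card {p : Matrix.ProjectiveSpecialLinearGroup (Fin 2) F × Matrix.ProjectiveSpecialLinearGroup (Fin 2) F // CommInv p.1 p.2} * 4 := by
  classical
  let f : {p : SL(2, F) × SL(2, F) // AntiP p} → {p : Matrix.ProjectiveSpecialLinearGroup (Fin 2) F × Matrix.ProjectiveSpecialLinearGroup (Fin 2) F // CommInv p.1 p.2} :=
    fun p => ⟨(pi2 p.1.1, pi2 p.1.2), anti_commInv hodd p.2.1 p.2.2⟩
  apply card_eq_mul_of_fibers f
  rintro ⟨⟨u, v⟩, hc⟩
  obtain ⟨x, y, hx, hxy, rfl, rfl⟩ := commInv_lift hodd hc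
  -- the map from `Bool × Bool`
  let sg : Bool → SL(2, F) → SL(2, F) := fun b a => if b then a else slN a
  have hsg : ∀ b a, pi2 (sg b a) = pi2 a := by
    intro b a
    rw [pi2_eq_iff]
    cases b
    · right
      simp [sg, slN_slN]
    · left
      simp [sg]
  have htr : ∀ b a, slTr a = 0 → slTr (sg b a) = 0 := by
    intro b a h
    cases b
    · exact slN_tr h
    · exact h
  have hconj : ∀ b c, sg c y * sg b x * (sg c y)⁻¹ = slN (sg b x) := by
    intro b c
    have h1 : ∀ z : SL(2, F), sg c y * z * (sg c y)⁻¹ = y * z * y⁻¹ := by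
      intro z
      cases c
      · exact conj_slN_left y z
      · rfl
    rw [h1]
    cases b
    · change y * slN x * y⁻¹ = slN (slN x)
      rw [mul_slN, slN_mul, hxy]
    · exact hxy
  have hcard : Nat.card (Bool × Bool) = 4 := by simp
  rw [← hcard]
  symm
  apply Nat.card_congr
  refine Equiv.ofBijective (fun b => ⟨⟨(sg b.1 x, sg b.2 y), htr _ _ hx, hconj _ _⟩, ?_⟩) ⟨?_, ?_⟩
  · apply Subtype.ext
    simp only [f]
    rw [hsg, hsg]
  · have hinj : ∀ a (b c : Bool), sg b a = sg c a → b = c := by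
      intro a b c h
      cases b <;> cases c <;> simp [sg] at h ⊢
      · exact slN_ne_self hodd a h
      · exact slN_ne_self hodd a h.symm
    rintro ⟨b₁, b₂⟩ ⟨c₁, c₂⟩ h
    have h1 := congrArg (fun a => a.1.1) h
    simp only [Subtype.mk.injEq, Prod.mk.injEq] at h1
    rw [hinj _ _ _ h1.1, hinj _ _ _ h1.2]
  · rintro ⟨⟨⟨a, b⟩, hab⟩, hf⟩
    have hf1 := congrArg (fun p => p.1.1) hf
    have hf2 := congrArg (fun p => p.1.2) hf
    simp only [f] at hf1 hf2
    have hex : ∀ a' a'' : SL(2, F), pi2 a' = pi2 a'' → ∃ c, a' = sg c a'' := by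
      intro a' a'' h
      have h2 := (pi2_eq_iff a'' a').1 h.symm
      rcases h2 with h3 | h3
      · exact ⟨true, by simp [sg, h3]⟩
      · exact ⟨false, by simp [sg, h3]⟩
    obtain ⟨c₁, rfl⟩ := hex _ _ hf1
    obtain ⟨c₂, rfl⟩ := hex _ _ hf2
    exact ⟨(c₁, c₂), rfl⟩

/-- The number of anti-commuting pairs. -/
theorem card_antiP (hodd : Odd (Fintype.card F)) :
    Nat.card {p : SL(2, F) × SL(2, F) // AntiP p} = Nat.card SL(2, F) := by
  classical
  have hjj : slTr (jj F) = 0 := by
    rw [sl2_tr_apply, jj_coe]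
    simp
  -- conjugation from `jj`
  let f₁ : SL(2, F) → {x : SL(2, F) // slTr x = 0} := fun g => ⟨g * jj F * g⁻¹, conj_trZero g hjj⟩
  have h1 : Nat.card SL(2, F) = Nat.card {x : SL(2, F) // slTr x = 0} * Nat.card {p : F × F // p.1 ^ 2 + p.2 ^ 2 = 1} := by
    apply card_eq_mul_of_fibers f₁
    rintro ⟨x, hx⟩
    obtain ⟨g₀, hg₀⟩ := trZero_conj hodd hjj hx
    rw [← card_centralizer_trZero hodd hjj, ← conj_fiber_card (jj F) x g₀ hg₀.symm]
    apply Nat.card_congr
    refine ⟨fun g => ⟨g.1, ?_⟩, fun g => ⟨g.1, ?_⟩, ?_, ?_⟩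
    · exact congrArg Subtype.val g.2
    · exact Subtype.ext g.2
    · intro g
      rfl
    · intro g
      rfl
  let f₂ : {p : SL(2, F) × SL(2, F) // AntiP p} → {x : SL(2, F) // slTr x = 0} := fun p => ⟨p.1.1, p.2.1⟩
  have h2 : Nat.card {p : SL(2, F) × SL(2, F) // AntiP p} = Nat.card {x : SL(2, F) // slTr x = 0} * Nat.card {p : F × F // p.1 ^ 2 + p.2 ^ 2 = 1} := by
    apply card_eq_mul_of_fibers f₂
    rintro ⟨x, hx⟩
    obtain ⟨g₀, hg₀⟩ := trZero_conj hodd hx (slN_tr hx)
    rw [← card_centralizer_trZero hodd hx, ← conj_fiber_card x (slN x) g₀ hg₀.symm]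
    apply Nat.card_congr
    refine ⟨fun g => ⟨g.1.1.2, ?_⟩, fun g => ⟨⟨(x, g.1), hx, g.2⟩, rfl⟩, ?_, ?_⟩
    · obtain ⟨⟨⟨a, b⟩, hab⟩, hg⟩ := g
      have : a = x := congrArg Subtype.val hg
      subst this
      exact hab.2
    · rintro ⟨⟨⟨a, b⟩, hab⟩, hg⟩
      have : a = x := congrArg Subtype.val hg
      subst this
      rfl
    · intro g
      rfl
  rw [h1, h2]

/-- The number of Klein four-subgroups of `PSL₂(q)`. -/
theorem card_klein_psl2 (hodd : Odd (Fintype.card F)) :
    12 * Nat.card {V : Subgroup (Matrix.ProjectiveSpecialLinearGroup (Fin 2) F) // IsKleinFour V} =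
      Nat.card (Matrix.ProjectiveSpecialLinearGroup (Fin 2) F) := by
  have h1 := card_antiP (F := F) hodd
  have h2 := card_commInv_psl2 (F := F) hodd
  have h3 := card_commInv_eq (G := Matrix.ProjectiveSpecialLinearGroup (Fin 2) F)
  have h4 := card_psl2_odd (F := F) rfl hodd
  have h5 : Nat.card SL(2, F) = Fintype.card F * ((Fintype.card F) ^ 2 - 1) := card_SL2_eq
  omega

end Cfsg.Agent.Lib.Classical
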