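import Mathlib
import Cfsg.Agent.Lib.Classical.SL2Klein

/-! Conjugacy of anti-commuting pairs in `SL₂(q)`, `q` odd. -/

set_option autoImplicit false
set_option linter.unusedSimpArgs false
set_option linter.unusedVariables false
set_option linter.unusedSectionVars false
set_option linter.style.haveILetI false

namespace Cfsg.Agent.Lib.Classical

open Matrix
open scoped MatrixGroups

variable {F : Type*} [Field F] [Fintype F]

/-- Simultaneous conjugacy of pairs. -/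
def PC (p r : SL(2, F) × SL(2, F)) : Prop := ∃ g : SL(2, F), r.1 = g * p.1 * g⁻¹ ∧ r.2 = g * p.2 * g⁻¹

theorem PC.refl (p : SL(2, F) × SL(2, F)) : PC p p := ⟨1, by simp, by simp⟩

theorem PC.symm {p r : SL(2, F) × SL(2, F)} (h : PC p r) : PC r p := by
  obtain ⟨g, h1, h2⟩ := h
  refine ⟨g⁻¹, ?_, ?_⟩
  · rw [h1]; group
  · rw [h2]; group

theorem PC.trans {p r s : SL(2, F) × SL(2, F)} (h : PC p r) (h' : PC r s) : PC p s := by
  obtain ⟨g, h1, h2⟩ := h
  obtain ⟨k, h3, h4⟩ := h'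
  refine ⟨k * g, ?_, ?_⟩
  · rw [h3, h1]; group
  · rw [h4, h2]; group

theorem AntiP.of_PC {p r : SL(2, F) × SL(2, F)} (hp : AntiP p) (h : PC p r) : AntiP r := by
  obtain ⟨g, h1, h2⟩ := h
  refine ⟨?_, ?_⟩
  · rw [h1]
    exact conj_trZero g hp.1
  · rw [h1, h2, ← conj_slN, ← hp.2]
    group

/-- The stabiliser of an anti-commuting pair. -/
theorem stab_anti (hodd : Odd (Fintype.card F)) {x y g : SL(2, F)} (hx : slTr x = 0) (hxy : y * x * y⁻¹ = slN x)
    (h1 : g * x * g⁻¹ = x) (h2 : g * y * g⁻¹ = y) : g = 1 ∨ g = slNeg F := by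
  have h22 := two_ne_zero_of_odd hodd
  have h4 : (4 : F) ≠ 0 := by
    have : (4 : F) = 2 * 2 := by norm_num
    rw [this]
    exact mul_ne_zero h22 h22
  have hsc : ¬ ∃ c : F, (x : Matrix (Fin 2) (Fin 2) F) = c • 1 := by
    apply not_scalar_of_tr
    rw [hx]
    intro h5
    apply h4
    rw [← h5]
    simp
  have hc1 : g * x = x * g := by
    nth_rewrite 2 [← h1]
    group
  have hc2 : g * y = y * g := by
    nth_rewrite 2 [← h2]
    group
  obtain ⟨s, t, hst⟩ := exists_linear_of_comm (x : Matrix (Fin 2) (Fin 2) F) (g : Matrix (Fin 2) (Fin 2) F) hsc (congrArg Subtype.val hc1)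
  have e1 : (y : Matrix (Fin 2) (Fin 2) F) * x = - ((x : Matrix (Fin 2) (Fin 2) F) * y) := by
    have h3 : y * x = slN x * y := by
      rw [← hxy]
      group
    have := congrArg (fun z : SL(2, F) => (z : Matrix (Fin 2) (Fin 2) F)) h3
    simpa [slN_coe] using this
  have e2 : t • ((x : Matrix (Fin 2) (Fin 2) F) * y) = t • ((y : Matrix (Fin 2) (Fin 2) F) * x) := by
    have := congrArg (fun z : SL(2, F) => (z : Matrix (Fin 2) (Fin 2) F)) hc2
    simp only [Matrix.SpecialLinearGroup.coe_mul, hst, add_mul, mul_add, smul_mul_assoc, mul_smul_comm, one_mul, mul_one] at this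
    exact add_left_cancel this
  rw [e1, smul_neg] at e2
  have e3 : (2 : F) • t • ((x : Matrix (Fin 2) (Fin 2) F) * y) = 0 := by
    rw [two_smul]
    nth_rewrite 1 [e2]
    simp
  have hxy0 : (x : Matrix (Fin 2) (Fin 2) F) * y ≠ 0 := by
    rw [← Matrix.SpecialLinearGroup.coe_mul]
    exact slMat_ne_zero _
  have ht : t = 0 := by
    rcases smul_eq_zero.1 e3 with h5 | h5
    · exact absurd h5 h22
    · exact (smul_eq_zero.1 h5).resolve_right hxy0
  have hdet := g.2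
  rw [hst, det_a_b, ht, hx] at hdet
  have hs : (s - 1) * (s + 1) = 0 := by linear_combination hdet
  rcases mul_eq_zero.1 hs with h5 | h5
  · left
    apply Subtype.ext
    rw [hst, ht, sub_eq_zero.1 h5]
    simp
  · right
    apply Subtype.ext
    rw [hst, ht, eq_neg_of_add_eq_zero_left h5]
    simp

/-- The size of an orbit of pairs. -/
theorem card_orbit_anti (hodd : Odd (Fintype.card F)) (p : {p : SL(2, F) × SL(2, F) // AntiP p}) :
    Nat.card SL(2, F) = Nat.card {r : {p : SL(2, F) × SL(2, F) // AntiP p} // PC p.1 r.1} * 2 := by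
  classical
  let f : SL(2, F) → {r : {p : SL(2, F) × SL(2, F) // AntiP p} // PC p.1 r.1} := fun g =>
    ⟨⟨(g * p.1.1 * g⁻¹, g * p.1.2 * g⁻¹), p.2.of_PC ⟨g, rfl, rfl⟩⟩, ⟨g, rfl, rfl⟩⟩
  apply card_eq_mul_of_fibers f
  rintro ⟨⟨⟨a, b⟩, hab⟩, ⟨g₀, h1, h2⟩⟩
  simp only at h1 h2
  rw [Nat.card_eq_two_iff]
  have hn : g₀ * slNeg F ≠ g₀ := by
    intro h
    apply slNeg_ne_one hodd
    simpa using h
  have hm : ∀ g : SL(2, F), (f g = ⟨⟨(a, b), hab⟩, ⟨g₀, h1, h2⟩⟩) ↔ (g * p.1.1 * g⁻¹ = a ∧ g * p.1.2 * g⁻¹ = b) := by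
    intro g
    constructor
    · intro h
      have h' := congrArg (fun r : {r : {p : SL(2, F) × SL(2, F) // AntiP p} // PC p.1 r.1} => r.1.1) h
      exact ⟨congrArg Prod.fst h', congrArg Prod.snd h'⟩
    · rintro ⟨h3, h4⟩
      apply Subtype.ext
      apply Subtype.ext
      exact Prod.ext h3 h4
  have hf1 : f g₀ = ⟨⟨(a, b), hab⟩, ⟨g₀, h1, h2⟩⟩ := (hm g₀).2 ⟨h1.symm, h2.symm⟩
  have hc : ∀ z : SL(2, F), (g₀ * slNeg F) * z * (g₀ * slNeg F)⁻¹ = g₀ * z * g₀⁻¹ := by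
    intro z
    have e : slNeg F * z = z * slNeg F := slNeg_comm z
    have e2 : (slNeg F : SL(2, F))⁻¹ = slNeg F := inv_eq_of_mul_eq_one_left slNeg_mul_self
    calc (g₀ * slNeg F) * z * (g₀ * slNeg F)⁻¹ = g₀ * (slNeg F * z) * (slNeg F)⁻¹ * g₀⁻¹ := by group
      _ = g₀ * z * (slNeg F * (slNeg F)⁻¹) * g₀⁻¹ := by rw [e]; group
      _ = _ := by rw [mul_inv_cancel, mul_one]
  have hf2 : f (g₀ * slNeg F) = ⟨⟨(a, b), hab⟩, ⟨g₀, h1, h2⟩⟩ := (hm _).2 ⟨by rw [hc, ← h1], by rw [hc, ← h2]⟩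
  refine ⟨⟨g₀, hf1⟩, ⟨g₀ * slNeg F, hf2⟩, ?_, ?_⟩
  · intro h
    exact hn (congrArg Subtype.val h).symm
  · ext ⟨g, hg⟩
    simp only [Set.mem_insert_iff, Set.mem_singleton_iff, Set.mem_univ, iff_true, Subtype.mk.injEq]
    obtain ⟨h3, h4⟩ := (hm g).1 hg
    have h5 : (g₀⁻¹ * g) * p.1.1 * (g₀⁻¹ * g)⁻¹ = p.1.1 := by
      calc (g₀⁻¹ * g) * p.1.1 * (g₀⁻¹ * g)⁻¹ = g₀⁻¹ * (g * p.1.1 * g⁻¹) * g₀ := by group
        _ = _ := by rw [h3, h1]; group
    have h6 : (g₀⁻¹ * g) * p.1.2 * (g₀⁻¹ * g)⁻¹ = p.1.2 := by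
      calc (g₀⁻¹ * g) * p.1.2 * (g₀⁻¹ * g)⁻¹ = g₀⁻¹ * (g * p.1.2 * g⁻¹) * g₀ := by group
        _ = _ := by rw [h4, h2]; group
    rcases stab_anti hodd p.2.1 p.2.2 h5 h6 with h7 | h7
    · left
      rw [inv_mul_eq_one] at h7
      exact h7.symm
    · right
      rw [← h7]
      group

/-- Two orbits. -/
theorem two_orbits (hodd : Odd (Fintype.card F)) :
    ∃ p₁ p₂ : {p : SL(2, F) × SL(2, F) // AntiP p}, ¬ PC p₁.1 p₂.1 ∧
      ∀ r : {p : SL(2, F) × SL(2, F) // AntiP p}, PC p₁.1 r.1 ∨ PC p₂.1 r.1 := by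
  classical
  have hY := card_antiP (F := F) hodd
  have hpos : 0 < Nat.card SL(2, F) := Nat.card_pos
  have hne : Nonempty {p : SL(2, F) × SL(2, F) // AntiP p} := by
    apply (Nat.card_pos_iff.1 (by rw [hY]; exact hpos)).1
  obtain ⟨p₁⟩ := hne
  have h1 := card_orbit_anti hodd p₁
  have hex : ∃ p₂ : {p : SL(2, F) × SL(2, F) // AntiP p}, ¬ PC p₁.1 p₂.1 := by
    by_contra hcon
    push Not at hcon
    have : Nat.card {r : {p : SL(2, F) × SL(2, F) // AntiP p} // PC p₁.1 r.1} = Nat.card {p : SL(2, F) × SL(2, F) // AntiP p} := by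
      apply Nat.card_congr
      exact Equiv.subtypeUnivEquiv hcon
    rw [this, hY] at h1
    omega
  obtain ⟨p₂, hp₂⟩ := hex
  refine ⟨p₁, p₂, hp₂, ?_⟩
  have h2 := card_orbit_anti hodd p₂
  set A : Set {p : SL(2, F) × SL(2, F) // AntiP p} := {r | PC p₁.1 r.1} with hA
  set B : Set {p : SL(2, F) × SL(2, F) // AntiP p} := {r | PC p₂.1 r.1} with hB
  have hAc : Nat.card {r : {p : SL(2, F) × SL(2, F) // AntiP p} // PC p₁.1 r.1} = A.ncard := rfl
  have hBc : Nat.card {r : {p : SL(2, F) × SL(2, F) // AntiP p} // PC p₂.1 r.1} = B.ncard := rfl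
  have hd : Disjoint A B := by
    rw [Set.disjoint_left]
    intro r hr1 hr2
    exact hp₂ (PC.trans hr1 (PC.symm hr2))
  have hu : (A ∪ B).ncard = Nat.card {p : SL(2, F) × SL(2, F) // AntiP p} := by
    rw [Set.ncard_union_eq hd (Set.toFinite _) (Set.toFinite _), ← hAc, ← hBc, hY]
    omega
  have huu : A ∪ B = Set.univ := by
    apply Set.eq_of_subset_of_ncard_le (Set.subset_univ _)
    rw [hu, Set.ncard_univ]
  intro r
  have : r ∈ A ∪ B := by
    rw [huu]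
    trivial
  exact this

end Cfsg.Agent.Lib.Classical
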