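import Mathlib
import Cfsg.Agent.Lib.Classical.SL2Klein2

/-! The quaternion moves on anti-commuting pairs. -/

set_option autoImplicit false
set_option linter.unusedSimpArgs false
set_option linter.unusedVariables false
set_option linter.unusedSectionVars false
set_option linter.style.haveILetI false

namespace Cfsg.Agent.Lib.Classical

open Matrix
open scoped MatrixGroups

variable {F : Type*} [Field F]

theorem det_of_mul_adj (M : Matrix (Fin 2) (Fin 2) F) (c : F) (h : M * (M.trace • 1 - M) = c • 1) : M.det = c := by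
  have h1 : M * (M.trace • 1 - M) = M.det • 1 := by
    rw [Matrix.det_fin_two, Matrix.trace_fin_two]
    apply mat2_ext <;> simp [Matrix.mul_apply, Fin.sum_univ_two] <;> ring
  rw [h1] at h
  have := congrFun (congrFun h 0) 0
  simpa using this

/-- The relations of a quaternion pair. -/
structure QRel (A B : Matrix (Fin 2) (Fin 2) F) : Prop where
  aa : A * A = -1
  bb : B * B = -1
  ba : B * A = -(A * B)

namespace QRel

variable {A B : Matrix (Fin 2) (Fin 2) F} (h : QRel A B)
include h

theorem aab : A * (A * B) = -B := by rw [← mul_assoc, h.aa, neg_mul, one_mul]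

theorem bab : B * (A * B) = A := by rw [← mul_assoc, h.ba, neg_mul, mul_assoc, h.bb, mul_neg, mul_one, neg_neg]

theorem aba : A * B * A = B := by rw [mul_assoc, h.ba, mul_neg, aab h, neg_neg]

theorem abb : A * B * B = -A := by rw [mul_assoc, h.bb, mul_neg, mul_one]

theorem abab : A * B * (A * B) = -1 := by rw [← mul_assoc, aba h, h.bb]

end QRel

variable [Fintype F]

theorem qrel_of_anti {x y : SL(2, F)} (hx : slTr x = 0) (hxy : y * x * y⁻¹ = slN x) (hodd : Odd (Fintype.card F)) :
    QRel (x : Matrix (Fin 2) (Fin 2) F) y := by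
  have hy := anti_tr_right hodd hxy
  refine ⟨?_, ?_, ?_⟩
  · rw [← pow_two]
    exact sq_eq_neg_one_of_tr hx
  · rw [← pow_two]
    exact sq_eq_neg_one_of_tr hy
  · have h3 : y * x = slN x * y := by
      rw [← hxy]
      group
    have := congrArg (fun z : SL(2, F) => (z : Matrix (Fin 2) (Fin 2) F)) h3
    simpa [slN_coe] using this

/-- The third quaternion has trace zero. -/
theorem tr_mul_anti (hodd : Odd (Fintype.card F)) {x y : SL(2, F)} (hx : slTr x = 0) (hxy : y * x * y⁻¹ = slN x) :
    slTr (x * y) = 0 := by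
  have hq := qrel_of_anti hx hxy hodd
  apply tr_of_sq_eq_neg_one
  rw [pow_two, Matrix.SpecialLinearGroup.coe_mul]
  exact hq.abab

theorem M2 {a b : SL(2, F)} (hab : b * a * b⁻¹ = slN a) : PC (a, b) (slN a, b) :=
  ⟨b, hab.symm, by group⟩

theorem M1 {a b : SL(2, F)} (hab : b * a * b⁻¹ = slN a) : PC (a, b) (a, slN b) := by
  refine ⟨a, by group, ?_⟩
  have h1 : b * a = slN a * b := by
    rw [← hab]
    group
  have h2 : a * b = slN (b * a) := by
    rw [h1, slN_mul, slN_slN]
  simp only
  rw [h2, slN_mul, mul_assoc, mul_inv_cancel, mul_one]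

/-- The element `(1 + a + b + a b) / 2`. -/
theorem exists_omega (hodd : Odd (Fintype.card F)) {a b : SL(2, F)} (ha : slTr a = 0) (hab : b * a * b⁻¹ = slN a) :
    ∃ g : SL(2, F), g * a = b * g ∧ g * b = (a * b) * g := by
  have h2 := two_ne_zero_of_odd hodd
  have hq := qrel_of_anti ha hab hodd
  have hb := anti_tr_right hodd hab
  have hz := tr_mul_anti hodd ha hab
  obtain ⟨h, hh⟩ : ∃ h : F, 2 * h = 1 := ⟨2⁻¹, mul_inv_cancel₀ h2⟩
  set A := (a : Matrix (Fin 2) (Fin 2) F) with hA
  set B := (b : Matrix (Fin 2) (Fin 2) F) with hB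
  let M : Matrix (Fin 2) (Fin 2) F := h • (1 + A + B + A * B)
  have htA : A.trace = 0 := ha
  have htB : B.trace = 0 := hb
  have htZ : (A * B).trace = 0 := by
    have := hz
    simpa [slTr] using this
  have htr : M.trace = 1 := by
    simp only [M, Matrix.trace_smul, Matrix.trace_add, htA, htB, htZ, Matrix.trace_one, Fintype.card_fin, smul_eq_mul]
    push_cast
    linear_combination hh
  have hdet : M.det = 1 := by
    apply det_of_mul_adj
    rw [htr, one_smul]
    have e1 : (1 : Matrix (Fin 2) (Fin 2) F) - M = h • (1 - A - B - A * B) := by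
      simp only [M]
      have : (1 : Matrix (Fin 2) (Fin 2) F) = (2 * h) • 1 := by rw [hh, one_smul]
      nth_rewrite 1 [this]
      rw [mul_smul, two_smul, smul_add, smul_add, smul_sub, smul_sub, smul_sub, smul_add]
      abel
    rw [e1]
    simp only [M]
    rw [smul_mul_smul_comm]
    have e2 : (1 + A + B + A * B) * (1 - A - B - A * B) = (4 : F) • 1 := by
      simp only [add_mul, mul_sub, one_mul, mul_one, hq.aa, hq.bb, hq.ba, hq.aab, hq.bab, hq.aba, hq.abb, hq.abab]
      have : (4 : F) • (1 : Matrix (Fin 2) (Fin 2) F) = 1 + 1 + 1 + 1 := by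
        have : (4 : F) = 1 + 1 + 1 + 1 := by norm_num
        rw [this, add_smul, add_smul, add_smul, one_smul]
      rw [this]
      abel
    rw [e2, smul_smul]
    have : h * h * 4 = 1 := by linear_combination (2 * h + 1) * hh
    rw [this, one_smul]
  refine ⟨⟨M, hdet⟩, ?_, ?_⟩
  · apply Subtype.ext
    change M * A = B * M
    simp only [M, smul_mul_assoc, mul_smul_comm]
    congr 1
    simp only [add_mul, mul_add, one_mul, mul_one, hq.aa, hq.bb, hq.ba, hq.aab, hq.bab, hq.aba, hq.abb, hq.abab]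
    abel
  · apply Subtype.ext
    change M * B = (A * B) * M
    simp only [M, smul_mul_assoc, mul_smul_comm]
    congr 1
    simp only [add_mul, mul_add, one_mul, mul_one, hq.aa, hq.bb, hq.ba, hq.aab, hq.bab, hq.aba, hq.abb, hq.abab]
    abel

theorem M3 (hodd : Odd (Fintype.card F)) {a b : SL(2, F)} (ha : slTr a = 0) (hab : b * a * b⁻¹ = slN a) :
    PC (a, b) (b, a * b) := by
  obtain ⟨g, h1, h2⟩ := exists_omega hodd ha hab
  refine ⟨g, ?_, ?_⟩
  · simp only
    rw [h1]
    group
  · simp only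
    rw [h2]
    group

/-- The element `(a + b) / r`, `r² = 2`. -/
theorem M4 (hodd : Odd (Fintype.card F)) {r : F} (hr : r ^ 2 = 2) {a b : SL(2, F)} (ha : slTr a = 0) (hab : b * a * b⁻¹ = slN a) :
    PC (a, b) (b, a) := by
  have h2 := two_ne_zero_of_odd hodd
  have hq := qrel_of_anti ha hab hodd
  have hb := anti_tr_right hodd hab
  have hr0 : r ≠ 0 := by
    rintro rfl
    apply h2
    rw [← hr]
    norm_num
  obtain ⟨h, hh⟩ : ∃ h : F, r * h = 1 := ⟨r⁻¹, mul_inv_cancel₀ hr0⟩
  set A := (a : Matrix (Fin 2) (Fin 2) F) with hA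
  set B := (b : Matrix (Fin 2) (Fin 2) F) with hB
  let M : Matrix (Fin 2) (Fin 2) F := h • (A + B)
  have htA : A.trace = 0 := ha
  have htB : B.trace = 0 := hb
  have htr : M.trace = 0 := by
    simp only [M, Matrix.trace_smul, Matrix.trace_add, htA, htB, smul_eq_mul]
    ring
  have hdet : M.det = 1 := by
    apply det_of_mul_adj
    rw [htr, zero_smul, zero_sub, one_smul]
    simp only [M]
    rw [mul_neg, smul_mul_smul_comm]
    have e2 : (A + B) * (A + B) = (-2 : F) • 1 := by
      simp only [add_mul, mul_add, hq.aa, hq.bb, hq.ba]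
      have : (-2 : F) • (1 : Matrix (Fin 2) (Fin 2) F) = -1 + -1 := by
        have : (-2 : F) = -1 + -1 := by norm_num
        rw [this, add_smul, neg_smul, one_smul]
      rw [this]
      abel
    rw [e2, smul_smul, ← neg_smul]
    have : -(h * h * -2) = 1 := by
      rw [← hr]
      linear_combination (r * h + 1) * hh
    rw [this, one_smul]
  let g : SL(2, F) := ⟨M, hdet⟩
  refine ⟨g, ?_, ?_⟩
  · have : g * a = b * g := by
      apply Subtype.ext
      change M * A = B * M
      simp only [M, smul_mul_assoc, mul_smul_comm]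
      congr 1
      simp only [add_mul, mul_add, hq.aa, hq.bb, hq.ba]
      abel
    simp only
    rw [this]
    group
  · have : g * b = a * g := by
      apply Subtype.ext
      change M * B = A * M
      simp only [M, smul_mul_assoc, mul_smul_comm]
      congr 1
      simp only [add_mul, mul_add, hq.aa, hq.bb, hq.ba]
      abel
    simp only
    rw [this]
    group

/-- Change of signs. -/
theorem pc_signs {p : SL(2, F) × SL(2, F)} {a b a' b' : SL(2, F)} (h : PC p (a, b)) (hab : b * a * b⁻¹ = slN a)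
    (ha : a' = a ∨ a' = slN a) (hb : b' = b ∨ b' = slN b) : PC p (a', b') := by
  have h1 : b * slN a * b⁻¹ = slN (slN a) := by
    rw [mul_slN, slN_mul, hab]
  rcases ha with rfl | rfl <;> rcases hb with rfl | rfl
  · exact h
  · exact h.trans (M1 hab)
  · exact h.trans (M2 hab)
  · exact (h.trans (M2 hab)).trans (M1 h1)

/-- All pairs from a quaternion group are conjugate, when `2` is a square. -/
theorem pc_of_same_klein (hodd : Odd (Fintype.card F)) {r : F} (hr : r ^ 2 = 2) {x y x' y' : SL(2, F)}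
    (hx : slTr x = 0) (hxy : y * x * y⁻¹ = slN x) (hx' : slTr x' = 0) (hxy' : y' * x' * y'⁻¹ = slN x')
    (h1 : pi2 x' = pi2 x ∨ pi2 x' = pi2 y ∨ pi2 x' = pi2 (x * y))
    (h2 : pi2 y' = pi2 x ∨ pi2 y' = pi2 y ∨ pi2 y' = pi2 (x * y)) (hne : pi2 x' ≠ pi2 y') :
    PC (x, y) (x', y') := by
  have hy := anti_tr_right hodd hxy
  have hz := tr_mul_anti hodd hx hxy
  have hP : AntiP (x, y) := ⟨hx, hxy⟩
  -- anti-commutation relations
  have hM3 := M3 hodd hx hxy
  have hA2 : AntiP (y, x * y) := hP.of_PC hM3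
  have hM3' := M3 hodd hA2.1 hA2.2
  have e1 : y * (x * y) = x := by
    have h3 : y * x = slN x * y := by
      rw [← hxy]
      group
    rw [← mul_assoc, h3, slN_mul, slN_mul, mul_assoc]
    have h4 : y * y = slNeg F := by
      rw [← pow_two]
      exact sl_sq_neg_coe hy
    rw [h4, ← slNeg_comm x]
    exact slN_slN x
  rw [e1] at hM3'
  have hA3 : AntiP (x * y, x) := hA2.of_PC hM3'
  have hM4 := M4 hodd hr hx hxy
  have hA4 : AntiP (y, x) := hP.of_PC hM4
  have hM5 := M3 hodd hA4.1 hA4.2
  have hA5 : AntiP (x, y * x) := hA4.of_PC hM5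
  have e2 : y * x = slN (x * y) := by
    have h3 : y * x = slN x * y := by
      rw [← hxy]
      group
    rw [h3, slN_mul]
  rw [e2] at hM5 hA5
  have hM6 := M3 hodd hA5.1 hA5.2
  have e3 : x * slN (x * y) = y := by
    rw [mul_slN, ← mul_assoc, ← pow_two, sl_sq_neg_coe hx, slN, ← mul_assoc, slNeg_mul_self, one_mul]
  rw [e3] at hM6
  have hA6 : AntiP (slN (x * y), y) := hA5.of_PC hM6
  -- the six pairs with all signs
  have P1 : ∀ a b, (a = x ∨ a = slN x) → (b = y ∨ b = slN y) → PC (x, y) (a, b) :=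
    fun a b ha hb => pc_signs (PC.refl _) hxy ha hb
  have P2 : ∀ a b, (a = y ∨ a = slN y) → (b = x * y ∨ b = slN (x * y)) → PC (x, y) (a, b) :=
    fun a b ha hb => pc_signs hM3 hA2.2 ha hb
  have P3 : ∀ a b, (a = x * y ∨ a = slN (x * y)) → (b = x ∨ b = slN x) → PC (x, y) (a, b) :=
    fun a b ha hb => pc_signs (hM3.trans hM3') hA3.2 ha hb
  have P4 : ∀ a b, (a = y ∨ a = slN y) → (b = x ∨ b = slN x) → PC (x, y) (a, b) :=
    fun a b ha hb => pc_signs hM4 hA4.2 ha hb
  have P5 : ∀ a b, (a = x ∨ a = slN x) → (b = x * y ∨ b = slN (x * y)) → PC (x, y) (a, b) := by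
    intro a b ha hb
    refine pc_signs (hM4.trans hM5) hA5.2 ha ?_
    rcases hb with rfl | rfl
    · right
      rw [slN_slN]
    · left
      rfl
  have P6 : ∀ a b, (a = x * y ∨ a = slN (x * y)) → (b = y ∨ b = slN y) → PC (x, y) (a, b) := by
    intro a b ha hb
    refine pc_signs ((hM4.trans hM5).trans hM6) hA6.2 ?_ hb
    rcases ha with rfl | rfl
    · right
      rw [slN_slN]
    · left
      rfl
  have hlift : ∀ a b : SL(2, F), pi2 a = pi2 b → a = b ∨ a = slN b := by
    intro a b h
    exact (pi2_eq_iff b a).1 h.symm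
  rcases h1 with h3 | h3 | h3 <;> rcases h2 with h4 | h4 | h4
  · exact absurd (h3.trans h4.symm) hne
  · exact P1 _ _ (hlift _ _ h3) (hlift _ _ h4)
  · exact P5 _ _ (hlift _ _ h3) (hlift _ _ h4)
  · exact P4 _ _ (hlift _ _ h3) (hlift _ _ h4)
  · exact absurd (h3.trans h4.symm) hne
  · exact P2 _ _ (hlift _ _ h3) (hlift _ _ h4)
  · exact P3 _ _ (hlift _ _ h3) (hlift _ _ h4)
  · exact P6 _ _ (hlift _ _ h3) (hlift _ _ h4)
  · exact absurd (h3.trans h4.symm) hne

end Cfsg.Agent.Lib.Classical
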