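import Mathlib
import Cfsg.Agent.Lib.Classical.SL2Klein3
import Cfsg.Agent.Lib.Classical.SylowGL

/-! Conjugacy classes of Klein four-subgroups of `PSL₂(q)`, `q` odd. -/

set_option autoImplicit false
set_option linter.unusedSimpArgs false
set_option linter.unusedVariables false
set_option linter.unusedSectionVars false
set_option linter.style.haveILetI false

namespace Cfsg.Agent.Lib.Classical

open Matrix
open scoped MatrixGroups

section gen
variable {G : Type*} [Group G]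

/-- Conjugating the Klein subgroup. -/
theorem map_conj_kleinSub (k u v : G) (hu : u ^ 2 = 1) (hv : v ^ 2 = 1) (huv : u * v = v * u)
    (hu' : (k * u * k⁻¹) ^ 2 = 1) (hv' : (k * v * k⁻¹) ^ 2 = 1) (huv' : (k * u * k⁻¹) * (k * v * k⁻¹) = (k * v * k⁻¹) * (k * u * k⁻¹)) :
    (kleinSub u v hu hv huv).map (MulAut.conj k).toMonoidHom = kleinSub (k * u * k⁻¹) (k * v * k⁻¹) hu' hv' huv' := by
  ext t
  simp only [Subgroup.mem_map, mem_kleinSub]
  constructor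
  · rintro ⟨s, hs, rfl⟩
    rcases hs with rfl | rfl | rfl | rfl
    · left
      simp
    · right; left
      rfl
    · right; right; left
      rfl
    · right; right; right
      change k * (u * v) * k⁻¹ = _
      group
  · rintro (rfl | rfl | rfl | rfl)
    · exact ⟨1, Or.inl rfl, by simp⟩
    · exact ⟨u, Or.inr (Or.inl rfl), rfl⟩
    · exact ⟨v, Or.inr (Or.inr (Or.inl rfl)), rfl⟩
    · refine ⟨u * v, Or.inr (Or.inr (Or.inr rfl)), ?_⟩
      change k * (u * v) * k⁻¹ = _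
      group

/-- A Klein subgroup is generated by two commuting involutions. -/
theorem exists_commInv_of_klein [Finite G] (V : Subgroup G) (hV : IsKleinFour V) :
    ∃ (u v : G) (h : CommInv u v), V = kleinSub u v h.1 h.2.1 h.2.2.2.2.2 := by
  classical
  have hV4 : Nat.card V = 4 := IsKleinFour.card_four
  have h6 := card_pairs_four (1 : V) hV4
  have hne : Nonempty {p : V × V // p.1 ≠ 1 ∧ p.2 ≠ 1 ∧ p.1 ≠ p.2} := by
    apply (Nat.card_pos_iff.1 (by rw [h6]; norm_num)).1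
  obtain ⟨⟨⟨⟨s, hs⟩, ⟨t, ht⟩⟩, h1, h2, h3⟩⟩ := hne
  have hsq : ∀ x ∈ V, x ^ 2 = 1 := by
    intro x hx
    have h1 := Monoid.pow_exponent_eq_one (⟨x, hx⟩ : V)
    rw [IsKleinFour.exponent_two] at h1
    exact congrArg Subtype.val h1
  have hcomm : ∀ x ∈ V, ∀ y ∈ V, x * y = y * x := by
    intro x hx y hy
    have h1 := hsq _ (mul_mem hx hy)
    have h2 := hsq _ hx
    have h3 := hsq _ hy
    rw [pow_two] at h1 h2 h3
    have hxi : x⁻¹ = x := inv_eq_of_mul_eq_one_left h2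
    have hyi : y⁻¹ = y := inv_eq_of_mul_eq_one_left h3
    have : (x * y)⁻¹ = x * y := inv_eq_of_mul_eq_one_left h1
    rw [_root_.mul_inv_rev, hxi, hyi] at this
    exact this.symm
  have hci : CommInv s t := by
    refine ⟨hsq s hs, hsq t ht, ?_, ?_, ?_, hcomm s hs t ht⟩
    · intro h0
      exact h1 (Subtype.ext h0)
    · intro h0
      exact h2 (Subtype.ext h0)
    · intro h0
      exact h3 (Subtype.ext h0)
  refine ⟨s, t, hci, ?_⟩
  symm
  apply Subgroup.eq_of_le_of_card_ge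
  · intro x hx
    rcases mem_kleinSub.1 hx with h4 | h4 | h4 | h4
    · rw [h4]; exact one_mem _
    · rw [h4]; exact hs
    · rw [h4]; exact ht
    · rw [h4]; exact mul_mem hs ht
  · rw [hV4, card_kleinSub hci]

end gen

variable {F : Type*} [Field F] [Fintype F]

theorem pi2_conj (g x : SL(2, F)) : pi2 (g * x * g⁻¹) = pi2 g * pi2 x * (pi2 g)⁻¹ := rfl

/-- Klein subgroup of a pair. -/
theorem klein_conj (hodd : Odd (Fintype.card F)) {x y g : SL(2, F)} (hx : slTr x = 0) (hxy : y * x * y⁻¹ = slN x)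
    (h : CommInv (pi2 x) (pi2 y)) (h' : CommInv (pi2 (g * x * g⁻¹)) (pi2 (g * y * g⁻¹))) :
    kleinSub (pi2 (g * x * g⁻¹)) (pi2 (g * y * g⁻¹)) h'.1 h'.2.1 h'.2.2.2.2.2 =
      (kleinSub (pi2 x) (pi2 y) h.1 h.2.1 h.2.2.2.2.2).map (MulAut.conj (pi2 g)).toMonoidHom := by
  rw [map_conj_kleinSub (pi2 g) (pi2 x) (pi2 y) h.1 h.2.1 h.2.2.2.2.2 h'.1 h'.2.1 h'.2.2.2.2.2]
  rfl

/-- The case `q ≡ ±1 (mod 8)`. -/
theorem klein_two_classes (hq : Fintype.card F % 8 = 1 ∨ Fintype.card F % 8 = 7) :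
    ∃ V₁ V₂ : Subgroup (Matrix.ProjectiveSpecialLinearGroup (Fin 2) F), IsKleinFour V₁ ∧ IsKleinFour V₂ ∧
      (¬ ∃ g : Matrix.ProjectiveSpecialLinearGroup (Fin 2) F, V₂ = V₁.map (MulAut.conj g).toMonoidHom) ∧
      ∀ W : Subgroup (Matrix.ProjectiveSpecialLinearGroup (Fin 2) F), IsKleinFour W →
        (∃ g : Matrix.ProjectiveSpecialLinearGroup (Fin 2) F, W = V₁.map (MulAut.conj g).toMonoidHom) ∨
        (∃ g : Matrix.ProjectiveSpecialLinearGroup (Fin 2) F, W = V₂.map (MulAut.conj g).toMonoidHom) := by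
  classical
  have hodd : Odd (Fintype.card F) := by
    rw [Nat.odd_iff]
    omega
  obtain ⟨r, hr⟩ : ∃ r : F, r ^ 2 = 2 := by
    have h2 := two_ne_zero_of_odd hodd
    have hc : ringChar F ≠ 2 := by
      intro h
      apply h2
      have := ringChar.Nat.cast_ringChar (R := F)
      rw [h] at this
      exact_mod_cast this
    have := (FiniteField.isSquare_two_iff (F := F)).2 (by omega)
    obtain ⟨s, hs⟩ := this
    exact ⟨s, by rw [pow_two, hs]⟩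
  obtain ⟨⟨⟨x₁, y₁⟩, hp₁⟩, ⟨⟨x₂, y₂⟩, hp₂⟩, hne, hall⟩ := two_orbits (F := F) hodd
  simp only at hne
  have hc₁ := anti_commInv hodd hp₁.1 hp₁.2
  have hc₂ := anti_commInv hodd hp₂.1 hp₂.2
  simp only at hc₁ hc₂
  refine ⟨kleinSub (pi2 x₁) (pi2 y₁) hc₁.1 hc₁.2.1 hc₁.2.2.2.2.2, kleinSub (pi2 x₂) (pi2 y₂) hc₂.1 hc₂.2.1 hc₂.2.2.2.2.2,
    kleinFour_kleinSub hc₁, kleinFour_kleinSub hc₂, ?_, ?_⟩
  · rintro ⟨gb, hg⟩
    obtain ⟨g, rfl⟩ := QuotientGroup.mk_surjective gb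
    apply hne
    -- the conjugated pair
    have hp' : AntiP (g * x₁ * g⁻¹, g * y₁ * g⁻¹) := AntiP.of_PC hp₁ ⟨g, rfl, rfl⟩
    have hc' := anti_commInv hodd hp'.1 hp'.2
    simp only at hc'
    have hV : kleinSub (pi2 (g * x₁ * g⁻¹)) (pi2 (g * y₁ * g⁻¹)) hc'.1 hc'.2.1 hc'.2.2.2.2.2 =
        kleinSub (pi2 x₂) (pi2 y₂) hc₂.1 hc₂.2.1 hc₂.2.2.2.2.2 := by
      rw [klein_conj hodd hp₁.1 hp₁.2 hc₁ hc', hg]
    have hm1 : pi2 (g * x₁ * g⁻¹) ∈ kleinSub (pi2 x₂) (pi2 y₂) hc₂.1 hc₂.2.1 hc₂.2.2.2.2.2 := by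
      rw [← hV]
      exact kleinSub_mem_left
    have hm2 : pi2 (g * y₁ * g⁻¹) ∈ kleinSub (pi2 x₂) (pi2 y₂) hc₂.1 hc₂.2.1 hc₂.2.2.2.2.2 := by
      rw [← hV]
      exact kleinSub_mem_right
    have key := pc_of_same_klein hodd hr hp₂.1 hp₂.2 hp'.1 hp'.2
      (by
        rcases mem_kleinSub.1 hm1 with h | h | h | h
        · exact absurd h hc'.2.2.1
        · exact Or.inl h
        · exact Or.inr (Or.inl h)
        · exact Or.inr (Or.inr h))
      (by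
        rcases mem_kleinSub.1 hm2 with h | h | h | h
        · exact absurd h hc'.2.2.2.1
        · exact Or.inl h
        · exact Or.inr (Or.inl h)
        · exact Or.inr (Or.inr h))
      hc'.2.2.2.2.1
    -- transitivity
    have h1 : PC (x₁, y₁) (g * x₁ * g⁻¹, g * y₁ * g⁻¹) := ⟨g, rfl, rfl⟩
    exact h1.trans key.symm
  · intro W hW
    obtain ⟨u, v, hci, rfl⟩ := exists_commInv_of_klein W hW
    obtain ⟨x, y, hx, hxy, rfl, rfl⟩ := commInv_lift hodd hci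
    have hP : AntiP (x, y) := ⟨hx, hxy⟩
    have hconjeq : ∀ (x₀ y₀ g : SL(2, F)) (hc₀ : CommInv (pi2 x₀) (pi2 y₀)) (h0x : slTr x₀ = 0) (h0y : y₀ * x₀ * y₀⁻¹ = slN x₀),
        x = g * x₀ * g⁻¹ → y = g * y₀ * g⁻¹ →
        kleinSub (pi2 x) (pi2 y) hci.1 hci.2.1 hci.2.2.2.2.2 = (kleinSub (pi2 x₀) (pi2 y₀) hc₀.1 hc₀.2.1 hc₀.2.2.2.2.2).map (MulAut.conj (pi2 g)).toMonoidHom := by
      intro x₀ y₀ g hc₀ h0x h0y h1 h2
      subst h1 h2
      exact klein_conj hodd h0x h0y hc₀ hci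
    rcases hall ⟨(x, y), hP⟩ with ⟨g, h1, h2⟩ | ⟨g, h1, h2⟩
    · left
      exact ⟨pi2 g, hconjeq x₁ y₁ g hc₁ hp₁.1 hp₁.2 h1 h2⟩
    · right
      exact ⟨pi2 g, hconjeq x₂ y₂ g hc₂ hp₂.1 hp₂.2 h1 h2⟩

/-- The order of `PSL₂(q)`, `q ≡ 3, 5 (mod 8)`. -/
theorem card_psl2_mod8 {q : ℕ} (hF : Fintype.card F = q) (hq : q % 8 = 3 ∨ q % 8 = 5) :
    ∃ m, Nat.card (Matrix.ProjectiveSpecialLinearGroup (Fin 2) F) = 2 ^ 2 * m ∧ ¬ 2 ∣ m := by
  have hodd : Odd q := by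
    rw [Nat.odd_iff]
    omega
  have hc := card_psl2_odd hF hodd
  obtain ⟨k, r, hr, hk⟩ : ∃ k r, (r = 3 ∨ r = 5) ∧ q = 8 * k + r := by
    refine ⟨q / 8, q % 8, hq, by omega⟩
  obtain ⟨m, hm, hmodd⟩ : ∃ m, q ^ 2 - 1 = 8 * m ∧ ¬ 2 ∣ m := by
    rcases hr with rfl | rfl
    · refine ⟨8 * k ^ 2 + 6 * k + 1, ?_, by omega⟩
      have : q ^ 2 = 8 * (8 * k ^ 2 + 6 * k + 1) + 1 := by rw [hk]; ring
      omega
    · refine ⟨8 * k ^ 2 + 10 * k + 3, ?_, by omega⟩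
      have : q ^ 2 = 8 * (8 * k ^ 2 + 10 * k + 3) + 1 := by rw [hk]; ring
      omega
  refine ⟨q * m, ?_, ?_⟩
  · rw [hm] at hc
    nlinarith [hc]
  · rw [Nat.Prime.dvd_mul Nat.prime_two]
    rintro (h | h)
    · exact (Nat.not_even_iff_odd.2 hodd) (even_iff_two_dvd.2 h)
    · exact hmodd h

/-- The case `q ≡ 3, 5 (mod 8)`. -/
theorem klein_conj_mod8 {q : ℕ} (hF : Fintype.card F = q) (hq : q % 8 = 3 ∨ q % 8 = 5)
    (V W : Subgroup (Matrix.ProjectiveSpecialLinearGroup (Fin 2) F)) (hV : IsKleinFour V) (hW : IsKleinFour W) :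
    ∃ g : Matrix.ProjectiveSpecialLinearGroup (Fin 2) F, W = V.map (MulAut.conj g).toMonoidHom := by
  classical
  haveI : Fact (Nat.Prime 2) := ⟨Nat.prime_two⟩
  obtain ⟨m, hm, hmn⟩ := card_psl2_mod8 hF hq
  have hfact : (Nat.card (Matrix.ProjectiveSpecialLinearGroup (Fin 2) F)).factorization 2 = 2 := by
    have hm0 : m ≠ 0 := by
      rintro rfl
      exact hmn (dvd_zero _)
    rw [hm, Nat.factorization_mul (pow_ne_zero _ (by norm_num)) hm0, Nat.Prime.factorization_pow Nat.prime_two]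
    simp [Nat.factorization_eq_zero_of_not_dvd hmn]
  have h1 : Nat.card V = 2 ^ (Nat.card (Matrix.ProjectiveSpecialLinearGroup (Fin 2) F)).factorization 2 := by
    rw [hfact]
    exact IsKleinFour.card_four
  have h2 : Nat.card W = 2 ^ (Nat.card (Matrix.ProjectiveSpecialLinearGroup (Fin 2) F)).factorization 2 := by
    rw [hfact]
    exact IsKleinFour.card_four
  obtain ⟨g, hg⟩ := MulAction.exists_smul_eq (Matrix.ProjectiveSpecialLinearGroup (Fin 2) F) (Sylow.ofCard V h1) (Sylow.ofCard W h2)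
  refine ⟨g, ?_⟩
  have := congrArg (fun P : Sylow 2 (Matrix.ProjectiveSpecialLinearGroup (Fin 2) F) => (P : Subgroup (Matrix.ProjectiveSpecialLinearGroup (Fin 2) F))) hg
  exact this.symm

end Cfsg.Agent.Lib.Classical
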