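import Mathlib
import Cfsg.Agent.Lib.Classical.SympFrames

/-! The Borel subgroup of the symplectic group. -/

set_option autoImplicit false
set_option linter.unusedSimpArgs false
set_option linter.unusedVariables false
set_option linter.unusedSectionVars false
set_option linter.style.haveILetI false

namespace Cfsg.Agent.Lib.Classical

open Matrix Cfsg.Agent.Lib.KnownSimple

variable {F : Type*} [Field F] {m : ℕ}

/-- The flag of coordinate subspaces. -/
def flagW (m : ℕ) (F : Type*) [Field F] (k : ℕ) : Submodule F (Fin m ⊕ Fin m → F) where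
  carrier := {v | (∀ i : Fin m, k < (i : ℕ) → v (Sum.inl i) = 0) ∧ ∀ i : Fin m, v (Sum.inr i) = 0}
  add_mem' := by
    intro a b ha hb
    exact ⟨fun i hi => by simp [ha.1 i hi, hb.1 i hi], fun i => by simp [ha.2 i, hb.2 i]⟩
  zero_mem' := ⟨fun i _ => rfl, fun i => rfl⟩
  smul_mem' := by
    intro c a ha
    exact ⟨fun i hi => by simp [ha.1 i hi], fun i => by simp [ha.2 i]⟩

theorem mem_flagW {k : ℕ} {v : Fin m ⊕ Fin m → F} :
    v ∈ flagW m F k ↔ (∀ i : Fin m, k < (i : ℕ) → v (Sum.inl i) = 0) ∧ ∀ i : Fin m, v (Sum.inr i) = 0 := Iff.rfl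

theorem flagW_mono {j k : ℕ} (h : j ≤ k) : flagW m F j ≤ flagW m F k :=
  fun _ hv => ⟨fun i hi => hv.1 i (by omega), hv.2⟩

/-- A general form of `sp_stab_of_basis`. -/
theorem sp_stab_of_le (W : Submodule F (Fin m ⊕ Fin m → F))
    (t : Matrix.symplecticGroup (Fin m) F) (h : ∀ x ∈ W, t.1 *ᵥ x ∈ W) :
    t ∈ Cfsg.stabilizing (Cfsg.spToMat m F) (W : Set (Fin m ⊕ Fin m → F)) := by
  classical
  let f : W →ₗ[F] W := LinearMap.restrict (Matrix.toLin' t.1) (q := W) (p := W) (by
    intro x hx
    simpa using h x hx)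
  have hinj : Function.Injective f := by
    rw [injective_iff_map_eq_zero]
    intro x hx
    apply Subtype.ext
    have h1 : t.1 *ᵥ (x : Fin m ⊕ Fin m → F) = 0 := by
      have := congrArg Subtype.val hx
      simpa [f] using this
    have h2 := sp_inv_mulVec_mulVec t x
    rw [h1, mulVec_zero] at h2
    exact h2.symm
  have hsurj : Function.Surjective f := LinearMap.injective_iff_surjective.1 hinj
  intro v
  constructor
  · intro hv
    exact h v hv
  · intro hv
    obtain ⟨y, hy⟩ := hsurj ⟨_, hv⟩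
    have h3 : t.1 *ᵥ (y : Fin m ⊕ Fin m → F) = t.1 *ᵥ v := by
      have := congrArg Subtype.val hy
      simpa [f] using this
    have h4 := congrArg (fun z => t⁻¹.1 *ᵥ z) h3
    simp only [sp_inv_mulVec_mulVec] at h4
    rw [← h4]
    exact y.2

/-- The standard frame. -/
abbrev s0 (i : Fin m) : Fin m ⊕ Fin m → F := Pi.single (Sum.inl i) 1

theorem sum_s0 {k : ℕ} {x : Fin m ⊕ Fin m → F} (hx : x ∈ flagW m F k) :
    x = ∑ j : Fin m, x (Sum.inl j) • (s0 j : Fin m ⊕ Fin m → F) := by
  classical
  funext a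
  rw [Finset.sum_apply]
  rcases a with a | a
  · simp [s0, Pi.single_apply]
  · simp [s0, Pi.single_apply, hx.2 a]

/-- The adapted tuples. -/
def flagO (m : ℕ) (F : Type*) [Field F] : Set (Fin m → Fin m ⊕ Fin m → F) :=
  {x | ∀ i : Fin m, x i ∈ flagW m F i ∧ x i (Sum.inl i) ≠ 0}

theorem flagO_li {x : Fin m → Fin m ⊕ Fin m → F} (hx : x ∈ flagO m F) : LinearIndependent F x := by
  classical
  rw [Fintype.linearIndependent_iff]
  intro c hc
  by_contra hcon
  push Not at hcon
  obtain ⟨i0, hi0⟩ := hcon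
  let S := Finset.univ.filter (fun i => c i ≠ 0)
  have hS : S.Nonempty := ⟨i0, by simp [S, hi0]⟩
  let i := S.max' hS
  have hi : c i ≠ 0 := by
    have := S.max'_mem hS
    simpa [S] using this
  have hmax : ∀ j, i < j → c j = 0 := by
    intro j hj
    by_contra h
    have : j ∈ S := by simp [S, h]
    exact absurd (S.le_max' j this) (not_le.2 hj)
  have h1 := congrFun hc (Sum.inl i)
  rw [Finset.sum_apply, Finset.sum_eq_single i] at h1
  · simp only [Pi.smul_apply, smul_eq_mul, Pi.zero_apply] at h1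
    rcases mul_eq_zero.1 h1 with h | h
    · exact hi h
    · exact (hx i).2 h
  · intro j _ hj
    simp only [Pi.smul_apply, smul_eq_mul]
    rcases lt_or_gt_of_ne hj with h | h
    · rw [(hx j).1.1 i (by simpa using h), mul_zero]
    · rw [hmax j h, zero_mul]
  · simp

theorem flagO_ti {x : Fin m → Fin m ⊕ Fin m → F} (hx : x ∈ flagO m F) (i j : Fin m) :
    sympBil m F (x i) (x j) = 0 := by
  rw [sympBil_apply, sympForm_apply]
  apply Finset.sum_eq_zero
  intro a _
  rw [(hx i).1.2 a, (hx j).1.2 a]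
  ring

theorem s0_mem : (fun i => (s0 i : Fin m ⊕ Fin m → F)) ∈ flagO m F := by
  classical
  intro i
  refine ⟨⟨fun a ha => ?_, fun a => ?_⟩, ?_⟩
  · have : a ≠ i := by
      rintro rfl
      omega
    simp [s0, Pi.single_apply, this]
  · simp [s0]
  · simp [s0]

theorem card_flag_factor [Fintype F] {q : ℕ} (hF : Fintype.card F = q) (i : Fin m) :
    Nat.card {v : Fin m ⊕ Fin m → F // v ∈ flagW m F i ∧ v (Sum.inl i) ≠ 0} = (q - 1) * q ^ (i : ℕ) := by
  classical
  have e : {v : Fin m ⊕ Fin m → F // v ∈ flagW m F i ∧ v (Sum.inl i) ≠ 0} ≃ {c : F // c ≠ 0} × (Fin i → F) :=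
    { toFun := fun v => (⟨v.1 (Sum.inl i), v.2.2⟩, fun j => v.1 (Sum.inl ⟨j, by have := j.2; have := i.2; omega⟩))
      invFun := fun p => ⟨Sum.elim (fun j => if h : (j : ℕ) < i then p.2 ⟨j, h⟩ else if j = i then p.1.1 else 0) 0, by
          constructor
          · constructor
            · intro a ha
              have h1 : ¬ (a : ℕ) < i := by omega
              have h2 : a ≠ i := by
                rintro rfl
                omega
              change (if h : (a : ℕ) < i then p.2 ⟨a, h⟩ else if a = i then p.1.1 else 0) = 0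
              rw [dif_neg h1, if_neg h2]
            · intro a
              simp
          · simp [p.1.2], ⟩
      left_inv := by
        rintro ⟨v, hv1, hv2⟩
        apply Subtype.ext
        funext a
        rcases a with a | a
        · by_cases h : (a : ℕ) < i
          · change (if h : (a : ℕ) < i then v (Sum.inl ⟨a, _⟩) else if a = i then v (Sum.inl i) else 0) = v (Sum.inl a)
            rw [dif_pos h]
          · by_cases h2 : a = i
            · subst h2
              simp
            · have h3 : (i : ℕ) < a := by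
                have : (a : ℕ) ≠ i := fun h4 => h2 (Fin.ext h4)
                omega
              simp [h, h2, hv1.1 a h3]
        · simp [hv1.2 a]
      right_inv := by
        rintro ⟨⟨c, hc⟩, g⟩
        apply Prod.ext
        · apply Subtype.ext
          simp
        · funext j
          have := j.2
          change (if h : (j : ℕ) < i then g ⟨j, h⟩ else if (⟨j, _⟩ : Fin m) = i then c else 0) = g j
          rw [dif_pos this] }
  rw [Nat.card_congr e, Nat.card_prod, Nat.card_fun]
  have h1 : Nat.card {c : F // c ≠ 0} = q - 1 := by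
    rw [Nat.card_eq_fintype_card, Fintype.card_subtype_compl]
    simp [hF]
  rw [h1, Nat.card_eq_fintype_card, hF, Nat.card_eq_fintype_card, Fintype.card_fin]

theorem card_flagO [Fintype F] {q : ℕ} (hF : Fintype.card F = q) :
    Nat.card (flagO m F) = (q - 1) ^ m * q ^ (m * (m - 1) / 2) := by
  classical
  have e : flagO m F ≃ ∀ i : Fin m, {v : Fin m ⊕ Fin m → F // v ∈ flagW m F i ∧ v (Sum.inl i) ≠ 0} :=
    { toFun := fun x i => ⟨x.1 i, x.2 i⟩
      invFun := fun g => ⟨fun i => (g i).1, fun i => (g i).2⟩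
      left_inv := fun x => rfl
      right_inv := fun g => rfl }
  rw [Nat.card_congr e, Nat.card_pi]
  simp only [card_flag_factor hF]
  rw [Finset.prod_mul_distrib, Finset.prod_const, Finset.card_univ, Fintype.card_fin,
    Finset.prod_pow_eq_pow_sum, Fin.sum_univ_eq_sum_range (fun i => i) m, Finset.sum_range_id]

/-- The Borel subgroup. -/
theorem mem_borel_iff (t : Matrix.symplecticGroup (Fin m) F) :
    t ∈ (⨅ k : Fin m, Cfsg.stabilizing (Cfsg.spToMat m F) {v : Fin m ⊕ Fin m → F | (∀ i : Fin m, (k : ℕ) < (i : ℕ) → v (Sum.inl i) = 0) ∧ ∀ i : Fin m, v (Sum.inr i) = 0}) ↔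
      (fun i => t.1 *ᵥ (s0 i : Fin m ⊕ Fin m → F)) ∈ flagO m F := by
  classical
  have hne : ∀ i : Fin m, t.1 *ᵥ (s0 i : Fin m ⊕ Fin m → F) ≠ 0 := by
    intro i h
    have h2 := sp_inv_mulVec_mulVec t (s0 i : Fin m ⊕ Fin m → F)
    rw [h, mulVec_zero] at h2
    have := congrFun h2 (Sum.inl i)
    simp [s0] at this
  rw [Subgroup.mem_iInf]
  constructor
  · intro ht i
    have hs0 : (s0 i : Fin m ⊕ Fin m → F) ∈ flagW m F i := (s0_mem (F := F) i).1
    have h1 : t.1 *ᵥ (s0 i : Fin m ⊕ Fin m → F) ∈ flagW m F i := (ht i _).1 hs0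
    refine ⟨h1, fun h0 => ?_⟩
    by_cases hi : (i : ℕ) = 0
    · apply hne i
      funext a
      rcases a with a | a
      · by_cases hai : a = i
        · rw [hai]; exact h0
        · have : (i : ℕ) < a := by
            have : (a : ℕ) ≠ i := fun h4 => hai (Fin.ext h4)
            omega
          exact h1.1 a this
      · exact h1.2 a
    · -- the previous step of the flag
      let i' : Fin m := ⟨i - 1, by have := i.2; omega⟩
      have h2 : t.1 *ᵥ (s0 i : Fin m ⊕ Fin m → F) ∈ flagW m F i' := by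
        refine ⟨fun a ha => ?_, h1.2⟩
        by_cases hai : a = i
        · rw [hai]; exact h0
        · have : (i : ℕ) < a := by
            have h4 : (a : ℕ) ≠ i := fun h4 => hai (Fin.ext h4)
            have : (i' : ℕ) = i - 1 := rfl
            omega
          exact h1.1 a this
      have h3 : (s0 i : Fin m ⊕ Fin m → F) ∈ flagW m F i' := (ht i' _).2 h2
      have h4 := h3.1 i (by
        have : (i' : ℕ) = i - 1 := rfl
        omega)
      simp [s0] at h4
  · intro ht k
    apply sp_stab_of_le (flagW m F k) t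
    intro x hx
    rw [sum_s0 hx, mulVec_sum]
    apply Submodule.sum_mem
    intro j _
    rw [mulVec_smul]
    by_cases hj : (k : ℕ) < j
    · rw [hx.1 j hj, zero_smul]
      exact zero_mem _
    · exact Submodule.smul_mem _ _ (flagW_mono (by omega) (ht j).1)

theorem card_borel [Fintype F] {q : ℕ} (hF : Fintype.card F = q) (m : ℕ) :
    Nat.card ↥(⨅ k : Fin m, Cfsg.stabilizing (Cfsg.spToMat m F) {v : Fin m ⊕ Fin m → F | (∀ i : Fin m, (k : ℕ) < (i : ℕ) → v (Sum.inl i) = 0) ∧ ∀ i : Fin m, v (Sum.inr i) = 0}) =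
      q ^ (m ^ 2) * (q - 1) ^ m := by
  classical
  have hq : 2 ≤ q := hF ▸ two_le_card_field
  let s₀ : FR (σ := RingHom.id F) (sympBil m F) m := ⟨fun i => s0 i, flagO_li s0_mem, flagO_ti s0_mem⟩
  have h1 := sp_sub_frames s₀ _ (flagO m F) (fun x hx => ⟨flagO_li hx, flagO_ti hx⟩) (mem_borel_iff)
  rw [card_sp hF, card_flagO hF] at h1
  have h2 := card_FR_alt hF m 0 (Fin m ⊕ Fin m → F) (sympBil m F) (fun x => sympForm_self x)
    sympBil_nondeg (by simp; ring)
  simp only [Finset.range_zero, Finset.prod_empty, mul_one, zero_add] at h2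
  rw [h2] at h1
  set P := ∏ i ∈ Finset.range m, (q ^ (2 * (i + 1)) - 1)
  have hP : 0 < P := prod_pos_aux hq m
  have hq0 : 0 < q ^ (m * (m - 1) / 2) := by positivity
  apply Nat.eq_of_mul_eq_mul_right (Nat.mul_pos hq0 hP)
  rw [h1]
  ring

end Cfsg.Agent.Lib.Classical
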