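import Mathlib
import Cfsg.Prelude.Def_ClassicalGeometry
import Cfsg.Agent.Lib.Classical.PSL2Simple

/-! The normaliser of the diagonal torus of the symplectic group: monomial matrices. -/

set_option autoImplicit false
set_option linter.unusedSimpArgs false
set_option linter.unusedVariables false
set_option linter.unusedSectionVars false
set_option linter.style.haveILetI false

namespace Cfsg.Agent.Lib.Classical

open Matrix

variable {F : Type*} [Field F] {m : ℕ}

/-- The general monomial matrix. -/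
def monoG (τ : Fin m ⊕ Fin m → Fin m ⊕ Fin m) (a : Fin m ⊕ Fin m → F) : Matrix (Fin m ⊕ Fin m) (Fin m ⊕ Fin m) F :=
  Matrix.of fun u y => if u = τ y then a y else 0

theorem monoG_apply (τ : Fin m ⊕ Fin m → Fin m ⊕ Fin m) (a : Fin m ⊕ Fin m → F) (u y : Fin m ⊕ Fin m) :
    monoG τ a u y = if u = τ y then a y else 0 := rfl

theorem monoG_form (τ : Fin m ⊕ Fin m → Fin m ⊕ Fin m) (a : Fin m ⊕ Fin m → F) (x y : Fin m ⊕ Fin m) :
    ((monoG τ a)ᵀ * J (Fin m) F * monoG τ a) x y = a x * J (Fin m) F (τ x) (τ y) * a y := by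
  rw [Matrix.mul_apply]
  simp only [Matrix.mul_apply, Matrix.transpose_apply, monoG_apply]
  rw [Finset.sum_eq_single (τ y)]
  · simp only [ite_mul, zero_mul, if_true, Finset.sum_ite_eq', Finset.mem_univ]
  · intro b _ hb
    simp [hb]
  · simp

theorem J_ll (i j : Fin m) : J (Fin m) F (Sum.inl i) (Sum.inl j) = 0 := by simp [J]
theorem J_rr (i j : Fin m) : J (Fin m) F (Sum.inr i) (Sum.inr j) = 0 := by simp [J]
theorem J_lr (i j : Fin m) : J (Fin m) F (Sum.inl i) (Sum.inr j) = if i = j then -1 else 0 := by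
  by_cases h : i = j <;> simp [J, Matrix.one_apply, h]
theorem J_rl (i j : Fin m) : J (Fin m) F (Sum.inr i) (Sum.inl j) = if i = j then 1 else 0 := by
  simp [J, Matrix.one_apply]

/-- The permutation of the coordinates. -/
def sig (π : Equiv.Perm (Fin m)) (b : Fin m → Bool) : Fin m ⊕ Fin m → Fin m ⊕ Fin m :=
  Sum.elim (fun i => if b i then Sum.inl (π i) else Sum.inr (π i)) (fun i => if b i then Sum.inr (π i) else Sum.inl (π i))

/-- The coefficients. -/
def cf (b : Fin m → Bool) (c : Fin m → Fˣ) : Fin m ⊕ Fin m → F :=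
  Sum.elim (fun i => (c i : F)) (fun i => if b i then ((c i)⁻¹ : Fˣ) else -(((c i)⁻¹ : Fˣ) : F))

theorem cf_ne (b : Fin m → Bool) (c : Fin m → Fˣ) (x : Fin m ⊕ Fin m) : cf b c x ≠ 0 := by
  rcases x with i | i
  · exact (c i).ne_zero
  · simp only [cf, Sum.elim_inr]
    split_ifs
    · exact ((c i)⁻¹).ne_zero
    · exact neg_ne_zero.2 ((c i)⁻¹).ne_zero

theorem sig_injective (π : Equiv.Perm (Fin m)) (b : Fin m → Bool) : Function.Injective (sig π b) := by
  rintro (i | i) (j | j) h <;> simp only [sig, Sum.elim_inl, Sum.elim_inr] at h <;> split_ifs at h with h1 h2 h2 <;>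
    simp only [Sum.inl.injEq, Sum.inr.injEq, reduceCtorEq, EmbeddingLike.apply_eq_iff_eq] at h <;>
    first
      | (subst h; first | rfl | (exfalso; simp_all))

theorem sig_swap (π : Equiv.Perm (Fin m)) (b : Fin m → Bool) (x : Fin m ⊕ Fin m) : sig π b x.swap = (sig π b x).swap := by
  rcases x with i | i <;> simp only [sig, Sum.swap_inl, Sum.swap_inr, Sum.elim_inl, Sum.elim_inr] <;> split_ifs <;> rfl

/-- The monomial matrix of the parameters. -/
def monoM (π : Equiv.Perm (Fin m)) (b : Fin m → Bool) (c : Fin m → Fˣ) : Matrix (Fin m ⊕ Fin m) (Fin m ⊕ Fin m) F :=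
  monoG (sig π b) (cf b c)

theorem monoM_mem (π : Equiv.Perm (Fin m)) (b : Fin m → Bool) (c : Fin m → Fˣ) : monoM π b c ∈ symplecticGroup (Fin m) F := by
  rw [SymplecticGroup.mem_iff']
  ext x y
  rw [monoM, monoG_form]
  have hu : ∀ i, (c i : F) * (((c i)⁻¹ : Fˣ) : F) = 1 := fun i => Units.mul_inv (c i)
  have hu' : ∀ i, (((c i)⁻¹ : Fˣ) : F) * (c i : F) = 1 := fun i => Units.inv_mul (c i)
  rcases x with i | i <;> rcases y with j | j <;> by_cases hij : i = j
  · subst hij
    by_cases hi : b i = true <;> simp [sig, cf, hi, J_ll, J_rr, J_lr, J_rl, -Units.val_inv_eq_inv_val]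
  · have hπ : π i ≠ π j := fun h => hij (π.injective h)
    by_cases hi : b i = true <;> by_cases hj : b j = true <;> simp [sig, cf, hi, hj, hij, hπ, J_ll, J_rr, J_lr, J_rl, -Units.val_inv_eq_inv_val]
  · subst hij
    by_cases hi : b i = true <;> simp [sig, cf, hi, hu, J_ll, J_rr, J_lr, J_rl, -Units.val_inv_eq_inv_val]
  · have hπ : π i ≠ π j := fun h => hij (π.injective h)
    by_cases hi : b i = true <;> by_cases hj : b j = true <;> simp [sig, cf, hi, hj, hij, hπ, J_ll, J_rr, J_lr, J_rl, -Units.val_inv_eq_inv_val]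
  · subst hij
    by_cases hi : b i = true <;> simp [sig, cf, hi, hu', J_ll, J_rr, J_lr, J_rl, -Units.val_inv_eq_inv_val]
  · have hπ : π i ≠ π j := fun h => hij (π.injective h)
    by_cases hi : b i = true <;> by_cases hj : b j = true <;> simp [sig, cf, hi, hj, hij, hπ, J_ll, J_rr, J_lr, J_rl, -Units.val_inv_eq_inv_val]
  · subst hij
    by_cases hi : b i = true <;> simp [sig, cf, hi, hu, J_ll, J_rr, J_lr, J_rl, -Units.val_inv_eq_inv_val]
  · have hπ : π i ≠ π j := fun h => hij (π.injective h)
    by_cases hi : b i = true <;> by_cases hj : b j = true <;> simp [sig, cf, hi, hj, hij, hπ, J_ll, J_rr, J_lr, J_rl, -Units.val_inv_eq_inv_val]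

/-- The torus. -/
def torusT (m : ℕ) (F : Type*) [Field F] : Subgroup (symplecticGroup (Fin m) F) :=
  ⨅ i : Fin m ⊕ Fin m, Cfsg.stabilizing (Cfsg.spToMat m F) ((Submodule.span F {(Pi.single i (1 : F) : Fin m ⊕ Fin m → F)} : Submodule F (Fin m ⊕ Fin m → F)) : Set (Fin m ⊕ Fin m → F))

theorem mem_line_iff (i : Fin m ⊕ Fin m) (v : Fin m ⊕ Fin m → F) :
    v ∈ ((Submodule.span F {(Pi.single i (1 : F) : Fin m ⊕ Fin m → F)} : Submodule F (Fin m ⊕ Fin m → F)) : Set (Fin m ⊕ Fin m → F)) ↔ ∀ j, j ≠ i → v j = 0 := by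
  rw [SetLike.mem_coe, Submodule.mem_span_singleton]
  constructor
  · rintro ⟨a, rfl⟩ j hj
    simp [Pi.single_apply, hj]
  · intro h
    refine ⟨v i, ?_⟩
    funext j
    by_cases hj : j = i
    · subst hj
      simp
    · simp [Pi.single_apply, hj, h j hj]

theorem mem_torusT_iff (t : symplecticGroup (Fin m) F) : t ∈ torusT m F ↔ ∀ x y, x ≠ y → t.1 x y = 0 := by
  rw [torusT, Subgroup.mem_iInf]
  constructor
  · intro h x y hxy
    have h1 := ((h y (Pi.single y 1)).1) ((mem_line_iff y _).2 (fun j hj => by simp [Pi.single_apply, hj]))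
    rw [mem_line_iff] at h1
    have h2 := h1 x hxy
    simpa [Matrix.mulVec_single] using h2
  · intro h i v
    have hdiag : ∀ j, ((Cfsg.spToMat m F) t *ᵥ v) j = t.1 j j * v j := by
      intro j
      change (t.1 *ᵥ v) j = _
      rw [Matrix.mulVec, dotProduct, Finset.sum_eq_single j]
      · intro k _ hk
        rw [h j k hk.symm, zero_mul]
      · simp
    have hne : ∀ j, t.1 j j ≠ 0 := by
      intro j hj
      have h1 : t.1 * (t⁻¹).1 = 1 := congrArg Subtype.val (mul_inv_cancel t)
      have h2 := congrFun (congrFun h1 j) j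
      rw [Matrix.mul_apply, Finset.sum_eq_single j] at h2
      · rw [hj, zero_mul, Matrix.one_apply_eq] at h2
        exact zero_ne_one h2
      · intro k _ hk
        rw [h j k hk.symm, zero_mul]
      · simp
    rw [mem_line_iff, mem_line_iff]
    constructor
    · intro h1 j hj
      rw [hdiag, h1 j hj, mul_zero]
    · intro h1 j hj
      have := h1 j hj
      rw [hdiag] at this
      exact (mul_eq_zero.1 this).resolve_left (hne j)

/-- The monomial element. -/
def monoEl (π : Equiv.Perm (Fin m)) (b : Fin m → Bool) (c : Fin m → Fˣ) : symplecticGroup (Fin m) F :=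
  ⟨monoM π b c, monoM_mem π b c⟩

theorem monoEl_apply (π : Equiv.Perm (Fin m)) (b : Fin m → Bool) (c : Fin m → Fˣ) (u y : Fin m ⊕ Fin m) :
    (monoEl π b c).1 u y = if u = sig π b y then cf b c y else 0 := rfl

/-- Monomial elements normalise the torus. -/
theorem monoEl_mem_normalizer (π : Equiv.Perm (Fin m)) (b : Fin m → Bool) (c : Fin m → Fˣ) :
    monoEl π b c ∈ Subgroup.normalizer ((torusT m F : Subgroup (symplecticGroup (Fin m) F)) : Set (symplecticGroup (Fin m) F)) := by
  classical
  set g := monoEl (F := F) π b c with hg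
  rw [Subgroup.mem_set_normalizer_iff]
  intro t
  simp only [SetLike.mem_coe]
  rw [mem_torusT_iff, mem_torusT_iff]
  have hsurj : Function.Surjective (sig π b) := Finite.surjective_of_injective (sig_injective π b)
  have key : ∀ x y, (g * t * g⁻¹).1 (sig π b x) (sig π b y) * cf b c y = cf b c x * t.1 x y := by
    intro x y
    have h1 : (g * t * g⁻¹) * g = g * t := by group
    have h2 : (g * t * g⁻¹).1 * g.1 = g.1 * t.1 := congrArg Subtype.val h1
    have h3 := congrFun (congrFun h2 (sig π b x)) y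
    rw [Matrix.mul_apply, Matrix.mul_apply] at h3
    rw [Finset.sum_eq_single (sig π b y), Finset.sum_eq_single x] at h3
    · rw [hg, monoEl_apply, monoEl_apply] at h3
      simpa using h3
    · intro z _ hz
      rw [hg, monoEl_apply, if_neg (fun h => hz (sig_injective π b h).symm), zero_mul]
    · simp
    · intro z _ hz
      rw [hg, monoEl_apply, if_neg hz, mul_zero]
    · simp
  constructor
  · intro ht u v huv
    obtain ⟨x, rfl⟩ := hsurj u
    obtain ⟨y, rfl⟩ := hsurj v
    have hxy : x ≠ y := fun h => huv (by rw [h])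
    have h1 := key x y
    rw [ht x y hxy, mul_zero] at h1
    exact (mul_eq_zero.1 h1).resolve_right (cf_ne b c y)
  · intro ht x y hxy
    have h1 := key x y
    rw [ht _ _ ((sig_injective π b).ne hxy), zero_mul] at h1
    exact (mul_eq_zero.1 h1.symm).resolve_left (cf_ne b c x)

/-- Parameter map is injective. -/
theorem monoEl_injective : Function.Injective (fun p : Equiv.Perm (Fin m) × (Fin m → Bool) × (Fin m → Fˣ) => monoEl (F := F) p.1 p.2.1 p.2.2) := by
  rintro ⟨π, b, c⟩ ⟨π', b', c'⟩ h
  have h0 : ∀ u y, (monoEl (F := F) π b c).1 u y = (monoEl (F := F) π' b' c').1 u y := by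
    intro u y
    have := congrArg Subtype.val h
    exact congrFun (congrFun this u) y
  have hsig : ∀ y, sig π b y = sig π' b' y := by
    intro y
    have h1 := h0 (sig π b y) y
    rw [monoEl_apply, monoEl_apply, if_pos rfl] at h1
    by_contra hne
    rw [if_neg hne] at h1
    exact cf_ne b c y h1
  have hcf : ∀ y, cf b c y = cf b' c' y := by
    intro y
    have h1 := h0 (sig π b y) y
    rw [monoEl_apply, monoEl_apply, if_pos rfl, if_pos (hsig y)] at h1
    exact h1
  have hπ : π = π' := by
    ext i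
    have h1 := hsig (Sum.inl i)
    simp only [sig, Sum.elim_inl] at h1
    split_ifs at h1 <;> simp_all
  have hb : b = b' := by
    funext i
    have h1 := hsig (Sum.inl i)
    simp only [sig, Sum.elim_inl] at h1
    split_ifs at h1 with h2 h3 h3 <;> simp_all
  have hc : c = c' := by
    funext i
    apply Units.ext
    exact hcf (Sum.inl i)
  subst hπ hb hc
  rfl

/-- Diagonal elements. -/
theorem diag_mem (c : Fin m → Fˣ) : monoEl (F := F) 1 (fun _ => true) c ∈ torusT m F := by
  rw [mem_torusT_iff]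
  intro x y hxy
  rw [monoEl_apply, if_neg]
  rcases y with j | j <;> simpa [sig] using hxy

theorem diag_apply (c : Fin m → Fˣ) (x : Fin m ⊕ Fin m) : (monoEl (F := F) 1 (fun _ => true) c).1 x x = cf (fun _ => true) c x := by
  rw [monoEl_apply, if_pos]
  rcases x with j | j <;> simp [sig]

/-- Separation of coordinates by the torus. -/
theorem torus_sep {a : F} (ha : a ≠ 0) (ha2 : a ^ 2 ≠ 1) {z z' : Fin m ⊕ Fin m} (hz : z ≠ z') :
    ∃ c : Fin m → Fˣ, cf (fun _ => true) c z ≠ cf (fun _ => true) c z' := by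
  classical
  have ha1 : a ≠ 1 := fun h => ha2 (by rw [h, one_pow])
  have ha3 : a⁻¹ ≠ 1 := fun h => ha1 (by simpa using congrArg (fun t => t⁻¹) h)
  have ha4 : a ≠ a⁻¹ := by
    intro h
    apply ha2
    rw [pow_two]
    nth_rewrite 1 [h]
    exact inv_mul_cancel₀ ha
  have hi : ∀ w : Fin m ⊕ Fin m, ∃ i, w = Sum.inl i ∨ w = Sum.inr i := by
    rintro (i | i)
    · exact ⟨i, Or.inl rfl⟩
    · exact ⟨i, Or.inr rfl⟩
  obtain ⟨i, hzi⟩ := hi z
  let u : Fˣ := Units.mk0 a ha
  refine ⟨Function.update 1 i u, ?_⟩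
  have hui : ((u⁻¹ : Fˣ) : F) = a⁻¹ := by simp [u]
  rcases hzi with rfl | rfl <;> rcases z' with j | j <;> by_cases hij : j = i
  · subst hij
    exact absurd rfl hz
  · simpa [cf, hij, u, ha1] using ha1
  · subst hij
    simpa [cf, u, ha4] using ha4
  · simpa [cf, hij, u, ha1] using ha1
  · subst hij
    simpa [cf, u, ha4] using ha4.symm
  · simpa [cf, hij, u, ha3] using ha3
  · subst hij
    exact absurd rfl hz
  · simpa [cf, hij, u, ha3] using ha3

theorem J_ne_swap {u v : Fin m ⊕ Fin m} (h : J (Fin m) F u v ≠ 0) : v = u.swap := by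
  rcases u with i | i <;> rcases v with j | j
  · exact absurd (J_ll i j) h
  · rw [J_lr] at h
    by_cases hij : i = j
    · rw [hij]
      rfl
    · simp [hij] at h
  · rw [J_rl] at h
    by_cases hij : i = j
    · rw [hij]
      rfl
    · simp [hij] at h
  · exact absurd (J_rr i j) h

theorem J_swap_ne (x : Fin m ⊕ Fin m) : J (Fin m) F x x.swap ≠ 0 := by
  rcases x with i | i
  · simp [J_lr]
  · simp [J_rl]

theorem exists_params {a : F} (ha : a ≠ 0) (ha2 : a ^ 2 ≠ 1) (g : symplecticGroup (Fin m) F)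
    (hg : g ∈ Subgroup.normalizer ((torusT m F : Subgroup (symplecticGroup (Fin m) F)) : Set (symplecticGroup (Fin m) F))) :
    ∃ p : Equiv.Perm (Fin m) × (Fin m → Bool) × (Fin m → Fˣ), monoEl p.1 p.2.1 p.2.2 = g := by
  classical
  rw [Subgroup.mem_set_normalizer_iff''] at hg
  have hs : ∀ t ∈ torusT m F, g⁻¹ * t * g ∈ torusT m F := fun t ht => (hg t).1 ht
  -- the columns have at most one entry
  have col_sep : ∀ y z z', z ≠ z' → g.1 z y = 0 ∨ g.1 z' y = 0 := by
    intro y z z' hzz
    by_contra hcon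
    push Not at hcon
    obtain ⟨h1, h2⟩ := hcon
    obtain ⟨c, hc⟩ := torus_sep ha ha2 hzz
    have ht := diag_mem (F := F) c
    set t := monoEl (F := F) 1 (fun _ => true) c with htd
    have hs1 := (mem_torusT_iff _).1 (hs t ht)
    have ht1 := (mem_torusT_iff _).1 ht
    set s := g⁻¹ * t * g with hsd
    have e : t * g = g * s := by rw [hsd]; group
    have e2 : t.1 * g.1 = g.1 * s.1 := congrArg Subtype.val e
    have key : ∀ w, t.1 w w * g.1 w y = g.1 w y * s.1 y y := by
      intro w
      have h3 := congrFun (congrFun e2 w) y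
      rw [Matrix.mul_apply, Matrix.mul_apply, Finset.sum_eq_single w, Finset.sum_eq_single y] at h3
      · exact h3
      · intro k _ hk
        rw [hs1 k y hk, mul_zero]
      · simp
      · intro k _ hk
        rw [ht1 w k hk.symm, zero_mul]
      · simp
    have k1 := key z
    have k2 := key z'
    rw [mul_comm (g.1 z y)] at k1
    rw [mul_comm (g.1 z' y)] at k2
    have k3 := mul_right_cancel₀ h1 k1
    have k4 := mul_right_cancel₀ h2 k2
    rw [htd, diag_apply] at k3 k4
    exact hc (by rw [k3, k4])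
  have col_ex : ∀ y, ∃ z, g.1 z y ≠ 0 := by
    intro y
    by_contra hcon
    push Not at hcon
    have h1 : (g⁻¹).1 * g.1 = 1 := congrArg Subtype.val (inv_mul_cancel g)
    have h2 := congrFun (congrFun h1 y) y
    rw [Matrix.mul_apply, Matrix.one_apply_eq] at h2
    rw [Finset.sum_eq_zero (fun k _ => by rw [hcon k, mul_zero])] at h2
    exact zero_ne_one h2
  choose τ hτ using col_ex
  have hG : g.1 = monoG τ (fun y => g.1 (τ y) y) := by
    ext u y
    rw [monoG_apply]
    split_ifs with h
    · rw [h]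
    · exact (col_sep y u (τ y) h).resolve_right (hτ y)
  have hform : ∀ x y, g.1 (τ x) x * J (Fin m) F (τ x) (τ y) * g.1 (τ y) y = J (Fin m) F x y := by
    intro x y
    have h1 := SymplecticGroup.mem_iff'.1 g.2
    have h2 := monoG_form τ (fun y => g.1 (τ y) y) x y
    rw [← hG, h1] at h2
    exact h2.symm
  have hJne : ∀ x y, J (Fin m) F x y ≠ 0 → J (Fin m) F (τ x) (τ y) ≠ 0 := by
    intro x y h h1
    apply h
    rw [← hform, h1, mul_zero, zero_mul]
  have hJne' : ∀ x y, J (Fin m) F (τ x) (τ y) ≠ 0 → J (Fin m) F x y ≠ 0 := by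
    intro x y h
    rw [← hform]
    exact mul_ne_zero (mul_ne_zero (hτ x) h) (hτ y)
  have hswap : ∀ x, τ x.swap = (τ x).swap := fun x => J_ne_swap (hJne x x.swap (J_swap_ne x))
  have hinj : Function.Injective τ := by
    intro y y' h
    have h1 := hJne y.swap y (by simpa using J_swap_ne (F := F) y.swap)
    rw [h] at h1
    have h2 := J_ne_swap (hJne' _ _ h1)
    simpa using h2.symm
  let idx : Fin m ⊕ Fin m → Fin m := Sum.elim id id
  have hidx : ∀ u v : Fin m ⊕ Fin m, idx u = idx v → v = u ∨ v = u.swap := by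
    rintro (i | i) (j | j) h <;> simp only [idx, Sum.elim_inl, Sum.elim_inr, id] at h <;> subst h <;> simp
  have hπinj : Function.Injective (fun i => idx (τ (Sum.inl i))) := by
    intro i j h
    rcases hidx _ _ h with h1 | h1
    · simpa using (hinj h1).symm
    · rw [← hswap] at h1
      have := hinj h1
      simp at this
  let π : Equiv.Perm (Fin m) := Equiv.ofBijective _ ⟨hπinj, Finite.surjective_of_injective hπinj⟩
  have hπ : ∀ i, π i = idx (τ (Sum.inl i)) := fun i => rfl
  let b : Fin m → Bool := fun i => (τ (Sum.inl i)).isLeft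
  have hne : ∀ i, g.1 (τ (Sum.inl i)) (Sum.inl i) ≠ 0 := fun i => hτ _
  let c : Fin m → Fˣ := fun i => Units.mk0 _ (hne i)
  have hsig1 : ∀ i, sig π b (Sum.inl i) = τ (Sum.inl i) := by
    intro i
    simp only [sig, Sum.elim_inl, hπ, b]
    rcases hu : τ (Sum.inl i) with k | k <;> simp [idx]
  have hsig : ∀ y, sig π b y = τ y := by
    rintro (i | i)
    · exact hsig1 i
    · have h1 := sig_swap π b (Sum.inl i)
      rw [hsig1] at h1
      have h2 := hswap (Sum.inl i)
      simp only [Sum.swap_inl] at h1 h2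
      rw [h1, h2]
  have hcf : ∀ y, cf b c y = g.1 (τ y) y := by
    rintro (i | i)
    · rfl
    · simp only [cf, Sum.elim_inr]
      have h1 := hform (Sum.inl i) (Sum.inr i)
      have h2 := hswap (Sum.inl i)
      simp only [Sum.swap_inl] at h2
      have hci : ((c i)⁻¹ : Fˣ).val = (g.1 (τ (Sum.inl i)) (Sum.inl i))⁻¹ := by simp [c]
      rw [hci]
      set A := g.1 (τ (Sum.inl i)) (Sum.inl i) with hA
      set A' := g.1 (τ (Sum.inr i)) (Sum.inr i) with hA'
      have hA0 : A ≠ 0 := hne i
      rw [h2, J_lr, if_pos rfl] at h1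
      rcases hu : τ (Sum.inl i) with k | k
      · have hb : b i = true := by simp [b, hu]
        rw [if_pos hb]
        rw [hu] at h1
        simp only [Sum.swap_inl, J_lr, if_true] at h1
        exact (eq_inv_of_mul_eq_one_right (by linear_combination -h1)).symm
      · have hb : ¬ b i = true := by simp [b, hu]
        rw [if_neg hb]
        rw [hu] at h1
        simp only [Sum.swap_inr, J_rl, if_true] at h1
        have h3 : -A' = A⁻¹ := eq_inv_of_mul_eq_one_right (by linear_combination -h1)
        rw [← h3, neg_neg]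
  refine ⟨(π, b, c), Subtype.ext ?_⟩
  change monoM π b c = g.1
  rw [hG]
  ext u y
  rw [monoM, monoG_apply, monoG_apply, hsig, hcf]

/-- The order of the normaliser. -/
theorem card_normalizer_torus {q : ℕ} [Fintype F] (hF : Fintype.card F = q) (hq : 4 ≤ q) (m : ℕ) :
    Nat.card (Subgroup.normalizer ((torusT m F : Subgroup (symplecticGroup (Fin m) F)) : Set (symplecticGroup (Fin m) F))) =
      2 ^ m * Nat.factorial m * (q - 1) ^ m := by
  classical
  obtain ⟨a, ha, ha2⟩ := exists_sq_ne_one (F := F) (by rw [Nat.card_eq_fintype_card, hF]; exact hq)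
  let Ψ : Equiv.Perm (Fin m) × (Fin m → Bool) × (Fin m → Fˣ) →
      Subgroup.normalizer ((torusT m F : Subgroup (symplecticGroup (Fin m) F)) : Set (symplecticGroup (Fin m) F)) :=
    fun p => ⟨monoEl p.1 p.2.1 p.2.2, monoEl_mem_normalizer _ _ _⟩
  have hΨ : Function.Bijective Ψ := by
    constructor
    · intro p p' h
      exact monoEl_injective (congrArg Subtype.val h)
    · rintro ⟨g, hg⟩
      obtain ⟨p, hp⟩ := exists_params ha ha2 g hg
      exact ⟨p, Subtype.ext hp⟩
  rw [← Nat.card_congr (Equiv.ofBijective Ψ hΨ), Nat.card_prod, Nat.card_prod, Nat.card_perm, Nat.card_fin]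
  rw [Nat.card_fun, Nat.card_fun, Nat.card_fin, Nat.card_units, Nat.card_eq_fintype_card (α := Bool), Fintype.card_bool]
  · rw [Nat.card_eq_fintype_card, hF]
    ring
  all_goals infer_instance

end Cfsg.Agent.Lib.Classical
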