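import Mathlib
import Cfsg.Agent.Lib.Classical.HermOrder
import Cfsg.Agent.Lib.Classical.HermBasis
import Cfsg.Agent.Lib.Classical.Symp
import Cfsg.Agent.Lib.Classical.SpOrder
import Cfsg.Agent.Lib.Classical.SympStab

/-! Centralisers of fixed point free elements of order three in symplectic groups. -/

set_option autoImplicit false
set_option linter.unusedSimpArgs false
set_option linter.unusedVariables false
set_option linter.unusedSectionVars false

namespace Cfsg.Agent.Lib.Classical

open Matrix Cfsg.Agent.Lib.KnownSimple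

section abstract

variable {F E V : Type*} [Field F] [Field E] [Algebra F E] [AddCommGroup V] [Module F V] [Module E V] [IsScalarTower F E V]

/-- The element `ω` generates the quadratic extension. -/
structure Om3 (F : Type*) {E : Type*} [Field F] [Field E] [Algebra F E] (ω : E) : Prop where
  hω : ω ^ 2 + ω + 1 = 0
  hspan : ∀ e : E, ∃ a b : F, e = algebraMap F E a + algebraMap F E b * ω
  hind : ∀ a b : F, algebraMap F E a + algebraMap F E b * ω = 0 → a = 0 ∧ b = 0

variable (s : LinearMap.BilinForm F V) (ω : E)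

/-- The Hermitian form attached to an invariant alternating form. -/
noncomputable def bForm (u v : V) : E := algebraMap F E (s u (ω • v) + s u v) + algebraMap F E (s u v) * ω

variable {s ω}

theorem om_om (hω : ω ^ 2 + ω + 1 = 0) (v : V) : ω • ω • v = -(ω • v) - v := by
  have h1 : ω * ω = -ω - 1 := by linear_combination hω
  rw [smul_smul, h1, sub_smul, neg_smul, one_smul]

theorem s_om_left (hω : ω ^ 2 + ω + 1 = 0) (hinv : ∀ u v, s (ω • u) (ω • v) = s u v) (u v : V) :
    s (ω • u) v = - s u v - s u (ω • v) := by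
  have h1 := hinv (ω • u) v
  rw [om_om hω, map_sub, map_neg, LinearMap.sub_apply, LinearMap.neg_apply, hinv] at h1
  rw [← h1]

theorem bForm_om_right (hω : ω ^ 2 + ω + 1 = 0) (u v : V) : bForm s ω u (ω • v) = ω * bForm s ω u v := by
  simp only [bForm]
  rw [om_om hω]
  simp only [map_sub, map_neg, map_add]
  linear_combination (- algebraMap F E (s u v)) * hω

theorem bForm_om_left (hω : ω ^ 2 + ω + 1 = 0) (hinv : ∀ u v, s (ω • u) (ω • v) = s u v) (u v : V) :
    bForm s ω (ω • u) v = ω ^ 2 * bForm s ω u v := by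
  simp only [bForm]
  rw [hinv, s_om_left hω hinv]
  simp only [map_sub, map_neg, map_add]
  have h3 : ω ^ 3 = 1 := by linear_combination (ω - 1) * hω
  linear_combination (- (algebraMap F E (s u (ω • v)) + algebraMap F E (s u v))) * hω + (- algebraMap F E (s u v)) * h3

theorem bForm_add_left (u u' v : V) : bForm s ω (u + u') v = bForm s ω u v + bForm s ω u' v := by
  simp only [bForm, map_add, LinearMap.add_apply]
  ring

theorem bForm_add_right (u v v' : V) : bForm s ω u (v + v') = bForm s ω u v + bForm s ω u v' := by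
  simp only [bForm, map_add, smul_add]
  ring

theorem bForm_smul_left (a : F) (u v : V) : bForm s ω (a • u) v = algebraMap F E a * bForm s ω u v := by
  simp only [bForm, map_smul, LinearMap.smul_apply, map_add, smul_eq_mul, map_mul]
  ring

theorem bForm_smul_right (a : F) (u v : V) : bForm s ω u (a • v) = algebraMap F E a * bForm s ω u v := by
  have h : ω • a • v = a • ω • v := smul_comm ω a v
  simp only [bForm, map_smul, h, smul_eq_mul, map_add, map_mul]
  ring

theorem eq_smul_decomp (a b : F) (v : V) : (algebraMap F E a + algebraMap F E b * ω) • v = a • v + b • ω • v := by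
  rw [add_smul, mul_smul, algebraMap_smul, algebraMap_smul]

variable [Fintype E] {q m : ℕ}

/-- The form as a sesquilinear form. -/
noncomputable def bFormL (hE : Fintype.card E = q ^ 2) (hO : Om3 F ω) (hinv : ∀ u v, s (ω • u) (ω • v) = s u v)
    (hσ : ∀ a : F, frobQ hE (algebraMap F E a) = algebraMap F E a) (hσω : frobQ hE ω = ω ^ 2) :
    V →ₛₗ[frobQ hE] V →ₗ[E] E :=
  LinearMap.mk₂'ₛₗ (frobQ hE) (RingHom.id E) (bForm s ω) bForm_add_left
    (by
      intro e u v
      obtain ⟨a, b, rfl⟩ := hO.hspan e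
      rw [eq_smul_decomp, bForm_add_left, bForm_smul_left, bForm_smul_left, bForm_om_left hO.hω hinv, map_add, map_mul, hσ, hσ, hσω, smul_eq_mul]
      ring)
    bForm_add_right
    (by
      intro e u v
      obtain ⟨a, b, rfl⟩ := hO.hspan e
      rw [eq_smul_decomp, bForm_add_right, bForm_smul_right, bForm_smul_right, bForm_om_right hO.hω, RingHom.id_apply, smul_eq_mul]
      ring)

theorem bForm_symm (hE : Fintype.card E = q ^ 2) (hω : ω ^ 2 + ω + 1 = 0) (hinv : ∀ u v, s (ω • u) (ω • v) = s u v) (halt : s.IsAlt)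
    (hσ : ∀ a : F, frobQ hE (algebraMap F E a) = algebraMap F E a) (hσω : frobQ hE ω = ω ^ 2) (u v : V) :
    frobQ hE (bForm s ω u v) = bForm s ω v u := by
  have e1 : s v u = - s u v := halt.neg_eq u v |>.symm
  have e2 : s v (ω • u) = s u v + s u (ω • v) := by
    have := halt.neg_eq (ω • u) v
    rw [← this, s_om_left hω hinv]
    ring
  simp only [bForm]
  rw [map_add, map_mul, hσ, hσ, hσω, e1, e2]
  simp only [map_sub, map_neg, map_add]
  linear_combination (algebraMap F E (s u v)) * hω

/-- The number of isometries commuting with `ω`. -/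
theorem card_commutant_eq [Fintype F] [FiniteDimensional E V] (hF : Fintype.card F = q) (hE : Fintype.card E = q ^ 2) (hq : q % 3 = 2) (hO : Om3 F ω)
    (halt : s.IsAlt) (hnd : ∀ u, (∀ v, s u v = 0) → u = 0) (hinv : ∀ u v, s (ω • u) (ω • v) = s u v) (hdim : Module.finrank E V = m) :
    Nat.card {g : V ≃ₗ[F] V // (∀ u v, s (g u) (g v) = s u v) ∧ ∀ v, g (ω • v) = ω • g v} = Nat.card (Cfsg.GU m E q) := by
  classical
  have hσ : ∀ a : F, frobQ hE (algebraMap F E a) = algebraMap F E a := by
    intro a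
    rw [frobQ_apply, ← map_pow, ← hF, FiniteField.pow_card]
  have hω3 : ω ^ 3 = 1 := by linear_combination (ω - 1) * hO.hω
  have hσω : frobQ hE ω = ω ^ 2 := by
    rw [frobQ_apply]
    conv_lhs => rw [← Nat.div_add_mod q 3, hq]
    rw [pow_add, pow_mul, hω3, one_pow, one_mul]
  set B := bFormL (s := s) (ω := ω) hE hO hinv hσ hσω with hB
  have hBa : ∀ u v, B u v = bForm s ω u v := fun u v => rfl
  have hS : B.IsSymm := ⟨fun u v => bForm_symm hE hO.hω hinv halt hσ hσω u v⟩
  have hsep : ∀ u, (∀ v, B u v = 0) → u = 0 := by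
    intro u hu
    apply hnd
    intro v
    have h1 := hu v
    rw [hBa, bForm] at h1
    exact (hO.hind _ _ h1).2
  have hNd : B.Nondegenerate := by
    refine ⟨hsep, ?_⟩
    intro v hv
    apply hsep
    intro u
    have h1 := hS.eq v u
    rw [hv u] at h1
    exact (map_eq_zero _).1 h1
  obtain ⟨b, hb⟩ := exists_orthonormal_basis (frobQ hE) (frobQ_ne_id hE) (frobQ_frobQ hE) m V B hS hNd hdim
  set Ψ : V ≃ₗ[E] (Fin m → E) := b.equivFun with hΨ
  have hBb : ∀ (u : V) (j : Fin m), B u (b j) = frobQ hE (Ψ u j) := by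
    intro u j
    have h1 : B (b j) u = Ψ u j := by
      conv_lhs => rw [← b.sum_equivFun u]
      rw [map_sum, Finset.sum_eq_single j]
      · rw [map_smul, hb, if_pos rfl, smul_eq_mul, mul_one]
      · intro i _ hi
        rw [map_smul, hb, if_neg (Ne.symm hi), smul_zero]
      · simp
    rw [← hS.eq (b j) u, h1]
  have hBh : ∀ u v : V, B u v = Cfsg.hermForm m E q (Ψ v) (Ψ u) := by
    intro u v
    conv_lhs => rw [← b.sum_equivFun v]
    rw [map_sum, herm_apply]
    apply Finset.sum_congr rfl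
    intro j _
    rw [map_smul, hBb, smul_eq_mul, frobQ_apply]
  have hBh' : ∀ u v : Fin m → E, Cfsg.hermForm m E q u v = B (Ψ.symm v) (Ψ.symm u) := by
    intro u v
    rw [hBh, Ψ.apply_symm_apply, Ψ.apply_symm_apply]
  have hiso : ∀ g : V ≃ₗ[F] V, (∀ u v, s (g u) (g v) = s u v) → (∀ v, g (ω • v) = ω • g v) → ∀ u v, B (g u) (g v) = B u v := by
    intro g hg hc u v
    rw [hBa, hBa, bForm, bForm, ← hc, hg, hg]
  let toE : {g : V ≃ₗ[F] V // (∀ u v, s (g u) (g v) = s u v) ∧ ∀ v, g (ω • v) = ω • g v} → (V ≃ₗ[E] V) := fun g =>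
    { toFun := g.1
      invFun := g.1.symm
      map_add' := map_add g.1
      map_smul' := by
        intro e v
        obtain ⟨a, b', rfl⟩ := hO.hspan e
        rw [eq_smul_decomp, map_add, map_smul, map_smul, g.2.2, RingHom.id_apply, eq_smul_decomp]
      left_inv := g.1.left_inv
      right_inv := g.1.right_inv }
  have htoE : ∀ g v, toE g v = g.1 v := fun g v => rfl
  have hGU : Nat.card (Cfsg.GU m E q) = Nat.card (pres (Cfsg.hermForm m E q)) := by
    change Nat.card (Cfsg.preserving (Units.coeHom (Matrix (Fin m) (Fin m) E)) (Cfsg.hermForm m E q)) = _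
    exact Nat.card_congr (presEquiv (ι := Fin m) (Cfsg.hermForm m E q)).toEquiv
  rw [hGU]
  apply Nat.card_congr
  refine
    { toFun := fun g => ⟨Ψ.symm.trans ((toE g).trans Ψ), ?_⟩
      invFun := fun h => ⟨(Ψ.trans (h.1.trans Ψ.symm)).restrictScalars F, ?_, ?_⟩
      left_inv := ?_
      right_inv := ?_ }
  · intro u v
    simp only [LinearEquiv.trans_apply]
    rw [hBh', hBh' u v, Ψ.symm_apply_apply, Ψ.symm_apply_apply, htoE, htoE, hiso g.1 g.2.1 g.2.2]
  · intro u v
    have h1 : B ((Ψ.trans (h.1.trans Ψ.symm)) u) ((Ψ.trans (h.1.trans Ψ.symm)) v) = B u v := by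
      simp only [LinearEquiv.trans_apply]
      rw [hBh, hBh u v, Ψ.apply_symm_apply, Ψ.apply_symm_apply]
      exact h.2 _ _
    rw [hBa, hBa, bForm, bForm] at h1
    have h2 : algebraMap F E (s ((Ψ.trans (h.1.trans Ψ.symm)) u) (ω • (Ψ.trans (h.1.trans Ψ.symm)) v) + s ((Ψ.trans (h.1.trans Ψ.symm)) u) ((Ψ.trans (h.1.trans Ψ.symm)) v) - (s u (ω • v) + s u v)) +
        algebraMap F E (s ((Ψ.trans (h.1.trans Ψ.symm)) u) ((Ψ.trans (h.1.trans Ψ.symm)) v) - s u v) * ω = 0 := by
      rw [map_sub, map_sub]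
      linear_combination h1
    have h3 := (hO.hind _ _ h2).2
    exact sub_eq_zero.1 h3
  · intro v
    exact map_smul (Ψ.trans (h.1.trans Ψ.symm)) ω v
  · intro g
    apply Subtype.ext
    apply LinearEquiv.ext
    intro v
    change Ψ.symm (Ψ (toE g (Ψ.symm (Ψ v)))) = g.1 v
    rw [Ψ.symm_apply_apply, Ψ.symm_apply_apply, htoE]
  · intro h
    apply Subtype.ext
    apply LinearEquiv.ext
    intro v
    change Ψ (Ψ.symm (h.1 (Ψ (Ψ.symm v)))) = h.1 v
    rw [Ψ.apply_symm_apply, Ψ.apply_symm_apply]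

end abstract

section concrete

universe u

variable {F : Type u} [Field F] [Fintype F] {q m : ℕ}

local notation "Vv" => (Fin m ⊕ Fin m → F)
local notation "Mm" => Matrix (Fin m ⊕ Fin m) (Fin m ⊕ Fin m) F

open Polynomial in
/-- The cyclotomic polynomial. -/
noncomputable def f3 (F : Type*) [Field F] : F[X] := X ^ 2 + X + 1

open Polynomial in
theorem irr3 (hF : Fintype.card F = q) (hq : q % 3 = 2) : Irreducible (f3 F) := by
  have hdeg : (f3 F).natDegree = 2 := by
    rw [f3]
    compute_degree!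
  have hmonic : (f3 F).Monic := by
    rw [f3]
    monicity!
  rw [Polynomial.Monic.irreducible_iff_roots_eq_zero_of_degree_le_three hmonic (by omega) (by omega)]
  rw [Multiset.eq_zero_iff_forall_notMem]
  intro a ha
  have hr := (Polynomial.mem_roots'.1 ha).2
  rw [Polynomial.IsRoot, f3] at hr
  simp only [eval_add, eval_pow, eval_X, eval_one] at hr
  have h3 : a ^ 3 = 1 := by linear_combination (a - 1) * hr
  have ha0 : a ≠ 0 := by
    rintro rfl
    simp at hr
  have h4 := FiniteField.pow_card_sub_one_eq_one a ha0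
  rw [hF] at h4
  have hq' : q - 1 = 3 * (q / 3) + 1 := by omega
  rw [hq', pow_succ, pow_mul, h3, one_pow, one_mul] at h4
  rw [h4] at hr
  have h5 : (3 : F) = 0 := by linear_combination hr
  obtain ⟨p, hp⟩ := CharP.exists F
  obtain ⟨n, hpp, hn⟩ := FiniteField.card F p
  haveI := Fact.mk hpp
  have h6 : ((3 : ℕ) : F) = 0 := by exact_mod_cast h5
  have h7 : p ∣ 3 := (CharP.cast_eq_zero_iff F p 3).1 h6
  have h8 : p = 3 := (Nat.prime_dvd_prime_iff_eq hpp Nat.prime_three).1 h7
  rw [hF, h8] at hn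
  rw [hn] at hq
  have h9 : (3 ^ (n : ℕ)) % 3 = 0 := by
    rw [Nat.pow_mod]
    simp [n.ne_zero]
  omega

open Polynomial in
/-- Realising the centraliser as a unitary group. -/
theorem centralizer_order3 (hF : Fintype.card F = q) (hq : q % 3 = 2) (x : Matrix.symplecticGroup (Fin m) F) (hx3 : x ^ 3 = 1) (hfpf : IsUnit ((x : Mm) - 1)) :
    ∃ (E : Type u) (_ : Field E) (_ : Fintype E), Fintype.card E = q ^ 2 ∧
      Nat.card (Subgroup.centralizer ({x} : Set (Matrix.symplecticGroup (Fin m) F))) = Nat.card (Cfsg.GU m E q) := by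
  classical
  have hq2 : 2 ≤ q := by
    rw [← hF]
    exact Fintype.one_lt_card
  haveI hfact : Fact (Irreducible (f3 F)) := ⟨irr3 hF hq⟩
  -- the matrix identity
  have hcoe : ((x ^ 3 : Matrix.symplecticGroup (Fin m) F) : Mm) = (x : Mm) ^ 3 := by
    simp
  have hxx : (x : Mm) ^ 2 + (x : Mm) + 1 = 0 := by
    obtain ⟨u, hu⟩ := hfpf
    have h1 : ((x : Mm) - 1) * ((x : Mm) ^ 2 + (x : Mm) + 1) = 0 := by
      have h2 : (x : Mm) ^ 3 = 1 := by
        rw [← hcoe, hx3]
        rfl
      have h3 : ((x : Mm) - 1) * ((x : Mm) ^ 2 + (x : Mm) + 1) = (x : Mm) ^ 3 - 1 := by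
        noncomm_ring
      rw [h3, h2, sub_self]
    rw [← hu] at h1
    have h4 := congrArg (fun A => (↑u⁻¹ : Mm) * A) h1
    simpa using h4
  let Xe : Module.End F Vv := (x : Mm).mulVecLin
  have hXa : ∀ v, Xe v = (x : Mm) *ᵥ v := fun v => rfl
  have hX0 : aeval Xe (f3 F) = 0 := by
    rw [f3]
    simp only [map_add, map_pow, aeval_X, map_one]
    apply LinearMap.ext
    intro v
    have h1 : ((x : Mm) ^ 2 + (x : Mm) + 1) *ᵥ v = 0 := by
      rw [hxx, zero_mulVec]
    rw [add_mulVec, add_mulVec, pow_two, ← mulVec_mulVec, one_mulVec] at h1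
    show Xe (Xe v) + Xe v + v = 0
    exact h1
  let ρ : AdjoinRoot (f3 F) →+* Module.End F Vv :=
    Ideal.Quotient.lift (Ideal.span {f3 F}) (aeval Xe : F[X] →ₐ[F] Module.End F Vv).toRingHom (by
      intro p hp
      obtain ⟨c, rfl⟩ := Ideal.mem_span_singleton'.1 hp
      show aeval Xe (c * f3 F) = 0
      rw [map_mul, hX0, mul_zero])
  have hρmk : ∀ p : F[X], ρ (AdjoinRoot.mk (f3 F) p) = aeval Xe p := fun p => rfl
  letI modE : Module (AdjoinRoot (f3 F)) Vv := Module.compHom Vv ρ
  have hsm : ∀ (e : AdjoinRoot (f3 F)) (v : Vv), e • v = ρ e v := fun e v => rfl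
  set ω : AdjoinRoot (f3 F) := AdjoinRoot.root (f3 F) with hωd
  have hωmk : ω = AdjoinRoot.mk (f3 F) X := (AdjoinRoot.mk_X).symm
  have hωv : ∀ v : Vv, ω • v = (x : Mm) *ᵥ v := by
    intro v
    rw [hsm, hωmk, hρmk, aeval_X]
    rfl
  haveI tower : IsScalarTower F (AdjoinRoot (f3 F)) Vv := by
    constructor
    intro a e v
    rw [hsm, hsm, Algebra.smul_def, map_mul]
    have h1 : algebraMap F (AdjoinRoot (f3 F)) a = AdjoinRoot.mk (f3 F) (C a) := rfl
    rw [h1, hρmk, aeval_C]
    show (algebraMap F (Module.End F Vv) a) (ρ e v) = a • ρ e v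
    rfl
  have hω : ω ^ 2 + ω + 1 = 0 := by
    have h1 : AdjoinRoot.mk (f3 F) (X ^ 2 + X + 1) = 0 := AdjoinRoot.mk_self
    simp only [map_add, map_pow, AdjoinRoot.mk_X, map_one] at h1
    exact h1
  have halg : ∀ a : F, algebraMap F (AdjoinRoot (f3 F)) a = AdjoinRoot.mk (f3 F) (C a) := fun a => rfl
  have hO : Om3 F ω := by
    refine ⟨hω, ?_, ?_⟩
    · intro e
      induction e using AdjoinRoot.induction_on with
      | ih p =>
        induction p using Polynomial.induction_on with
        | C a =>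
          refine ⟨a, 0, ?_⟩
          rw [map_zero, zero_mul, add_zero]
          rfl
        | add p₁ p₂ h₁ h₂ =>
          obtain ⟨a₁, b₁, e₁⟩ := h₁
          obtain ⟨a₂, b₂, e₂⟩ := h₂
          refine ⟨a₁ + a₂, b₁ + b₂, ?_⟩
          rw [map_add, e₁, e₂, map_add, map_add]
          ring
        | monomial n a h =>
          obtain ⟨a', b', e'⟩ := h
          refine ⟨-b', a' - b', ?_⟩
          rw [pow_succ, ← mul_assoc, map_mul, e', AdjoinRoot.mk_X, map_neg, map_sub, ← hωd]
          linear_combination (algebraMap F (AdjoinRoot (f3 F)) b') * hω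
    · intro a b h
      rw [hωmk, halg, halg, ← map_mul, ← map_add] at h
      have h1 : f3 F ∣ C a + C b * X := (AdjoinRoot.mk_eq_zero).1 h
      have hdeg : (f3 F).degree = 2 := by
        rw [f3]
        compute_degree!
      have hd : (C a + C b * X : F[X]).degree < (f3 F).degree := by
        rw [hdeg]
        have : (C a + C b * X : F[X]).degree ≤ 1 := by
          rw [add_comm]
          exact degree_linear_le
        exact lt_of_le_of_lt this (by norm_num)
      have h2 := Polynomial.eq_zero_of_dvd_of_degree_lt h1 hd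
      have h3 := congrArg (fun p => Polynomial.coeff p 0) h2
      have h4 := congrArg (fun p => Polynomial.coeff p 1) h2
      simp at h3 h4
      exact ⟨h3, h4⟩
  -- the extension field
  let eqE : F × F ≃ AdjoinRoot (f3 F) := Equiv.ofBijective (fun p => algebraMap F _ p.1 + algebraMap F _ p.2 * ω) (by
    constructor
    · rintro ⟨a, b⟩ ⟨a', b'⟩ h
      have h1 : algebraMap F (AdjoinRoot (f3 F)) (a - a') + algebraMap F (AdjoinRoot (f3 F)) (b - b') * ω = 0 := by
        rw [map_sub, map_sub]
        have h2 : algebraMap F (AdjoinRoot (f3 F)) a + algebraMap F (AdjoinRoot (f3 F)) b * ω = algebraMap F (AdjoinRoot (f3 F)) a' + algebraMap F (AdjoinRoot (f3 F)) b' * ω := h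
        linear_combination h2
      obtain ⟨h3, h4⟩ := hO.hind _ _ h1
      rw [sub_eq_zero] at h3 h4
      rw [h3, h4]
    · intro e
      obtain ⟨a, b, rfl⟩ := hO.hspan e
      exact ⟨(a, b), rfl⟩)
  haveI : Finite (AdjoinRoot (f3 F)) := Finite.of_equiv _ eqE
  letI fE : Fintype (AdjoinRoot (f3 F)) := Fintype.ofFinite _
  have hE : Fintype.card (AdjoinRoot (f3 F)) = q ^ 2 := by
    rw [← Fintype.card_congr eqE, Fintype.card_prod, hF]
    ring
  haveI : FiniteDimensional (AdjoinRoot (f3 F)) Vv := Module.Finite.of_finite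
  have hdim : Module.finrank (AdjoinRoot (f3 F)) Vv = m := by
    have h1 := Module.card_eq_pow_finrank (K := AdjoinRoot (f3 F)) (V := Vv)
    rw [hE, Fintype.card_pi, Finset.prod_const, Finset.card_univ, Fintype.card_sum, Fintype.card_fin, hF, ← pow_mul] at h1
    have h2 := Nat.pow_right_injective hq2 h1
    omega
  have hc := card_commutant_eq (s := sympBil m F) (ω := ω) hF hE hq hO (sympBil_alt m) (by
      intro u hu
      apply sympForm_right_eq_zero
      intro z
      rw [sympForm_swap]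
      have := hu z
      rw [sympBil_apply] at this
      rw [this, neg_zero])
    (by
      intro u v
      rw [hωv, hωv]
      exact sp_form x u v) hdim
  refine ⟨AdjoinRoot (f3 F), inferInstance, fE, hE, ?_⟩
  rw [← hc]
  apply Nat.card_congr
  refine Equiv.ofBijective (fun A => ⟨(spEquivPres m A.1).1, (spEquivPres m A.1).2, ?_⟩) ⟨?_, ?_⟩
  · intro v
    have h1 : (A.1 : Mm) * (x : Mm) = (x : Mm) * (A.1 : Mm) := congrArg Subtype.val ((Subgroup.mem_centralizer_singleton_iff).1 A.2)
    rw [hωv, hωv]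
    change (A.1 : Mm) *ᵥ ((x : Mm) *ᵥ v) = (x : Mm) *ᵥ ((A.1 : Mm) *ᵥ v)
    rw [mulVec_mulVec, mulVec_mulVec, h1]
  · intro A A' h
    apply Subtype.ext
    apply (spEquivPres m).injective
    apply Subtype.ext
    have h2 := congrArg Subtype.val h
    exact h2
  · rintro ⟨g, hg1, hg2⟩
    set A := (spEquivPres m).symm ⟨g, hg1⟩ with hA
    have hAg : ∀ v, (A : Mm) *ᵥ v = g v := by
      intro v
      have h1 : (spEquivPres m A).1 v = g v := by
        rw [hA, MulEquiv.apply_symm_apply]
      exact h1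
    have hmem : A ∈ Subgroup.centralizer ({x} : Set (Matrix.symplecticGroup (Fin m) F)) := by
      rw [Subgroup.mem_centralizer_singleton_iff]
      apply Subtype.ext
      apply mat_ext_mulVec
      intro v
      change ((A : Mm) * (x : Mm)) *ᵥ v = ((x : Mm) * (A : Mm)) *ᵥ v
      rw [← mulVec_mulVec, ← mulVec_mulVec, ← hωv, hAg, hg2, hAg, hωv]
    refine ⟨⟨A, hmem⟩, ?_⟩
    apply Subtype.ext
    change (spEquivPres m A).1 = g
    rw [hA, MulEquiv.apply_symm_apply]

/-- The order of the centraliser, in integers. -/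
theorem card_centralizer_order3 (hF : Fintype.card F = q) (hq : q % 3 = 2) (x : Matrix.symplecticGroup (Fin m) F) (hx3 : x ^ 3 = 1) (hfpf : IsUnit ((x : Mm) - 1)) :
    (Nat.card ↥(Subgroup.centralizer ({x} : Set ↥(Matrix.symplecticGroup (Fin m) F))) : ℤ) = (q : ℤ) ^ (m * (m - 1) / 2) * ∏ i : Fin m, ((q : ℤ) ^ ((i : ℕ) + 1) - (-1) ^ ((i : ℕ) + 1)) := by
  obtain ⟨E, _, _, hE, h⟩ := centralizer_order3 hF hq x hx3 hfpf
  have hq1 : 1 ≤ q := by omega
  rw [h, card_gu hE m, Nat.cast_mul, Nat.cast_pow, Nat.cast_prod]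
  congr 1
  rw [Finset.prod_range]
  apply Finset.prod_congr rfl
  intro i _
  by_cases he : Even (i : ℕ)
  · rw [if_pos he, Odd.neg_one_pow (Even.add_one he)]
    push_cast
    ring
  · rw [if_neg he, Even.neg_one_pow (by rw [Nat.even_add_one]; exact he), Nat.cast_sub (Nat.one_le_pow _ _ hq1)]
    push_cast
    ring

end concrete

end Cfsg.Agent.Lib.Classical
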