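import Mathlib
import Cfsg.Agent.Lib.Classical.Symp
import Cfsg.Agent.Lib.Classical.SpOrder
import Cfsg.Agent.Lib.Classical.SLVec
import Cfsg.Agent.Lib.Classical.Frames
import Cfsg.Prelude.Def_SporadicB

/-! Symplectic transvections in even characteristic and over `ZMod 2`. -/

set_option autoImplicit false
set_option linter.unusedSimpArgs false
set_option linter.unusedVariables false
set_option linter.unusedSectionVars false

namespace Cfsg.Agent.Lib.Classical

open Matrix Cfsg.Agent.Lib.KnownSimple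

variable {m : ℕ} {F : Type*} [Field F]

local notation "Vv" => (Fin m ⊕ Fin m → F)
local notation "Mm" => Matrix (Fin m ⊕ Fin m) (Fin m ⊕ Fin m) F
local notation "ww" => Cfsg.sympForm m F

/-- A rank one element of `Sp` is a transvection. -/
theorem sp_rank_one_form (t : Matrix.symplecticGroup (Fin m) F) (ht : ((t : Mm) - 1).rank = 1) :
    ∃ (a : Vv) (c : F), a ≠ 0 ∧ c ≠ 0 ∧ (t : Mm) = Cfsg.sympTransvection m a c := by
  classical
  obtain ⟨a, b, ha, hb, hM⟩ := exists_vecMulVec_of_rank_one ht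
  have hact : ∀ x : Vv, (t : Mm) *ᵥ x = x + (b ⬝ᵥ x) • a := by
    intro x
    have h1 : (t : Mm) = 1 + vecMulVec a b := by
      rw [← hM]
      abel
    rw [h1, Matrix.add_mulVec, Matrix.one_mulVec, Matrix.vecMulVec_mulVec]
    congr 1
    ext i
    simp [mul_comm, dotProduct]
  have hE : ∀ x y : Vv, (b ⬝ᵥ y) * ww x a + (b ⬝ᵥ x) * ww a y = 0 := by
    intro x y
    have h1 := sp_form t x y
    rw [hact, hact, sympForm_add_left, sympForm_add_right, sympForm_add_right, sympForm_smul_left, sympForm_smul_left,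
      sympForm_smul_right, sympForm_smul_right, sympForm_self] at h1
    linear_combination h1
  obtain ⟨i, hi⟩ : ∃ i, b i ≠ 0 := by
    by_contra hcon
    push Not at hcon
    exact hb (funext hcon)
  set y₀ : Vv := (b i)⁻¹ • Pi.single i 1 with hy₀
  have hby₀ : b ⬝ᵥ y₀ = 1 := by
    rw [hy₀, dotProduct_smul, dotProduct_single, mul_one, smul_eq_mul, inv_mul_cancel₀ hi]
  set κ : F := -(ww a y₀) with hκ
  have hact2 : ∀ x, ww x a = κ * (b ⬝ᵥ x) := by
    intro x
    have h1 := hE x y₀
    rw [hby₀, one_mul] at h1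
    rw [hκ]
    linear_combination h1
  have hκ0 : κ ≠ 0 := by
    intro h0
    apply ha
    apply sympForm_right_eq_zero
    intro u
    rw [hact2, h0, zero_mul]
  refine ⟨a, κ⁻¹, ha, inv_ne_zero hκ0, ?_⟩
  apply mat_ext_mulVec
  intro x
  rw [hact, sympT_mulVec, hact2]
  congr 2
  field_simp

/-- Conjugates of transvections. -/
theorem sympTr_conj (g : Matrix.symplecticGroup (Fin m) F) (v : Vv) (c : F) :
    g * sympTr v c * g⁻¹ = sympTr ((g : Mm) *ᵥ v) c := by
  have h : g * sympTr v c = sympTr ((g : Mm) *ᵥ v) c * g := by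
    apply Subtype.ext
    exact sp_mul_sympT g.2 v c
  rw [h]
  group

/-- A transvection with a non-zero centre and a non-zero parameter is non-trivial of rank one. -/
theorem sympT_rank_one {v : Vv} (hv : v ≠ 0) {c : F} (hc : c ≠ 0) : (Cfsg.sympTransvection m v c - 1).rank = 1 := by
  classical
  have h1 : Cfsg.sympTransvection m v c - 1 = vecMulVec (c • v) (Matrix.J (Fin m) F *ᵥ v) := by
    rw [Cfsg.sympTransvection, add_sub_cancel_left]
    ext i j
    simp [vecMulVec_apply, mul_assoc]
  rw [h1]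
  apply le_antisymm (Matrix.rank_vecMulVec_le _ _)
  rw [Nat.one_le_iff_ne_zero]
  intro h0
  have h3 := (LinearMap.range_eq_bot.1 (Submodule.finrank_eq_zero.1 h0) : (vecMulVec (c • v) (Matrix.J (Fin m) F *ᵥ v)).mulVecLin = 0)
  apply hv
  apply sympForm_right_eq_zero
  intro x
  have h4 := congrArg (fun f => f x) h3
  simp only [mulVecLin_apply, vecMulVec_mulVec, LinearMap.zero_apply] at h4
  have h5 : (Matrix.J (Fin m) F *ᵥ v) ⬝ᵥ x = 0 := by
    by_contra h6
    have h7 : c • v = 0 := by
      have h8 : (MulOpposite.op ((Matrix.J (Fin m) F *ᵥ v) ⬝ᵥ x)) • (c • v) = 0 := by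
        convert h4 using 1
      rw [op_smul_eq_smul] at h8
      exact (smul_eq_zero.1 h8).resolve_left h6
    exact hv ((smul_eq_zero.1 h7).resolve_left hc)
  rwa [dot_J_eq_sympForm] at h5

section even

variable [CharP F 2]

/-- In characteristic two equal transvections have equal centres. -/
theorem sympT_inj {v w : Vv} (hv : v ≠ 0) (hw : w ≠ 0) (h : Cfsg.sympTransvection m w 1 = Cfsg.sympTransvection m v 1) : w = v := by
  have hact : ∀ x, ww x w • w = ww x v • v := by
    intro x
    have h1 := congrFun (congrArg (fun A => A *ᵥ x) h)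
    have h2 : (Cfsg.sympTransvection m w 1) *ᵥ x = Cfsg.sympTransvection m v 1 *ᵥ x := by rw [h]
    rw [sympT_mulVec, sympT_mulVec, one_mul, one_mul] at h2
    exact add_left_cancel h2
  have hex : ∀ u : Vv, u ≠ 0 → ∃ x, ww x u ≠ 0 := by
    intro u hu
    by_contra hcon
    push Not at hcon
    exact hu (sympForm_right_eq_zero hcon)
  obtain ⟨x, hx⟩ := hex v hv
  set l : F := ww x w / ww x v with hl
  have hv' : v = l • w := by
    have := hact x
    rw [hl, div_eq_inv_mul, mul_smul, this, smul_smul, inv_mul_cancel₀ hx, one_smul]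
  obtain ⟨y, hy⟩ := hex w hw
  have h3 := hact y
  rw [hv', sympForm_smul_right, smul_smul] at h3
  have h4 : (l * ww y w * l - 1 * ww y w) • w = 0 := by
    rw [sub_smul, ← h3, one_mul, sub_self]
  have h5 : l * ww y w * l - 1 * ww y w = 0 := (smul_eq_zero.1 h4).resolve_right hw
  have h6 : (l - 1) ^ 2 * ww y w = 0 := by
    have h2 : (2 : F) = 0 := CharP.cast_eq_zero F 2
    have : (l - 1) ^ 2 * ww y w = (l * ww y w * l - 1 * ww y w) - l * ww y w * 2 + ww y w * 2 := by ring
    rw [this, h5, h2]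
    ring
  have h7 : (l - 1) ^ 2 = 0 := (mul_eq_zero.1 h6).resolve_right hy
  have h8 : l = 1 := sub_eq_zero.1 (pow_eq_zero_iff (by norm_num) |>.1 h7)
  rw [hv', h8, one_smul]

/-- Centralisers of transvections in characteristic two are vector stabilisers. -/
theorem mem_centralizer_sympTr {v : Vv} (hv : v ≠ 0) (g : Matrix.symplecticGroup (Fin m) F) :
    g ∈ Subgroup.centralizer ({sympTr v 1} : Set (Matrix.symplecticGroup (Fin m) F)) ↔ (g : Mm) *ᵥ v = v := by
  rw [Subgroup.mem_centralizer_singleton_iff]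
  have hgv : (g : Mm) *ᵥ v ≠ 0 := by
    intro h0
    apply hv
    have := sp_inv_mulVec_mulVec g v
    rw [h0, mulVec_zero] at this
    exact this.symm
  constructor
  · intro h
    have h1 : g * sympTr v 1 * g⁻¹ = sympTr v 1 := by
      rw [h]
      group
    rw [sympTr_conj] at h1
    exact sympT_inj hv hgv (congrArg Subtype.val h1)
  · intro h
    have h1 := sympTr_conj g v 1
    rw [h] at h1
    calc g * sympTr v 1 = (g * sympTr v 1 * g⁻¹) * g := by group
      _ = sympTr v 1 * g := by rw [h1]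

variable [Fintype F]

/-- Every rank one element of `Sp` in even characteristic is `T(v, 1)`. -/
theorem sp_rank_one_even (t : Matrix.symplecticGroup (Fin m) F) (ht : ((t : Mm) - 1).rank = 1) :
    ∃ v : Vv, v ≠ 0 ∧ t = sympTr v 1 := by
  classical
  obtain ⟨a, c, ha, hc, hta⟩ := sp_rank_one_form t ht
  haveI : Fact (Nat.Prime 2) := ⟨Nat.prime_two⟩
  obtain ⟨μ, hμ⟩ : ∃ μ : F, μ ^ 2 = c := by
    obtain ⟨μ, hμ⟩ := Finite.surjective_of_injective (frobenius F 2).injective c
    exact ⟨μ, by simpa [frobenius_def] using hμ⟩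
  have hμ0 : μ ≠ 0 := by
    rintro rfl
    apply hc
    rw [← hμ]
    ring
  refine ⟨μ • a, smul_ne_zero hμ0 ha, ?_⟩
  apply Subtype.ext
  rw [sympTr_coe, sympT_smul_vec, one_mul, hμ]
  exact hta

/-- The order of the centraliser of a symplectic transvection in even characteristic. -/
theorem card_centralizer_sp_transv {q : ℕ} (hF : Fintype.card F = q) (hm : 1 ≤ m) (t : Matrix.symplecticGroup (Fin m) F) (ht : ((t : Mm) - 1).rank = 1) :
    Nat.card (Subgroup.centralizer ({t} : Set (Matrix.symplecticGroup (Fin m) F))) = q ^ (2 * m - 1) * (q ^ ((m - 1) ^ 2) * ∏ i : Fin (m - 1), (q ^ (2 * ((i : ℕ) + 1)) - 1)) := by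
  classical
  obtain ⟨v, hv, rfl⟩ := sp_rank_one_even t ht
  have hq2 : 2 ≤ q := by
    rw [← hF]
    exact Fintype.one_lt_card
  have h1 := card_sub_of_fibers (fun g : Matrix.symplecticGroup (Fin m) F => (g : Mm) *ᵥ v)
    (Subgroup.centralizer ({sympTr v 1} : Set (Matrix.symplecticGroup (Fin m) F)))
    (by
      intro g h
      rw [mem_centralizer_sympTr hv]
      change (g : Mm) *ᵥ v = (h : Mm) *ᵥ v ↔ ((g⁻¹ * h : Matrix.symplecticGroup (Fin m) F) : Mm) *ᵥ v = v
      have hmul : ((g⁻¹ * h : Matrix.symplecticGroup (Fin m) F) : Mm) = ((g⁻¹ : Matrix.symplecticGroup (Fin m) F) : Mm) * (h : Mm) := rfl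
      constructor
      · intro e
        rw [hmul, ← mulVec_mulVec, ← e]
        exact sp_inv_mulVec_mulVec g v
      · intro e
        have h2 : (g : Mm) *ᵥ (((g⁻¹ * h : Matrix.symplecticGroup (Fin m) F) : Mm) *ᵥ v) = (g : Mm) *ᵥ v := by rw [e]
        rw [hmul, ← mulVec_mulVec, sp_mulVec_inv_mulVec] at h2
        exact h2.symm)
    ⊤ {x : Vv | x ≠ 0}
    (by
      intro g
      simp only [Subgroup.mem_top, true_iff, Set.mem_setOf_eq]
      intro h0
      apply hv
      have := sp_inv_mulVec_mulVec g v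
      rw [h0, mulVec_zero] at this
      exact this.symm)
    (by
      intro x hx
      obtain ⟨g, -, hg⟩ := tr_vec (sympNondeg_top (m := m) (F := F)) (Submodule.mem_top (x := v)) (Submodule.mem_top (x := x)) hv hx
      exact ⟨g, hg⟩)
  have h2 : Nat.card ↥(⊤ : Subgroup (Matrix.symplecticGroup (Fin m) F)) = Nat.card (Matrix.symplecticGroup (Fin m) F) := Nat.card_congr Subgroup.topEquiv.toEquiv
  rw [h2, card_sp hF m] at h1
  have h3 : Nat.card ({x : Vv | x ≠ 0} : Set Vv) = q ^ (2 * m) - 1 := by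
    have e1 : Nat.card ({x : Vv | x ≠ 0} : Set Vv) = Fintype.card {x : Vv // ¬ (x = 0)} := by
      rw [Nat.card_eq_fintype_card]
      rfl
    rw [e1, Fintype.card_subtype_compl, Fintype.card_pi, Finset.prod_const, Finset.card_univ, Fintype.card_sum, Fintype.card_fin, hF, Fintype.card_subtype_eq, two_mul]
  rw [h3] at h1
  obtain ⟨k, rfl⟩ : ∃ k, m = k + 1 := ⟨m - 1, by omega⟩
  have e2 : k + 1 - 1 = k := rfl
  rw [Finset.prod_range_succ] at h1
  have hpos : 0 < q ^ (2 * (k + 1)) - 1 := by
    have : 1 < q ^ (2 * (k + 1)) := Nat.one_lt_pow (by omega) (by omega)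
    omega
  apply Nat.eq_of_mul_eq_mul_left hpos
  rw [← h1, e2, Fin.prod_univ_eq_prod_range (fun i => q ^ (2 * (i + 1)) - 1) k]
  have e3 : q ^ ((k + 1) ^ 2) = q ^ (2 * (k + 1) - 1) * q ^ (k ^ 2) := by
    rw [← pow_add]
    congr 1
    have : 2 * (k + 1) - 1 = 2 * k + 1 := by omega
    rw [this]
    ring
  rw [e3]
  ring

end even

/-- Transvections of `Sp_{2n}(2)` form a class of 3-transpositions generating the group. -/
theorem sp2_three_transposition (n : ℕ) (hn : 1 ≤ n) :
    Cfsg.IsThreeTranspositionClass {g : Matrix.symplecticGroup (Fin n) (ZMod 2) | ((g : Matrix (Fin n ⊕ Fin n) (Fin n ⊕ Fin n) (ZMod 2)) - 1).rank = 1} := by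
  classical
  set D : Set (Matrix.symplecticGroup (Fin n) (ZMod 2)) := {g | ((g : Matrix (Fin n ⊕ Fin n) (Fin n ⊕ Fin n) (ZMod 2)) - 1).rank = 1} with hD
  have hmem : ∀ g, g ∈ D ↔ ∃ v : Fin n ⊕ Fin n → ZMod 2, v ≠ 0 ∧ g = sympTr v 1 := by
    intro g
    constructor
    · intro hg
      exact sp_rank_one_even g hg
    · rintro ⟨v, hv, rfl⟩
      exact sympT_rank_one hv one_ne_zero
  have hone : ∀ v : Fin n ⊕ Fin n → ZMod 2, sympTr v 1 * sympTr v 1 = 1 := by
    intro v
    apply Subtype.ext
    have h1 := sympT_add v (1 : ZMod 2) 1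
    have h2 : (1 : ZMod 2) + 1 = 0 := by decide
    rw [h2] at h1
    refine h1.trans ?_
    rw [Cfsg.sympTransvection]
    simp
  refine ⟨⟨?_, ?_⟩, ?_, ?_⟩
  · intro d hd
    obtain ⟨v, hv, rfl⟩ := (hmem d).1 hd
    apply orderOf_eq_prime
    · rw [pow_two]
      exact hone v
    · intro h
      have h1 := congrArg Subtype.val h
      have h2 : Cfsg.sympTransvection n v 1 = Cfsg.sympTransvection n v 1 := rfl
      have h3 := sympT_rank_one (m := n) hv (one_ne_zero (α := ZMod 2))
      have h4 : Cfsg.sympTransvection n v (1 : ZMod 2) = 1 := h1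
      rw [h4, sub_self, Matrix.rank_zero] at h3
      exact zero_ne_one h3
  · intro d hd e he
    obtain ⟨u, hu, rfl⟩ := (hmem d).1 hd
    obtain ⟨v, hv, rfl⟩ := (hmem e).1 he
    have hconj : ∀ a b : Fin n ⊕ Fin n → ZMod 2, sympTr a 1 * sympTr b 1 * sympTr a 1 = sympTr (b + (Cfsg.sympForm n (ZMod 2) b a) • a) 1 := by
      intro a b
      have h1 := sympTr_conj (sympTr a 1) b (1 : ZMod 2)
      have h2 : (sympTr a (1 : ZMod 2))⁻¹ = sympTr a 1 := inv_eq_of_mul_eq_one_left (hone a)
      rw [h2] at h1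
      rw [h1, sympTr_coe, sympT_mulVec, one_mul]
    by_cases h : Cfsg.sympForm n (ZMod 2) v u = 0
    · left
      have h1 := hconj u v
      rw [h, zero_smul, add_zero] at h1
      rw [pow_two]
      calc sympTr u 1 * sympTr v 1 * (sympTr u 1 * sympTr v 1) = (sympTr u 1 * sympTr v 1 * sympTr u 1) * sympTr v 1 := by group
        _ = 1 := by rw [h1, hone]
    · right
      have hone' : Cfsg.sympForm n (ZMod 2) v u = 1 := by
        generalize Cfsg.sympForm n (ZMod 2) v u = c at h
        revert c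
        decide
      have hone'' : Cfsg.sympForm n (ZMod 2) u v = 1 := by
        rw [sympForm_swap, hone']
        decide
      have h1 := hconj u v
      have h2 := hconj v u
      rw [hone', one_smul] at h1
      rw [hone'', one_smul, add_comm] at h2
      calc (sympTr u 1 * sympTr v 1) ^ 3 = (sympTr u 1 * sympTr v 1 * sympTr u 1) * (sympTr v 1 * sympTr u 1 * sympTr v 1) := by
            rw [pow_succ, pow_two]
            group
        _ = 1 := by rw [h1, h2, hone]
  · obtain ⟨v₀, hv₀⟩ : ∃ v₀ : Fin n ⊕ Fin n → ZMod 2, v₀ ≠ 0 := by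
      refine ⟨Pi.single (Sum.inl ⟨0, by omega⟩) 1, ?_⟩
      intro h0
      have := congrFun h0 (Sum.inl ⟨0, by omega⟩)
      simp at this
    refine ⟨sympTr v₀ 1, (hmem _).2 ⟨v₀, hv₀, rfl⟩, ?_⟩
    ext g
    rw [hmem]
    change _ ↔ IsConj (sympTr v₀ 1) g
    constructor
    · rintro ⟨v, hv, rfl⟩
      obtain ⟨t, -, ht⟩ := tr_vec (sympNondeg_top (m := n) (F := ZMod 2)) (Submodule.mem_top (x := v₀)) (Submodule.mem_top (x := v)) hv₀ hv
      rw [isConj_iff]
      refine ⟨t, ?_⟩
      rw [sympTr_conj, ht]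
    · intro h
      obtain ⟨t, rfl⟩ := isConj_iff.1 h
      refine ⟨(t : Matrix (Fin n ⊕ Fin n) (Fin n ⊕ Fin n) (ZMod 2)) *ᵥ v₀, ?_, sympTr_conj t v₀ 1⟩
      intro h0
      apply hv₀
      have := sp_inv_mulVec_mulVec t v₀
      rw [h0, mulVec_zero] at this
      exact this.symm
  · rw [eq_top_iff, ← trSubgroup_top (m := n) (F := ZMod 2), trSubgroup, Subgroup.closure_le]
    rintro A ⟨w, -, c, hA⟩
    by_cases hc : c = 0
    · have : A = 1 := by
        apply Subtype.ext
        rw [hA, hc, Cfsg.sympTransvection]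
        simp
      rw [this]
      exact one_mem _
    · by_cases hw : w = 0
      · have : A = 1 := by
          apply Subtype.ext
          rw [hA, hw, Cfsg.sympTransvection]
          simp
        rw [this]
        exact one_mem _
      · have hc1 : c = 1 := by
          generalize c = c' at hc
          revert c'
          decide
        apply Subgroup.subset_closure
        refine (hmem A).2 ⟨w, hw, ?_⟩
        apply Subtype.ext
        rw [sympTr_coe, hA, hc1]

end Cfsg.Agent.Lib.Classical
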