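import Mathlib
import Cfsg.Agent.Lib.Classical.SylowGL

set_option autoImplicit false
set_option linter.unusedSimpArgs false
set_option linter.unusedVariables false

namespace Cfsg.Agent.Lib.Classical

open Matrix
open scoped MatrixGroups Pointwise

variable {F : Type*} [Field F]

/-- The upper unitriangular subgroup of `GL₂`. -/
def U2 (F : Type*) [Field F] : Subgroup (GL (Fin 2) F) where
  carrier := {g | (g : Matrix (Fin 2) (Fin 2) F) 0 0 = 1 ∧ (g : Matrix (Fin 2) (Fin 2) F) 1 1 = 1 ∧ (g : Matrix (Fin 2) (Fin 2) F) 1 0 = 0}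
  mul_mem' := by
    rintro a b ⟨h1, h2, h3⟩ ⟨h4, h5, h6⟩
    simp [Matrix.mul_apply, Fin.sum_univ_two, *]
  one_mem' := by simp
  inv_mem' := by
    rintro a ⟨h1, h2, h3⟩
    have hdet : (a : Matrix (Fin 2) (Fin 2) F).det = 1 := by
      rw [Matrix.det_fin_two, h1, h2, h3]; simp
    have hinv : ((a⁻¹ : GL (Fin 2) F) : Matrix (Fin 2) (Fin 2) F) = !![(a : Matrix (Fin 2) (Fin 2) F) 1 1, -(a : Matrix (Fin 2) (Fin 2) F) 0 1; -(a : Matrix (Fin 2) (Fin 2) F) 1 0, (a : Matrix (Fin 2) (Fin 2) F) 0 0] := by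
      rw [Matrix.coe_units_inv, Matrix.inv_def, hdet]
      simp [Matrix.adjugate_fin_two]
    rw [Set.mem_ofPred_eq, hinv]
    simp [*]

/-- The upper triangular subgroup of `GL₂`. -/
def B2 (F : Type*) [Field F] : Subgroup (GL (Fin 2) F) where
  carrier := {g | (g : Matrix (Fin 2) (Fin 2) F) 1 0 = 0}
  mul_mem' := by
    intro a b h1 h2
    simp only [Set.mem_ofPred_eq] at *
    simp [Matrix.mul_apply, Fin.sum_univ_two, *]
  one_mem' := by simp
  inv_mem' := by
    intro a h1
    simp only [Set.mem_ofPred_eq] at *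
    have hinv : ((a⁻¹ : GL (Fin 2) F) : Matrix (Fin 2) (Fin 2) F) = Ring.inverse (a : Matrix (Fin 2) (Fin 2) F).det • !![(a : Matrix (Fin 2) (Fin 2) F) 1 1, -(a : Matrix (Fin 2) (Fin 2) F) 0 1; -(a : Matrix (Fin 2) (Fin 2) F) 1 0, (a : Matrix (Fin 2) (Fin 2) F) 0 0] := by
      rw [Matrix.coe_units_inv, Matrix.inv_def]
      simp [Matrix.adjugate_fin_two]
    rw [hinv]
    simp [*]

/-- The element `[[1,t],[0,1]]`. -/
noncomputable def uT (t : F) : GL (Fin 2) F :=
  Matrix.GeneralLinearGroup.mkOfDetNeZero !![1, t; 0, 1] (by simp [Matrix.det_fin_two])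

@[simp] theorem uT_val (t : F) : ((uT t : GL (Fin 2) F) : Matrix (Fin 2) (Fin 2) F) = !![1, t; 0, 1] := rfl

theorem mem_U2_iff (g : GL (Fin 2) F) : g ∈ U2 F ↔ ∃ t, g = uT t := by
  constructor
  · rintro ⟨h1, h2, h3⟩
    refine ⟨(g : Matrix (Fin 2) (Fin 2) F) 0 1, ?_⟩
    apply Units.ext
    rw [uT_val]
    ext i j
    fin_cases i <;> fin_cases j <;> simp [h1, h2, h3]
  · rintro ⟨t, rfl⟩
    refine ⟨?_, ?_, ?_⟩ <;> simp

theorem uT_injective : Function.Injective (uT : F → GL (Fin 2) F) := by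
  intro a b h
  have := congrArg (fun g : GL (Fin 2) F => (g : Matrix (Fin 2) (Fin 2) F) 0 1) h
  simpa using this

theorem card_U2 [Finite F] : Nat.card (U2 F) = Nat.card F := by
  have : Function.Bijective (fun t : F => (⟨uT t, (mem_U2_iff _).2 ⟨t, rfl⟩⟩ : U2 F)) := by
    constructor
    · intro a b h
      exact uT_injective (congrArg Subtype.val h)
    · rintro ⟨g, hg⟩
      obtain ⟨t, rfl⟩ := (mem_U2_iff _).1 hg
      exact ⟨t, rfl⟩
  exact (Nat.card_congr (Equiv.ofBijective _ this)).symm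


theorem mem_B2_iff (g : GL (Fin 2) F) : g ∈ B2 F ↔ (g : Matrix (Fin 2) (Fin 2) F) 1 0 = 0 := Iff.rfl

/-- An element of B2 from diagonal units and off-diagonal entry. -/
noncomputable def b2Mk (a d : Fˣ) (t : F) : GL (Fin 2) F :=
  Matrix.GeneralLinearGroup.mkOfDetNeZero !![(a : F), t; 0, (d : F)] (by
    simp [Matrix.det_fin_two])

@[simp] theorem b2Mk_val (a d : Fˣ) (t : F) : ((b2Mk a d t : GL (Fin 2) F) : Matrix (Fin 2) (Fin 2) F) = !![(a : F), t; 0, (d : F)] := rfl

theorem card_B2 [Finite F] : Nat.card (B2 F) = (Nat.card F - 1) ^ 2 * Nat.card F := by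
  have hbij : Function.Bijective (fun x : Fˣ × Fˣ × F => (⟨b2Mk x.1 x.2.1 x.2.2, by simp [mem_B2_iff]⟩ : B2 F)) := by
    constructor
    · rintro ⟨a, d, t⟩ ⟨a', d', t'⟩ h
      have h' := congrArg (fun g : B2 F => ((g : GL (Fin 2) F) : Matrix (Fin 2) (Fin 2) F)) h
      simp only [b2Mk_val] at h'
      have h00 := congrFun (congrFun h' 0) 0
      have h01 := congrFun (congrFun h' 0) 1
      have h11 := congrFun (congrFun h' 1) 1
      simp at h00 h01 h11
      simp [h00, h01, h11, Units.ext_iff]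
    · rintro ⟨g, hg⟩
      rw [mem_B2_iff] at hg
      have hdet : (g : Matrix (Fin 2) (Fin 2) F).det ≠ 0 := by
        exact (Matrix.isUnits_det_units g).ne_zero
      rw [Matrix.det_fin_two, hg] at hdet
      simp only [mul_zero, sub_zero] at hdet
      have h0 := left_ne_zero_of_mul hdet
      have h1 := right_ne_zero_of_mul hdet
      refine ⟨(Units.mk0 _ h0, Units.mk0 _ h1, (g : Matrix (Fin 2) (Fin 2) F) 0 1), ?_⟩
      apply Subtype.ext
      apply Units.ext
      simp only [b2Mk_val, Units.val_mk0]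
      ext i j
      fin_cases i <;> fin_cases j <;> simp [hg]
  rw [← Nat.card_congr (Equiv.ofBijective _ hbij), Nat.card_prod, Nat.card_prod, Nat.card_units]
  ring

/-- `B2` normalises `U2`. -/
theorem B2_le_normalizer : B2 F ≤ Subgroup.normalizer (U2 F : Set (GL (Fin 2) F)) := by
  intro g hg
  rw [Subgroup.mem_normalizer_iff]
  intro h
  rw [mem_B2_iff] at hg
  have hinv : ∀ {g : GL (Fin 2) F}, (g : Matrix (Fin 2) (Fin 2) F) 1 0 = 0 →
      ((g⁻¹ : GL (Fin 2) F) : Matrix (Fin 2) (Fin 2) F) 1 0 = 0 := fun {g} hg => (B2 F).inv_mem hg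
  have key : ∀ (g h : GL (Fin 2) F), (g : Matrix (Fin 2) (Fin 2) F) 1 0 = 0 → h ∈ U2 F → g * h * g⁻¹ ∈ U2 F := by
    intro g h hg hh
    obtain ⟨h1, h2, h3⟩ := hh
    have hgi : g⁻¹ * g = 1 := by simp
    have e := congrArg (fun x : GL (Fin 2) F => (x : Matrix (Fin 2) (Fin 2) F)) hgi
    simp only [Units.val_mul, Units.val_one] at e
    have e00 := congrFun (congrFun e 0) 0
    have e11 := congrFun (congrFun e 1) 1
    simp [Matrix.mul_apply, Fin.sum_univ_two, hg] at e00 e11
    have hgi10 : ((g : Matrix (Fin 2) (Fin 2) F)⁻¹) 1 0 = 0 := by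
      rw [← Matrix.coe_units_inv]; exact hinv hg
    rw [hgi10] at e11
    simp only [zero_mul, zero_add] at e11
    refine ⟨?_, ?_, ?_⟩
    · simp [Matrix.mul_apply, Fin.sum_univ_two, hg, h1, h2, h3, hgi10]
      linear_combination e00
    · simp [Matrix.mul_apply, Fin.sum_univ_two, hg, h1, h2, h3, hgi10]
      linear_combination e11
    · simp [Matrix.mul_apply, Fin.sum_univ_two, hg, h1, h2, h3, hgi10]
  constructor
  · exact key g h hg
  · intro hgh
    have := key g⁻¹ _ (hinv hg) hgh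
    simpa [mul_assoc] using this

/-- The normaliser of `U2` is `B2`. -/
theorem normalizer_U2 : Subgroup.normalizer (U2 F : Set (GL (Fin 2) F)) = B2 F := by
  apply le_antisymm
  · intro g hg
    rw [Subgroup.mem_normalizer_iff] at hg
    have h1 := (hg (uT 1)).1 ((mem_U2_iff _).2 ⟨1, rfl⟩)
    obtain ⟨t, ht⟩ := (mem_U2_iff _).1 h1
    have h2 : g * uT 1 = uT t * g := by
      rw [← ht]; group
    have e := congrArg (fun x : GL (Fin 2) F => (x : Matrix (Fin 2) (Fin 2) F)) h2
    simp only [Units.val_mul, uT_val] at e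
    have e10 := congrFun (congrFun e 1) 1
    simp [Matrix.mul_apply, Fin.sum_univ_two] at e10
    exact e10
  · exact B2_le_normalizer

section Sylow

variable [Fintype F] {p : ℕ} [hp : Fact p.Prime] [hc : CharP F p]

theorem U2_card_eq : Nat.card (U2 F) = p ^ (Nat.card (GL (Fin 2) F)).factorization p := by
  classical
  obtain ⟨f, -, hq⟩ := FiniteField.card F p
  have hc2 := Matrix.card_GL_field (𝔽 := F) 2
  rw [prod_gl_eq _ 2 (Fintype.card_pos)] at hc2
  rw [card_U2, Nat.card_eq_fintype_card, hc2]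
  rw [Nat.factorization_mul (pow_ne_zero _ Fintype.card_ne_zero) ?_]
  · have hnd : ¬ p ∣ ∏ i ∈ Finset.range 2, (Fintype.card F ^ (2 - i) - 1) := by
      rw [Prime.dvd_finsetProd_iff hp.out.prime]
      rintro ⟨i, hi, hd⟩
      have hi' : i < 2 := Finset.mem_range.1 hi
      have hk : 2 - i ≠ 0 := by omega
      rw [hq] at hd
      have h1 : p ∣ (p ^ (f : ℕ)) ^ (2 - i) := by
        apply dvd_pow _ hk
        exact dvd_pow_self _ f.ne_zero
      have hle : 1 ≤ (p ^ (f : ℕ)) ^ (2 - i) := Nat.one_le_pow _ _ (Nat.pow_pos hp.out.pos)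
      have := (Nat.dvd_sub_iff_right hle h1).1 hd
      exact hp.out.one_lt.ne' (Nat.dvd_one.1 this)
    rw [Finsupp.add_apply, Nat.factorization_eq_zero_of_not_dvd hnd, add_zero, hq]
    simp [Nat.factorization_pow, hp.out.factorization_self]
  · intro h
    rw [Finset.prod_eq_zero_iff] at h
    obtain ⟨i, hi, hd⟩ := h
    have hi' : i < 2 := Finset.mem_range.1 hi
    have hq2 : 1 < Fintype.card F := Fintype.one_lt_card
    have : 1 < Fintype.card F ^ (2 - i) := Nat.one_lt_pow (by omega) hq2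
    omega

/-- `U2` as a Sylow subgroup. -/
noncomputable def U2Sylow : Sylow p (GL (Fin 2) F) := Sylow.ofCard (U2 F) U2_card_eq

@[simp] theorem U2Sylow_coe : ((U2Sylow : Sylow p (GL (Fin 2) F)) : Subgroup (GL (Fin 2) F)) = U2 F := rfl

/-- Every Sylow `p`-subgroup of `GL₂` is a conjugate of `U2`. -/
theorem exists_conj_U2 (P : Sylow p (GL (Fin 2) F)) : ∃ g : GL (Fin 2) F, P = g • U2Sylow :=
  (MulAction.exists_smul_eq _ _ _).imp fun _ h => h.symm

/-- The number of Sylow `p`-subgroups of `GL₂(q)` is `q + 1`. -/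
theorem card_sylow_GL2 : Nat.card (Sylow p (GL (Fin 2) F)) = Nat.card F + 1 := by
  classical
  have h1 : Nat.card (Sylow p (GL (Fin 2) F)) = (Subgroup.normalizer (U2 F : Set (GL (Fin 2) F))).index :=
    Sylow.card_eq_index_normalizer (U2Sylow : Sylow p (GL (Fin 2) F))
  rw [normalizer_U2] at h1
  have h2 := Subgroup.index_mul_card (B2 F)
  rw [card_B2, ← h1] at h2
  have h3 := Matrix.card_GL_field (𝔽 := F) 2
  rw [Fin.prod_univ_two] at h3
  rw [h3] at h2
  rw [Nat.card_eq_fintype_card (α := F)] at h2 ⊢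
  set q := Fintype.card F with hq
  have hq2 : 1 < q := Fintype.one_lt_card
  simp only [Fin.val_zero, Fin.val_one, pow_zero, pow_one] at h2
  obtain ⟨r, hr⟩ : ∃ r, q = r + 1 := ⟨q - 1, by omega⟩
  have hr0 : 0 < r := by omega
  have e1 : (q - 1) = r := by omega
  have e2 : q ^ 2 - 1 = (r + 2) * r := by
    rw [hr]
    have : (r + 1) ^ 2 = (r + 2) * r + 1 := by ring
    omega
  have e3 : q ^ 2 - q = (r + 1) * r := by
    rw [hr]
    have : (r + 1) ^ 2 = (r + 1) * r + (r + 1) := by ring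
    omega
  rw [e1, e2, e3, hr] at h2
  have hpos : 0 < r ^ 2 * (r + 1) := by positivity
  have : Nat.card (Sylow p (GL (Fin 2) F)) * (r ^ 2 * (r + 1)) = (r + 1 + 1) * (r ^ 2 * (r + 1)) := by
    rw [h2]; ring
  rw [Nat.eq_of_mul_eq_mul_right hpos this, hr]

/-- The normaliser of any Sylow `p`-subgroup of `GL₂(q)` has order `q (q-1)²`. -/
theorem card_normalizer_sylow_GL2 (P : Sylow p (GL (Fin 2) F)) :
    Nat.card (Subgroup.normalizer ((P : Subgroup (GL (Fin 2) F)) : Set (GL (Fin 2) F))) = Nat.card F * (Nat.card F - 1) ^ 2 := by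
  classical
  have h1 := Sylow.card_eq_index_normalizer P
  rw [card_sylow_GL2] at h1
  have h2 := Subgroup.card_mul_index (Subgroup.normalizer ((P : Subgroup (GL (Fin 2) F)) : Set (GL (Fin 2) F)))
  have h1' : (Subgroup.normalizer ((P : Subgroup (GL (Fin 2) F)) : Set (GL (Fin 2) F))).index = Nat.card F + 1 := h1.symm
  rw [h1'] at h2
  have h3 := Matrix.card_GL_field (𝔽 := F) 2
  rw [Fin.prod_univ_two] at h3
  rw [h3] at h2
  rw [Nat.card_eq_fintype_card (α := F)] at h2 ⊢
  set q := Fintype.card F with hq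
  have hq2 : 1 < q := Fintype.one_lt_card
  simp only [Fin.val_zero, Fin.val_one, pow_zero, pow_one] at h2
  obtain ⟨r, hr⟩ : ∃ r, q = r + 1 := ⟨q - 1, by omega⟩
  have hr0 : 0 < r := by omega
  have e1 : (q - 1) = r := by omega
  have e2 : q ^ 2 - 1 = (r + 2) * r := by
    rw [hr]
    have : (r + 1) ^ 2 = (r + 2) * r + 1 := by ring
    omega
  have e3 : q ^ 2 - q = (r + 1) * r := by
    rw [hr]
    have : (r + 1) ^ 2 = (r + 1) * r + (r + 1) := by ring
    omega
  rw [e1]
  rw [e2, e3] at h2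
  rw [hr] at h2 ⊢
  have hpos : 0 < r + 1 + 1 := by positivity
  apply Nat.eq_of_mul_eq_mul_right hpos
  rw [h2]
  ring

theorem mem_conj_U2_iff (g a : GL (Fin 2) F) :
    a ∈ ((g • U2Sylow : Sylow p (GL (Fin 2) F)) : Subgroup (GL (Fin 2) F)) ↔ g⁻¹ * a * g ∈ U2 F := by
  rw [Sylow.coe_subgroup_smul, U2Sylow_coe, Subgroup.mem_pointwise_smul_iff_inv_smul_mem]
  simp [MulAut.smul_def]

/-- Distinct Sylow `p`-subgroups of `GL₂(q)` intersect trivially. -/
theorem sylow_GL2_disjoint (P Q : Sylow p (GL (Fin 2) F)) (h : P ≠ Q) :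
    (P : Subgroup (GL (Fin 2) F)) ⊓ (Q : Subgroup (GL (Fin 2) F)) = ⊥ := by
  classical
  rw [Subgroup.eq_bot_iff_forall]
  intro a ha
  by_contra ha1
  obtain ⟨haP, haQ⟩ := ha
  obtain ⟨g, rfl⟩ := exists_conj_U2 P
  obtain ⟨k, rfl⟩ := exists_conj_U2 Q
  replace haP : a ∈ ((g • U2Sylow : Sylow p (GL (Fin 2) F)) : Subgroup (GL (Fin 2) F)) := haP
  replace haQ : a ∈ ((k • U2Sylow : Sylow p (GL (Fin 2) F)) : Subgroup (GL (Fin 2) F)) := haQ
  rw [mem_conj_U2_iff] at haP haQ
  obtain ⟨s, hs⟩ := (mem_U2_iff _).1 haP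
  obtain ⟨t, ht⟩ := (mem_U2_iff _).1 haQ
  have hs0 : s ≠ 0 := by
    rintro rfl
    apply ha1
    have h1 : uT (0 : F) = 1 := by
      apply Units.ext
      rw [uT_val]
      ext i j
      fin_cases i <;> fin_cases j <;> simp
    rw [h1] at hs
    have : a = g * (g⁻¹ * a * g) * g⁻¹ := by group
    rw [this, hs]; group
  set m := g⁻¹ * k with hm
  have hcomm : uT s * m = m * uT t := by
    rw [← hs, ← ht, hm]; group
  have e := congrArg (fun x : GL (Fin 2) F => (x : Matrix (Fin 2) (Fin 2) F)) hcomm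
  simp only [Units.val_mul, uT_val] at e
  have e00 := congrFun (congrFun e 0) 0
  simp [Matrix.mul_apply, Fin.sum_univ_two] at e00
  have hz : (m : Matrix (Fin 2) (Fin 2) F) 1 0 = 0 := e00.resolve_left hs0
  have hmN : m ∈ Subgroup.normalizer (((U2Sylow : Sylow p (GL (Fin 2) F)) : Subgroup (GL (Fin 2) F)) : Set (GL (Fin 2) F)) := by
    change m ∈ Subgroup.normalizer (U2 F : Set (GL (Fin 2) F))
    rw [normalizer_U2]
    exact hz
  have hsm : m • (U2Sylow : Sylow p (GL (Fin 2) F)) = U2Sylow := Sylow.smul_eq_iff_mem_normalizer.2 hmN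
  apply h
  have : k = g * m := by rw [hm]; group
  rw [this, mul_smul, hsm]

/-- Centraliser of `uT t`, `t ≠ 0`. -/
theorem card_centralizer_uT (t : F) (ht : t ≠ 0) :
    Nat.card (Subgroup.centralizer ({uT t} : Set (GL (Fin 2) F))) = Nat.card F * (Nat.card F - 1) := by
  classical
  have hbij : Function.Bijective (fun x : Fˣ × F => (⟨b2Mk x.1 x.1 x.2, by
      rw [Subgroup.mem_centralizer_singleton_iff]
      apply Units.ext
      simp only [Units.val_mul, b2Mk_val, uT_val]
      ext i j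
      fin_cases i <;> fin_cases j <;> simp [Matrix.mul_apply, Fin.sum_univ_two] <;> ring⟩ :
        Subgroup.centralizer ({uT t} : Set (GL (Fin 2) F)))) := by
    constructor
    · rintro ⟨a, s⟩ ⟨a', s'⟩ h
      have h' := congrArg (fun g : Subgroup.centralizer ({uT t} : Set (GL (Fin 2) F)) => ((g : GL (Fin 2) F) : Matrix (Fin 2) (Fin 2) F)) h
      simp only [b2Mk_val] at h'
      have h00 := congrFun (congrFun h' 0) 0
      have h01 := congrFun (congrFun h' 0) 1
      simp at h00 h01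
      simp [h01, Units.ext_iff, h00]
    · rintro ⟨g, hg⟩
      rw [Subgroup.mem_centralizer_singleton_iff] at hg
      have e := congrArg (fun x : GL (Fin 2) F => (x : Matrix (Fin 2) (Fin 2) F)) hg
      simp only [Units.val_mul, uT_val] at e
      have e00 := congrFun (congrFun e 0) 0
      have e01 := congrFun (congrFun e 0) 1
      simp [Matrix.mul_apply, Fin.sum_univ_two] at e00 e01
      have hz : (g : Matrix (Fin 2) (Fin 2) F) 1 0 = 0 := e00.resolve_left ht
      have hw : (g : Matrix (Fin 2) (Fin 2) F) 1 1 = (g : Matrix (Fin 2) (Fin 2) F) 0 0 := by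
        have h2 : t * ((g : Matrix (Fin 2) (Fin 2) F) 1 1 - (g : Matrix (Fin 2) (Fin 2) F) 0 0) = 0 := by linear_combination -e01
        exact sub_eq_zero.1 ((mul_eq_zero.1 h2).resolve_left ht)
      have hdet : (g : Matrix (Fin 2) (Fin 2) F).det ≠ 0 := (Matrix.isUnits_det_units g).ne_zero
      rw [Matrix.det_fin_two, hz] at hdet
      simp only [mul_zero, sub_zero] at hdet
      have h0 := left_ne_zero_of_mul hdet
      refine ⟨(Units.mk0 _ h0, (g : Matrix (Fin 2) (Fin 2) F) 0 1), ?_⟩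
      apply Subtype.ext
      apply Units.ext
      simp only [b2Mk_val, Units.val_mk0]
      ext i j
      fin_cases i <;> fin_cases j <;> simp [hz, hw]
  rw [← Nat.card_congr (Equiv.ofBijective _ hbij), Nat.card_prod, Nat.card_units]
  ring

/-- The centraliser of a non-trivial element of a Sylow `p`-subgroup of `GL₂(q)` has order `q (q-1)`. -/
theorem card_centralizer_sylow_GL2 (P : Sylow p (GL (Fin 2) F)) (a : GL (Fin 2) F)
    (ha : a ∈ P) (ha1 : a ≠ 1) :
    Nat.card (Subgroup.centralizer ({a} : Set (GL (Fin 2) F))) = Nat.card F * (Nat.card F - 1) := by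
  classical
  obtain ⟨g, rfl⟩ := exists_conj_U2 P
  replace ha : a ∈ ((g • U2Sylow : Sylow p (GL (Fin 2) F)) : Subgroup (GL (Fin 2) F)) := ha
  rw [mem_conj_U2_iff] at ha
  obtain ⟨s, hs⟩ := (mem_U2_iff _).1 ha
  have hs0 : s ≠ 0 := by
    rintro rfl
    apply ha1
    have h1 : uT (0 : F) = 1 := by
      apply Units.ext
      rw [uT_val]
      ext i j
      fin_cases i <;> fin_cases j <;> simp
    rw [h1] at hs
    have : a = g * (g⁻¹ * a * g) * g⁻¹ := by group
    rw [this, hs]; group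
  rw [← card_centralizer_uT s hs0]
  apply Nat.card_congr
  refine Equiv.subtypeEquiv (MulAut.conj g⁻¹).toEquiv ?_
  intro x
  rw [Subgroup.mem_centralizer_singleton_iff, Subgroup.mem_centralizer_singleton_iff, ← hs]
  simp only [MulEquiv.toEquiv_eq_coe, MulEquiv.coe_toEquiv, MulAut.conj_apply, inv_inv]
  constructor
  · intro h
    calc g⁻¹ * x * g * (g⁻¹ * a * g) = g⁻¹ * (x * a) * g := by group
      _ = g⁻¹ * (a * x) * g := by rw [h]
      _ = _ := by group
  · intro h
    have := congrArg (fun y => g * y * g⁻¹) h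
    calc x * a = g * (g⁻¹ * x * g * (g⁻¹ * a * g)) * g⁻¹ := by group
      _ = g * (g⁻¹ * a * g * (g⁻¹ * x * g)) * g⁻¹ := this
      _ = a * x := by group

end Sylow

end Cfsg.Agent.Lib.Classical
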