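import Mathlib
import Cfsg.Agent.Lib.Classical.HermBasis

/-! Normal form of symmetric bilinear forms over finite fields of odd characteristic. -/

set_option autoImplicit false
set_option linter.unusedSimpArgs false
set_option linter.unusedVariables false
set_option linter.unusedSectionVars false

namespace Cfsg.Agent.Lib.Classical

universe u v

variable {F : Type u} [Field F]

theorem bilin_symm_eq {V : Type v} [AddCommGroup V] [Module F V] {B : V →ₗ[F] V →ₗ[F] F} (hS : B.IsSymm) (x y : V) :
    B x y = B y x := hS.eq x y

/-- A non-degenerate symmetric form on a non-zero space has a non-isotropic vector (`2 ≠ 0`). -/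
theorem exists_nonisotropic {V : Type v} [AddCommGroup V] [Module F V] (h2 : (2 : F) ≠ 0)
    (B : V →ₗ[F] V →ₗ[F] F) (hS : B.IsSymm) (hnd : B.Nondegenerate) (hV : Nontrivial V) :
    ∃ u, B u u ≠ 0 := by
  by_contra hcon
  push Not at hcon
  obtain ⟨x, hx⟩ := exists_ne (0 : V)
  apply hx
  apply hnd.1 x
  intro y
  have h1 := hcon (x + y)
  simp only [map_add, LinearMap.add_apply, hcon x, hcon y, add_zero, zero_add] at h1
  rw [bilin_symm_eq hS y x] at h1
  have h3 : (2 : F) * B x y = 0 := by linear_combination h1
  exact (mul_eq_zero.1 h3).resolve_left h2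

/-- In dimension at least two a non-degenerate symmetric form over a finite field represents `c ≠ 0`. -/
theorem exists_rep_value [Fintype F] {V : Type v} [AddCommGroup V] [Module F V] [FiniteDimensional F V] (h2 : (2 : F) ≠ 0)
    (B : V →ₗ[F] V →ₗ[F] F) (hS : B.IsSymm) (hnd : B.Nondegenerate) (hV : 2 ≤ Module.finrank F V) (c : F) :
    ∃ v, B v v = c := by
  have hnt : Nontrivial V := Module.nontrivial_of_finrank_pos (R := F) (by omega)
  obtain ⟨u, hu⟩ := exists_nonisotropic h2 B hS hnd hnt
  have hfr := finrank_vecPerp B hu
  have hnt' : Nontrivial (vecPerp B u) := Module.nontrivial_of_finrank_pos (R := F) (by omega)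
  obtain ⟨w, hw⟩ := exists_nonisotropic h2 (sesqRestrict B (vecPerp B u)) (sesqRestrict_isSymm B hS _) (vecPerp_nondeg B hS hnd hu) hnt'
  rw [sesqRestrict_apply] at hw
  have huw : B u w = 0 := w.2
  have hwu : B w u = 0 := by rw [bilin_symm_eq hS, huw]
  have hodd : Fintype.card F % 2 = 1 := by
    apply FiniteField.odd_card_of_char_ne_two
    intro h
    apply h2
    have : CharP F 2 := by rw [← h]; exact ringChar.charP F
    exact CharTwo.two_eq_zero
  obtain ⟨x, y, hxy⟩ := FiniteField.exists_root_sum_quadratic
    (f := Polynomial.C (B u u) * Polynomial.X ^ 2 + Polynomial.C 0 * Polynomial.X + Polynomial.C 0)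
    (g := Polynomial.C (B w w) * Polynomial.X ^ 2 + Polynomial.C 0 * Polynomial.X + Polynomial.C (-c))
    (Polynomial.degree_quadratic hu) (Polynomial.degree_quadratic hw) hodd
  refine ⟨x • u + y • (w : V), ?_⟩
  simp only [map_add, map_smul, LinearMap.add_apply, LinearMap.smul_apply, smul_eq_mul, huw, hwu]
  simp only [Polynomial.eval_add, Polynomial.eval_mul, Polynomial.eval_C, Polynomial.eval_pow, Polynomial.eval_X] at hxy
  linear_combination hxy

/-- The normal form. -/
theorem exists_sym_basis [Fintype F] (h2 : (2 : F) ≠ 0) (α : F) (hα : ¬ IsSquare α) (n : ℕ) :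
    ∀ (V : Type v) [AddCommGroup V] [Module F V] [FiniteDimensional F V] (B : V →ₗ[F] V →ₗ[F] F),
      B.IsSymm → B.Nondegenerate → Module.finrank F V = n + 1 →
      ∃ b : Module.Basis (Fin (n + 1)) F V, (∀ i j, i ≠ j → B (b i) (b j) = 0) ∧
        (∀ i, i ≠ Fin.last n → B (b i) (b i) = 1) ∧
        (B (b (Fin.last n)) (b (Fin.last n)) = 1 ∨ B (b (Fin.last n)) (b (Fin.last n)) = α) := by
  induction n with
  | zero =>
    intro V _ _ _ B hS hnd hn
    have hnt : Nontrivial V := Module.nontrivial_of_finrank_pos (R := F) (by omega)
    obtain ⟨u, hu⟩ := exists_nonisotropic h2 B hS hnd hnt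
    -- rescale
    obtain ⟨c, hc0, hc⟩ : ∃ c : F, c ≠ 0 ∧ (c * c * B u u = 1 ∨ c * c * B u u = α) := by
      by_cases hsq : IsSquare (B u u)
      · obtain ⟨r, hr⟩ := hsq
        have hr0 : r ≠ 0 := by
          rintro rfl
          apply hu
          simpa using hr
        refine ⟨r⁻¹, inv_ne_zero hr0, Or.inl ?_⟩
        rw [hr]
        field_simp
      · have hα0 : α ≠ 0 := by
          rintro rfl
          exact hα IsSquare.zero
        obtain ⟨r0, hr0'⟩ : IsSquare (α * B u u) := by
          classical
          have hne : α * B u u ≠ 0 := mul_ne_zero hα0 hu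
          rw [← quadraticChar_one_iff_isSquare hne, map_mul]
          rw [quadraticChar_neg_one_iff_not_isSquare.2 hα, quadraticChar_neg_one_iff_not_isSquare.2 hsq]
          simp
        have hr00 : r0 ≠ 0 := by
          rintro rfl
          have := mul_ne_zero hα0 hu
          rw [hr0'] at this
          simp at this
        refine ⟨r0 / B u u, div_ne_zero hr00 hu, Or.inr ?_⟩
        field_simp
        linear_combination - hr0'
    set v := c • u with hv
    have hvv : B v v = c * c * B u u := by
      simp only [hv, map_smul, LinearMap.smul_apply, smul_eq_mul]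
      ring
    have hv0 : B v v ≠ 0 := by
      rw [hvv]
      exact mul_ne_zero (mul_ne_zero hc0 hc0) hu
    have hfr : Module.finrank F (vecPerp B v) = 0 := by
      have := finrank_vecPerp B hv0
      omega
    let b' : Module.Basis (Fin 0) F (vecPerp B v) := Module.finBasisOfFinrankEq F _ hfr
    refine ⟨basisCons B hv0 b', ?_, ?_, ?_⟩
    · intro i j hij
      exact absurd (Fin.ext (by have := i.2; have := j.2; omega)) hij
    · intro i hi
      exact absurd (Fin.ext (by have := i.2; simp)) hi
    · have : Fin.last 0 = (0 : Fin 1) := rfl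
      rw [this, basisCons_zero, hvv]
      exact hc
  | succ n ih =>
    intro V _ _ _ B hS hnd hn
    obtain ⟨v, hv⟩ := exists_rep_value h2 B hS hnd (by omega) 1
    have hv0 : B v v ≠ 0 := by rw [hv]; exact one_ne_zero
    have hfr : Module.finrank F (vecPerp B v) = n + 1 := by
      have := finrank_vecPerp B hv0
      omega
    obtain ⟨b', hb1, hb2, hb3⟩ := ih (vecPerp B v) (sesqRestrict B _) (sesqRestrict_isSymm B hS _) (vecPerp_nondeg B hS hnd hv0) hfr
    have hperp : ∀ x : vecPerp B v, B x v = 0 := by
      intro x
      have h2 : B v x = 0 := x.2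
      rw [bilin_symm_eq hS, h2]
    refine ⟨basisCons B hv0 b', ?_, ?_, ?_⟩
    · intro i j hij
      induction i using Fin.cases with
      | zero =>
        induction j using Fin.cases with
        | zero => exact absurd rfl hij
        | succ j' =>
          rw [basisCons_zero, basisCons_succ]
          exact (b' j').2
      | succ i' =>
        induction j using Fin.cases with
        | zero =>
          rw [basisCons_zero, basisCons_succ]
          exact hperp _
        | succ j' =>
          rw [basisCons_succ, basisCons_succ]
          exact hb1 i' j' (fun h => hij (by rw [h]))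
    · intro i hi
      induction i using Fin.cases with
      | zero =>
        rw [basisCons_zero]
        exact hv
      | succ i' =>
        rw [basisCons_succ]
        exact hb2 i' (fun h => hi (by rw [h, Fin.succ_last]))
    · rw [← Fin.succ_last, basisCons_succ]
      exact hb3

end Cfsg.Agent.Lib.Classical
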