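import Mathlib
import Cfsg.Agent.Lib.Classical.SymDisc
import Cfsg.Agent.Lib.Classical.AltBasis

/-! Tensor products of forms. -/

set_option autoImplicit false
set_option linter.unusedSimpArgs false
set_option linter.unusedVariables false
set_option linter.unusedSectionVars false
set_option linter.style.haveILetI false

namespace Cfsg.Agent.Lib.Classical

open Matrix Cfsg.Agent.Lib.Quad
open scoped TensorProduct Kronecker

variable {F U W : Type*} [Field F] [AddCommGroup U] [Module F U] [AddCommGroup W] [Module F W]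

/-- The Gram matrix of a tensor product of forms. -/
theorem tmul_gram {ι κ : Type*} [Fintype ι] [DecidableEq ι] [Fintype κ] [DecidableEq κ]
    (B₁ : LinearMap.BilinForm F U) (B₂ : LinearMap.BilinForm F W) (e₁ : Module.Basis ι F U) (e₂ : Module.Basis κ F W) :
    LinearMap.BilinForm.toMatrix (e₁.tensorProduct e₂) (B₁.tmul B₂) =
      (LinearMap.BilinForm.toMatrix e₁ B₁) ⊗ₖ (LinearMap.BilinForm.toMatrix e₂ B₂) := by
  ext ⟨i, j⟩ ⟨k, l⟩
  simp only [LinearMap.BilinForm.toMatrix_apply, Module.Basis.tensorProduct_apply, Matrix.kroneckerMap_apply]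
  rw [LinearMap.BilinForm.tensorDistrib_tmul]
  simp [mul_comm]

theorem tmul_det {ι κ : Type*} [Fintype ι] [DecidableEq ι] [Fintype κ] [DecidableEq κ]
    (B₁ : LinearMap.BilinForm F U) (B₂ : LinearMap.BilinForm F W) (e₁ : Module.Basis ι F U) (e₂ : Module.Basis κ F W) :
    (LinearMap.BilinForm.toMatrix (e₁.tensorProduct e₂) (B₁.tmul B₂)).det =
      (LinearMap.BilinForm.toMatrix e₁ B₁).det ^ Fintype.card κ * (LinearMap.BilinForm.toMatrix e₂ B₂).det ^ Fintype.card ι := by
  rw [tmul_gram, Matrix.det_kronecker]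

theorem tmul_nondeg [FiniteDimensional F U] [FiniteDimensional F W]
    (B₁ : LinearMap.BilinForm F U) (B₂ : LinearMap.BilinForm F W) (h₁ : B₁.Nondegenerate) (h₂ : B₂.Nondegenerate) :
    (B₁.tmul B₂).Nondegenerate := by
  classical
  let e₁ := Module.finBasis F U
  let e₂ := Module.finBasis F W
  have h := (LinearMap.BilinForm.nondegenerate_iff_det_ne_zero (e₁.tensorProduct e₂) (B := B₁.tmul B₂)).2 (by
    rw [tmul_det]
    exact mul_ne_zero (pow_ne_zero _ ((LinearMap.BilinForm.nondegenerate_iff_det_ne_zero e₁).1 h₁))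
      (pow_ne_zero _ ((LinearMap.BilinForm.nondegenerate_iff_det_ne_zero e₂).1 h₂)))
  exact h

/-- Lagrangian subspaces of alternating forms. -/
theorem exists_lagrangian [FiniteDimensional F U] (B : LinearMap.BilinForm F U) (hnd : B.Nondegenerate) (hA : B.IsAlt)
    (k : ℕ) (hU : Module.finrank F U = 2 * k) :
    ∃ L : Submodule F U, Module.finrank F L = k ∧ ∀ x ∈ L, ∀ y ∈ L, B x y = 0 := by
  classical
  obtain ⟨m, r, b, h1, h2, h3, h4⟩ := exists_alt_basis _ U B hA rfl
  have hr : r = 0 := by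
    by_contra hne
    obtain ⟨j⟩ : Nonempty (Fin r) := ⟨⟨0, by omega⟩⟩
    have := hnd.1 (b (Sum.inr j)) (h4 j)
    exact b.ne_zero _ this
  subst hr
  have hm : m = k := by
    have := Module.finrank_eq_card_basis b
    simp at this
    omega
  subst hm
  refine ⟨Submodule.span F (Set.range (fun i : Fin m => b (Sum.inl (Sum.inl i)))), ?_, ?_⟩
  · rw [finrank_span_eq_card]
    · simp
    · exact b.linearIndependent.comp _ (fun a c hac => by simpa using hac)
  · intro x hx y hy
    induction hx using Submodule.span_induction with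
    | mem x hx =>
      obtain ⟨i, rfl⟩ := hx
      induction hy using Submodule.span_induction with
      | mem y hy =>
        obtain ⟨j, rfl⟩ := hy
        exact h2 i j
      | zero => simp
      | add a c _ _ ha hc => simp [ha, hc]
      | smul t a _ ha => simp [ha]
    | zero => simp
    | add a c _ _ ha hc => simp [ha, hc]
    | smul t a _ ha => simp [ha]

/-- Statement for alternating forms. -/
theorem tmul_alt [FiniteDimensional F U] [FiniteDimensional F W]
    (B₁ : LinearMap.BilinForm F U) (B₂ : LinearMap.BilinForm F W) (h₁ : B₁.Nondegenerate) (h₂ : B₂.Nondegenerate)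
    (hA₁ : B₁.IsAlt) (hA₂ : B₂.IsAlt) (k l : ℕ) (hU : Module.finrank F U = 2 * k) (hW : Module.finrank F W = 2 * l) :
    (B₁.tmul B₂).IsSymm ∧ (B₁.tmul B₂).Nondegenerate ∧
      (∃ X : Submodule F (TensorProduct F U W), Module.finrank F X = 2 * k * l ∧ ∀ x ∈ X, ∀ y ∈ X, (B₁.tmul B₂) x y = 0) := by
  classical
  refine ⟨?_, tmul_nondeg B₁ B₂ h₁ h₂, ?_⟩
  · rw [LinearMap.isSymm_iff_eq_flip]
    apply TensorProduct.ext'
    intro x₁ x₂
    apply TensorProduct.ext'
    intro y₁ y₂
    simp only [LinearMap.flip_apply]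
    rw [LinearMap.BilinForm.tensorDistrib_tmul, LinearMap.BilinForm.tensorDistrib_tmul]
    have e1 : B₁ x₁ y₁ = - B₁ y₁ x₁ := hA₁.neg_eq _ _ ▸ (by simp)
    have e2 : B₂ x₂ y₂ = - B₂ y₂ x₂ := hA₂.neg_eq _ _ ▸ (by simp)
    rw [e1, e2]
    simp
  · obtain ⟨L, hL, hti⟩ := exists_lagrangian B₁ h₁ hA₁ k hU
    let φ : (L ⊗[F] W) →ₗ[F] (U ⊗[F] W) := TensorProduct.map L.subtype LinearMap.id
    have hφ : Function.Injective φ := TensorProduct.map_injective_of_flat_flat _ _ L.subtype_injective Function.injective_id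
    refine ⟨LinearMap.range φ, ?_, ?_⟩
    · rw [LinearMap.finrank_range_of_inj hφ, Module.finrank_tensorProduct, hL, hW]
      ring
    · rintro _ ⟨z, rfl⟩ _ ⟨z', rfl⟩
      induction z using TensorProduct.induction_on with
      | zero => simp
      | add a c ha hc => simp [ha, hc]
      | tmul a c =>
        induction z' using TensorProduct.induction_on with
        | zero => simp
        | add a' c' ha hc => simp [ha, hc]
        | tmul a' c' =>
          simp only [φ, TensorProduct.map_tmul, Submodule.subtype_apply, LinearMap.id_apply]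
          rw [LinearMap.BilinForm.tensorDistrib_tmul, hti _ a.2 _ a'.2]
          simp

theorem finrank_tensor_eq [FiniteDimensional F U] [FiniteDimensional F W] {a b : ℕ} (hU : Module.finrank F U = a)
    (hW : Module.finrank F W = b) : Module.finrank F (TensorProduct F U W) = a * b := by
  rw [Module.finrank_tensorProduct, hU, hW]

theorem tmul_isSymm' (B₁ : LinearMap.BilinForm F U) (B₂ : LinearMap.BilinForm F W) (hS₁ : B₁.IsSymm) (hS₂ : B₂.IsSymm) :
    LinearMap.BilinForm.IsSymm (B₁.tmul B₂) := by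
  have h1 : LinearMap.IsSymm B₁ := ⟨fun x y => hS₁.eq x y⟩
  have h2 : LinearMap.IsSymm B₂ := ⟨fun x y => hS₂.eq x y⟩
  have h3 := LinearMap.IsSymm.tmul h1 h2
  exact ⟨fun x y => h3.eq x y⟩

/-- Two even-dimensional forms: always plus type. -/
theorem tmul_even_even [Fintype F] [FiniteDimensional F U] [FiniteDimensional F W] (h2 : (2 : F) ≠ 0)
    (B₁ : LinearMap.BilinForm F U) (B₂ : LinearMap.BilinForm F W) (h₁ : B₁.Nondegenerate) (h₂ : B₂.Nondegenerate)
    (hS₁ : B₁.IsSymm) (hS₂ : B₂.IsSymm) (k l : ℕ) (hU : Module.finrank F U = 2 * k) (hW : Module.finrank F W = 2 * l) :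
    ∃ X : Submodule F (TensorProduct F U W), Module.finrank F X = 2 * k * l ∧ ∀ x ∈ X, ∀ y ∈ X, (B₁.tmul B₂) x y = 0 := by
  classical
  let e₁ := Module.finBasisOfFinrankEq F U hU
  let e₂ := Module.finBasisOfFinrankEq F W hW
  apply disc_imp_ti h2 (B₁.tmul B₂) (tmul_isSymm' B₁ B₂ hS₁ hS₂) (tmul_nondeg B₁ B₂ h₁ h₂) (2 * k * l)
    (by rw [finrank_tensor_eq hU hW]; ring) (e₁.tensorProduct e₂)
  rw [tmul_det]
  simp only [Fintype.card_fin]
  refine ⟨(LinearMap.BilinForm.toMatrix e₁ B₁).det ^ l * (LinearMap.BilinForm.toMatrix e₂ B₂).det ^ k, ?_⟩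
  have h3 : (-1 : F) ^ (2 * k * l) = 1 := by
    rw [mul_assoc, pow_mul]
    simp
  rw [h3, pow_mul', pow_mul' _ 2 k]
  ring

/-- Even tensor odd: the type of the even factor is preserved. -/
theorem tmul_minus_odd [Fintype F] [FiniteDimensional F U] [FiniteDimensional F W] (h2 : (2 : F) ≠ 0)
    (B₁ : LinearMap.BilinForm F U) (B₂ : LinearMap.BilinForm F W) (h₁ : B₁.Nondegenerate) (h₂ : B₂.Nondegenerate)
    (hS₁ : B₁.IsSymm) (hS₂ : B₂.IsSymm) (k l : ℕ) (hU : Module.finrank F U = 2 * k) (hW : Module.finrank F W = 2 * l + 1)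
    (hm₁ : ¬ (∃ X : Submodule F U, Module.finrank F X = k ∧ ∀ x ∈ X, ∀ y ∈ X, B₁ x y = 0)) :
    ¬ (∃ X : Submodule F (TensorProduct F U W), Module.finrank F X = k * (2 * l + 1) ∧ ∀ x ∈ X, ∀ y ∈ X, (B₁.tmul B₂) x y = 0) := by
  classical
  rintro ⟨X, hX, hti⟩
  let e₁ := Module.finBasisOfFinrankEq F U hU
  let e₂ := Module.finBasisOfFinrankEq F W hW
  have h3 := ti_imp_disc (B₁.tmul B₂) (tmul_isSymm' B₁ B₂ hS₁ hS₂) (k * (2 * l + 1)) (by rw [finrank_tensor_eq hU hW]; ring)
    X hX hti (e₁.tensorProduct e₂)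
  rw [tmul_det] at h3
  simp only [Fintype.card_fin] at h3
  apply hm₁
  apply disc_imp_ti h2 B₁ hS₁ h₁ k hU e₁
  set d₁ := (LinearMap.BilinForm.toMatrix e₁ B₁).det with hd₁
  set d₂ := (LinearMap.BilinForm.toMatrix e₂ B₂).det with hd₂
  have hd₁0 : d₁ ≠ 0 := (LinearMap.BilinForm.nondegenerate_iff_det_ne_zero e₁).1 h₁
  have hd₂0 : d₂ ≠ 0 := (LinearMap.BilinForm.nondegenerate_iff_det_ne_zero e₂).1 h₂
  set x := (-1 : F) ^ k * d₁ with hx
  have hx0 : x ≠ 0 := mul_ne_zero (pow_ne_zero _ (by simp)) hd₁0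
  obtain ⟨s, hs⟩ := h3
  have h4 : x ^ (2 * l + 1) * (d₂ ^ k) ^ 2 = s * s := by
    rw [← hs, hx, mul_pow, ← pow_mul, pow_mul d₂ 2 k]
    ring_nf
  refine ⟨s / (x ^ l * d₂ ^ k), ?_⟩
  have h5 : x ^ l * d₂ ^ k ≠ 0 := mul_ne_zero (pow_ne_zero _ hx0) (pow_ne_zero _ hd₂0)
  field_simp
  rw [pow_succ, pow_mul] at h4
  linear_combination h4

end Cfsg.Agent.Lib.Classical
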